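import Mathlib
import Cfsg.Prelude.Def_RootSubgroups
import Cfsg.Agent.H28.RankOne

/-!
Rank one groups: the action on the unipotent subgroups.
-/

set_option autoImplicit false
open Cfsg Cfsg.Agent.H28

namespace Cfsg.Agent.H3

variable {G : Type*} [Group G] {A B : Subgroup G}

theorem sup_induct {p : G → Prop} (hA : ∀ a ∈ A, p a) (hB : ∀ b ∈ B, p b)
    (hmul : ∀ x y, p x → p y → p (x * y)) : ∀ x ∈ A ⊔ B, p x := by
  intro x hx
  rw [Subgroup.sup_eq_closure] at hx
  induction hx using Subgroup.closure_induction'' with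
  | mem x hx => rcases hx with h | h; exacts [hA x h, hB x h]
  | inv_mem x hx => rcases hx with h | h; exacts [hA _ (A.inv_mem h), hB _ (B.inv_mem h)]
  | one => exact hA 1 A.one_mem
  | mul x y _ _ h1 h2 => exact hmul x y h1 h2

theorem ro_ne_bot (h : IsRankOnePair A B) : A ≠ ⊥ := by
  intro hA
  apply h.ne
  rw [hA, eq_comm, eq_bot_iff]
  intro b hb
  by_contra hb1
  obtain ⟨a, ha, ha1, -⟩ := h.cond_right b hb hb1
  rw [hA] at ha
  exact ha1 ha

theorem ro_ne_bot' (h : IsRankOnePair A B) : B ≠ ⊥ := ro_ne_bot (rankOne_symm h)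

theorem exists_ne_one_of_ne_bot {A : Subgroup G} (h : A ≠ ⊥) : ∃ a ∈ A, a ≠ 1 := by
  rw [Subgroup.ne_bot_iff_exists_ne_one] at h
  obtain ⟨⟨a, ha⟩, ha1⟩ := h
  exact ⟨a, ha, fun h => ha1 (Subtype.ext h)⟩

theorem mem_unip_self : A ∈ unipotentSubgroups A B := ⟨1, one_mem _, (conjBy_one A).symm⟩

theorem ro_mem_right (h : IsRankOnePair A B) : ∃ x ∈ A ⊔ B, B = conjBy A x := by
  obtain ⟨a, ha, ha1⟩ := exists_ne_one_of_ne_bot (ro_ne_bot h)
  obtain ⟨b, hb, -, hab⟩ := h.cond_left a ha ha1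
  refine ⟨a * b⁻¹, mul_mem (Subgroup.mem_sup_left ha) (inv_mem (Subgroup.mem_sup_right hb)), ?_⟩
  rw [← conjBy_conjBy, hab, conjBy_conjBy, mul_inv_cancel, conjBy_one]

theorem unip_conj {x : G} (hx : x ∈ A ⊔ B) {C : Subgroup G} (hC : C ∈ unipotentSubgroups A B) :
    conjBy C x ∈ unipotentSubgroups A B := by
  obtain ⟨y, hy, rfl⟩ := hC
  exact ⟨x * y, mul_mem hx hy, conjBy_conjBy _ _ _⟩

theorem ro_mem_iff (h : IsRankOnePair A B) (C : Subgroup G) :
    C ∈ unipotentSubgroups A B ↔ C = A ∨ ∃ a ∈ A, C = conjBy B a := by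
  constructor
  · rintro ⟨x, hx, rfl⟩
    have hB1 : ∀ b ∈ B, conjBy A b = A ∨ ∃ a ∈ A, conjBy A b = conjBy B a := by
      intro b hb
      by_cases hb1 : b = 1
      · left; rw [hb1, conjBy_one]
      · obtain ⟨a, ha, -, hab⟩ := h.cond_right b⁻¹ (inv_mem hb) (inv_ne_one.2 hb1)
        rw [inv_inv] at hab
        exact Or.inr ⟨a⁻¹, inv_mem ha, hab.symm⟩
    have key : ∀ x ∈ A ⊔ B, ∀ C, (C = A ∨ ∃ a ∈ A, C = conjBy B a) →
        (conjBy C x = A ∨ ∃ a ∈ A, conjBy C x = conjBy B a) := by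
      apply sup_induct
      · rintro a ha C (rfl | ⟨a', ha', rfl⟩)
        · left; exact conjBy_mem_self ha
        · right; exact ⟨a * a', mul_mem ha ha', conjBy_conjBy _ _ _⟩
      · rintro b hb C (rfl | ⟨a', ha', rfl⟩)
        · exact hB1 b hb
        · by_cases ha1 : a' = 1
          · right
            exact ⟨1, one_mem _, by rw [ha1, conjBy_one, conjBy_mem_self hb]⟩
          · obtain ⟨b', hb', -, hab⟩ := h.cond_left a'⁻¹ (inv_mem ha') (inv_ne_one.2 ha1)
            rw [inv_inv] at hab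
            rw [← hab, conjBy_conjBy]
            exact hB1 _ (mul_mem hb (inv_mem hb'))
      · intro x y hx hy C hC
        rw [← conjBy_conjBy]
        exact hx _ (hy _ hC)
    exact key x hx A (Or.inl rfl)
  · rintro (rfl | ⟨a, ha, rfl⟩)
    · exact mem_unip_self
    · obtain ⟨x, hx, hx'⟩ := ro_mem_right h
      exact unip_conj (Subgroup.mem_sup_left ha) ⟨x, hx, hx'⟩

theorem unip_symm (h : IsRankOnePair A B) : unipotentSubgroups A B = unipotentSubgroups B A := by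
  have key : ∀ {A B : Subgroup G}, IsRankOnePair A B →
      unipotentSubgroups A B ⊆ unipotentSubgroups B A := by
    intro A B h C hC
    obtain ⟨x, hx, rfl⟩ := hC
    obtain ⟨y, hy, hy'⟩ := ro_mem_right (rankOne_symm h)
    rw [sup_comm] at hx
    exact unip_conj hx ⟨y, hy, hy'⟩
  exact Set.Subset.antisymm (key h) (key (rankOne_symm h))

theorem ro_transitive (h : IsRankOnePair A B) {C : Subgroup G}
    (hC : C ∈ unipotentSubgroups A B) (hCA : C ≠ A) : ∃ a ∈ A, conjBy C a = B := by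
  rw [ro_mem_iff h] at hC
  obtain hC | ⟨a, ha, rfl⟩ := hC
  · exact absurd hC hCA
  · exact ⟨a⁻¹, inv_mem ha, by rw [conjBy_conjBy, inv_mul_cancel, conjBy_one]⟩

theorem ro_regular (h : IsRankOnePair A B) {C D : Subgroup G}
    (hC : C ∈ unipotentSubgroups A B) (hCA : C ≠ A) (hD : D ∈ unipotentSubgroups A B)
    (hDA : D ≠ A) : ∃! a : G, a ∈ A ∧ conjBy C a = D := by
  obtain ⟨a, ha, ha'⟩ := ro_transitive h hC hCA
  obtain ⟨b, hb, hb'⟩ := ro_transitive h hD hDA
  refine ⟨b⁻¹ * a, ⟨mul_mem (inv_mem hb) ha, ?_⟩, ?_⟩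
  · rw [← conjBy_conjBy, ha', ← hb', conjBy_conjBy, inv_mul_cancel, conjBy_one]
  · rintro c ⟨hc, hc'⟩
    have h1 : b * c * a⁻¹ ∈ Subgroup.normalizer (B : Set G) := by
      rw [mem_normalizer_iff_conjBy]
      nth_rw 1 [← ha']
      rw [conjBy_conjBy, mul_assoc, mul_assoc, inv_mul_cancel, mul_one, ← conjBy_conjBy, hc', hb']
    have h2 := rankOne_left_normalizer h (mul_mem (mul_mem hb hc) (inv_mem ha)) h1
    have h3 : b * c = a := mul_inv_eq_one.1 h2
    rw [← h3, inv_mul_cancel_left]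

theorem ro_two_transitive (h : IsRankOnePair A B) {C D : Subgroup G}
    (hC : C ∈ unipotentSubgroups A B) (hD : D ∈ unipotentSubgroups A B) (hCD : C ≠ D) :
    ∃ x ∈ A ⊔ B, conjBy C x = A ∧ conjBy D x = B := by
  obtain ⟨y, hy, rfl⟩ := hC
  have h1 : conjBy D y⁻¹ ≠ A := by
    intro h1
    apply hCD
    rw [← h1, conjBy_conjBy, mul_inv_cancel, conjBy_one]
  obtain ⟨a, ha, ha'⟩ := ro_transitive h (unip_conj (inv_mem hy) hD) h1
  refine ⟨a * y⁻¹, mul_mem (Subgroup.mem_sup_left ha) (inv_mem hy), ?_, ?_⟩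
  · rw [conjBy_conjBy, mul_assoc, inv_mul_cancel, mul_one, conjBy_mem_self ha]
  · rw [← conjBy_conjBy, ha']

theorem conjBy_normal_iff {A : Subgroup G} {g x : G} :
    g * x * g⁻¹ ∈ conjBy A g ↔ x ∈ A := by
  rw [mem_conjBy]; simp [mul_assoc]

theorem ro_cond_conj (h : RankOneCondition A B) (g : G) :
    RankOneCondition (conjBy A g) (conjBy B g) := by
  intro a ha ha1
  rw [mem_conjBy] at ha
  obtain ⟨b, hb, hb1, hab⟩ := h _ ha (by
    intro h1
    apply ha1
    have h2 : a = g * (g⁻¹ * a * g) * g⁻¹ := by group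
    rw [h2, h1]; group)
  refine ⟨g * b * g⁻¹, conjBy_normal_iff.2 hb, ?_, ?_⟩
  · intro h1
    apply hb1
    have h2 : b = g⁻¹ * (g * b * g⁻¹) * g := by group
    rw [h2, h1]; group
  · rw [conjBy_conjBy, conjBy_conjBy]
    have h1 : (g * b * g⁻¹)⁻¹ * g = g * b⁻¹ := by group
    have h2 : a⁻¹ * g = g * (g⁻¹ * a * g)⁻¹ := by group
    rw [h1, h2, ← conjBy_conjBy, hab, conjBy_conjBy]

theorem ro_conj (h : IsRankOnePair A B) (g : G) : IsRankOnePair (conjBy A g) (conjBy B g) where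
  ne := fun h1 => h.ne (conjBy_inj h1)
  nilpotent_left := by
    haveI := h.nilpotent_left
    exact (Group.isNilpotent_congr (A.equivMapOfInjective _ (MulAut.conj g).injective)).1 h.nilpotent_left
  nilpotent_right := by
    haveI := h.nilpotent_right
    exact (Group.isNilpotent_congr (B.equivMapOfInjective _ (MulAut.conj g).injective)).1 h.nilpotent_right
  cond_left := ro_cond_conj h.cond_left g
  cond_right := ro_cond_conj h.cond_right g

theorem ro_conj_iff {g : G} : IsRankOnePair (conjBy A g) (conjBy B g) ↔ IsRankOnePair A B := by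
  constructor
  · intro h
    have := ro_conj h g⁻¹
    rwa [conjBy_conjBy, conjBy_conjBy, inv_mul_cancel, conjBy_one, conjBy_one] at this
  · intro h; exact ro_conj h g

theorem ro_pair_of_mem (h : IsRankOnePair A B) {C D : Subgroup G}
    (hC : C ∈ unipotentSubgroups A B) (hD : D ∈ unipotentSubgroups A B) (hCD : C ≠ D) :
    IsRankOnePair C D ∧ C ⊔ D = A ⊔ B := by
  obtain ⟨x, hx, rfl, rfl⟩ := ro_two_transitive h hC hD hCD
  refine ⟨ro_conj_iff.1 h, ?_⟩
  rw [← conjBy_sup]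
  have h1 : x ∈ conjBy (C ⊔ D) x := by rw [conjBy_sup]; exact hx
  rw [mem_conjBy] at h1
  have h2 : x ∈ C ⊔ D := by
    have : x⁻¹ * x * x = x := by group
    rwa [this] at h1
  exact (conjBy_mem_self h2).symm

theorem ro_inf_of_mem (h : IsRankOnePair A B) {C D : Subgroup G}
    (hC : C ∈ unipotentSubgroups A B) (hD : D ∈ unipotentSubgroups A B) (hCD : C ≠ D) :
    C ⊓ D = ⊥ := rankOne_inf (ro_pair_of_mem h hC hD hCD).1

/-- an element of `A` and an element of `C`, `C` a conjugate, determine `C` -/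
theorem ro_eq_of_mem (h : IsRankOnePair A B) {C D : Subgroup G}
    (hC : C ∈ unipotentSubgroups A B) (hD : D ∈ unipotentSubgroups A B) {x : G}
    (hx : x ≠ 1) (hxC : x ∈ C) (hxD : x ∈ D) : C = D := by
  by_contra hCD
  have h1 : x ∈ C ⊓ D := ⟨hxC, hxD⟩
  rw [ro_inf_of_mem h hC hD hCD] at h1
  exact hx h1

theorem ro_right_mem (h : IsRankOnePair A B) : B ∈ unipotentSubgroups A B := by
  obtain ⟨x, hx, hx'⟩ := ro_mem_right h
  exact ⟨x, hx, hx'⟩

theorem ro_three (h : IsRankOnePair A B) : ∃ C₃ ∈ unipotentSubgroups A B, A ≠ C₃ ∧ B ≠ C₃ := by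
  obtain ⟨a, ha, ha1⟩ := exists_ne_one_of_ne_bot (ro_ne_bot h)
  refine ⟨conjBy B a, unip_conj (Subgroup.mem_sup_left ha) (ro_right_mem h), ?_, ?_⟩
  · intro h1
    apply h.ne
    rw [eq_comm, conjBy_eq_iff, conjBy_mem_self (inv_mem ha)] at h1
    exact h1.symm
  · intro h1
    exact ha1 (rankOne_left_normalizer h ha (mem_normalizer_iff_conjBy.2 h1.symm))

end Cfsg.Agent.H3
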