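import Mathlib
import Cfsg.Prelude.Def_RootSubgroups
import Cfsg.Agent.H3.RankA

/-!
Rank one groups: normal subgroups, nilpotency, transport along injective homomorphisms.
-/

set_option autoImplicit false
open Cfsg Cfsg.Agent.H28

namespace Cfsg.Agent.H3

section map

variable {G H : Type*} [Group G] [Group H]

theorem conjBy_map (f : H →* G) (A : Subgroup H) (g : H) :
    conjBy (A.map f) (f g) = (conjBy A g).map f := by
  ext x
  constructor
  · rintro ⟨y, ⟨z, hz, rfl⟩, rfl⟩
    exact ⟨g * z * g⁻¹, conjBy_normal_iff.2 hz, by simp [MulAut.conj_apply]⟩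
  · rintro ⟨y, hy, rfl⟩
    rw [SetLike.mem_coe, mem_conjBy] at hy
    rw [mem_conjBy]
    exact ⟨_, hy, by simp⟩

theorem roc_map_iff {f : H →* G} (hf : Function.Injective f) {A B : Subgroup H} :
    RankOneCondition (A.map f) (B.map f) ↔ RankOneCondition A B := by
  constructor
  · intro h a ha ha1
    obtain ⟨b', ⟨b, hb, rfl⟩, hb1, hab⟩ := h (f a) ⟨a, ha, rfl⟩
      (fun h => ha1 (hf (h.trans (map_one f).symm)))
    refine ⟨b, hb, fun h => hb1 (by rw [h, map_one]), ?_⟩
    rw [← map_inv, ← map_inv, conjBy_map, conjBy_map] at hab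
    exact Subgroup.map_injective hf hab
  · rintro h _ ⟨a, ha, rfl⟩ ha1
    obtain ⟨b, hb, hb1, hab⟩ := h a ha (fun h => ha1 (by rw [h, map_one]))
    refine ⟨f b, ⟨b, hb, rfl⟩, fun h => hb1 (hf (h.trans (map_one f).symm)), ?_⟩
    rw [← map_inv, ← map_inv, conjBy_map, conjBy_map, hab]

theorem ro_map_iff {f : H →* G} (hf : Function.Injective f) {A B : Subgroup H} :
    IsRankOnePair (A.map f) (B.map f) ↔ IsRankOnePair A B := by
  constructor
  · intro h
    exact ⟨fun h1 => h.ne (by rw [h1]),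
      (Group.isNilpotent_congr (A.equivMapOfInjective _ hf)).2 h.nilpotent_left,
      (Group.isNilpotent_congr (B.equivMapOfInjective _ hf)).2 h.nilpotent_right,
      (roc_map_iff hf).1 h.cond_left, (roc_map_iff hf).1 h.cond_right⟩
  · intro h
    exact ⟨fun h1 => h.ne (Subgroup.map_injective hf h1),
      (Group.isNilpotent_congr (A.equivMapOfInjective _ hf)).1 h.nilpotent_left,
      (Group.isNilpotent_congr (B.equivMapOfInjective _ hf)).1 h.nilpotent_right,
      (roc_map_iff hf).2 h.cond_left, (roc_map_iff hf).2 h.cond_right⟩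

theorem subgroupOf_map_subtype_eq {A K : Subgroup G} (h : A ≤ K) :
    (A.subgroupOf K).map K.subtype = A := by
  rw [Subgroup.subgroupOf_map_subtype, inf_eq_left.2 h]

theorem ro_subgroupOf {A B K : Subgroup G} (hA : A ≤ K) (hB : B ≤ K) :
    IsRankOnePair (A.subgroupOf K) (B.subgroupOf K) ↔ IsRankOnePair A B := by
  rw [← ro_map_iff K.subtype_injective, subgroupOf_map_subtype_eq hA, subgroupOf_map_subtype_eq hB]

theorem sup_subgroupOf_top (A B : Subgroup G) :
    A.subgroupOf (A ⊔ B) ⊔ B.subgroupOf (A ⊔ B) = ⊤ := by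
  apply Subgroup.map_injective (A ⊔ B).subtype_injective
  rw [Subgroup.map_sup, subgroupOf_map_subtype_eq le_sup_left,
    subgroupOf_map_subtype_eq le_sup_right, ← MonoidHom.range_eq_map, Subgroup.range_subtype]

end map

variable {X : Type*} [Group X] {A B : Subgroup X}

theorem ro_inf_normal (h : IsRankOnePair A B) {N : Subgroup X}
    (hc : ∀ C ∈ unipotentSubgroups A B, ∀ n ∈ N, conjBy C n = C) :
    ∀ C ∈ unipotentSubgroups A B, N ⊓ C = ⊥ := by
  intro C hC
  rw [eq_bot_iff]
  rintro n ⟨hn, hnC⟩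
  have : ∃ D ∈ unipotentSubgroups A B, C ≠ D := by
    by_cases hCA : C = A
    · exact ⟨B, ro_right_mem h, hCA ▸ h.ne⟩
    · exact ⟨A, mem_unip_self, hCA⟩
  obtain ⟨D, hD, hCD⟩ := this
  exact Subgroup.mem_bot.2 (rankOne_left_normalizer (ro_pair_of_mem h hC hD hCD).1 hnC
    (mem_normalizer_iff_conjBy.2 (hc D hD n hn)))

/-- a normal subgroup acting trivially on the unipotent subgroups is central -/
theorem ro_trivial_centralizes (h : IsRankOnePair A B) {N : Subgroup X}
    (hN : ∀ x ∈ A ⊔ B, conjBy N x = N)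
    (hc : ∀ C ∈ unipotentSubgroups A B, ∀ n ∈ N, conjBy C n = C) :
    ∀ n ∈ N, ∀ x ∈ A ⊔ B, n * x = x * n := by
  intro n hn
  have key : ∀ C ∈ unipotentSubgroups A B, C ≤ A ⊔ B → ∀ x ∈ C, n * x = x * n := by
    intro C hC hCX x hx
    have h1 : n * x * n⁻¹ * x⁻¹ ∈ N ⊓ C := by
      constructor
      · have h2 : x * n⁻¹ * x⁻¹ ∈ N := by
          have := (conjBy_normal_iff (A := N) (g := x)).2 (inv_mem hn)
          rwa [hN x (hCX hx)] at this
        have := mul_mem hn h2
        simpa [mul_assoc] using this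
      · have h2 : n * x * n⁻¹ ∈ C := by
          have := (conjBy_normal_iff (A := C) (g := n)).2 hx
          rwa [hc C hC n hn] at this
        exact C.mul_mem h2 (C.inv_mem hx)
    rw [ro_inf_normal h hc C hC, Subgroup.mem_bot] at h1
    rw [mul_inv_eq_one, mul_inv_eq_iff_eq_mul] at h1
    exact h1
  apply sup_induct
  · exact key A mem_unip_self le_sup_left
  · exact key B (ro_right_mem h) le_sup_right
  · intro x y hx hy
    rw [← mul_assoc, hx, mul_assoc, hy, mul_assoc]

/-- normal subgroups of a rank one group -/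
theorem ro_normal_sup (h : IsRankOnePair A B) {N : Subgroup X} (hNX : N ≤ A ⊔ B)
    (hN : ∀ x ∈ A ⊔ B, conjBy N x = N) :
    (N ⊔ A = A ⊔ B) ∨ ∀ n ∈ N, ∀ x ∈ A ⊔ B, n * x = x * n := by
  by_cases hc : ∀ C ∈ unipotentSubgroups A B, ∀ n ∈ N, conjBy C n = C
  · right
    exact ro_trivial_centralizes h hN hc
  · left
    push Not at hc
    obtain ⟨C, hC, n, hn, hCn⟩ := hc
    obtain ⟨x, hx, h1, h2⟩ := ro_two_transitive h hC (unip_conj (hNX hn) hC) hCn.symm
    apply le_antisymm (sup_le hNX le_sup_left)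
    refine sup_le le_sup_right ?_
    have h3 : B = conjBy A (x * n * x⁻¹) := by
      rw [← h2, ← h1, conjBy_conjBy, conjBy_conjBy]
      congr 1; group
    have h4 : x * n * x⁻¹ ∈ N := by
      have := (conjBy_normal_iff (A := N) (g := x)).2 hn
      rwa [hN x hx] at this
    rw [h3]
    have h5 := conjBy_mono (le_sup_right : A ≤ N ⊔ A) (x * n * x⁻¹)
    rwa [conjBy_mem_self (Subgroup.mem_sup_left h4 : x * n * x⁻¹ ∈ N ⊔ A)] at h5

theorem ro_normal (hX : A ⊔ B = ⊤) (h : IsRankOnePair A B) {N : Subgroup X} (hN : N.Normal) :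
    N ⊔ A = ⊤ ∨ N ≤ Subgroup.center X := by
  rcases ro_normal_sup h (hX ▸ le_top : N ≤ A ⊔ B) (fun x _ => by
    rw [← mem_normalizer_iff_conjBy, Subgroup.normalizer_eq_top_iff.2 hN]
    exact Subgroup.mem_top _) with h1 | h1
  · left; rw [h1, hX]
  · right
    intro n hn
    rw [Subgroup.mem_center_iff]
    intro g
    exact (h1 n hn g (by rw [hX]; exact Subgroup.mem_top _)).symm

theorem ro_normalizer_ne (h : IsRankOnePair A B) {x : X} (hx : x ∈ A ⊔ B)
    (hxA : conjBy A x ≠ A) : ∃ a ∈ A, a ∉ Subgroup.normalizer (conjBy A x : Set X) := by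
  by_contra hcon
  push Not at hcon
  obtain ⟨a, ha, ha1⟩ := exists_ne_one_of_ne_bot (ro_ne_bot h)
  exact ha1 (rankOne_left_normalizer (ro_pair_of_mem h mem_unip_self
    (unip_conj hx mem_unip_self) hxA.symm).1 ha (hcon a ha))

theorem ro_not_nilpotent (hX : A ⊔ B = ⊤) (h : IsRankOnePair A B) : ¬ Group.IsNilpotent X := by
  intro hn
  have h1 : Subgroup.normalizer (A : Set X) ≠ ⊤ := by
    intro h1
    obtain ⟨b, hb, hb1⟩ := exists_ne_one_of_ne_bot (ro_ne_bot' h)
    exact hb1 (rankOne_left_normalizer (rankOne_symm h) hb (h1 ▸ Subgroup.mem_top b))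
  have h2 := Group.normalizerCondition_of_isNilpotent (G := X) _ (lt_top_iff_ne_top.2 h1)
  obtain ⟨x, hx, hx'⟩ := SetLike.exists_of_lt h2
  rw [mem_normalizer_iff_conjBy] at hx'
  obtain ⟨a, ha, ha'⟩ := ro_normalizer_ne h (hX ▸ Subgroup.mem_top x) hx'
  apply ha'
  -- `N(A^x) = N(A)^x = N(A)`
  rw [mem_normalizer_iff_conjBy] at hx ⊢
  have h3 : a ∈ conjBy (Subgroup.normalizer (A : Set X)) x := by
    rw [hx]; exact Subgroup.le_normalizer ha
  rw [mem_conjBy, mem_normalizer_iff_conjBy] at h3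
  rw [conjBy_conjBy]
  nth_rw 2 [← h3]
  rw [conjBy_conjBy]
  congr 1; group

theorem ro_not_nilpotent_sup {G : Type*} [Group G] {A B : Subgroup G} (h : IsRankOnePair A B) :
    ¬ Group.IsNilpotent ↥(A ⊔ B) :=
  ro_not_nilpotent (sup_subgroupOf_top A B) ((ro_subgroupOf le_sup_left le_sup_right).2 h)

theorem ro_not_comm {G : Type*} [Group G] {A B : Subgroup G} (h : IsRankOnePair A B) :
    ⁅A, B⁆ ≠ ⊥ := by
  intro h1
  rw [Subgroup.commutator_eq_bot_iff_le_centralizer] at h1
  obtain ⟨a, ha, ha1⟩ := exists_ne_one_of_ne_bot (ro_ne_bot h)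
  apply ha1
  apply rankOne_left_normalizer h ha
  rw [mem_normalizer_iff_conjBy]
  ext b
  rw [mem_conjBy]
  have key : ∀ b ∈ B, a * b = b * a := fun b hb => (Subgroup.mem_centralizer_iff.1 (h1 ha) b hb).symm
  constructor
  · intro hb
    have := key _ hb
    have h2 : b = a * (a⁻¹ * b * a) * a⁻¹ := by group
    rw [h2, this]
    have h3 : a⁻¹ * b * a * a * a⁻¹ = a⁻¹ * b * a := by group
    rwa [h3]
  · intro hb
    have : a⁻¹ * b * a = b := by rw [mul_assoc, ← key b hb, inv_mul_cancel_left]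
    rwa [this]

theorem map_mk_eq_top {X : Type*} [Group X] {N A : Subgroup X} [N.Normal] (h : N ⊔ A = ⊤) :
    A.map (QuotientGroup.mk' N) = ⊤ := by
  have h1 : (N ⊔ A).map (QuotientGroup.mk' N) = ⊤ := by
    rw [h, ← MonoidHom.range_eq_map, MonoidHom.range_eq_top]
    exact QuotientGroup.mk'_surjective N
  rwa [Subgroup.map_sup, (Subgroup.map_eq_bot_iff N).2 (by rw [QuotientGroup.ker_mk']),
    bot_sup_eq] at h1

theorem quot_surj {X : Type*} [Group X] {N A : Subgroup X} [N.Normal] (h : N ⊔ A = ⊤) :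
    Function.Surjective ((QuotientGroup.mk' N).comp A.subtype) := by
  rw [← MonoidHom.range_eq_top, MonoidHom.range_comp, Subgroup.range_subtype, map_mk_eq_top h]

theorem quot_nilpotent {X : Type*} [Group X] {N A : Subgroup X} [N.Normal] (h : N ⊔ A = ⊤)
    (hA : Group.IsNilpotent A) : Group.IsNilpotent (X ⧸ N) :=
  Group.nilpotent_of_surjective _ (quot_surj h)

theorem eq_top_of_perfect {X : Type*} [Group X] {N A : Subgroup X} [N.Normal] (h : N ⊔ A = ⊤)
    (hA : Group.IsNilpotent A) [Group.IsPerfect X] : N = ⊤ := by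
  have h1 := quot_nilpotent h hA
  have h2 : Group.IsPerfect (X ⧸ N) := inferInstance
  rw [← QuotientGroup.subsingleton_iff]
  by_contra h3
  rw [not_subsingleton_iff_nontrivial] at h3
  exact Group.IsPerfect.not_isNilpotent (X ⧸ N) h1

end Cfsg.Agent.H3
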