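import Mathlib
import Cfsg.Prelude.Def_RootSubgroups
import Cfsg.Agent.H3.RankB

/-!
Special rank one groups with abelian unipotent subgroups.
-/

set_option autoImplicit false
open Cfsg Cfsg.Agent.H28

namespace Cfsg.Agent.H3

variable {G : Type*} [Group G] {A B : Subgroup G}

/-- `b = b(a)` -/
structure BRel (A B : Subgroup G) (a b : G) : Prop where
  ha : a ∈ A
  ha1 : a ≠ 1
  hb : b ∈ B
  hb1 : b ≠ 1
  eq : conjBy A b⁻¹ = conjBy B a⁻¹

theorem BRel.symm {a b : G} (h : BRel A B a b) : BRel B A b a := ⟨h.hb, h.hb1, h.ha, h.ha1, h.eq.symm⟩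

theorem brel_left (h : IsRankOnePair A B) {a : G} (ha : a ∈ A) (ha1 : a ≠ 1) :
    ∃ b, BRel A B a b := by
  obtain ⟨b, hb, hb1, hab⟩ := h.cond_left a ha ha1
  exact ⟨b, ha, ha1, hb, hb1, hab⟩

theorem brel_right (h : IsRankOnePair A B) {b : G} (hb : b ∈ B) (hb1 : b ≠ 1) :
    ∃ a, BRel A B a b := by
  obtain ⟨a, ha⟩ := brel_left (rankOne_symm h) hb hb1
  exact ⟨a, ha.symm⟩

theorem BRel.unique (h : IsRankOnePair A B) {a b b' : G} (h1 : BRel A B a b)
    (h2 : BRel A B a b') : b = b' := rankOne_unique h h1.hb h2.hb h1.eq h2.eq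

theorem BRel.unique' (h : IsRankOnePair A B) {a a' b : G} (h1 : BRel A B a b)
    (h2 : BRel A B a' b) : a = a' := BRel.unique (rankOne_symm h) h1.symm h2.symm

theorem BRel.sp (h : IsSpecialRankOnePair A B) {a b : G} (h1 : BRel A B a b) :
    b⁻¹ * a * b = a⁻¹ * b⁻¹ * a := h.2 a h1.ha h1.ha1 b h1.hb h1.hb1 h1.eq

theorem sp_symm (h : IsSpecialRankOnePair A B) : IsSpecialRankOnePair B A := by
  refine ⟨rankOne_symm h.1, fun b hb hb1 a ha ha1 hab => ?_⟩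
  have h1 := h.2 a ha ha1 b hb hb1 hab.symm
  have h2 := congrArg (·⁻¹) h1
  simp only [mul_inv_rev, inv_inv, ← mul_assoc] at h2
  exact h2.symm

theorem sp_conj (h : IsSpecialRankOnePair A B) (g : G) :
    IsSpecialRankOnePair (conjBy A g) (conjBy B g) := by
  refine ⟨ro_conj h.1 g, fun a ha ha1 b hb hb1 hab => ?_⟩
  rw [mem_conjBy] at ha hb
  have h1 := h.2 _ ha (by
    intro h1; apply ha1
    have h2 : a = g * (g⁻¹ * a * g) * g⁻¹ := by group
    rw [h2, h1]; group) _ hb (by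
    intro h1; apply hb1
    have h2 : b = g * (g⁻¹ * b * g) * g⁻¹ := by group
    rw [h2, h1]; group) (by
    rw [conjBy_conjBy, conjBy_conjBy] at hab
    have h3 := congrArg (fun C => conjBy C g⁻¹) hab
    simp only [conjBy_conjBy] at h3
    convert h3 using 2 <;> group)
  have h2 := congrArg (fun x => g * x * g⁻¹) h1
  simp only [mul_inv_rev, inv_inv, mul_assoc, mul_inv_cancel_left, inv_mul_cancel_left,
    mul_inv_cancel, inv_mul_cancel, mul_one] at h2 ⊢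
  exact h2

/-- the braid relation -/
theorem BRel.braid (h : IsSpecialRankOnePair A B) {a b : G} (h1 : BRel A B a b) :
    a * b⁻¹ * a = b⁻¹ * a * b⁻¹ := by
  have := h1.sp h
  have h2 : a * (b⁻¹ * a * b) = b⁻¹ * a := by rw [this]; group
  have h3 : a * b⁻¹ * a = (a * (b⁻¹ * a * b)) * b⁻¹ := by group
  rw [h3, h2]

theorem BRel.inv (h : IsSpecialRankOnePair A B) {a b : G} (h1 : BRel A B a b) :
    BRel A B a⁻¹ b⁻¹ := by
  refine ⟨inv_mem h1.ha, inv_ne_one.2 h1.ha1, inv_mem h1.hb, inv_ne_one.2 h1.hb1, ?_⟩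
  rw [inv_inv, inv_inv]
  -- `b a b⁻¹ = a b⁻¹ a⁻¹`
  have h2 := h1.braid h
  have h3 : b * a * b⁻¹ = a * b⁻¹ * a⁻¹ := by
    have h4 : b * (a * b⁻¹ * a) = a * b⁻¹ := by rw [h2]; group
    have h5 : b * a * b⁻¹ = b * (a * b⁻¹ * a) * a⁻¹ := by group
    rw [h5, h4]
  refine ro_eq_of_mem h.1 (unip_conj (Subgroup.mem_sup_right h1.hb) mem_unip_self)
    (unip_conj (Subgroup.mem_sup_left h1.ha) (ro_right_mem h.1)) (x := b * a * b⁻¹) ?_ ?_ ?_
  · intro h4
    apply h1.ha1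
    have : a = b⁻¹ * (b * a * b⁻¹) * b := by group
    rw [this, h4]; group
  · exact conjBy_normal_iff.2 h1.ha
  · rw [h3]; exact conjBy_normal_iff.2 (inv_mem h1.hb)

/-- `n(a) = a b(a)⁻¹ a` -/
theorem BRel.n_conjA (h : IsSpecialRankOnePair A B) {a b : G} (h1 : BRel A B a b) :
    conjBy A (a * b⁻¹ * a)⁻¹ = B := by
  have h2 := (h1.inv h).eq
  rw [inv_inv, inv_inv] at h2
  rw [show (a * b⁻¹ * a)⁻¹ = a⁻¹ * b * a⁻¹ by group, ← conjBy_conjBy,
    conjBy_mem_self (inv_mem h1.ha), ← conjBy_conjBy, h2, conjBy_conjBy, inv_mul_cancel, conjBy_one]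

theorem BRel.n_conjB (h : IsSpecialRankOnePair A B) {a b : G} (h1 : BRel A B a b) :
    conjBy B (a * b⁻¹ * a)⁻¹ = A := by
  rw [h1.braid h, show (b⁻¹ * a * b⁻¹)⁻¹ = b * a⁻¹ * b by group, ← conjBy_conjBy,
    conjBy_mem_self h1.hb, ← conjBy_conjBy, ← h1.eq, conjBy_conjBy, mul_inv_cancel, conjBy_one]

theorem BRel.n_a (h : IsSpecialRankOnePair A B) {a b : G} (h1 : BRel A B a b) :
    (a * b⁻¹ * a)⁻¹ * a * (a * b⁻¹ * a) = b⁻¹ := by
  rw [mul_assoc, inv_mul_eq_iff_eq_mul]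
  nth_rw 1 [h1.braid h]
  group

theorem BRel.n_b (h : IsSpecialRankOnePair A B) {a b : G} (h1 : BRel A B a b) :
    (a * b⁻¹ * a)⁻¹ * b * (a * b⁻¹ * a) = a⁻¹ := by
  rw [mul_assoc, inv_mul_eq_iff_eq_mul]
  nth_rw 1 [h1.braid h]
  group

theorem orderOf_conj (g x : G) : orderOf (g⁻¹ * x * g) = orderOf x := by
  have := orderOf_injective (MulAut.conj g⁻¹).toMonoidHom (MulAut.conj g⁻¹).injective x
  rw [← this]
  simp [MulAut.conj_apply]

theorem BRel.orderOf_eq (h : IsSpecialRankOnePair A B) {a b : G} (h1 : BRel A B a b) :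
    orderOf b = orderOf a := by
  rw [← orderOf_inv b, ← h1.n_a h, orderOf_conj]

theorem BRel.pow_eq_one (h : IsSpecialRankOnePair A B) {a b : G} (h1 : BRel A B a b) (n : ℕ) :
    a ^ n = 1 ↔ b ^ n = 1 := by
  rw [← orderOf_dvd_iff_pow_eq_one, ← orderOf_dvd_iff_pow_eq_one, h1.orderOf_eq h]

/-- the basic relation between `b(ac)`, `b(a)` -/
theorem BRel.sum (h : IsSpecialRankOnePair A B) (hab : HasAbelianUnipotents A B) {a b c d e : G}
    (h1 : BRel A B a b) (hc : c ∈ A) (hc1 : c ≠ 1) (h2 : BRel A B (a * c) d)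
    (h3 : BRel A B e ((a * b⁻¹ * a)⁻¹ * c * (a * b⁻¹ * a))) :
    BRel A B (e * a⁻¹) (d * b⁻¹) := by
  have hcomm : ∀ x ∈ A, ∀ y ∈ A, x * y = y * x := by
    intro x hx y hy
    have := hab.1.is_comm.comm ⟨x, hx⟩ ⟨y, hy⟩
    exact congrArg Subtype.val this
  have hdb : d * b⁻¹ ≠ 1 := by
    intro h4
    rw [mul_inv_eq_one] at h4
    rw [h4] at h2
    have := h1.unique' h.1 h2
    exact hc1 (by rwa [left_eq_mul] at this)
  have hdbB : d * b⁻¹ ∈ B := mul_mem h2.hb (inv_mem h1.hb)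
  have heq : conjBy A (d * b⁻¹)⁻¹ = conjBy B (e * a⁻¹)⁻¹ := by
    set n := a * b⁻¹ * a with hn
    have hb : b = a * n⁻¹ * a := by rw [hn]; group
    rw [mul_inv_rev, inv_inv, ← conjBy_conjBy, h2.eq, conjBy_conjBy]
    have h5 : b * (a * c)⁻¹ = a * (n⁻¹ * c * n)⁻¹ * n⁻¹ := by
      rw [hcomm a h1.ha c hc, mul_inv_rev, hb]; group
    rw [h5, ← conjBy_conjBy, hn, h1.n_conjB h, ← hn, ← conjBy_conjBy, h3.eq, conjBy_conjBy,
      mul_inv_rev, inv_inv]
  refine ⟨mul_mem h3.ha (inv_mem h1.ha), ?_, hdbB, hdb, heq⟩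
  intro h4
  rw [h4, inv_one, conjBy_one, conjBy_eq_iff, inv_inv, conjBy_mem_self hdbB] at heq
  exact h.1.ne heq

/-- `b(a^m)^m = b(a)` -/
theorem BRel.pow_pow (m : ℕ) : ∀ {A B : Subgroup G}, IsSpecialRankOnePair A B →
    HasAbelianUnipotents A B → ∀ {a b d : G}, BRel A B a b → BRel A B (a ^ m) d → d ^ m = b := by
  induction m with
  | zero =>
    intro A B _ _ a b d _ h2
    exact absurd (pow_zero a) h2.ha1
  | succ m ih =>
    intro A B h hab a b d h1 h2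
    have hcA : ∀ x ∈ A, ∀ y ∈ A, x * y = y * x := by
      intro x hx y hy
      have := hab.1.is_comm.comm ⟨x, hx⟩ ⟨y, hy⟩
      exact congrArg Subtype.val this
    have hcB : ∀ x ∈ B, ∀ y ∈ B, x * y = y * x := by
      intro x hx y hy
      have := hab.2.is_comm.comm ⟨x, hx⟩ ⟨y, hy⟩
      exact congrArg Subtype.val this
    by_cases hm : a ^ m = 1
    · rw [pow_succ, hm, one_mul] at h2
      have := h1.unique h.1 h2
      rw [← this, pow_succ, (h1.pow_eq_one h m).1 hm, one_mul]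
    · have hbm : b ^ m ≠ 1 := fun h3 => hm ((h1.pow_eq_one h m).2 h3)
      obtain ⟨e, he⟩ := brel_right h.1 (pow_mem h1.hb m) hbm
      have hem : e ^ m = a := ih (sp_symm h) ⟨hab.2, hab.1⟩ h1.symm he.symm
      have h3 : (a * b⁻¹ * a)⁻¹ * a ^ m * (a * b⁻¹ * a) = (b ^ m)⁻¹ := by
        have h4 : ((a * b⁻¹ * a)⁻¹ * a * (a * b⁻¹ * a)) ^ m = (b⁻¹) ^ m := by rw [h1.n_a h]
        rw [inv_pow] at h4
        rw [← h4]
        have := conj_pow (a := (a * b⁻¹ * a)⁻¹) (b := a) (i := m)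
        rw [inv_inv] at this
        exact this.symm
      have h5 : BRel A B (e⁻¹ * a⁻¹) (d * b⁻¹) := by
        refine h1.sum h hab (pow_mem h1.ha m) hm (by rwa [← pow_succ']) ?_
        rw [h3]
        exact he.inv h
      have h6 := h5.inv h
      have h7 : (e⁻¹ * a⁻¹)⁻¹ = e ^ (m + 1) := by
        rw [mul_inv_rev, inv_inv, inv_inv, pow_succ, hem]
      have h8 : (d * b⁻¹)⁻¹ = b * d⁻¹ := by rw [mul_inv_rev, inv_inv]
      rw [h7, h8] at h6
      have h9 : (e ^ (m + 1)) ^ m = a ^ (m + 1) := by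
        rw [← pow_mul, mul_comm, pow_mul, hem]
      have h10 := ih h hab h6 (h9.symm ▸ h2)
      rw [pow_succ, h10, mul_assoc, inv_mul_cancel, mul_one]

end Cfsg.Agent.H3
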