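import Mathlib
import Cfsg.Prelude.Def_RootSubgroups
import Cfsg.Agent.H3.RankB
import Cfsg.Agent.H3.RankS

/-!
Abstract root subgroups: basic properties.
-/

set_option autoImplicit false
open Cfsg Cfsg.Agent.H28

namespace Cfsg.Agent.H3

variable {G : Type*} [Group G] {A B C D : Subgroup G} {S : Set (Subgroup G)}

theorem comm_bot_iff : ⁅A, B⁆ = ⊥ ↔ ∀ a ∈ A, ∀ b ∈ B, a * b = b * a := by
  rw [eq_bot_iff, Subgroup.commutator_le]
  refine forall₂_congr fun a _ => forall₂_congr fun b _ => ?_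
  rw [Subgroup.mem_bot, commutatorElement_eq_one_iff_mul_comm]

theorem not_isolated_iff (hA : A ∈ S) :
    ¬ IsIsolatedIn (FAdj S) S A ↔ ∃ D ∈ S, IsRankOnePair A D := by
  constructor
  · intro h
    by_contra hcon
    push Not at hcon
    exact h ⟨hA, fun B => ⟨fun h1 => hcon B h1.2.1 h1.2.2,
      fun h1 => hcon B h1.1 (rankOne_symm h1.2.2)⟩⟩
  · rintro ⟨D, hD, h⟩ h1
    exact (h1.2 D).1 ⟨hA, hD, h⟩

theorem comm_prod {w v b : G} (h3 : w * b = b * w) (h4 : v * b = b * v) :
    b * (w * v) = (w * v) * b := by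
  rw [← mul_assoc, ← h3, mul_assoc, ← h4, mul_assoc]

/-- elements of `A` normalizing `B` are trivial, in elementwise form -/
theorem ro_comm_absurd (h : IsRankOnePair A B) {a : G} (ha : a ∈ A) (ha1 : a ≠ 1)
    (hc : ∀ b ∈ B, a * b = b * a) : False := by
  apply ha1
  apply rankOne_left_normalizer h ha
  rw [Subgroup.mem_normalizer_iff]
  intro b
  constructor
  · intro hb; rwa [hc b hb, mul_inv_cancel_right]
  · intro hb
    have h1 := hc _ hb
    have h2 : b = a * b * a⁻¹ := by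
      have h3 : a * (a * b * a⁻¹) = a * b := by rw [h1]; group
      exact (mul_left_cancel h3).symm
    rwa [h2]

theorem ro_quad_absurd (h : IsRankOnePair A B) (hB : ∀ b ∈ B, ∀ b' ∈ B, b * b' = b' * b)
    {a : G} (ha : a ∈ A) (ha1 : a ≠ 1)
    (hc : ∀ b ∈ B, ∀ b' ∈ B, (a * b * a⁻¹ * b⁻¹) * b' = b' * (a * b * a⁻¹ * b⁻¹)) : False := by
  have hne : B ≠ conjBy B a := by
    intro h1
    exact ha1 (rankOne_left_normalizer h ha (mem_normalizer_iff_conjBy.2 h1.symm))
  have h2 := (ro_pair_of_mem h (ro_right_mem h)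
    (unip_conj (Subgroup.mem_sup_left ha) (ro_right_mem h)) hne).1
  apply ro_not_comm h2
  rw [comm_bot_iff]
  intro b' hb' x hx
  rw [mem_conjBy] at hx
  have h3 := hc _ hx b' hb'
  have h4 := hB _ hx b' hb'
  have e : x = (a * (a⁻¹ * x * a) * a⁻¹ * (a⁻¹ * x * a)⁻¹) * (a⁻¹ * x * a) := by group
  have h5 := comm_prod h3 h4
  rwa [← e] at h5

/-- an element normalizing `A` and centralizing `B` centralizes `A` -/
theorem ro_centralize (h : IsRankOnePair A B) {x : G} (hx : conjBy A x = A)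
    (hc : ∀ b ∈ B, x * b = b * x) : ∀ a ∈ A, x * a = a * x := by
  intro a ha
  by_cases ha1 : a = 1
  · rw [ha1, mul_one, one_mul]
  obtain ⟨b, hb⟩ := brel_left h ha ha1
  have hxB : conjBy B x = B := by
    ext y
    rw [mem_conjBy]
    constructor
    · intro hy
      have h2 := hc _ hy
      have h3 : x⁻¹ * y * x = y := by
        have : x * (x⁻¹ * y * x) = x * y * 1 → True := fun _ => trivial
        have h4 : y * x = x⁻¹ * y * x * x := by rw [← h2]; group
        exact (mul_right_cancel h4).symm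
      rwa [h3] at hy
    · intro hy
      rw [mul_assoc, ← hc y hy, inv_mul_cancel_left]; exact hy
  have h1 : BRel A B (x * a * x⁻¹) b := by
    refine ⟨?_, ?_, hb.hb, hb.hb1, ?_⟩
    · have := (conjBy_normal_iff (A := A) (g := x)).2 ha
      rwa [hx] at this
    · intro h2; apply ha1
      have : a = x⁻¹ * (x * a * x⁻¹) * x := by group
      rw [this, h2]; group
    · have h2 := congrArg (fun C => conjBy C x) hb.eq
      simp only [conjBy_conjBy] at h2
      rw [hc _ (inv_mem hb.hb), ← conjBy_conjBy, hx] at h2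
      rw [h2]
      have h3 : (x * a * x⁻¹)⁻¹ * x = x * a⁻¹ := by group
      rw [← h3, ← conjBy_conjBy, hxB]
  have h2 := h1.unique' h hb
  rwa [mul_inv_eq_iff_eq_mul] at h2

theorem S_comm (hS : IsRootSubgroupSet S) (hA : A ∈ S) : ∀ a ∈ A, ∀ b ∈ A, a * b = b * a := by
  intro a ha b hb
  have := (hS.commutative A hA).is_comm.comm ⟨a, ha⟩ ⟨b, hb⟩
  exact congrArg Subtype.val this

theorem rootElem_mem (hA : A ∈ S) {a : G} (ha : a ∈ A) (ha1 : a ≠ 1) : a ∈ rootElements S :=
  ⟨ha1, A, hA, ha⟩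

/-! ### the commutator case -/

theorem rc_comm_left (h : RootCommutatorCase S A B) {c : G} (hc : c ∈ ⁅A, B⁆) {a : G} (ha : a ∈ A) :
    c * a = a * c := h.2.1 c hc a (Subgroup.mem_sup_left ha)

theorem rc_comm_right (h : RootCommutatorCase S A B) {c : G} (hc : c ∈ ⁅A, B⁆) {b : G} (hb : b ∈ B) :
    c * b = b * c := h.2.1 c hc b (Subgroup.mem_sup_right hb)

theorem mem_comm (a b : G) (ha : a ∈ A) (hb : b ∈ B) : a * b * a⁻¹ * b⁻¹ ∈ ⁅A, B⁆ :=
  Subgroup.commutator_mem_commutator ha hb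

theorem rc_surj (h : RootCommutatorCase S A B) {a : G} (ha : a ∈ A) (ha1 : a ≠ 1)
    {c : G} (hc : c ∈ ⁅A, B⁆) : ∃ b ∈ B, a * b * a⁻¹ * b⁻¹ = c := by
  rw [← h.2.2.1 a ha ha1] at hc
  induction hc using Subgroup.closure_induction with
  | mem x hx => obtain ⟨b, hb, rfl⟩ := hx; exact ⟨b, hb, rfl⟩
  | one => exact ⟨1, one_mem _, by group⟩
  | mul x y _ _ hx hy =>
    obtain ⟨b, hb, rfl⟩ := hx
    obtain ⟨b', hb', rfl⟩ := hy
    refine ⟨b * b', mul_mem hb hb', ?_⟩
    have h1 := rc_comm_right h (mem_comm a b' ha hb') hb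
    have e : a * (b * b') * a⁻¹ * (b * b')⁻¹ = (a * b * a⁻¹ * b⁻¹) * (b * (a * b' * a⁻¹ * b'⁻¹) * b⁻¹) := by
      group
    rw [e, ← h1, mul_inv_cancel_right]
  | inv x _ hx =>
    obtain ⟨b, hb, rfl⟩ := hx
    refine ⟨b⁻¹, inv_mem hb, ?_⟩
    have h1 := rc_comm_right h (mem_comm a b ha hb) hb
    have h2 : a * b⁻¹ * a⁻¹ * b⁻¹⁻¹ = b⁻¹ * ((a * b * a⁻¹ * b⁻¹)⁻¹ * b) := by group
    have h3 : (a * b * a⁻¹ * b⁻¹)⁻¹ * b = b * (a * b * a⁻¹ * b⁻¹)⁻¹ := by
      rw [inv_mul_eq_iff_eq_mul, ← mul_assoc, h1, mul_inv_cancel_right]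
    rw [h2, h3, inv_mul_cancel_left]

theorem rc_surj_right (h : RootCommutatorCase S A B) {b : G} (hb : b ∈ B) (hb1 : b ≠ 1)
    {c : G} (hc : c ∈ ⁅A, B⁆) : ∃ a ∈ A, a * b * a⁻¹ * b⁻¹ = c := by
  rw [← h.2.2.2 b hb hb1] at hc
  induction hc using Subgroup.closure_induction with
  | mem x hx => obtain ⟨b, hb, rfl⟩ := hx; exact ⟨b, hb, rfl⟩
  | one => exact ⟨1, one_mem _, by group⟩
  | mul x y _ _ hx hy =>
    obtain ⟨a, ha, rfl⟩ := hx
    obtain ⟨a', ha', rfl⟩ := hy
    refine ⟨a' * a, mul_mem ha' ha, ?_⟩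
    have h1 := rc_comm_left h (mem_comm a b ha hb) ha'
    have e : a' * a * b * (a' * a)⁻¹ * b⁻¹ = (a' * (a * b * a⁻¹ * b⁻¹)) * (a'⁻¹ * (a' * b * a'⁻¹ * b⁻¹)) := by
      group
    rw [e, ← h1]; group
  | inv x _ hx =>
    obtain ⟨a, ha, rfl⟩ := hx
    refine ⟨a⁻¹, inv_mem ha, ?_⟩
    have h1 := rc_comm_left h (mem_comm a b ha hb) ha
    have h2 : a⁻¹ * b * a⁻¹⁻¹ * b⁻¹ = a⁻¹ * ((a * b * a⁻¹ * b⁻¹)⁻¹ * a) := by group
    have h3 : (a * b * a⁻¹ * b⁻¹)⁻¹ * a = a * (a * b * a⁻¹ * b⁻¹)⁻¹ := by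
      rw [inv_mul_eq_iff_eq_mul, ← mul_assoc, h1, mul_inv_cancel_right]
    rw [h2, h3, inv_mul_cancel_left]

theorem rc_ne (hS : IsRootSubgroupSet S) (h : RootCommutatorCase S A B) : ⁅A, B⁆ ≠ ⊥ :=
  hS.ne_bot _ h.1

theorem rc_symm (h : RootCommutatorCase S A B) : RootCommutatorCase S B A := by
  have e : ⁅B, A⁆ = ⁅A, B⁆ := Subgroup.commutator_comm B A
  refine ⟨e ▸ h.1, ?_, ?_, ?_⟩
  · intro c hc x hx
    rw [e] at hc
    rw [sup_comm] at hx
    exact h.2.1 c hc x hx
  · intro b hb hb1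
    rw [e]
    apply le_antisymm
    · rw [Subgroup.closure_le]
      rintro _ ⟨a, ha, rfl⟩
      rw [← e]
      exact mem_comm b a hb ha
    · intro c hc
      obtain ⟨a, ha, hc'⟩ := rc_surj_right h hb hb1 (inv_mem hc)
      apply Subgroup.subset_closure
      refine ⟨a, ha, ?_⟩
      have := congrArg (·⁻¹) hc'
      simp only [inv_inv] at this
      rw [← this]; group
  · intro a ha ha1
    rw [e]
    apply le_antisymm
    · rw [Subgroup.closure_le]
      rintro _ ⟨b, hb, rfl⟩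
      rw [← e]
      exact mem_comm b a hb ha
    · intro c hc
      obtain ⟨b, hb, hc'⟩ := rc_surj h ha ha1 (inv_mem hc)
      apply Subgroup.subset_closure
      refine ⟨b, hb, ?_⟩
      have := congrArg (·⁻¹) hc'
      simp only [inv_inv] at this
      rw [← this]; group

theorem conjBy_commutator (A B : Subgroup G) (g : G) :
    conjBy ⁅A, B⁆ g = ⁅conjBy A g, conjBy B g⁆ := by
  unfold Cfsg.conjBy; rw [Subgroup.map_commutator]

theorem conjBy_comm_bot {g : G} : ⁅conjBy A g, conjBy B g⁆ = ⊥ ↔ ⁅A, B⁆ = ⊥ := by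
  rw [← conjBy_commutator]
  constructor
  · intro h
    have : conjBy (⊥ : Subgroup G) g = ⊥ := Subgroup.map_bot _
    rw [← this] at h
    exact conjBy_inj h
  · intro h; rw [h]; exact Subgroup.map_bot _

theorem rc_conj (hS : IsRootSubgroupSet S) (h : RootCommutatorCase S A B) (g : G) :
    RootCommutatorCase S (conjBy A g) (conjBy B g) := by
  refine ⟨?_, ?_, ?_, ?_⟩
  · rw [← conjBy_commutator]; exact hS.conj_mem _ h.1 g
  · intro c hc x hx
    rw [← conjBy_commutator, mem_conjBy] at hc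
    rw [← conjBy_sup, mem_conjBy] at hx
    have := h.2.1 _ hc _ hx
    have h2 := congrArg (fun y => g * y * g⁻¹) this
    simp only [mul_assoc, mul_inv_cancel_left, inv_mul_cancel_left, mul_inv_cancel, mul_one] at h2
    exact h2
  · intro a ha ha1
    rw [mem_conjBy] at ha
    have ha1' : g⁻¹ * a * g ≠ 1 := by
      intro h1; apply ha1
      have : a = g * (g⁻¹ * a * g) * g⁻¹ := by group
      rw [this, h1]; group
    rw [← conjBy_commutator]
    apply le_antisymm
    · rw [Subgroup.closure_le]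
      rintro _ ⟨b, hb, rfl⟩
      rw [SetLike.mem_coe, mem_conjBy] at hb ⊢
      have := mem_comm _ _ ha hb
      convert this using 1
      group
    · intro c hc
      rw [mem_conjBy] at hc
      obtain ⟨b, hb, hc'⟩ := rc_surj h ha ha1' hc
      apply Subgroup.subset_closure
      refine ⟨g * b * g⁻¹, conjBy_normal_iff.2 hb, ?_⟩
      have : c = g * (g⁻¹ * c * g) * g⁻¹ := by group
      rw [this, ← hc']
      group
  · intro b hb hb1
    rw [mem_conjBy] at hb
    have hb1' : g⁻¹ * b * g ≠ 1 := by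
      intro h1; apply hb1
      have : b = g * (g⁻¹ * b * g) * g⁻¹ := by group
      rw [this, h1]; group
    rw [← conjBy_commutator]
    apply le_antisymm
    · rw [Subgroup.closure_le]
      rintro _ ⟨a, ha, rfl⟩
      rw [SetLike.mem_coe, mem_conjBy] at ha ⊢
      have := mem_comm _ _ ha hb
      convert this using 1
      group
    · intro c hc
      rw [mem_conjBy] at hc
      obtain ⟨a, ha, hc'⟩ := rc_surj_right h hb hb1' hc
      apply Subgroup.subset_closure
      refine ⟨g * a * g⁻¹, conjBy_normal_iff.2 ha, ?_⟩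
      have : c = g * (g⁻¹ * c * g) * g⁻¹ := by group
      rw [this, ← hc']
      group

theorem rc_conj_iff (hS : IsRootSubgroupSet S) {g : G} :
    RootCommutatorCase S (conjBy A g) (conjBy B g) ↔ RootCommutatorCase S A B := by
  constructor
  · intro h
    have := rc_conj hS h g⁻¹
    rwa [conjBy_conjBy, conjBy_conjBy, inv_mul_cancel, conjBy_one, conjBy_one] at this
  · intro h; exact rc_conj hS h g

/-- rank one pairs and the commutator case exclude each other -/
theorem rc_not_ro (hS : IsRootSubgroupSet S) (hB : B ∈ S) (h : RootCommutatorCase S A B) :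
    ¬ IsRankOnePair A B := by
  intro h1
  obtain ⟨a, ha, ha1⟩ := exists_ne_one_of_ne_bot (ro_ne_bot h1)
  exact ro_quad_absurd h1 (S_comm hS hB) ha ha1 fun b hb b' hb' =>
    rc_comm_right h (mem_comm a b ha hb) hb'

/-! ### S5028 -/

theorem ti (hS : IsRootSubgroupSet S) (hD : D ∈ S) (h : IsRankOnePair A D) (hB : B ∈ S) {a : G}
    (ha : a ∈ A) (ha1 : a ≠ 1) (haB : a ∈ B) : A = B := by
  rcases hS.pair B hB D hD with h1 | h1 | h1
  · exact (ro_comm_absurd h ha ha1 fun d hd => comm_bot_iff.1 h1 a haB d hd).elim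
  · by_contra hne
    obtain ⟨d, hd⟩ := brel_left h ha ha1
    obtain ⟨d', hd'⟩ := brel_left h1 haB ha1
    have h2 : conjBy A d⁻¹ = conjBy B d'⁻¹ := by rw [hd.eq, hd'.eq]
    rw [conjBy_eq_iff, inv_inv, conjBy_conjBy] at h2
    apply hne
    rw [h2]
    exact ro_eq_of_mem h1 (unip_conj (Subgroup.mem_sup_right (mul_mem hd.hb (inv_mem hd'.hb)))
      mem_unip_self) mem_unip_self ha1 (h2 ▸ ha) haB
  · exact (ro_quad_absurd h (S_comm hS hD) ha ha1 fun b hb b' hb' =>
      rc_comm_right h1 (mem_comm a b haB hb) hb').elim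

/-! ### S5024 -/

theorem unip_mem_S (hS : IsRootSubgroupSet S) (hC : C ∈ S) {E : Subgroup G}
    (hE : E ∈ unipotentSubgroups C D) : E ∈ S := by
  obtain ⟨x, -, rfl⟩ := hE
  exact hS.conj_mem C hC x

theorem unip_ro (h : IsRankOnePair C D) {E : Subgroup G} (hE : E ∈ unipotentSubgroups C D) :
    ∃ F ∈ unipotentSubgroups C D, IsRankOnePair E F := by
  by_cases h1 : E = C
  · exact ⟨D, ro_right_mem h, h1 ▸ h⟩
  · exact ⟨C, mem_unip_self, (ro_pair_of_mem h hE mem_unip_self h1).1⟩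

theorem mem_unip_of_le (hS : IsRootSubgroupSet S) (hA : A ∈ S) (hC : C ∈ S) (hD : D ∈ S)
    (h : IsRankOnePair C D) (hA' : A ≤ C ⊔ D) (hnc : ⁅A, C ⊔ D⁆ ≠ ⊥) :
    A ∈ unipotentSubgroups C D := by
  have key : ∀ E ∈ unipotentSubgroups C D, ⁅A, E⁆ = ⊥ ∨ A ∈ unipotentSubgroups C D := by
    intro E hE
    have hES := unip_mem_S hS hC hE
    rcases hS.pair A hA E hES with h1 | h1 | h1
    · exact Or.inl h1
    · right
      obtain ⟨a, ha, ha1⟩ := exists_ne_one_of_ne_bot (ro_ne_bot h1)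
      obtain ⟨e, he⟩ := brel_left h1 ha ha1
      have h2 := he.eq
      rw [conjBy_eq_iff, inv_inv, conjBy_conjBy] at h2
      rw [h2]
      have hEX : E ≤ C ⊔ D := by
        obtain ⟨x, hx, rfl⟩ := hE
        have := conjBy_mono (le_sup_left : C ≤ C ⊔ D) x
        rwa [conjBy_mem_self hx] at this
      exact unip_conj (mul_mem (hEX he.hb) (inv_mem (hA' ha))) hE
    · exfalso
      -- `A` normalizes `E`
      have hnorm : ∀ a ∈ A, conjBy E a = E := by
        intro a ha
        by_contra hne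
        have h2 := (ro_pair_of_mem h hE (unip_conj (hA' ha) hE) (Ne.symm hne)).1
        apply ro_not_comm h2
        rw [comm_bot_iff]
        intro e he x hx
        rw [mem_conjBy] at hx
        have h3 := rc_comm_right h1 (mem_comm a _ ha hx) he
        have h4 := S_comm hS hES _ hx e he
        have e : x = (a * (a⁻¹ * x * a) * a⁻¹ * (a⁻¹ * x * a)⁻¹) * (a⁻¹ * x * a) := by group
        have h5 := comm_prod h3 h4
        rwa [← e] at h5
      have hle : ⁅A, E⁆ ≤ E := by
        rw [Subgroup.commutator_le]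
        intro a ha e he
        have h2 := (conjBy_normal_iff (A := E) (g := a)).2 he
        rw [hnorm a ha] at h2
        exact mul_mem h2 (inv_mem he)
      obtain ⟨c, hc, hc1⟩ := exists_ne_one_of_ne_bot (rc_ne hS h1)
      obtain ⟨F, hF, hEF⟩ := unip_ro h hE
      have h2 := ti hS (unip_mem_S hS hC hF) hEF h1.1 (hle hc) hc1 hc
      apply rc_ne hS h1
      rw [comm_bot_iff]
      intro a ha e he
      rw [h2] at he
      exact (rc_comm_left h1 he ha).symm
  by_contra hcon
  apply hnc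
  have h1 : ∀ E ∈ unipotentSubgroups C D, ⁅A, E⁆ = ⊥ := fun E hE => (key E hE).resolve_right hcon
  rw [comm_bot_iff]
  intro a ha
  apply sup_induct
  · exact fun c hc => comm_bot_iff.1 (h1 C mem_unip_self) a ha c hc
  · exact fun c hc => comm_bot_iff.1 (h1 D (ro_right_mem h)) a ha c hc
  · intro x y hx hy
    rw [← mul_assoc, hx, mul_assoc, hy, mul_assoc]

/-! ### S5025 -/

theorem no_central_mul (hS : IsRootSubgroupSet S) (hA : A ∈ S) (hB : B ∈ S)
    (h : IsRankOnePair A B) {z : G} (hz : ∀ x ∈ A ⊔ B, z * x = x * z) (hz1 : z ≠ 1) {a : G}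
    (ha : a ∈ A) (ha1 : a ≠ 1) : z * a ∉ rootElements S := by
  rintro ⟨hc1, C, hC, hc⟩
  set c := z * a with hcdef
  have haX : a ∈ A ⊔ B := Subgroup.mem_sup_left ha
  have hcb : ∀ b ∈ B, c * b * c⁻¹ = a * b * a⁻¹ := by
    intro b hb
    have h1 := hz (a * b * a⁻¹) (mul_mem (mul_mem haX (Subgroup.mem_sup_right hb)) (inv_mem haX))
    have : c * b * c⁻¹ = z * (a * b * a⁻¹) * z⁻¹ := by rw [hcdef]; group
    rw [this, h1, mul_inv_cancel_right]
  rcases hS.pair C hC B hB with h1 | h1 | h1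
  · apply ro_comm_absurd h ha ha1
    intro b hb
    have h2 := comm_bot_iff.1 h1 c hc b hb
    have h3 := hcb b hb
    rw [h2, mul_inv_cancel_right] at h3
    rw [← eq_mul_inv_iff_mul_eq.1 h3]
  · obtain ⟨b', hb'⟩ := brel_left h1 hc hc1
    obtain ⟨b, hb⟩ := brel_left h ha ha1
    have hzB : conjBy B z⁻¹ = B := by
      ext y
      rw [mem_conjBy, inv_inv]
      constructor
      · intro hy
        have h2 := hz _ (Subgroup.mem_sup_right hy)
        have h3 : y * z⁻¹ = z * y * z⁻¹ * z⁻¹ := by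
          have h4 : z * y * z⁻¹ = y := by
            have : z * (z * y * z⁻¹) = z * y := by rw [h2]; group
            exact mul_left_cancel this
          rw [h4]
        have h5 : y = z * y * z⁻¹ := mul_right_cancel h3
        rwa [← h5] at hy
      · intro hy
        rw [hz y (Subgroup.mem_sup_right hy), mul_inv_cancel_right]; exact hy
    have h2 : conjBy C b'⁻¹ = conjBy A b⁻¹ := by
      rw [hb'.eq, hb.eq, hcdef, mul_inv_rev, ← conjBy_conjBy, hzB]
    rw [conjBy_eq_iff, inv_inv, conjBy_conjBy] at h2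
    have hCX : C ∈ unipotentSubgroups A B :=
      ⟨_, Subgroup.mem_sup_right (mul_mem hb'.hb (inv_mem hb.hb)), h2⟩
    have hCle : C ≤ A ⊔ B := by
      obtain ⟨x, hx, hCx⟩ := hCX
      have := conjBy_mono (le_sup_left : A ≤ A ⊔ B) x
      rw [conjBy_mem_self hx] at this
      rw [hCx]; exact this
    by_cases hCA : C = A
    · rw [hCA] at hc
      have h3 : z ∈ A := by
        have := mul_mem hc (inv_mem ha)
        rwa [hcdef, mul_inv_cancel_right] at this
      exact ro_comm_absurd h h3 hz1 fun b hb => hz b (Subgroup.mem_sup_right hb)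
    · have h3 := (ro_pair_of_mem h hCX mem_unip_self hCA).1
      apply hc1
      apply rankOne_left_normalizer h3 hc
      rw [mem_normalizer_iff_conjBy]
      apply ro_eq_of_mem h (unip_conj (hCle hc) mem_unip_self) mem_unip_self ha1 _ ha
      rw [mem_conjBy]
      have h4 : c⁻¹ * a * c = a := by
        rw [hcdef, mul_inv_rev]
        have h5 := hz a haX
        have : a⁻¹ * z⁻¹ * a * (z * a) = a⁻¹ * z⁻¹ * (a * z) * a := by group
        rw [this, ← h5]; group
      rwa [h4]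
  · exact ro_quad_absurd h (S_comm hS hB) ha ha1 fun b hb b' hb' => by
      have := rc_comm_right h1 (mem_comm c b hc hb) hb'
      rwa [hcb b hb] at this

end Cfsg.Agent.H3
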