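import Mathlib
import Cfsg.Prelude.Def_RootSubgroups
import Cfsg.Agent.H3.RootA

/-!
Abstract root subgroups: lines.
-/

set_option autoImplicit false
open Cfsg Cfsg.Agent.H28

namespace Cfsg.Agent.H3

variable {G : Type*} [Group G] {A B C D : Subgroup G} {S : Set (Subgroup G)}

theorem conjBy_comm_left {a : G} (ha : a ∈ A) : conjBy ⁅A, B⁆ a = ⁅A, B⁆ := by
  have key : ∀ a ∈ A, conjBy ⁅A, B⁆ a ≤ ⁅A, B⁆ := by
    intro a ha
    rw [conjBy_commutator, conjBy_mem_self ha, Subgroup.commutator_le]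
    intro a' ha' x hx
    rw [mem_conjBy] at hx
    have e : a' * x * a'⁻¹ * x⁻¹ = ((a' * a) * (a⁻¹ * x * a) * (a' * a)⁻¹ * (a⁻¹ * x * a)⁻¹) *
        (a * (a⁻¹ * x * a) * a⁻¹ * (a⁻¹ * x * a)⁻¹)⁻¹ := by group
    rw [commutatorElement_def, e]
    exact mul_mem (mem_comm _ _ (mul_mem ha' ha) hx) (inv_mem (mem_comm _ _ ha hx))
  apply le_antisymm (key a ha)
  have := conjBy_mono (key a⁻¹ (inv_mem ha)) a
  rwa [conjBy_conjBy, mul_inv_cancel, conjBy_one] at this

theorem conjBy_comm_right {b : G} (hb : b ∈ B) : conjBy ⁅A, B⁆ b = ⁅A, B⁆ := by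
  rw [Subgroup.commutator_comm]; exact conjBy_comm_left hb

theorem conjBy_comm_sup {x : G} (hx : x ∈ A ⊔ B) : conjBy ⁅A, B⁆ x = ⁅A, B⁆ := by
  have : A ⊔ B ≤ Subgroup.normalizer ((⁅A, B⁆ : Subgroup G) : Set G) :=
    sup_le (fun a ha => mem_normalizer_iff_conjBy.2 (conjBy_comm_left ha))
      (fun b hb => mem_normalizer_iff_conjBy.2 (conjBy_comm_right hb))
  exact mem_normalizer_iff_conjBy.1 (this hx)

/-- `[A,B] ∈ S` implies the commutator case -/
theorem rc_of_mem (hS : IsRootSubgroupSet S) (hA : A ∈ S) (hB : B ∈ S) (hC : ⁅A, B⁆ ∈ S) :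
    RootCommutatorCase S A B := by
  rcases hS.pair A hA B hB with h | h | h
  · exact absurd h (hS.ne_bot _ hC)
  · exfalso
    obtain ⟨a₀, ha₀, ha₀1⟩ := exists_ne_one_of_ne_bot (ro_ne_bot h)
    have hle : ⁅A, B⁆ ≤ A ⊔ B := by
      rw [Subgroup.commutator_le]
      intro a ha b hb
      exact mul_mem (mul_mem (mul_mem (Subgroup.mem_sup_left ha) (Subgroup.mem_sup_right hb))
        (inv_mem (Subgroup.mem_sup_left ha))) (inv_mem (Subgroup.mem_sup_right hb))
    have hnX : ∀ x ∈ A ⊔ B, conjBy ⁅A, B⁆ x = ⁅A, B⁆ := fun x hx => conjBy_comm_sup hx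
    rcases ro_normal_sup h hle hnX with h1 | h1
    · rcases hS.pair A hA _ hC with h2 | h2 | h2
      · apply ro_not_comm h
        rw [comm_bot_iff]
        intro a ha b hb
        have hb' : b ∈ ⁅A, B⁆ ⊔ A := by rw [h1]; exact Subgroup.mem_sup_right hb
        revert hb'
        apply sup_induct
        · exact fun c hc => comm_bot_iff.1 h2 a ha c hc
        · exact fun c hc => S_comm hS hA a ha c hc
        · intro x y hx hy
          rw [← mul_assoc, hx, mul_assoc, hy, mul_assoc]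
      · apply ha₀1
        apply rankOne_left_normalizer h2 ha₀
        rw [mem_normalizer_iff_conjBy]
        exact hnX _ (Subgroup.mem_sup_left ha₀)
      · obtain ⟨x, hx, hBx⟩ := ro_mem_right h
        rw [← h1] at hx
        have key : ∀ x ∈ ⁅A, B⁆ ⊔ A, (∀ m ∈ ⁅A, ⁅A, B⁆⁆, m * x = x * m) ∧
            ∀ a ∈ A, ∃ m ∈ ⁅A, ⁅A, B⁆⁆, x * a * x⁻¹ = m * a := by
          apply sup_induct
          · intro n hn
            refine ⟨fun m hm => rc_comm_right h2 hm hn, fun a ha => ?_⟩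
            refine ⟨n * a * n⁻¹ * a⁻¹, ?_, by group⟩
            have := inv_mem (mem_comm a n ha hn)
            convert this using 1; group
          · intro a' ha'
            refine ⟨fun m hm => rc_comm_left h2 hm ha', fun a ha => ?_⟩
            exact ⟨1, one_mem _, by rw [S_comm hS hA a' ha' a ha]; group⟩
          · intro x y hx hy
            refine ⟨fun m hm => ?_, fun a ha => ?_⟩
            · rw [← mul_assoc, hx.1 m hm, mul_assoc, hy.1 m hm, mul_assoc]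
            · obtain ⟨m, hm, hm'⟩ := hy.2 a ha
              obtain ⟨m', hm1, hm2⟩ := hx.2 a ha
              refine ⟨m * m', mul_mem hm hm1, ?_⟩
              have e : x * y * a * (x * y)⁻¹ = x * (y * a * y⁻¹) * x⁻¹ := by group
              rw [e, hm', ← mul_assoc, ← hx.1 m hm, mul_assoc, mul_assoc, ← mul_assoc x, hm2,
                mul_assoc]
        apply ro_not_comm h
        rw [comm_bot_iff]
        intro a' ha' b hb
        rw [hBx, mem_conjBy] at hb
        obtain ⟨m, hm, hm'⟩ := (key x hx).2 _ hb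
        have e : x * (x⁻¹ * b * x) * x⁻¹ = b := by group
        rw [e] at hm'
        rw [hm']
        exact comm_prod (rc_comm_left h2 hm ha') (S_comm hS hA _ hb a' ha')
    · exact ro_quad_absurd h (S_comm hS hB) ha₀ ha₀1 fun b hb b' hb' =>
        h1 _ (mem_comm a₀ b ha₀ hb) b' (Subgroup.mem_sup_right hb')
  · exact h

/-! ### lines -/

section line

variable (hS : IsRootSubgroupSet S) (hA : A ∈ S) (hB : B ∈ S) (h : RootCommutatorCase S A B)
  (hD : D ∈ S) (hAD : IsRankOnePair A D)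
include hS hA h hD hAD

theorem line_not_mem {a : G} (ha : a ∈ A) (ha1 : a ≠ 1) : a ∉ ⁅A, B⁆ := by
  intro haC
  have h1 := ti hS hD hAD h.1 ha ha1 haC
  apply rc_ne hS h
  rw [comm_bot_iff]
  intro a' ha' b hb
  rw [h1] at ha'
  exact rc_comm_right h ha' hb

theorem line_norm {b : G} (hb : b ∈ B) (hb1 : b ≠ 1) : conjBy A b ≠ A := by
  intro h1
  apply rc_ne hS h
  rw [eq_bot_iff]
  intro c hc
  obtain ⟨a, ha, hac⟩ := rc_surj_right h hb hb1 hc
  have h2 : b * a⁻¹ * b⁻¹ ∈ A := by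
    have := (conjBy_normal_iff (A := A) (g := b)).2 (inv_mem ha)
    rwa [h1] at this
  have h3 : c ∈ A := by
    rw [← hac]
    have := mul_mem ha h2
    simpa [mul_assoc] using this
  by_contra hc1
  exact line_not_mem hS hA h hD hAD h3 hc1 hc

theorem line_inj {a b : G} (ha : a ∈ A) (ha1 : a ≠ 1) (hb : b ∈ B) (hab : a * b = b * a) :
    b = 1 := by
  by_contra hb1
  apply line_norm hS hA h hD hAD hb hb1
  have h1 : a ∈ conjBy A b := by
    rw [mem_conjBy, mul_assoc, hab, inv_mul_cancel_left]; exact ha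
  exact (ti hS hD hAD (hS.conj_mem A hA b) ha ha1 h1).symm

omit hD hAD in
theorem line_cover {x : G} (hx : x ∈ A ⊔ ⁅A, B⁆) : x ∈ ⁅A, B⁆ ∨ ∃ b ∈ B, x ∈ conjBy A b := by
  have key : ∀ x ∈ A ⊔ ⁅A, B⁆, ∃ a ∈ A, ∃ c ∈ ⁅A, B⁆, x = a * c := by
    apply sup_induct
    · exact fun a ha => ⟨a, ha, 1, one_mem _, (mul_one a).symm⟩
    · exact fun c hc => ⟨1, one_mem _, c, hc, (one_mul c).symm⟩
    · rintro x y ⟨a, ha, c, hc, rfl⟩ ⟨a', ha', c', hc', rfl⟩
      refine ⟨a * a', mul_mem ha ha', c * c', mul_mem hc hc', ?_⟩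
      have := rc_comm_left h hc ha'
      rw [mul_assoc, ← mul_assoc c, this]; group
  obtain ⟨a, ha, c, hc, rfl⟩ := key x hx
  by_cases ha1 : a = 1
  · left; rw [ha1, one_mul]; exact hc
  · right
    obtain ⟨b, hb, hb'⟩ := rc_surj h (inv_mem ha) (inv_ne_one.2 ha1) (inv_mem hc)
    refine ⟨b⁻¹, inv_mem hb, ?_⟩
    rw [mem_conjBy, inv_inv]
    have h1 : b * (a * c) * b⁻¹ = a := by
      have e : b * (a * c) * b⁻¹ = a * (a⁻¹ * b * a⁻¹⁻¹ * b⁻¹) * (b * c * b⁻¹) := by group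
      rw [e, hb', ← rc_comm_right h hc hb, mul_inv_cancel_right, inv_mul_cancel_right]
    rw [h1]; exact ha

theorem line_inf {b b' : G} (hb : b ∈ B) (hb' : b' ∈ B) {x : G} (hx1 : x ≠ 1)
    (hx : x ∈ conjBy A b) (hx' : x ∈ conjBy A b') : conjBy A b = conjBy A b' :=
  ti hS (hS.conj_mem D hD b) (ro_conj hAD b) (hS.conj_mem A hA b') hx hx1 hx'

theorem line_inf' {b : G} (hb : b ∈ B) {x : G} (hx1 : x ≠ 1)
    (hx : x ∈ conjBy A b) : x ∉ ⁅A, B⁆ := by
  intro hx'
  rw [mem_conjBy] at hx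
  have h1 : b⁻¹ * x * b = x := by rw [mul_assoc, rc_comm_right h hx' hb, inv_mul_cancel_left]
  rw [h1] at hx
  exact line_not_mem hS hA h hD hAD hx hx1 hx'

theorem line_alpha {z : G} (hz : z ∈ ⁅A, B⁆) (hz1 : z ≠ 1) : ∃ d ∈ D, z * d ≠ d * z := by
  by_contra hcon
  push Not at hcon
  obtain ⟨a, ha, ha1⟩ := exists_ne_one_of_ne_bot (ro_ne_bot hAD)
  have h1 : ∀ x ∈ A ⊔ D, z * x = x * z := by
    apply sup_induct
    · exact fun a ha => rc_comm_left h hz ha
    · exact hcon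
    · intro x y hx hy
      rw [← mul_assoc, hx, mul_assoc, hy, mul_assoc]
  apply no_central_mul hS hA hD hAD h1 hz1 ha ha1
  have h2 : z * a ∈ A ⊔ ⁅A, B⁆ := mul_mem (Subgroup.mem_sup_right hz) (Subgroup.mem_sup_left ha)
  have h3 : z * a ≠ 1 := by
    intro h3
    apply line_not_mem hS hA h hD hAD ha ha1
    rw [← inv_inv z, inv_mul_eq_one] at h3
    rw [← h3]; exact inv_mem hz
  rcases line_cover hS hA h h2 with h4 | ⟨b, hb, h4⟩
  · exfalso
    apply line_not_mem hS hA h hD hAD ha ha1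
    have := mul_mem (inv_mem hz) h4
    rwa [inv_mul_cancel_left] at this
  · exact ⟨h3, _, hS.conj_mem A hA b, h4⟩

theorem line_beta {z d : G} (hz : z ∈ ⁅A, B⁆) (hd : d ∈ D) (hd1 : d ≠ 1) (hzd : z * d = d * z) :
    z = 1 := by
  by_contra hz1
  obtain ⟨d', hd', hne⟩ := line_alpha hS hA h hD hAD hz hz1
  apply hne
  have h1 : A ≠ conjBy A d := by
    intro h1
    exact hd1 (rankOne_left_normalizer (rankOne_symm hAD) hd (mem_normalizer_iff_conjBy.2 h1.symm))
  have h2 := (ro_pair_of_mem hAD mem_unip_self (unip_conj (Subgroup.mem_sup_right hd)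
    mem_unip_self) h1).2
  have h3 : d' ∈ A ⊔ conjBy A d := by rw [h2]; exact Subgroup.mem_sup_right hd'
  revert h3
  apply sup_induct (p := fun x => z * x = x * z)
  · exact fun a ha => rc_comm_left h hz ha
  · intro x hx
    rw [mem_conjBy] at hx
    have h4 := rc_comm_left h hz hx
    have e : x = d * (d⁻¹ * x * d) * d⁻¹ := by group
    have h5 : z * d⁻¹ = d⁻¹ * z := by
      rw [mul_inv_eq_iff_eq_mul, mul_assoc, hzd, inv_mul_cancel_left]
    rw [e, ← mul_assoc, ← mul_assoc, hzd, mul_assoc d, h4]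
    have : d * (d⁻¹ * x * d * z) * d⁻¹ = d * (d⁻¹ * x * d) * (z * d⁻¹) := by group
    rw [this, h5]; group
  · intro x y hx hy
    rw [← mul_assoc, hx, mul_assoc, hy, mul_assoc]

theorem line_mem_C {E : Subgroup G} (hE : E ∈ S) (hEC : E ≤ ⁅A, B⁆) : E = ⁅A, B⁆ := by
  obtain ⟨e₀, he₀, he₀1⟩ := exists_ne_one_of_ne_bot (hS.ne_bot E hE)
  obtain ⟨d₀, hd₀, hd₀1⟩ := exists_ne_one_of_ne_bot (ro_ne_bot' hAD)
  rcases hS.pair _ h.1 D hD with h1 | h1 | h1
  · exfalso
    obtain ⟨d, hd, hne⟩ := line_alpha hS hA h hD hAD (hEC he₀) he₀1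
    exact hne (comm_bot_iff.1 h1 _ (hEC he₀) d hd)
  · exact (ti hS hD h1 hE (hEC he₀) he₀1 he₀).symm
  · rcases hS.pair E hE D hD with h2 | h2 | h2
    · exfalso
      obtain ⟨d, hd, hne⟩ := line_alpha hS hA h hD hAD (hEC he₀) he₀1
      exact hne (comm_bot_iff.1 h2 _ he₀ d hd)
    · exact (ro_quad_absurd h2 (S_comm hS hD) he₀ he₀1 fun b hb b' hb' =>
        rc_comm_right h1 (mem_comm _ b (hEC he₀) hb) hb').elim
    · apply le_antisymm hEC
      intro c hc
      have h3 : ⁅E, D⁆ = ⁅⁅A, B⁆, D⁆ := by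
        rw [← h2.2.2.1 e₀ he₀ he₀1, ← h1.2.2.1 e₀ (hEC he₀) he₀1]
      have h4 : c * d₀ * c⁻¹ * d₀⁻¹ ∈ ⁅E, D⁆ := by rw [h3]; exact mem_comm c d₀ hc hd₀
      obtain ⟨e, he, he'⟩ := rc_surj_right h2 hd₀ hd₀1 h4
      have h5 : e * d₀ * e⁻¹ = c * d₀ * c⁻¹ := mul_right_cancel he'
      have h6 : (c⁻¹ * e) * d₀ = d₀ * (c⁻¹ * e) := by
        have : e * d₀ = c * d₀ * c⁻¹ * e := by rw [← h5]; group
        rw [mul_assoc, this]; group
      have h7 := line_beta hS hA h hD hAD (mul_mem (inv_mem hc) (hEC he)) hd₀ hd₀1 h6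
      rw [inv_mul_eq_one] at h7
      rw [h7]; exact he

theorem line_members {E : Subgroup G} (hE : E ∈ S) (hEC : E ≤ A ⊔ ⁅A, B⁆) :
    E = ⁅A, B⁆ ∨ ∃ b ∈ B, E = conjBy A b := by
  by_cases h1 : ∀ e ∈ E, e ∈ ⁅A, B⁆
  · exact Or.inl (line_mem_C hS hA h hD hAD hE h1)
  · right
    push Not at h1
    obtain ⟨e, he, he'⟩ := h1
    rcases line_cover hS hA h (hEC he) with h2 | ⟨b, hb, h2⟩
    · exact absurd h2 he'
    · refine ⟨b, hb, ?_⟩
      have he1 : e ≠ 1 := by rintro rfl; exact he' (one_mem _)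
      exact (ti hS (hS.conj_mem D hD b) (ro_conj hAD b) hE h2 he1 he).symm

theorem line_membersIn : membersIn S (A ⊔ ⁅A, B⁆) =
    (fun b : G => conjBy A b) '' (B : Set G) ∪ {⁅A, B⁆} := by
  ext E
  constructor
  · rintro ⟨hE, hE'⟩
    rcases line_members hS hA h hD hAD hE hE' with h1 | ⟨b, hb, h1⟩
    · exact Or.inr h1
    · exact Or.inl ⟨b, hb, h1.symm⟩
  · rintro (⟨b, hb, rfl⟩ | h1)
    · refine ⟨hS.conj_mem A hA b, ?_⟩
      intro x hx
      rw [mem_conjBy] at hx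
      have e : x = (b * (b⁻¹ * x * b) * b⁻¹ * (b⁻¹ * x * b)⁻¹) * (b⁻¹ * x * b) := by group
      rw [e]
      refine mul_mem (Subgroup.mem_sup_right ?_) (Subgroup.mem_sup_left hx)
      have := inv_mem (mem_comm _ b hx hb)
      convert this using 1
      group
    · rw [Set.mem_singleton_iff] at h1
      rw [h1]
      exact ⟨h.1, le_sup_right⟩

theorem line_partition : IsSubgroupPartition (A ⊔ ⁅A, B⁆) (membersIn S (A ⊔ ⁅A, B⁆)) := by
  refine ⟨fun C hC => hC.2, ?_, ?_⟩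
  · intro x hx _
    rw [line_membersIn hS hA h hD hAD]
    rcases line_cover hS hA h hx with h1 | ⟨b, hb, h1⟩
    · exact ⟨_, Or.inr rfl, h1⟩
    · exact ⟨_, Or.inl ⟨b, hb, rfl⟩, h1⟩
  · intro C hC D' hD' hne
    rw [eq_bot_iff]
    rintro x ⟨hx, hx'⟩
    by_contra hx1
    apply hne
    rw [line_membersIn hS hA h hD hAD] at hC hD'
    rcases hC with ⟨b, hb, rfl⟩ | hC
    · rcases hD' with ⟨b', hb', rfl⟩ | hD'
      · exact line_inf hS hA h hD hAD hb hb' hx1 hx hx'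
      · rw [Set.mem_singleton_iff] at hD'
        rw [hD'] at hx'
        exact absurd hx' (line_inf' hS hA h hD hAD hb hx1 hx)
    · rw [Set.mem_singleton_iff] at hC
      rcases hD' with ⟨b', hb', rfl⟩ | hD'
      · rw [hC] at hx
        exact absurd hx (line_inf' hS hA h hD hAD hb' hx1 hx')
      · rw [Set.mem_singleton_iff] at hD'
        rw [hC, hD']

theorem line_partner : A ∈ linePartners S ⁅A, B⁆ := by
  refine ⟨⟨hA, ?_, ?_⟩, ?_⟩
  · intro h1
    obtain ⟨a, ha, ha1⟩ := exists_ne_one_of_ne_bot (ro_ne_bot hAD)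
    exact line_not_mem hS hA h hD hAD ha ha1 (h1 ▸ ha)
  · rw [comm_bot_iff]
    exact fun c hc a ha => rc_comm_left h hc ha
  · rw [sup_comm]
    exact line_partition hS hA h hD hAD

end line

end Cfsg.Agent.H3
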