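import Mathlib
import Cfsg.Prelude.Def_RootSubgroups
import Cfsg.Agent.H3.RootB

/-!
Abstract root subgroups: the configuration `[A,B], [B,C] ∈ Σ`, `[A,C] = 1`.
-/

set_option autoImplicit false
open Cfsg Cfsg.Agent.H28

namespace Cfsg.Agent.H3

variable {G : Type*} [Group G] {A B C D : Subgroup G} {S : Set (Subgroup G)}

/-- elementwise commuting subgroups -/
def Cm (A B : Subgroup G) : Prop := ∀ a ∈ A, ∀ b ∈ B, a * b = b * a

theorem cm_iff : Cm A B ↔ ⁅A, B⁆ = ⊥ := comm_bot_iff.symm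

theorem Cm.symm (h : Cm A B) : Cm B A := fun a ha b hb => (h b hb a ha).symm

theorem Cm.mono (h : Cm A B) {A' B' : Subgroup G} (hA : A' ≤ A) (hB : B' ≤ B) : Cm A' B' :=
  fun a ha b hb => h a (hA ha) b (hB hb)

theorem Cm.sup_right (h : Cm A B) (h' : Cm A C) : Cm A (B ⊔ C) := by
  intro a ha
  apply sup_induct
  · exact h a ha
  · exact h' a ha
  · intro x y hx hy
    rw [← mul_assoc, hx, mul_assoc, hy, mul_assoc]

theorem Cm.sup_left (h : Cm A C) (h' : Cm B C) : Cm (A ⊔ B) C := (h.symm.sup_right h'.symm).symm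

theorem Cm.conj (h : Cm A B) (g : G) : Cm (conjBy A g) (conjBy B g) := by
  rw [cm_iff] at h ⊢
  exact conjBy_comm_bot.2 h

theorem cm_self_comm (h : Cm A A) : IsMulCommutative A :=
  ⟨⟨fun a b => Subtype.ext (h a a.2 b b.2)⟩⟩

/-- conjugating is trivial on commuting subgroups -/
theorem Cm.conj_eq (h : Cm A B) {b : G} (hb : b ∈ B) : conjBy A b = A := by
  ext x
  rw [mem_conjBy]
  constructor
  · intro hx
    have h1 := h _ hx b hb
    have h2 : b⁻¹ * x * b = x := by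
      have h3 : b * (b⁻¹ * x * b) = b * x * 1 → True := fun _ => trivial
      have h4 : x * b = b⁻¹ * x * b * b := by rw [h1]; group
      exact (mul_right_cancel h4).symm
    rwa [h2] at hx
  · intro hx
    rw [mul_assoc, h x hx b hb, inv_mul_cancel_left]; exact hx

theorem comm_sup_le {H₁ H₂ K W : Subgroup G} (hW : ∀ x ∈ H₁ ⊔ H₂, conjBy W x = W)
    (h1 : ⁅H₁, K⁆ ≤ W) (h2 : ⁅H₂, K⁆ ≤ W) : ⁅H₁ ⊔ H₂, K⁆ ≤ W := by
  have key : ∀ x ∈ H₁ ⊔ H₂, (conjBy W x = W) ∧ ∀ k ∈ K, x * k * x⁻¹ * k⁻¹ ∈ W := by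
    apply sup_induct
    · exact fun x hx => ⟨hW x (Subgroup.mem_sup_left hx), fun k hk => h1 (mem_comm x k hx hk)⟩
    · exact fun x hx => ⟨hW x (Subgroup.mem_sup_right hx), fun k hk => h2 (mem_comm x k hx hk)⟩
    · rintro x y ⟨hx, hx'⟩ ⟨hy, hy'⟩
      refine ⟨by rw [← conjBy_conjBy, hy, hx], fun k hk => ?_⟩
      have e : x * y * k * (x * y)⁻¹ * k⁻¹ = (x * (y * k * y⁻¹ * k⁻¹) * x⁻¹) * (x * k * x⁻¹ * k⁻¹) := by
        group
      rw [e]
      refine mul_mem ?_ (hx' k hk)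
      have := (conjBy_normal_iff (A := W) (g := x)).2 (hy' k hk)
      rwa [hx] at this
  rw [Subgroup.commutator_le]
  exact fun x hx k hk => (key x hx).2 k hk

theorem comm_sup_le' {H₁ H₂ K W : Subgroup G} (hW : ∀ x ∈ H₁ ⊔ H₂, conjBy W x = W)
    (h1 : ⁅K, H₁⁆ ≤ W) (h2 : ⁅K, H₂⁆ ≤ W) : ⁅K, H₁ ⊔ H₂⁆ ≤ W := by
  rw [Subgroup.commutator_comm] at h1 h2 ⊢
  exact comm_sup_le hW h1 h2

theorem norm_sup {H₁ H₂ W : Subgroup G} (h1 : ∀ x ∈ H₁, conjBy W x = W)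
    (h2 : ∀ x ∈ H₂, conjBy W x = W) : ∀ x ∈ H₁ ⊔ H₂, conjBy W x = W := by
  apply sup_induct h1 h2
  intro x y hx hy
  rw [← conjBy_conjBy, hy, hx]

/-- `x` normalizes `W` if `x`, `x⁻¹` conjugate `W` into itself -/
theorem norm_of_le {H W : Subgroup G} (h : ∀ x ∈ H, conjBy W x ≤ W) : ∀ x ∈ H, conjBy W x = W := by
  intro x hx
  apply le_antisymm (h x hx)
  have := conjBy_mono (h x⁻¹ (inv_mem hx)) x
  rwa [conjBy_conjBy, mul_inv_cancel, conjBy_one] at this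

section triple

variable (hS : IsRootSubgroupSet S) (hA : A ∈ S) (hB : B ∈ S) (hC : C ∈ S)
  (hAB : RootCommutatorCase S A B) (hCB : RootCommutatorCase S C B) (hAC : Cm A C)

/-- `[A, b] ≤ A A^b` -/
theorem comm_le_sup_conj (hAB : RootCommutatorCase S A B) {b : G} (hb : b ∈ B) (hb1 : b ≠ 1) :
    ⁅A, B⁆ ≤ A ⊔ conjBy A b⁻¹ := by
  intro c hc
  obtain ⟨a, ha, hac⟩ := rc_surj_right hAB (inv_mem hb) (inv_ne_one.2 hb1) hc
  rw [← hac]
  have e : a * b⁻¹ * a⁻¹ * b⁻¹⁻¹ = a * (b⁻¹ * a⁻¹ * b⁻¹⁻¹) := by group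
  rw [e]
  exact mul_mem (Subgroup.mem_sup_left ha) (Subgroup.mem_sup_right (conjBy_normal_iff.2 (inv_mem ha)))

theorem conj_le_sup_comm {b : G} (hb : b ∈ B) : conjBy A b⁻¹ ≤ A ⊔ ⁅A, B⁆ := by
  intro x hx
  rw [mem_conjBy, inv_inv] at hx
  have e : x = (b⁻¹ * (b * x * b⁻¹) * b * (b * x * b⁻¹)⁻¹) * (b * x * b⁻¹) := by group
  rw [e]
  refine mul_mem (Subgroup.mem_sup_right ?_) (Subgroup.mem_sup_left hx)
  have := inv_mem (mem_comm _ _ hx (inv_mem hb))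
  convert this using 1
  group

theorem sup_conj_eq (hAB : RootCommutatorCase S A B) {b : G} (hb : b ∈ B) (hb1 : b ≠ 1) :
    A ⊔ conjBy A b⁻¹ = A ⊔ ⁅A, B⁆ :=
  le_antisymm (sup_le le_sup_left (conj_le_sup_comm hb)) (sup_le le_sup_left
    (comm_le_sup_conj hAB hb hb1))

/-- `A, C^b` is not a rank one pair -/
theorem triple_not_ro (hS : IsRootSubgroupSet S) (hA : A ∈ S) (hC : C ∈ S)
    (hAB : RootCommutatorCase S A B) (hCB : RootCommutatorCase S C B) (hAC : Cm A C)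
    {b : G} (hb : b ∈ B) (hb1 : b ≠ 1) : ¬ IsRankOnePair A (conjBy C b⁻¹) := by
  intro h
  have hC' := hS.conj_mem C hC b⁻¹
  obtain ⟨l, hl, hl1⟩ := exists_ne_one_of_ne_bot (rc_ne hS hCB)
  obtain ⟨c, hc, hcl⟩ := rc_surj_right hCB (inv_mem hb) (inv_ne_one.2 hb1) hl
  -- `C` centralizes `A`, `C^b`
  have h1 : Cm C (conjBy C b⁻¹) := by
    have h2 : Cm C (C ⊔ ⁅C, B⁆) :=
      Cm.sup_right (fun a ha b hb => S_comm hS hC a ha b hb)
        (fun a ha c hc => (rc_comm_left hCB hc ha).symm)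
    exact h2.mono le_rfl (conj_le_sup_comm hb)
  have hcc : c ≠ 1 := by
    rintro rfl; apply hl1; rw [← hcl]; group
  have h3 := no_central_mul hS hC' hA (rankOne_symm h) (z := c) (fun x hx =>
    (h1.sup_right hAC.symm) c hc x hx) hcc (a := b⁻¹ * c⁻¹ * b⁻¹⁻¹)
    (conjBy_normal_iff.2 (inv_mem hc)) (by
      intro h4; apply hcc
      have : c = (b * (b⁻¹ * c⁻¹ * b⁻¹⁻¹) * b⁻¹)⁻¹ := by group
      rw [this, h4]; group)
  apply h3
  have e : c * (b⁻¹ * c⁻¹ * b⁻¹⁻¹) = l := by rw [← hcl]; group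
  rw [e]
  exact ⟨hl1, _, hCB.1, hl⟩

theorem conjBy_le_of_comm {K H W : Subgroup G} (h : ⁅K, H⁆ ≤ W) {k : G} (hk : k ∈ K) :
    conjBy H k ≤ H ⊔ W := by
  intro x hx
  rw [mem_conjBy] at hx
  have e : x = (k * (k⁻¹ * x * k) * k⁻¹ * (k⁻¹ * x * k)⁻¹) * (k⁻¹ * x * k) := by group
  rw [e]
  exact mul_mem (Subgroup.mem_sup_right (h (mem_comm _ _ hk hx))) (Subgroup.mem_sup_left hx)

theorem Cm.comm_right {H K₁ K₂ : Subgroup G} (h1 : Cm H K₁) (h2 : Cm H K₂) : Cm H ⁅K₁, K₂⁆ := by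
  have h3 : Cm H (K₁ ⊔ K₂) := h1.sup_right h2
  refine h3.mono le_rfl ?_
  rw [Subgroup.commutator_le]
  intro a ha b hb
  exact mul_mem (mul_mem (mul_mem (Subgroup.mem_sup_left ha) (Subgroup.mem_sup_right hb))
    (inv_mem (Subgroup.mem_sup_left ha))) (inv_mem (Subgroup.mem_sup_right hb))

/-- all the facts on the triple `A, B, C` -/
theorem triple_facts (hS : IsRootSubgroupSet S) (hA : A ∈ S) (hC : C ∈ S)
    (hAB : RootCommutatorCase S A B) (hCB : RootCommutatorCase S C B) (hAC : Cm A C)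
    {b : G} (hb : b ∈ B) (hb1 : b ≠ 1) :
    Cm (A ⊔ conjBy C b⁻¹) (conjBy A b⁻¹ ⊔ C) ∧
    (Cm A (conjBy C b⁻¹) ↔ Cm (conjBy A b⁻¹) C) ∧
    (Cm A (conjBy C b⁻¹) ∨ RootCommutatorCase S A (conjBy C b⁻¹)) ∧
    (Cm (conjBy A b⁻¹) C ∨ RootCommutatorCase S (conjBy A b⁻¹) C) ∧
    ⁅A, conjBy C b⁻¹⁆ = ⁅A, ⁅C, B⁆⁆ ∧ ⁅conjBy A b⁻¹, C⁆ = ⁅⁅A, B⁆, C⁆ ∧
    Cm ⁅A, conjBy C b⁻¹⁆ ((A ⊔ conjBy C b⁻¹) ⊔ (conjBy A b⁻¹ ⊔ C)) ∧
    Cm ⁅conjBy A b⁻¹, C⁆ ((A ⊔ conjBy C b⁻¹) ⊔ (conjBy A b⁻¹ ⊔ C)) := by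
  have hA' := hS.conj_mem A hA b⁻¹
  have hC' := hS.conj_mem C hC b⁻¹
  have cAA : Cm A A := S_comm hS hA
  have cCC : Cm C C := S_comm hS hC
  have cAM : Cm A ⁅A, B⁆ := fun a ha c hc => (rc_comm_left hAB hc ha).symm
  have cCL : Cm C ⁅C, B⁆ := fun a ha c hc => (rc_comm_left hCB hc ha).symm
  have cAA' : Cm A (conjBy A b⁻¹) := (cAA.sup_right cAM).mono le_rfl (conj_le_sup_comm hb)
  have cCC' : Cm C (conjBy C b⁻¹) := (cCC.sup_right cCL).mono le_rfl (conj_le_sup_comm hb)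
  have cA'C' : Cm (conjBy A b⁻¹) (conjBy C b⁻¹) := hAC.conj _
  have cXY : Cm (A ⊔ conjBy C b⁻¹) (conjBy A b⁻¹ ⊔ C) :=
    Cm.sup_left (cAA'.sup_right hAC) (cA'C'.symm.sup_right cCC'.symm)
  have e1 : Cm A (conjBy C b⁻¹) ↔ Cm A ⁅C, B⁆ := by
    constructor
    · intro h; exact (hAC.sup_right h).mono le_rfl (comm_le_sup_conj hCB hb hb1)
    · intro h; exact (hAC.sup_right h).mono le_rfl (conj_le_sup_comm hb)
  have e2 : Cm (conjBy A b⁻¹) C ↔ Cm ⁅A, B⁆ C := by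
    constructor
    · intro h; exact (hAC.sup_left h).mono (comm_le_sup_conj hAB hb hb1) le_rfl
    · intro h; exact (hAC.sup_left h).mono (conj_le_sup_comm hb) le_rfl
  have e3 : Cm A ⁅C, B⁆ ↔ Cm ⁅A, B⁆ C := by
    have hAC' := cm_iff.1 hAC
    rw [cm_iff, cm_iff]
    constructor
    · intro h
      apply Subgroup.commutator_commutator_eq_bot_of_rotate
      · rw [Subgroup.commutator_comm, Subgroup.commutator_comm B C]; exact h
      · rw [Subgroup.commutator_comm C A, hAC', Subgroup.commutator_bot_left]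
    · intro h
      rw [Subgroup.commutator_comm]
      apply Subgroup.commutator_commutator_eq_bot_of_rotate
      · rw [Subgroup.commutator_comm B A]; exact h
      · rw [hAC', Subgroup.commutator_bot_left]
  have tri1 : Cm A (conjBy C b⁻¹) ∨ RootCommutatorCase S A (conjBy C b⁻¹) := by
    rcases hS.pair A hA _ hC' with h | h | h
    · exact Or.inl (cm_iff.2 h)
    · exact absurd h (triple_not_ro hS hA hC hAB hCB hAC hb hb1)
    · exact Or.inr h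
  have tri2 : Cm (conjBy A b⁻¹) C ∨ RootCommutatorCase S (conjBy A b⁻¹) C := by
    rcases hS.pair _ hA' C hC with h | h | h
    · exact Or.inl (cm_iff.2 h)
    · exact absurd (rankOne_symm h) (triple_not_ro hS hC hA hCB hAB hAC.symm hb hb1)
    · exact Or.inr h
  have f1 : Cm ⁅A, conjBy C b⁻¹⁆ ((A ⊔ conjBy C b⁻¹) ⊔ (conjBy A b⁻¹ ⊔ C)) := by
    rcases tri1 with h | h
    · rw [cm_iff.1 h]
      intro a ha x _
      rw [Subgroup.mem_bot.1 ha, one_mul, mul_one]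
    · refine Cm.sup_right h.2.1 (cXY.mono ?_ le_rfl)
      rw [Subgroup.commutator_le]
      intro a ha c hc
      exact mul_mem (mul_mem (mul_mem (Subgroup.mem_sup_left ha) (Subgroup.mem_sup_right hc))
        (inv_mem (Subgroup.mem_sup_left ha))) (inv_mem (Subgroup.mem_sup_right hc))
  have f2 : Cm ⁅conjBy A b⁻¹, C⁆ ((A ⊔ conjBy C b⁻¹) ⊔ (conjBy A b⁻¹ ⊔ C)) := by
    rcases tri2 with h | h
    · rw [cm_iff.1 h]
      intro a ha x _
      rw [Subgroup.mem_bot.1 ha, one_mul, mul_one]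
    · refine Cm.sup_right (cXY.symm.mono ?_ le_rfl) h.2.1
      rw [Subgroup.commutator_le]
      intro a ha c hc
      exact mul_mem (mul_mem (mul_mem (Subgroup.mem_sup_left ha) (Subgroup.mem_sup_right hc))
        (inv_mem (Subgroup.mem_sup_left ha))) (inv_mem (Subgroup.mem_sup_right hc))
  have cT : ∀ x ∈ C ⊔ conjBy C b⁻¹, conjBy ⁅A, conjBy C b⁻¹⁆ x = ⁅A, conjBy C b⁻¹⁆ := by
    intro x hx
    have : C ⊔ conjBy C b⁻¹ ≤ (A ⊔ conjBy C b⁻¹) ⊔ (conjBy A b⁻¹ ⊔ C) :=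
      sup_le (le_sup_right.trans le_sup_right) (le_sup_right.trans le_sup_left)
    exact f1.conj_eq (this hx)
  have cT' : ∀ x ∈ A ⊔ conjBy A b⁻¹, conjBy ⁅conjBy A b⁻¹, C⁆ x = ⁅conjBy A b⁻¹, C⁆ := by
    intro x hx
    have : A ⊔ conjBy A b⁻¹ ≤ (A ⊔ conjBy C b⁻¹) ⊔ (conjBy A b⁻¹ ⊔ C) :=
      sup_le (le_sup_left.trans le_sup_left) (le_sup_left.trans le_sup_right)
    exact f2.conj_eq (this hx)
  have g1 : ⁅A, conjBy C b⁻¹⁆ = ⁅A, ⁅C, B⁆⁆ := by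
    apply le_antisymm
    · refine (Subgroup.commutator_mono le_rfl (conj_le_sup_comm hb)).trans ?_
      apply comm_sup_le'
      · apply norm_sup
        · exact fun x hx => (Cm.comm_right hAC.symm cCL).symm.conj_eq hx
        · exact fun x hx => conjBy_comm_right hx
      · rw [cm_iff.1 hAC]; exact bot_le
      · exact le_rfl
    · refine (Subgroup.commutator_mono le_rfl (comm_le_sup_conj hCB hb hb1)).trans ?_
      apply comm_sup_le' cT
      · rw [cm_iff.1 hAC]; exact bot_le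
      · exact le_rfl
  have g2 : ⁅conjBy A b⁻¹, C⁆ = ⁅⁅A, B⁆, C⁆ := by
    apply le_antisymm
    · refine (Subgroup.commutator_mono (conj_le_sup_comm hb) le_rfl).trans ?_
      apply comm_sup_le
      · apply norm_sup
        · exact fun x hx => (Cm.comm_right cAM hAC).symm.conj_eq hx
        · exact fun x hx => conjBy_comm_left hx
      · rw [cm_iff.1 hAC]; exact bot_le
      · exact le_rfl
    · refine (Subgroup.commutator_mono (comm_le_sup_conj hAB hb hb1) le_rfl).trans ?_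
      apply comm_sup_le cT'
      · rw [cm_iff.1 hAC]; exact bot_le
      · exact le_rfl
  exact ⟨cXY, by rw [e1, e2, e3], tri1, tri2, g1, g2, f1, f2⟩

theorem triple_sup (hAB : RootCommutatorCase S A B) (hCB : RootCommutatorCase S C B)
    {b : G} (hb : b ∈ B) (hb1 : b ≠ 1) :
    (A ⊔ conjBy C b⁻¹) ⊔ (conjBy A b⁻¹ ⊔ C) = (A ⊔ ⁅A, B⁆) ⊔ (C ⊔ ⁅C, B⁆) := by
  rw [← sup_conj_eq hAB hb hb1, ← sup_conj_eq hCB hb hb1]
  simp only [sup_assoc, sup_comm, sup_left_comm]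

/-- `⟨A, B, C⟩` is nilpotent -/
theorem triple_nilpotent (hS : IsRootSubgroupSet S) (hA : A ∈ S) (hB : B ∈ S) (hC : C ∈ S)
    (hAB : RootCommutatorCase S A B) (hCB : RootCommutatorCase S C B) (hAC : Cm A C) :
    Group.IsNilpotent ↥(A ⊔ B ⊔ C) := by
  obtain ⟨b, hb, hb1⟩ := exists_ne_one_of_ne_bot (hS.ne_bot B hB)
  obtain ⟨cXY, hiff, tri1, tri2, g1, g2, f1, f2⟩ := triple_facts hS hA hC hAB hCB hAC hb hb1
  rw [triple_sup hAB hCB hb hb1] at f1 f2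
  rw [g1] at f1
  rw [g2] at f2
  set M := ⁅A, B⁆ with hM
  set L := ⁅C, B⁆ with hL
  set T := ⁅A, L⁆ with hT
  set T' := ⁅M, C⁆ with hT'
  set P := (A ⊔ M) ⊔ (C ⊔ L) with hP
  have cAA : Cm A A := S_comm hS hA
  have cBB : Cm B B := S_comm hS hB
  have cCC : Cm C C := S_comm hS hC
  have cAM : Cm A M := fun a ha c hc => (rc_comm_left hAB hc ha).symm
  have cCL : Cm C L := fun a ha c hc => (rc_comm_left hCB hc ha).symm
  have cBM : Cm B M := fun a ha c hc => (rc_comm_right hAB hc ha).symm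
  have cBL : Cm B L := fun a ha c hc => (rc_comm_right hCB hc ha).symm
  have cMM : Cm M M := S_comm hS hAB.1
  have cLL : Cm L L := S_comm hS hCB.1
  have AP : A ≤ P := le_sup_left.trans le_sup_left
  have MP : M ≤ P := le_sup_right.trans le_sup_left
  have CP : C ≤ P := le_sup_left.trans le_sup_right
  have LP : L ≤ P := le_sup_right.trans le_sup_right
  set Z := ⁅M, L⁆ with hZ
  have cTT' : Cm (T ⊔ T') P := f1.sup_left f2
  -- `Z ≤ T ⊔ T'`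
  have hZle : Z ≤ T ⊔ T' := by
    have h1 : M ≤ A ⊔ conjBy A b⁻¹ := comm_le_sup_conj hAB hb hb1
    have h2 : L ≤ C ⊔ conjBy C b⁻¹ := comm_le_sup_conj hCB hb hb1
    have k1 : A ⊔ conjBy A b⁻¹ = A ⊔ M := sup_conj_eq hAB hb hb1
    have k2 : C ⊔ conjBy C b⁻¹ = C ⊔ L := sup_conj_eq hCB hb hb1
    refine (Subgroup.commutator_mono h1 h2).trans ?_
    apply comm_sup_le
    · rw [k1]; exact fun x hx => cTT'.conj_eq ((le_sup_left : A ⊔ M ≤ P) hx)
    · apply comm_sup_le'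
      · rw [k2]; exact fun x hx => cTT'.conj_eq ((le_sup_right : C ⊔ L ≤ P) hx)
      · rw [cm_iff.1 hAC]; exact bot_le
      · rw [g1]; exact le_sup_left
    · apply comm_sup_le'
      · rw [k2]; exact fun x hx => cTT'.conj_eq ((le_sup_right : C ⊔ L ≤ P) hx)
      · rw [g2]; exact le_sup_right
      · rw [cm_iff.1 (hAC.conj b⁻¹)]; exact bot_le
  have cZP : Cm Z P := cTT'.mono hZle le_rfl
  have cZB : Cm Z B := (Cm.comm_right cBM cBL).symm
  have cZR : Cm Z (A ⊔ B ⊔ C) :=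
    ((cZP.mono le_rfl AP).sup_right cZB).sup_right (cZP.mono le_rfl CP)
  -- a general closure argument
  have hgen : ∀ β ∈ B, ∀ U V : Subgroup G, U ≤ P → V ≤ P →
      (∀ u ∈ U, ∀ v ∈ V, β * (u * v * u⁻¹ * v⁻¹) * β⁻¹ * (u * v * u⁻¹ * v⁻¹)⁻¹ ∈ Z) →
      ∀ t ∈ ⁅U, V⁆, β * t * β⁻¹ * t⁻¹ ∈ Z := by
    intro β hβ U V hU hV hUV
    let K : Subgroup G := {
      carrier := {t | t ∈ P ∧ β * t * β⁻¹ * t⁻¹ ∈ Z}
      one_mem' := ⟨P.one_mem, by simp [Z.one_mem]⟩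
      mul_mem' := by
        rintro t u ⟨htP, ht⟩ ⟨huP, hu⟩
        refine ⟨mul_mem htP huP, ?_⟩
        have e : β * (t * u) * β⁻¹ * (t * u)⁻¹ =
          (β * t * β⁻¹ * t⁻¹) * (t * (β * u * β⁻¹ * u⁻¹) * t⁻¹) := by group
        rw [e, ← cZP _ hu t htP, mul_inv_cancel_right]
        exact mul_mem ht hu
      inv_mem' := by
        rintro t ⟨htP, ht⟩
        refine ⟨inv_mem htP, ?_⟩
        have e : β * t⁻¹ * β⁻¹ * t⁻¹⁻¹ = t⁻¹ * ((β * t * β⁻¹ * t⁻¹)⁻¹ * t) := by group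
        rw [e, cZP _ (inv_mem ht) t htP, inv_mul_cancel_left]
        exact inv_mem ht }
    have hle : ⁅U, V⁆ ≤ K := by
      rw [Subgroup.commutator_le]
      intro u hu v hv
      exact ⟨mul_mem (mul_mem (mul_mem (hU hu) (hV hv)) (inv_mem (hU hu))) (inv_mem (hV hv)),
        hUV u hu v hv⟩
    exact fun t ht => (hle ht).2
  -- `[B, T] ≤ Z`
  have hBT : ⁅B, T⁆ ≤ Z := by
    rw [Subgroup.commutator_le]
    intro β hβ t ht
    refine hgen β hβ A L AP LP ?_ t ht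
    intro a ha l hl
    have hm : a⁻¹ * β * a * β⁻¹ ∈ M := by
      have := mem_comm a⁻¹ β (inv_mem ha) hβ
      rwa [inv_inv] at this
    set m := a⁻¹ * β * a * β⁻¹ with hm'
    have e1 : β * a = a * m * β := by rw [hm']; group
    have e2 : β * l = l * β := cBL β hβ l hl
    have hz := mem_comm m l hm hl
    have e3 : β * (a * l * a⁻¹ * l⁻¹) * β⁻¹ = (m * l * m⁻¹ * l⁻¹) * (a * l * a⁻¹ * l⁻¹) := by
      have k1 : β * a * β⁻¹ = a * m := by rw [e1, mul_inv_cancel_right]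
      have k2 : β * l * β⁻¹ = l := by rw [e2, mul_inv_cancel_right]
      have k3 : β * (a * l * a⁻¹ * l⁻¹) * β⁻¹ = (β * a * β⁻¹) * (β * l * β⁻¹) * (β * a * β⁻¹)⁻¹ *
        (β * l * β⁻¹)⁻¹ := by group
      rw [k3, k1, k2]
      have k4 : a * m * l * (a * m)⁻¹ * l⁻¹ = (a * (m * l * m⁻¹ * l⁻¹)) * l * a⁻¹ * l⁻¹ := by group
      rw [k4, ← cZP _ hz a (AP ha)]; group
    rw [e3, mul_inv_cancel_right]
    exact hz
  have hBT' : ⁅B, T'⁆ ≤ Z := by
    rw [Subgroup.commutator_le]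
    intro β hβ t ht
    refine hgen β hβ M C MP CP ?_ t ht
    intro m hm c hc
    have hl : c⁻¹ * β * c * β⁻¹ ∈ L := by
      have := mem_comm c⁻¹ β (inv_mem hc) hβ
      rwa [inv_inv] at this
    set l := c⁻¹ * β * c * β⁻¹ with hl'
    have hz := mem_comm m l hm hl
    have e3 : β * (m * c * m⁻¹ * c⁻¹) * β⁻¹ = (m * c * m⁻¹ * c⁻¹) * (m * l * m⁻¹ * l⁻¹) := by
      have k1 : β * c * β⁻¹ = c * l := by rw [hl']; group
      have k2 : β * m * β⁻¹ = m := by rw [cBM β hβ m hm, mul_inv_cancel_right]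
      have k3 : β * (m * c * m⁻¹ * c⁻¹) * β⁻¹ = (β * m * β⁻¹) * (β * c * β⁻¹) * (β * m * β⁻¹)⁻¹ *
        (β * c * β⁻¹)⁻¹ := by group
      rw [k3, k1, k2]
      have k4 : m * (c * l) * m⁻¹ * (c * l)⁻¹ = m * c * m⁻¹ * ((m * l * m⁻¹ * l⁻¹) * c⁻¹) := by group
      rw [k4, cZP _ hz _ (CP (inv_mem hc))]; group
    have hmc : m * c * m⁻¹ * c⁻¹ ∈ P :=
      mul_mem (mul_mem (mul_mem (MP hm) (CP hc)) (inv_mem (MP hm))) (inv_mem (CP hc))
    rw [e3, ← cZP _ hz _ hmc, mul_inv_cancel_right]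
    exact hz
  -- normalizers
  set W₂ := T ⊔ T' with hW₂
  have hBW₂ : ⁅B, W₂⁆ ≤ Z := by
    apply comm_sup_le' _ hBT hBT'
    intro x hx
    have hx' : x ∈ P := by
      have hTP : T ⊔ T' ≤ P := by
        refine sup_le ?_ ?_
        · rw [hT, Subgroup.commutator_le]
          exact fun u hu v hv => mul_mem (mul_mem (mul_mem (AP hu) (LP hv)) (inv_mem (AP hu)))
            (inv_mem (LP hv))
        · rw [hT', Subgroup.commutator_le]
          exact fun u hu v hv => mul_mem (mul_mem (mul_mem (MP hu) (CP hv)) (inv_mem (MP hu)))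
            (inv_mem (CP hv))
      exact hTP hx
    exact cZP.conj_eq hx'
  have hTP : W₂ ≤ P := by
    refine sup_le ?_ ?_
    · rw [hT, Subgroup.commutator_le]
      exact fun u hu v hv => mul_mem (mul_mem (mul_mem (AP hu) (LP hv)) (inv_mem (AP hu)))
        (inv_mem (LP hv))
    · rw [hT', Subgroup.commutator_le]
      exact fun u hu v hv => mul_mem (mul_mem (mul_mem (MP hu) (CP hv)) (inv_mem (MP hu)))
        (inv_mem (CP hv))
  have nW₂P : ∀ x ∈ P, conjBy W₂ x = W₂ := fun x hx => cTT'.conj_eq hx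
  have nW₂B : ∀ x ∈ B, conjBy W₂ x = W₂ := norm_of_le fun x hx =>
    (conjBy_le_of_comm hBW₂ hx).trans (sup_le le_rfl hZle)
  have nW₂ : ∀ x ∈ A ⊔ B ⊔ C, conjBy W₂ x = W₂ :=
    norm_sup (norm_sup (fun x hx => nW₂P x (AP hx)) nW₂B) (fun x hx => nW₂P x (CP hx))
  set W₁ := M ⊔ L ⊔ W₂ with hW₁
  have nW₁ : ∀ x ∈ A ⊔ B ⊔ C, conjBy W₁ x = W₁ := by
    refine norm_sup (norm_sup (norm_of_le ?_) (norm_of_le ?_)) (norm_of_le ?_)
    · intro a ha
      rw [hW₁, conjBy_sup, conjBy_sup, cAM.symm.conj_eq ha, nW₂P a (AP ha)]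
      refine sup_le (sup_le (le_sup_left.trans le_sup_left) ?_) le_sup_right
      have : conjBy L a ≤ L ⊔ T := conjBy_le_of_comm le_rfl ha
      exact this.trans (sup_le (le_sup_right.trans le_sup_left) (le_sup_left.trans le_sup_right))
    · intro b hb
      rw [hW₁, conjBy_sup, conjBy_sup, cBM.symm.conj_eq hb, cBL.symm.conj_eq hb, nW₂B b hb]
    · intro c hc
      rw [hW₁, conjBy_sup, conjBy_sup, cCL.symm.conj_eq hc, nW₂P c (CP hc)]
      refine sup_le (sup_le ?_ (le_sup_right.trans le_sup_left)) le_sup_right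
      have : conjBy M c ≤ M ⊔ T' := conjBy_le_of_comm (by rw [Subgroup.commutator_comm]) hc
      exact this.trans (sup_le (le_sup_left.trans le_sup_left) (le_sup_right.trans le_sup_right))
  -- the series
  have s1 : ⁅A ⊔ B ⊔ C, A ⊔ B ⊔ C⁆ ≤ W₁ := by
    have nW₁' : ∀ x ∈ A ⊔ B, conjBy W₁ x = W₁ := fun x hx => nW₁ x (Subgroup.mem_sup_left hx)
    have q : ∀ K : Subgroup G, ⁅K, A⁆ ≤ W₁ → ⁅K, B⁆ ≤ W₁ → ⁅K, C⁆ ≤ W₁ →
        ⁅K, A ⊔ B ⊔ C⁆ ≤ W₁ := fun K h1 h2 h3 =>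
      comm_sup_le' nW₁ (comm_sup_le' nW₁' h1 h2) h3
    have hMW : M ≤ W₁ := le_sup_left.trans le_sup_left
    have hLW : L ≤ W₁ := le_sup_right.trans le_sup_left
    refine comm_sup_le nW₁ (comm_sup_le nW₁' (q _ ?_ ?_ ?_) (q _ ?_ ?_ ?_)) (q _ ?_ ?_ ?_)
    · rw [cm_iff.1 cAA]; exact bot_le
    · exact hMW
    · rw [cm_iff.1 hAC]; exact bot_le
    · rw [Subgroup.commutator_comm]; exact hMW
    · rw [cm_iff.1 cBB]; exact bot_le
    · rw [Subgroup.commutator_comm]; exact hLW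
    · rw [cm_iff.1 hAC.symm]; exact bot_le
    · exact hLW
    · rw [cm_iff.1 cCC]; exact bot_le
  have s2 : ⁅W₁, A ⊔ B ⊔ C⁆ ≤ W₂ := by
    have nW₂' : ∀ x ∈ A ⊔ B, conjBy W₂ x = W₂ := fun x hx => nW₂ x (Subgroup.mem_sup_left hx)
    have q : ∀ K : Subgroup G, ⁅K, A⁆ ≤ W₂ → ⁅K, B⁆ ≤ W₂ → ⁅K, C⁆ ≤ W₂ →
        ⁅K, A ⊔ B ⊔ C⁆ ≤ W₂ := fun K h1 h2 h3 =>
      comm_sup_le' nW₂ (comm_sup_le' nW₂' h1 h2) h3
    have w1 : ∀ x ∈ M ⊔ L ⊔ W₂, conjBy W₂ x = W₂ := fun x hx =>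
      nW₂P x ((sup_le (sup_le MP LP) hTP : M ⊔ L ⊔ W₂ ≤ P) hx)
    refine comm_sup_le w1 (comm_sup_le (fun x hx => w1 x (Subgroup.mem_sup_left hx))
      (q _ ?_ ?_ ?_) (q _ ?_ ?_ ?_)) (q _ ?_ ?_ ?_)
    · rw [cm_iff.1 cAM.symm]; exact bot_le
    · rw [cm_iff.1 cBM.symm]; exact bot_le
    · exact le_sup_right
    · rw [Subgroup.commutator_comm]; exact le_sup_left
    · rw [cm_iff.1 cBL.symm]; exact bot_le
    · rw [cm_iff.1 cCL.symm]; exact bot_le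
    · rw [cm_iff.1 (cTT'.mono le_rfl AP)]; exact bot_le
    · rw [Subgroup.commutator_comm]; exact hBW₂.trans hZle
    · rw [cm_iff.1 (cTT'.mono le_rfl CP)]; exact bot_le
  have s3 : ⁅W₂, A ⊔ B ⊔ C⁆ ≤ Z := by
    have nZ : ∀ x ∈ A ⊔ B ⊔ C, conjBy Z x = Z := fun x hx => cZR.conj_eq hx
    refine comm_sup_le' nZ (comm_sup_le' (fun x hx => nZ x (Subgroup.mem_sup_left hx)) ?_ ?_) ?_
    · rw [cm_iff.1 (cTT'.mono le_rfl AP)]; exact bot_le
    · rw [Subgroup.commutator_comm]; exact hBW₂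
    · rw [cm_iff.1 (cTT'.mono le_rfl CP)]; exact bot_le
  rw [Subgroup.isNilpotent_iff_lowerCentralSeries]
  refine ⟨4, ?_⟩
  rw [eq_bot_iff]
  have t1 : (A ⊔ B ⊔ C).lowerCentralSeries 1 ≤ W₁ := by
    rw [Subgroup.lowerCentralSeries_succ, Subgroup.lowerCentralSeries_zero]; exact s1
  have t2 : (A ⊔ B ⊔ C).lowerCentralSeries 2 ≤ W₂ := by
    rw [Subgroup.lowerCentralSeries_succ]
    exact (Subgroup.commutator_mono t1 le_rfl).trans s2
  have t3 : (A ⊔ B ⊔ C).lowerCentralSeries 3 ≤ Z := by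
    rw [Subgroup.lowerCentralSeries_succ]
    exact (Subgroup.commutator_mono t2 le_rfl).trans s3
  rw [Subgroup.lowerCentralSeries_succ]
  refine (Subgroup.commutator_mono t3 le_rfl).trans ?_
  rw [cm_iff.1 cZR]

end triple

end Cfsg.Agent.H3
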