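import Mathlib
import Cfsg.Prelude.Def_RootSubgroups
import Cfsg.Agent.H3.RootC

/-!
Abstract root subgroups: lines and the graph of rank one pairs.
-/

set_option autoImplicit false
open Cfsg Cfsg.Agent.H28

namespace Cfsg.Agent.H3

variable {G : Type*} [Group G] {A B C D E : Subgroup G} {S : Set (Subgroup G)}

theorem not_ro_of_le_nilpotent (h : IsRankOnePair A B) {R : Subgroup G} (hR : Group.IsNilpotent R)
    (hA : A ≤ R) (hB : B ≤ R) : False := by
  apply ro_not_nilpotent_sup h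
  haveI := hR
  exact Subgroup.isNilpotent_of_ker_le_center (Subgroup.inclusion (sup_le hA hB))
    (by rw [(MonoidHom.ker_eq_bot_iff _).2 (Subgroup.inclusion_injective _)]; exact bot_le)

theorem lp_symm (hA : A ∈ S) (h : B ∈ linePartners S A) : A ∈ linePartners S B := by
  obtain ⟨⟨hB, hne, hc⟩, hp⟩ := h
  refine ⟨⟨hA, hne.symm, by rw [Subgroup.commutator_comm]; exact hc⟩, ?_⟩
  rw [sup_comm]; exact hp

theorem lp_cm (h : B ∈ linePartners S A) : Cm A B := cm_iff.2 h.1.2.2

theorem lp_left_mem (hA : A ∈ S) : A ∈ membersIn S (A ⊔ B) := ⟨hA, le_sup_left⟩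
theorem lp_right_mem (hB : B ∈ S) : B ∈ membersIn S (A ⊔ B) := ⟨hB, le_sup_right⟩

theorem lp_sup_cm (hS : IsRootSubgroupSet S) (hA : A ∈ S) (h : B ∈ linePartners S A) :
    Cm (A ⊔ B) (A ⊔ B) := by
  have h1 : Cm A B := lp_cm h
  have cAA : Cm A A := S_comm hS hA
  have cBB : Cm B B := S_comm hS h.1.1
  exact (cAA.sup_right h1).sup_left (h1.symm.sup_right cBB)

theorem mem_sup_cm (h : Cm A B) {x : G} (hx : x ∈ A ⊔ B) : ∃ a ∈ A, ∃ b ∈ B, x = a * b := by
  revert x
  apply sup_induct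
  · exact fun a ha => ⟨a, ha, 1, one_mem _, (mul_one a).symm⟩
  · exact fun c hc => ⟨1, one_mem _, c, hc, (one_mul c).symm⟩
  · rintro x y ⟨a, ha, c, hc, rfl⟩ ⟨a', ha', c', hc', rfl⟩
    refine ⟨a * a', mul_mem ha ha', c * c', mul_mem hc hc', ?_⟩
    have := h a' ha' c hc
    rw [mul_assoc, ← mul_assoc c, ← this]; group

/-- a member of a line through `A` does not centralize a rank one partner of `A` -/
theorem line_not_cm (hS : IsRootSubgroupSet S) (hA : A ∈ S) (hD : D ∈ S) (hAD : IsRankOnePair A D)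
    (hB : B ∈ linePartners S A) (hE : E ∈ membersIn S (A ⊔ B)) : ¬ Cm E D := by
  intro hc
  obtain ⟨e, he, he1⟩ := exists_ne_one_of_ne_bot (hS.ne_bot E hE.1)
  obtain ⟨a, ha, ha1⟩ := exists_ne_one_of_ne_bot (ro_ne_bot hAD)
  have hz : ∀ x ∈ A ⊔ D, e * x = x * e := by
    apply sup_induct
    · exact fun a ha => lp_sup_cm hS hA hB e (hE.2 he) a (Subgroup.mem_sup_left ha)
    · exact fun d hd => hc e he d hd
    · intro x y hx hy
      rw [← mul_assoc, hx, mul_assoc, hy, mul_assoc]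
  apply no_central_mul hS hA hD hAD hz he1 ha ha1
  have hne : e * a ≠ 1 := by
    intro h1
    have h2 : e⁻¹ = a := inv_eq_of_mul_eq_one_right h1
    apply ro_comm_absurd hAD ha ha1
    intro d hd
    rw [← h2]
    have := hz d (Subgroup.mem_sup_right hd)
    rw [inv_mul_eq_iff_eq_mul, ← mul_assoc, this, mul_inv_cancel_right]
  obtain ⟨F, hF, hF'⟩ := hB.2.2.1 (e * a) (mul_mem (hE.2 he) (Subgroup.mem_sup_left ha)) hne
  exact ⟨hne, F, hF.1, hF'⟩

theorem line_third (hS : IsRootSubgroupSet S) (hA : A ∈ S) (hD : D ∈ S) (hAD : IsRankOnePair A D)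
    (hB : B ∈ linePartners S A) (hBD : RootCommutatorCase S B D)
    (hE : E ∈ membersIn S (A ⊔ B)) (hEB : E ≠ B) : IsRankOnePair E D := by
  rcases hS.pair E hE.1 D hD with h | h | h
  · exact absurd (cm_iff.2 h) (line_not_cm hS hA hD hAD hB hE)
  · exact h
  · exfalso
    have hcm := lp_sup_cm hS hA hB
    have hnil := triple_nilpotent hS hE.1 hD hB.1.1 h hBD (hcm.mono hE.2 le_sup_right)
    obtain ⟨e, he, he1⟩ := exists_ne_one_of_ne_bot (hS.ne_bot E hE.1)
    obtain ⟨a, ha, b, hb, heab⟩ := mem_sup_cm (lp_cm hB) (hE.2 he)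
    have ha1 : a ≠ 1 := by
      rintro rfl
      rw [one_mul] at heab
      have h1 : e ∈ E ⊓ B := ⟨he, heab ▸ hb⟩
      rw [hB.2.2.2 E hE B (lp_right_mem hB.1.1) hEB] at h1
      exact he1 h1
    have haR : a ∈ E ⊔ D ⊔ B := by
      have : a = e * b⁻¹ := by rw [heab, mul_inv_cancel_right]
      rw [this]
      exact mul_mem (Subgroup.mem_sup_left (Subgroup.mem_sup_left he))
        (inv_mem (Subgroup.mem_sup_right hb))
    have hDR : D ≤ E ⊔ D ⊔ B := le_sup_right.trans le_sup_left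
    have hDa : conjBy D a ≤ E ⊔ D ⊔ B := by
      have := conjBy_mono hDR a
      rwa [conjBy_mem_self haR] at this
    have hne : D ≠ conjBy D a := by
      intro h1
      exact ha1 (rankOne_left_normalizer hAD ha (mem_normalizer_iff_conjBy.2 h1.symm))
    exact not_ro_of_le_nilpotent (ro_pair_of_mem hAD (ro_right_mem hAD)
      (unip_conj (Subgroup.mem_sup_left ha) (ro_right_mem hAD)) hne).1 hnil hDR hDa

/-- every line has at least three members -/
theorem line_three (hA : A ∈ S) (hAb : A ≠ ⊥) (hBb : B ≠ ⊥) (hB : B ∈ linePartners S A) :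
    ∃ E ∈ membersIn S (A ⊔ B), E ≠ A ∧ E ≠ B := by
  obtain ⟨a, ha, ha1⟩ := exists_ne_one_of_ne_bot hAb
  obtain ⟨b, hb, hb1⟩ := exists_ne_one_of_ne_bot hBb
  have hinf : ∀ x, x ∈ A → x ∈ B → x = 1 := by
    intro x h1 h2
    have h3 : x ∈ A ⊓ B := ⟨h1, h2⟩
    rw [hB.2.2.2 A (lp_left_mem hA) B (lp_right_mem hB.1.1) hB.1.2.1.symm] at h3
    exact h3
  have hab : a * b ≠ 1 := by
    intro h1
    apply ha1
    apply hinf a ha
    have : a = b⁻¹ := eq_inv_of_mul_eq_one_left h1
    rw [this]; exact inv_mem hb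
  obtain ⟨E, hE, hE'⟩ := hB.2.2.1 (a * b) (mul_mem (Subgroup.mem_sup_left ha)
    (Subgroup.mem_sup_right hb)) hab
  refine ⟨E, hE, ?_, ?_⟩
  · rintro rfl
    apply hb1
    apply hinf b _ hb
    have := mul_mem (inv_mem ha) hE'
    rwa [inv_mul_cancel_left] at this
  · rintro rfl
    apply ha1
    apply hinf a ha
    have := mul_mem hE' (inv_mem hb)
    rwa [mul_inv_cancel_right] at this

/-! ### the graph -/

theorem fadj_symm (h : FAdj S A B) : FAdj S B A := ⟨h.2.1, h.1, rankOne_symm h.2.2⟩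

theorem reach_symm (h : Relation.ReflTransGen (FAdj S) A B) :
    Relation.ReflTransGen (FAdj S) B A := by
  induction h with
  | refl => exact Relation.ReflTransGen.refl
  | tail _ h1 ih => exact Relation.ReflTransGen.head (fadj_symm h1) ih

theorem fadj_conj (hS : IsRootSubgroupSet S) (g : G) (h : FAdj S A B) :
    FAdj S (conjBy A g) (conjBy B g) :=
  ⟨hS.conj_mem A h.1 g, hS.conj_mem B h.2.1 g, ro_conj h.2.2 g⟩

theorem reach_conj (hS : IsRootSubgroupSet S) (g : G) (h : Relation.ReflTransGen (FAdj S) A B) :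
    Relation.ReflTransGen (FAdj S) (conjBy A g) (conjBy B g) := by
  induction h with
  | refl => exact Relation.ReflTransGen.refl
  | tail _ h1 ih => exact ih.tail (fadj_conj hS g h1)

theorem first_step (h : Relation.ReflTransGen (FAdj S) A B) (hne : A ≠ B) :
    ∃ D ∈ S, IsRankOnePair A D := by
  rcases Relation.ReflTransGen.cases_head h with h1 | ⟨D, h1, -⟩
  · exact absurd h1 hne
  · exact ⟨D, h1.2.1, h1.2.2⟩

theorem component_eq (h : Relation.ReflTransGen (FAdj S) A B) :
    componentOf (FAdj S) S A = componentOf (FAdj S) S B := by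
  ext E
  constructor
  · rintro ⟨h1, h2⟩; exact ⟨h1, (reach_symm h).trans h2⟩
  · rintro ⟨h1, h2⟩; exact ⟨h1, h.trans h2⟩

theorem reach_conj_elem (hS : IsRootSubgroupSet S) (hA : A ∈ S) (hD : D ∈ S)
    (hAD : IsRankOnePair A D) (hB : B ∈ S) {b : G} (hb : b ∈ B) :
    Relation.ReflTransGen (FAdj S) A (conjBy A b) := by
  by_cases hb1 : b = 1
  · rw [hb1, conjBy_one]
  rcases hS.pair A hA B hB with h | h | h
  · rw [(cm_iff.2 h).conj_eq hb]
  · have h1 : FAdj S A B := ⟨hA, hB, h⟩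
    have h2 := fadj_conj hS b h1
    rw [conjBy_mem_self hb] at h2
    exact (Relation.ReflTransGen.single h1).tail (fadj_symm h2)
  · -- the commutator case
    have hC := lp_symm h.1 (line_partner hS hA h hD hAD)
    -- `⁅A,B⁆ ∈ linePartners S A`
    have hmem : conjBy A b ∈ membersIn S (A ⊔ ⁅A, B⁆) := by
      rw [line_membersIn hS hA h hD hAD]
      exact Or.inl ⟨b, hb, rfl⟩
    have hne : conjBy A b ≠ A := line_norm hS hA h hD hAD hb hb1
    have hsup : A ⊔ conjBy A b = A ⊔ ⁅A, B⁆ := by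
      have := sup_conj_eq h (inv_mem hb) (inv_ne_one.2 hb1)
      rwa [inv_inv] at this
    rcases hS.pair (conjBy A b) hmem.1 D hD with h1 | h1 | h1
    · exact absurd (cm_iff.2 h1) (line_not_cm hS hA hD hAD hC hmem)
    · exact (Relation.ReflTransGen.single ⟨hA, hD, hAD⟩).tail ⟨hD, hmem.1, rankOne_symm h1⟩
    · have hE : conjBy A b ∈ linePartners S A := by
        refine ⟨⟨hmem.1, hne, ?_⟩, ?_⟩
        · rw [← cm_iff]
          exact (lp_sup_cm hS hA hC).mono le_sup_left hmem.2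
        · rw [hsup]; exact hC.2
      have hCm : ⁅A, B⁆ ∈ membersIn S (A ⊔ conjBy A b) := by
        rw [hsup]; exact ⟨h.1, le_sup_right⟩
      have hCne : ⁅A, B⁆ ≠ conjBy A b := by
        intro h2
        obtain ⟨c, hc, hc1⟩ := exists_ne_one_of_ne_bot (rc_ne hS h)
        exact line_inf' hS hA h hD hAD hb hc1 (h2 ▸ hc) hc
      have h2 := line_third hS hA hD hAD hE h1 hCm hCne
      have h3 : Relation.ReflTransGen (FAdj S) A ⁅A, B⁆ :=
        (Relation.ReflTransGen.single ⟨hA, hD, hAD⟩).tail ⟨hD, h.1, rankOne_symm h2⟩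
      have h4 := reach_conj hS b h3
      rw [conjBy_comm_right hb] at h4
      exact h3.trans (reach_symm h4)

theorem reach_all_conj (hS : IsRootSubgroupSet S) (hF : ∀ A ∈ S, ∃ D ∈ S, IsRankOnePair A D)
    (g : G) : ∀ A ∈ S, Relation.ReflTransGen (FAdj S) A (conjBy A g) := by
  let K : Subgroup G := {
    carrier := {g | ∀ A ∈ S, Relation.ReflTransGen (FAdj S) A (conjBy A g)}
    one_mem' := fun A _ => by rw [conjBy_one]
    mul_mem' := by
      intro x y hx hy A hA
      rw [← conjBy_conjBy]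
      exact (hy A hA).trans (hx _ (hS.conj_mem A hA y))
    inv_mem' := by
      intro x hx A hA
      have := hx _ (hS.conj_mem A hA x⁻¹)
      rw [conjBy_conjBy, mul_inv_cancel, conjBy_one] at this
      exact reach_symm this }
  have hK : K = ⊤ := by
    rw [eq_top_iff, ← hS.generates]
    refine iSup₂_le fun B hB b hb A hA => ?_
    obtain ⟨D, hD, hAD⟩ := hF A hA
    exact reach_conj_elem hS hA hD hAD hB hb
  have : g ∈ K := hK ▸ Subgroup.mem_top g
  exact this

end Cfsg.Agent.H3
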