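import Mathlib
import Cfsg.Prelude.Def_RootSubgroups
import Cfsg.Agent.H3.RankB

/-!
`SL₂(k)` as a special rank one group.
-/

set_option autoImplicit false
open Cfsg Cfsg.Agent.H28 Matrix

namespace Cfsg.Agent.H3

variable {k : Type*} [Field k]

/-- upper unitriangular matrices -/
def xU (t : k) : SpecialLinearGroup (Fin 2) k := ⟨!![1, t; 0, 1], by simp [Matrix.det_fin_two]⟩
/-- lower unitriangular matrices -/
def yL (t : k) : SpecialLinearGroup (Fin 2) k := ⟨!![1, 0; t, 1], by simp [Matrix.det_fin_two]⟩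

@[simp] theorem coe_xU (t : k) : (xU t : Matrix (Fin 2) (Fin 2) k) = !![1, t; 0, 1] := rfl
@[simp] theorem coe_yL (t : k) : (yL t : Matrix (Fin 2) (Fin 2) k) = !![1, 0; t, 1] := rfl

theorem xU_mul (s t : k) : xU s * xU t = xU (s + t) := by
  ext i j; fin_cases i <;> fin_cases j <;> simp [SpecialLinearGroup.coe_mul, Matrix.mul_apply, Fin.sum_univ_two, add_comm]

theorem yL_mul (s t : k) : yL s * yL t = yL (s + t) := by
  ext i j; fin_cases i <;> fin_cases j <;> simp [SpecialLinearGroup.coe_mul, Matrix.mul_apply, Fin.sum_univ_two, add_comm]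

theorem xU_zero : xU (0 : k) = 1 := by
  ext i j; fin_cases i <;> fin_cases j <;> simp

theorem yL_zero : yL (0 : k) = 1 := by
  ext i j; fin_cases i <;> fin_cases j <;> simp

theorem xU_inv (t : k) : (xU t)⁻¹ = xU (-t) := by
  rw [inv_eq_iff_mul_eq_one, xU_mul, add_neg_cancel, xU_zero]

theorem yL_inv (t : k) : (yL t)⁻¹ = yL (-t) := by
  rw [inv_eq_iff_mul_eq_one, yL_mul, add_neg_cancel, yL_zero]

theorem xU_inj {s t : k} (h : xU s = xU t) : s = t := by
  have := congrArg (fun g : SpecialLinearGroup (Fin 2) k => (g : Matrix (Fin 2) (Fin 2) k) 0 1) h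
  simpa using this

theorem yL_inj {s t : k} (h : yL s = yL t) : s = t := by
  have := congrArg (fun g : SpecialLinearGroup (Fin 2) k => (g : Matrix (Fin 2) (Fin 2) k) 1 0) h
  simpa using this

theorem mem_upper {g : SpecialLinearGroup (Fin 2) k} :
    g ∈ upperUnipotentSL2 k ↔ ∃ t, g = xU t := by
  constructor
  · intro h
    induction h using Subgroup.closure_induction with
    | mem x hx =>
      obtain ⟨h1, h2, h3⟩ := hx
      refine ⟨(x : Matrix (Fin 2) (Fin 2) k) 0 1, ?_⟩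
      ext i j; fin_cases i <;> fin_cases j <;> simp [h1, h2, h3]
    | one => exact ⟨0, xU_zero.symm⟩
    | mul x y _ _ hx hy =>
      obtain ⟨s, rfl⟩ := hx
      obtain ⟨t, rfl⟩ := hy
      exact ⟨_, xU_mul s t⟩
    | inv x _ hx =>
      obtain ⟨s, rfl⟩ := hx
      exact ⟨_, xU_inv s⟩
  · rintro ⟨t, rfl⟩
    exact Subgroup.subset_closure ⟨by simp, by simp, by simp⟩

theorem mem_lower {g : SpecialLinearGroup (Fin 2) k} :
    g ∈ lowerUnipotentSL2 k ↔ ∃ t, g = yL t := by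
  constructor
  · intro h
    induction h using Subgroup.closure_induction with
    | mem x hx =>
      obtain ⟨h1, h2, h3⟩ := hx
      refine ⟨(x : Matrix (Fin 2) (Fin 2) k) 1 0, ?_⟩
      ext i j; fin_cases i <;> fin_cases j <;> simp [h1, h2, h3]
    | one => exact ⟨0, yL_zero.symm⟩
    | mul x y _ _ hx hy =>
      obtain ⟨s, rfl⟩ := hx
      obtain ⟨t, rfl⟩ := hy
      exact ⟨_, yL_mul s t⟩
    | inv x _ hx =>
      obtain ⟨s, rfl⟩ := hx
      exact ⟨_, yL_inv s⟩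
  · rintro ⟨t, rfl⟩
    exact Subgroup.subset_closure ⟨by simp, by simp, by simp⟩

theorem yx_conj {t : k} (ht : t ≠ 0) (s : k) :
    (yL t * (xU t⁻¹)⁻¹) * yL s * (yL t * (xU t⁻¹)⁻¹)⁻¹ = xU (-s / t ^ 2) := by
  rw [_root_.mul_inv_rev, inv_inv, xU_inv, yL_inv]
  ext i j; fin_cases i <;> fin_cases j <;> simp [SpecialLinearGroup.coe_mul, Matrix.mul_apply, Fin.sum_univ_two] <;> field_simp <;> ring

theorem xy_conj {t : k} (ht : t ≠ 0) (s : k) :
    (xU t * (yL t⁻¹)⁻¹) * xU s * (xU t * (yL t⁻¹)⁻¹)⁻¹ = yL (-s / t ^ 2) := by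
  rw [_root_.mul_inv_rev, inv_inv, xU_inv, yL_inv]
  ext i j; fin_cases i <;> fin_cases j <;> simp [SpecialLinearGroup.coe_mul, Matrix.mul_apply, Fin.sum_univ_two] <;> field_simp <;> ring

theorem yx_special {t : k} (ht : t ≠ 0) :
    (xU t⁻¹)⁻¹ * yL t * xU t⁻¹ = (yL t)⁻¹ * (xU t⁻¹)⁻¹ * yL t := by
  rw [xU_inv, yL_inv]
  ext i j; fin_cases i <;> fin_cases j <;>
    simp [SpecialLinearGroup.coe_mul, Matrix.mul_apply, Fin.sum_univ_two, ht]
  ring

theorem yx_conjBy {t : k} (ht : t ≠ 0) :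
    conjBy (lowerUnipotentSL2 k) (xU t⁻¹)⁻¹ = conjBy (upperUnipotentSL2 k) (yL t)⁻¹ := by
  rw [eq_comm, conjBy_eq_iff, conjBy_conjBy, inv_inv]
  ext g
  rw [mem_upper, mem_conjBy]
  constructor
  · rintro ⟨s, rfl⟩
    rw [mem_lower]
    refine ⟨-s * t ^ 2, ?_⟩
    have := yx_conj ht (-s * t ^ 2)
    rw [show -(-s * t ^ 2) / t ^ 2 = s by field_simp] at this
    rw [← this]; group
  · intro h
    rw [mem_lower] at h
    obtain ⟨s, hs⟩ := h
    refine ⟨-s / t ^ 2, ?_⟩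
    rw [← yx_conj ht s, ← hs]; group

theorem xy_conjBy {t : k} (ht : t ≠ 0) :
    conjBy (upperUnipotentSL2 k) (yL t⁻¹)⁻¹ = conjBy (lowerUnipotentSL2 k) (xU t)⁻¹ := by
  rw [eq_comm, conjBy_eq_iff, conjBy_conjBy, inv_inv]
  ext g
  rw [mem_lower, mem_conjBy]
  constructor
  · rintro ⟨s, rfl⟩
    rw [mem_upper]
    refine ⟨-s * t ^ 2, ?_⟩
    have := xy_conj ht (-s * t ^ 2)
    rw [show -(-s * t ^ 2) / t ^ 2 = s by field_simp] at this
    rw [← this]; group
  · intro h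
    rw [mem_upper] at h
    obtain ⟨s, hs⟩ := h
    refine ⟨-s / t ^ 2, ?_⟩
    rw [← xy_conj ht s, ← hs]; group

theorem lower_sup_upper : lowerUnipotentSL2 k ⊔ upperUnipotentSL2 k = ⊤ := by
  have hx : ∀ t : k, xU t ∈ lowerUnipotentSL2 k ⊔ upperUnipotentSL2 k := fun t =>
    Subgroup.mem_sup_right (mem_upper.2 ⟨t, rfl⟩)
  have hy : ∀ t : k, yL t ∈ lowerUnipotentSL2 k ⊔ upperUnipotentSL2 k := fun t =>
    Subgroup.mem_sup_left (mem_lower.2 ⟨t, rfl⟩)
  have key : ∀ g : SpecialLinearGroup (Fin 2) k, (g : Matrix (Fin 2) (Fin 2) k) 1 0 ≠ 0 →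
      g ∈ lowerUnipotentSL2 k ⊔ upperUnipotentSL2 k := by
    intro g hg
    have hdet := g.det_coe
    rw [Matrix.det_fin_two] at hdet
    set a := (g : Matrix (Fin 2) (Fin 2) k) 0 0 with ha
    set b := (g : Matrix (Fin 2) (Fin 2) k) 0 1 with hb
    set c := (g : Matrix (Fin 2) (Fin 2) k) 1 0 with hc
    set d := (g : Matrix (Fin 2) (Fin 2) k) 1 1 with hd
    have : g = xU ((a - 1) / c) * yL c * xU ((d - 1) / c) := by
      ext i j; fin_cases i <;> fin_cases j <;> simp [SpecialLinearGroup.coe_mul, Matrix.mul_apply, Fin.sum_univ_two, ← ha, ← hb, ← hc, ← hd]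
      · field_simp; ring
      · have : b = (a * d - 1) / c := by field_simp; linear_combination -hdet
        rw [this]; field_simp; ring
      · field_simp; ring
    rw [this]
    exact mul_mem (mul_mem (hx _) (hy _)) (hx _)
  rw [eq_top_iff]
  intro g _
  by_cases hg : (g : Matrix (Fin 2) (Fin 2) k) 1 0 = 0
  · have hdet := g.det_coe
    rw [Matrix.det_fin_two, hg, mul_zero, sub_zero] at hdet
    have h1 : (g : Matrix (Fin 2) (Fin 2) k) 1 1 ≠ 0 := by
      intro h1; rw [h1, mul_zero] at hdet; exact zero_ne_one hdet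
    have h2 := key (g * yL 1) (by simp [SpecialLinearGroup.coe_mul, Matrix.mul_apply, Fin.sum_univ_two, hg, h1])
    have h3 := mul_mem h2 (inv_mem (hy 1))
    rwa [mul_inv_cancel_right] at h3
  · exact key g hg

theorem ro_SL2 : IsRankOnePair (lowerUnipotentSL2 k) (upperUnipotentSL2 k) := by
  have hl : IsMulCommutative (lowerUnipotentSL2 k) := ⟨⟨fun a b => by
    obtain ⟨s, hs⟩ := mem_lower.1 a.2
    obtain ⟨t, ht⟩ := mem_lower.1 b.2
    exact Subtype.ext (by rw [Subgroup.coe_mul, Subgroup.coe_mul, hs, ht, yL_mul, yL_mul, add_comm])⟩⟩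
  have hu : IsMulCommutative (upperUnipotentSL2 k) := ⟨⟨fun a b => by
    obtain ⟨s, hs⟩ := mem_upper.1 a.2
    obtain ⟨t, ht⟩ := mem_upper.1 b.2
    exact Subtype.ext (by rw [Subgroup.coe_mul, Subgroup.coe_mul, hs, ht, xU_mul, xU_mul, add_comm])⟩⟩
  refine ⟨?_, ?_, ?_, ?_, ?_⟩
  · intro h
    have h1 : xU (1 : k) ∈ lowerUnipotentSL2 k := by rw [h]; exact mem_upper.2 ⟨1, rfl⟩
    obtain ⟨t, ht⟩ := mem_lower.1 h1
    have := congrArg (fun g : SpecialLinearGroup (Fin 2) k => (g : Matrix (Fin 2) (Fin 2) k) 0 1) ht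
    simp at this
  · open scoped IsMulCommutative in exact inferInstance
  · open scoped IsMulCommutative in exact inferInstance
  · intro a ha ha1
    obtain ⟨t, rfl⟩ := mem_lower.1 ha
    have ht : t ≠ 0 := by rintro rfl; exact ha1 yL_zero
    refine ⟨xU t⁻¹, mem_upper.2 ⟨_, rfl⟩, ?_, yx_conjBy ht⟩
    intro h
    rw [← xU_zero] at h
    exact inv_ne_zero ht (xU_inj h)
  · intro a ha ha1
    obtain ⟨t, rfl⟩ := mem_upper.1 ha
    have ht : t ≠ 0 := by rintro rfl; exact ha1 xU_zero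
    refine ⟨yL t⁻¹, mem_lower.2 ⟨_, rfl⟩, ?_, xy_conjBy ht⟩
    intro h
    rw [← yL_zero] at h
    exact inv_ne_zero ht (yL_inj h)

theorem special_SL2 : IsSpecialRankOnePair (lowerUnipotentSL2 k) (upperUnipotentSL2 k) := by
  refine ⟨ro_SL2, ?_⟩
  intro a ha ha1 b hb hb1 hab
  obtain ⟨t, rfl⟩ := mem_lower.1 ha
  have ht : t ≠ 0 := by rintro rfl; exact ha1 yL_zero
  have := rankOne_unique ro_SL2 hb (mem_upper.2 ⟨t⁻¹, rfl⟩) hab (yx_conjBy ht)
  rw [this]
  exact yx_special ht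

theorem abelian_SL2 : HasAbelianUnipotents (lowerUnipotentSL2 k) (upperUnipotentSL2 k) := by
  constructor
  · exact ⟨⟨fun a b => by
      obtain ⟨s, hs⟩ := mem_lower.1 a.2
      obtain ⟨t, ht⟩ := mem_lower.1 b.2
      exact Subtype.ext (by rw [Subgroup.coe_mul, Subgroup.coe_mul, hs, ht, yL_mul, yL_mul, add_comm])⟩⟩
  · exact ⟨⟨fun a b => by
      obtain ⟨s, hs⟩ := mem_upper.1 a.2
      obtain ⟨t, ht⟩ := mem_upper.1 b.2
      exact Subtype.ext (by rw [Subgroup.coe_mul, Subgroup.coe_mul, hs, ht, xU_mul, xU_mul, add_comm])⟩⟩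

end Cfsg.Agent.H3
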