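import Mathlib
import Cfsg.Prelude.Def_RootSubgroups
import Cfsg.Agent.H3.RootC

/-!
Right conjugation, and rank one pairs `A, B` for which some member commuting with `A` is a
rank one partner of `B`.
-/

set_option autoImplicit false
open Cfsg Cfsg.Agent.H28

namespace Cfsg.Agent.H3

variable {G : Type*} [Group G] {A B C D E : Subgroup G} {S : Set (Subgroup G)}

/-- right conjugation `g⁻¹ X g` -/
def cj (X : Subgroup G) (g : G) : Subgroup G := conjBy X g⁻¹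

theorem cj_cj (X : Subgroup G) (g h : G) : cj (cj X g) h = cj X (g * h) := by
  unfold cj; rw [conjBy_conjBy, mul_inv_rev]

theorem cj_one (X : Subgroup G) : cj X 1 = X := by
  unfold cj; rw [inv_one, conjBy_one]

theorem cj_inj {X Y : Subgroup G} {g : G} (h : cj X g = cj Y g) : X = Y := conjBy_inj h

theorem mem_cj {X : Subgroup G} {g x : G} : x ∈ cj X g ↔ g * x * g⁻¹ ∈ X := by
  unfold cj; rw [mem_conjBy, inv_inv]

theorem cj_mem {X : Subgroup G} {g x : G} (hx : x ∈ X) : g⁻¹ * x * g ∈ cj X g := by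
  rw [mem_cj]
  have : g * (g⁻¹ * x * g) * g⁻¹ = x := by group
  rwa [this]

theorem cj_self {X : Subgroup G} {g : G} (hg : g ∈ X) : cj X g = X := conjBy_mem_self (inv_mem hg)

theorem cj_of_comm {X : Subgroup G} {g : G} (h : ∀ x ∈ X, g * x = x * g) : cj X g = X := by
  have key : ∀ g : G, (∀ x ∈ X, g * x = x * g) → X ≤ cj X g := by
    intro g h x hx
    rw [mem_cj, h x hx, mul_inv_cancel_right]; exact hx
  apply le_antisymm
  · have h1 := key g⁻¹ (fun x hx => by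
      rw [inv_mul_eq_iff_eq_mul, ← mul_assoc, h x hx, mul_inv_cancel_right])
    intro x hx
    rw [mem_cj] at hx
    have h2 := h1 hx
    rw [mem_cj] at h2
    have : g⁻¹ * (g * x * g⁻¹) * g⁻¹⁻¹ = x := by group
    rwa [this] at h2
  · exact key g h

theorem Cm.cj_eq (h : Cm A B) {b : G} (hb : b ∈ B) : cj A b = A := h.conj_eq (inv_mem hb)

theorem Cm.cj (h : Cm A B) (g : G) : Cm (cj A g) (cj B g) := h.conj _

theorem cm_cj_iff {g : G} : Cm (cj A g) (cj B g) ↔ Cm A B := by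
  constructor
  · intro h
    have := h.cj g⁻¹
    rwa [cj_cj, cj_cj, mul_inv_cancel, cj_one, cj_one] at this
  · intro h; exact h.cj g

theorem ro_cj (h : IsRankOnePair A B) (g : G) : IsRankOnePair (cj A g) (cj B g) := ro_conj h _

theorem ro_cj_iff {g : G} : IsRankOnePair (cj A g) (cj B g) ↔ IsRankOnePair A B := ro_conj_iff

theorem mem_S_cj (hS : IsRootSubgroupSet S) (hA : A ∈ S) (g : G) : cj A g ∈ S := hS.conj_mem A hA _

theorem S_cm (hS : IsRootSubgroupSet S) (hA : A ∈ S) : Cm A A := S_comm hS hA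

theorem ro_not_cm (h : IsRankOnePair A B) : ¬ Cm A B := fun h1 => ro_not_comm h (cm_iff.1 h1)

theorem ro_fix (h : IsRankOnePair A B) {a : G} (ha : a ∈ A) (hf : cj B a = B) : a = 1 := by
  have h1 := rankOne_left_normalizer h (inv_mem ha) (mem_normalizer_iff_conjBy.2 hf)
  exact inv_eq_one.1 h1

theorem ro_inj (h : IsRankOnePair A B) {a a' : G} (ha : a ∈ A) (ha' : a' ∈ A)
    (hf : cj B a = cj B a') : a = a' := by
  have h1 : cj B (a * a'⁻¹) = B := by rw [← cj_cj, hf, cj_cj, mul_inv_cancel, cj_one]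
  exact mul_inv_eq_one.1 (ro_fix h (mul_mem ha (inv_mem ha')) h1)

theorem BRel.cjeq {a b : G} (h : BRel A B a b) : cj A b = cj B a := h.eq

theorem BRel.mk' {a b : G} (ha : a ∈ A) (ha1 : a ≠ 1) (hb : b ∈ B) (hb1 : b ≠ 1)
    (h : cj A b = cj B a) : BRel A B a b := ⟨ha, ha1, hb, hb1, h⟩

/-- two conjugates generate -/
theorem ro_gen (h : IsRankOnePair A B) {a a' : G} (ha : a ∈ A) (ha' : a' ∈ A) (hne : a ≠ a')
    {r : G} (h1 : ∀ x ∈ cj B a, r * x = x * r) (h2 : ∀ x ∈ cj B a', r * x = x * r) :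
    ∀ x ∈ A ⊔ B, r * x = x * r := by
  have m1 : cj B a ∈ unipotentSubgroups A B :=
    unip_conj (Subgroup.mem_sup_left (inv_mem ha)) (ro_right_mem h)
  have m2 : cj B a' ∈ unipotentSubgroups A B :=
    unip_conj (Subgroup.mem_sup_left (inv_mem ha')) (ro_right_mem h)
  have h3 := (ro_pair_of_mem h m1 m2 (fun h4 => hne (ro_inj h ha ha' h4))).2
  rw [← h3]
  apply sup_induct h1 h2
  intro x y hx hy
  rw [← mul_assoc, hx, mul_assoc, hy, mul_assoc]

theorem ro_gen_cm (h : IsRankOnePair A B) {a a' : G} (ha : a ∈ A) (ha' : a' ∈ A) (hne : a ≠ a')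
    (h1 : Cm (cj B a) C) (h2 : Cm (cj B a') C) : Cm (A ⊔ B) C := by
  intro x hx c hc
  exact (ro_gen h ha ha' hne (r := c) (fun y hy => (h1 y hy c hc).symm)
    (fun y hy => (h2 y hy c hc).symm) x hx).symm

theorem rel1 {a b g h : G} (hg : g = a * h⁻¹ * a⁻¹ * h) (hh : h = b * g⁻¹ * b⁻¹ * g)
    (h1 : g * a = a * g) (h2 : h * b = b * h) :
    (b⁻¹ * a * b)⁻¹ * g * (b⁻¹ * a * b) = h⁻¹ ∧ (a⁻¹ * b⁻¹ * a)⁻¹ * g * (a⁻¹ * b⁻¹ * a) = h⁻¹ := by
  have e1 : b * g * b⁻¹ = g * h⁻¹ := by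
    have h3 : h * g⁻¹ = b * g⁻¹ * b⁻¹ := by rw [mul_inv_eq_iff_eq_mul]; exact hh
    have h4 : b * g * b⁻¹ = (b * g⁻¹ * b⁻¹)⁻¹ := by group
    rw [h4, ← h3]; group
  have e2 : a⁻¹ * h * a = h * g := by
    have h3 : a * h⁻¹ * a⁻¹ = g * h⁻¹ := by rw [eq_mul_inv_iff_mul_eq]; exact hg.symm
    have h4 : a * (h * g) * a⁻¹ = h := by
      have h5 : a * (h * g) * a⁻¹ = (a * h⁻¹ * a⁻¹)⁻¹ * (a * g * a⁻¹) := by group
      rw [h5, h3, ← h1]; group
    calc a⁻¹ * h * a = a⁻¹ * (a * (h * g) * a⁻¹) * a := by rw [h4]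
      _ = h * g := by group
  have e3 : a⁻¹ * (g * h⁻¹) * a = h⁻¹ := by
    have h5 : a⁻¹ * (g * h⁻¹) * a = (a⁻¹ * g * a) * (a⁻¹ * h * a)⁻¹ := by group
    have h6 : a⁻¹ * g * a = g := by rw [mul_assoc, h1, inv_mul_cancel_left]
    rw [h5, h6, e2]; group
  constructor
  · have h5 : (b⁻¹ * a * b)⁻¹ * g * (b⁻¹ * a * b) = b⁻¹ * (a⁻¹ * (b * g * b⁻¹) * a) * b := by group
    rw [h5, e1, e3, mul_assoc]
    rw [inv_mul_eq_iff_eq_mul, ← mul_inv_eq_iff_eq_mul, inv_inv, mul_assoc, ← h2,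
      inv_mul_cancel_left]
  · have h5 : (a⁻¹ * b⁻¹ * a)⁻¹ * g * (a⁻¹ * b⁻¹ * a) = a⁻¹ * (b * (a * g * a⁻¹) * b⁻¹) * a := by group
    have h6 : a * g * a⁻¹ = g := by rw [← h1, mul_inv_cancel_right]
    rw [h5, h6, e1, e3]

/-- if some `g₀` centralizing `A` moves `B` to a different commuting subgroup then `A, B` is special -/
theorem special_of_elem (hS : IsRootSubgroupSet S) (hA : A ∈ S) (hB : B ∈ S)
    (h : IsRankOnePair A B) {g₀ : G} (hg₀ : ∀ x ∈ A, g₀ * x = x * g₀) (hc : Cm (cj B g₀) B)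
    (hne : cj B g₀ ≠ B) : IsSpecialRankOnePair A B := by
  refine ⟨h, fun a ha ha1 b hb hb1 hab => ?_⟩
  have hab' : cj A b = cj B a := hab
  set E := cj B g₀ with hE
  have hAg : cj A g₀ = A := cj_of_comm hg₀
  have hAgi : cj A g₀⁻¹ = A := by
    nth_rw 1 [← hAg]; rw [cj_cj, mul_inv_cancel, cj_one]
  have hAE : IsRankOnePair A E := by have := ro_cj h g₀; rwa [hAg] at this
  have hES : E ∈ S := mem_S_cj hS hB _
  set e := g₀⁻¹ * b * g₀ with he
  have heE : e ∈ E := cj_mem hb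
  have hbe : e * b = b * e := hc e heE b hb
  set k := b * e⁻¹ with hk
  have hkB : ∀ x ∈ B, k * x = x * k := by
    intro x hx
    have h1 : e⁻¹ * x = x * e⁻¹ := hc e⁻¹ (inv_mem heE) x hx
    have h2 : b * x = x * b := S_comm hS hB b hb x hx
    rw [hk, mul_assoc, h1, ← mul_assoc, h2, mul_assoc]
  have hkE : ∀ x ∈ E, k * x = x * k := by
    intro x hx
    have h1 : e⁻¹ * x = x * e⁻¹ := S_comm hS hES e⁻¹ (inv_mem heE) x hx
    have h2 : x * b = b * x := hc x hx b hb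
    rw [hk, mul_assoc, h1, ← mul_assoc, ← h2, mul_assoc]
  have hAe : cj A e = cj E a := by
    rw [he, ← cj_cj, ← cj_cj, hAgi, hab', cj_cj, hE, cj_cj, hg₀ a ha]
  -- `A ^ k` commutes with `A`
  have hC1 : Cm (cj A k) A := by
    have h1 : Cm (cj A b) (cj A e) := by
      rw [hab', hAe]; exact hc.symm.cj a
    have h2 := h1.cj e⁻¹
    rwa [cj_cj, cj_cj, mul_inv_cancel, cj_one] at h2
  set c := k⁻¹ * a * k with hcdef
  have hcC : c ∈ cj A k := cj_mem ha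
  have hcA : ∀ x ∈ A, c * x = x * c := fun x hx => hC1 c hcC x hx
  set g := a * c⁻¹ with hg
  have hgA : ∀ x ∈ A, g * x = x * g := by
    intro x hx
    have h1 : c⁻¹ * x = x * c⁻¹ := hC1 c⁻¹ (inv_mem hcC) x hx
    have h2 : a * x = x * a := S_comm hS hA a ha x hx
    rw [hg, mul_assoc, h1, ← mul_assoc, h2, mul_assoc]
  have hAg' : cj A g = A := cj_of_comm hgA
  have hAgi' : cj A g⁻¹ = A := by
    nth_rw 1 [← hAg']; rw [cj_cj, mul_inv_cancel, cj_one]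
  have hgeq : g = a * k⁻¹ * a⁻¹ * k := by rw [hg, hcdef]; group
  have hBg : cj B g = E := by
    have h0 : cj B g = cj (cj (cj (cj B a) k⁻¹) a⁻¹) k := by
      simp only [cj_cj, hgeq, mul_assoc]
    rw [h0, ← hab']
    have h1 : cj (cj A b) k⁻¹ = cj E a := by
      rw [cj_cj, hk, mul_inv_rev, inv_inv, ← mul_assoc, ← hbe, mul_inv_cancel_right, hAe]
    rw [h1, cj_cj E, mul_inv_cancel, cj_one]
    exact cj_of_comm hkE
  have hbg : g⁻¹ * b * g = e := by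
    apply ro_inj (rankOne_symm hAE)
    · have := cj_mem (g := g) hb
      rwa [hBg] at this
    · exact heE
    · have h0 : cj A (g⁻¹ * b * g) = cj (cj (cj A g⁻¹) b) g := by simp only [cj_cj, mul_assoc]
      rw [hAe, h0, hAgi', hab', cj_cj, ← hgA a ha, ← cj_cj, hBg]
  have hkeq : k = b * g⁻¹ * b⁻¹ * g := by rw [hk, ← hbg]; group
  obtain ⟨r1, r2⟩ := rel1 hgeq hkeq (hgA a ha) (hkB b hb)
  set p := (b⁻¹ * a * b) * (a⁻¹ * b * a) with hp
  have hpg : p⁻¹ * g * p = g := by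
    have h3 : p⁻¹ * g * p = (a⁻¹ * b⁻¹ * a) * ((b⁻¹ * a * b)⁻¹ * g * (b⁻¹ * a * b)) *
        (a⁻¹ * b⁻¹ * a)⁻¹ := by rw [hp]; group
    rw [h3, r1, ← r2]; group
  have hpP : p ∈ cj A b := by
    apply mul_mem (cj_mem ha)
    rw [hab']; exact cj_mem hb
  have hp1 : p = 1 := by
    by_contra hp1
    have h4 : p ∈ cj (cj A b) g := by
      have h5 := cj_mem (g := g) hpP
      have h6 : g⁻¹ * p * g = p := by
        have h7 : g * p = p * g := by
          have : p * (p⁻¹ * g * p) = g * p := by group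
          rw [← this, hpg]
        rw [mul_assoc, ← h7, inv_mul_cancel_left]
      rwa [h6] at h5
    have h5 : IsRankOnePair (cj A b) B := by
      have := ro_cj h b
      rwa [cj_self hb] at this
    have h6 := ti hS hB h5 (mem_S_cj hS (mem_S_cj hS hA b) g) hpP hp1 h4
    rw [hab', cj_cj, ← hgA a ha, ← cj_cj, hBg] at h6
    exact hne (cj_inj h6).symm
  have h7 : b⁻¹ * a * b = (a⁻¹ * b * a)⁻¹ := eq_inv_of_mul_eq_one_left hp1
  rw [h7]; group

/-- a triple `P, C, D`: `P`, `C` different commuting members, `D` a rank one partner of both -/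
structure Trip (S : Set (Subgroup G)) (P C D : Subgroup G) : Prop where
  hS : IsRootSubgroupSet S
  hP : P ∈ S
  hC : C ∈ S
  hD : D ∈ S
  ne : P ≠ C
  cm : Cm P C
  pd : IsRankOnePair P D
  cd : IsRankOnePair C D

theorem Trip.symm {P C D : Subgroup G} (t : Trip S P C D) : Trip S C P D :=
  ⟨t.hS, t.hC, t.hP, t.hD, t.ne.symm, t.cm.symm, t.cd, t.pd⟩

theorem Trip.match {P C D : Subgroup G} (t : Trip S P C D) {p c d : G} (h1 : BRel P D p d)
    (h2 : BRel C D c d) : Cm (cj D p) (cj D c) ∧ cj D p ≠ cj D c := by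
  rw [← h1.cjeq, ← h2.cjeq]
  exact ⟨t.cm.cj d, fun h => t.ne (cj_inj h)⟩

theorem Trip.uniq {P C D : Subgroup G} (t : Trip S P C D) {p p' c : G} (hp : p ∈ P) (hp' : p' ∈ P)
    (hc : c ∈ C) (h1 : Cm (cj D p) (cj D c)) (h2 : Cm (cj D p') (cj D c)) : p = p' := by
  by_contra hne
  have h3 := ro_gen_cm t.pd hp hp' hne h1 h2
  have h4 : Cm P (cj D c) := h3.mono le_sup_left le_rfl
  have h5 := h4.cj c⁻¹
  rw [cj_cj, mul_inv_cancel, cj_one, t.cm.cj_eq (inv_mem hc)] at h5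
  exact ro_not_cm t.pd h5

theorem Trip.uniq' {P C D : Subgroup G} (t : Trip S P C D) {p c c' : G} (hp : p ∈ P) (hc : c ∈ C)
    (hc' : c' ∈ C) (h1 : Cm (cj D p) (cj D c)) (h2 : Cm (cj D p) (cj D c')) : c = c' :=
  t.symm.uniq hc hc' hp h1.symm h2.symm

theorem Trip.comm {P C D : Subgroup G} (t : Trip S P C D) {p c : G} (hp : p ∈ P) (hc : c ∈ C) :
    p * c = c * p := t.cm p hp c hc

/-- `p ↦ c` is given by conjugation with an element centralizing `D` -/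
theorem Trip.exists_conj {P C D : Subgroup G} (t : Trip S P C D) :
    ∃ k : G, cj P k = C ∧ ∀ p ∈ P, Cm (cj D p) (cj D (k⁻¹ * p * k)) := by
  obtain ⟨p₀, hp₀, hp₀1⟩ := exists_ne_one_of_ne_bot (ro_ne_bot t.pd)
  obtain ⟨d₀, hd₀⟩ := brel_left t.pd hp₀ hp₀1
  obtain ⟨c₀, hc₀⟩ := brel_right t.cd hd₀.hb hd₀.hb1
  obtain ⟨m1, m2⟩ := t.match hd₀ hc₀
  set E := cj D (p₀ * c₀⁻¹) with hE
  have hCE : IsRankOnePair C E := by
    have h1 := ro_cj t.cd (p₀ * c₀⁻¹)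
    rwa [← cj_cj, t.cm.symm.cj_eq hp₀, cj_self (inv_mem hc₀.ha)] at h1
  have hED : Cm E D := by
    have h1 := m1.cj c₀⁻¹
    rwa [cj_cj, cj_cj, mul_inv_cancel, cj_one] at h1
  obtain ⟨e₁, he₁⟩ := brel_left hCE hc₀.ha hc₀.ha1
  have h2 : cj C e₁ = cj P d₀ := by
    rw [he₁.cjeq, hE, cj_cj, inv_mul_cancel_right, hd₀.cjeq]
  have hkP : cj P (d₀ * e₁⁻¹) = C := by
    rw [← cj_cj, ← h2, cj_cj, mul_inv_cancel, cj_one]
  have hkD : ∀ x ∈ D, (d₀ * e₁⁻¹) * x = x * (d₀ * e₁⁻¹) := by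
    intro x hx
    have h1 : e₁⁻¹ * x = x * e₁⁻¹ := hED e₁⁻¹ (inv_mem he₁.hb) x hx
    have h2 : d₀ * x = x * d₀ := S_comm t.hS t.hD d₀ hd₀.hb x hx
    rw [mul_assoc, h1, ← mul_assoc, h2, mul_assoc]
  refine ⟨d₀ * e₁⁻¹, hkP, ?_⟩
  set k := d₀ * e₁⁻¹ with hk
  intro p hp
  by_cases hp1 : p = 1
  · have : k⁻¹ * p * k = 1 := by rw [hp1]; group
    rw [this, hp1, cj_one]
    exact S_cm t.hS t.hD
  obtain ⟨d, hd⟩ := brel_left t.pd hp hp1
  have h3 : cj C d = cj D (k⁻¹ * p * k) := by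
    have hDk : cj D k⁻¹ = D := by
      have h4 := cj_of_comm hkD
      nth_rw 1 [← h4]; rw [cj_cj, mul_inv_cancel, cj_one]
    have h5 : cj D (k⁻¹ * p * k) = cj (cj (cj D k⁻¹) p) k := by simp only [cj_cj, mul_assoc]
    rw [h5, hDk, ← hd.cjeq, ← hkP, cj_cj, cj_cj, hkD d hd.hb]
  rw [← hd.cjeq, ← h3]
  exact t.cm.cj d

theorem Trip.exists_c {P C D : Subgroup G} (t : Trip S P C D) {p : G} (hp : p ∈ P) :
    ∃ c ∈ C, Cm (cj D p) (cj D c) := by
  obtain ⟨k, hk, h⟩ := t.exists_conj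
  exact ⟨k⁻¹ * p * k, hk ▸ cj_mem hp, h p hp⟩

theorem Trip.mul {P C D : Subgroup G} (t : Trip S P C D) {p p' c c' : G} (hp : p ∈ P)
    (hp' : p' ∈ P) (hc : c ∈ C) (hc' : c' ∈ C) (h1 : Cm (cj D p) (cj D c))
    (h2 : Cm (cj D p') (cj D c')) : Cm (cj D (p * p')) (cj D (c * c')) := by
  obtain ⟨k, hk, h⟩ := t.exists_conj
  have e1 := t.uniq' hp hc (hk ▸ cj_mem hp) h1 (h p hp)
  have e2 := t.uniq' hp' hc' (hk ▸ cj_mem hp') h2 (h p' hp')
  have h3 := h (p * p') (mul_mem hp hp')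
  have e3 : k⁻¹ * (p * p') * k = c * c' := by rw [e1, e2]; group
  rwa [e3] at h3

theorem Trip.special {P C D : Subgroup G} (t : Trip S P C D) : IsSpecialRankOnePair P D := by
  obtain ⟨p₀, hp₀, hp₀1⟩ := exists_ne_one_of_ne_bot (ro_ne_bot t.pd)
  obtain ⟨d₀, hd₀⟩ := brel_left t.pd hp₀ hp₀1
  obtain ⟨c₀, hc₀⟩ := brel_right t.cd hd₀.hb hd₀.hb1
  obtain ⟨m1, m2⟩ := t.match hd₀ hc₀
  apply special_of_elem t.hS t.hP t.hD t.pd (g₀ := p₀ * c₀⁻¹)
  · intro x hx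
    have h1 : x * c₀⁻¹ = c₀⁻¹ * x := t.cm x hx c₀⁻¹ (inv_mem hc₀.ha)
    have h2 : p₀ * x = x * p₀ := S_comm t.hS t.hP p₀ hp₀ x hx
    rw [mul_assoc, ← h1, ← mul_assoc, h2, mul_assoc]
  · have h1 := m1.cj c₀⁻¹
    rwa [cj_cj, cj_cj, mul_inv_cancel, cj_one] at h1
  · intro h1
    apply m2
    have h2 := congrArg (fun X => Cfsg.Agent.H3.cj X c₀) h1
    simp only [cj_cj, inv_mul_cancel_right] at h2
    exact h2

end Cfsg.Agent.H3
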