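import Mathlib
import Cfsg.Prelude.Def_RootSubgroups
import Cfsg.Agent.H3.RankSL2
import Cfsg.Agent.H3.RootJ

/-!
Embeddings `M ↦ 1 + P (M - 1) Q` and images of `SL₂`.
-/

set_option autoImplicit false
open Cfsg Cfsg.Agent.H28 Matrix

namespace Cfsg.Agent.H3

section emb
variable {ι κ : Type*} [Fintype ι] [DecidableEq ι] [Fintype κ] [DecidableEq κ] {k : Type*} [Field k]
  {P : Matrix ι κ k} {Q : Matrix κ ι k} {M N : Matrix κ κ k}

/-- `M ↦ 1 + P (M - 1) Q` -/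
def embM (P : Matrix ι κ k) (Q : Matrix κ ι k) (M : Matrix κ κ k) : Matrix ι ι k := 1 + P * (M - 1) * Q

theorem embM_one : embM P Q 1 = 1 := by simp [embM]

theorem ring_e {R : Type*} [Ring R] (M N : R) : M * N - 1 = (M - 1) + (N - 1) + (M - 1) * (N - 1) := by
  noncomm_ring

theorem ring_f {R : Type*} [Ring R] (X Y : R) : (1 + X) * (1 + Y) = 1 + (X + Y + X * Y) := by
  noncomm_ring

theorem embM_mul (h : Q * P = 1) : embM P Q (M * N) = embM P Q M * embM P Q N := by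
  have h1 : P * (M - 1) * Q * (P * (N - 1) * Q) = P * ((M - 1) * (N - 1)) * Q := by
    calc P * (M - 1) * Q * (P * (N - 1) * Q) = P * (M - 1) * (Q * P) * (N - 1) * Q := by
          simp only [Matrix.mul_assoc]
      _ = P * ((M - 1) * (N - 1)) * Q := by rw [h, Matrix.mul_one]; simp only [Matrix.mul_assoc]
  unfold embM
  rw [ring_e, Matrix.mul_add, Matrix.mul_add, Matrix.add_mul, Matrix.add_mul, ← h1, ring_f]

theorem embM_det (h : Q * P = 1) : (embM P Q M).det = M.det := by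
  unfold embM
  rw [Matrix.mul_assoc, det_one_add_mul_comm, Matrix.mul_assoc, h, Matrix.mul_one, add_sub_cancel]

theorem embM_back (h : Q * P = 1) : Q * embM P Q M * P = M := by
  unfold embM
  rw [Matrix.mul_add, Matrix.add_mul, Matrix.mul_one, h]
  have : Q * (P * (M - 1) * Q) * P = (Q * P) * (M - 1) * (Q * P) := by simp only [Matrix.mul_assoc]
  rw [this, h, Matrix.one_mul, Matrix.mul_one, add_sub_cancel]

theorem embM_inj (h : Q * P = 1) (hMN : embM P Q M = embM P Q N) : M = N := by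
  rw [← embM_back (M := M) h, hMN, embM_back h]

/-- the embedding of special linear groups -/
def embSL (P : Matrix ι κ k) (Q : Matrix κ ι k) (h : Q * P = 1) :
    SpecialLinearGroup κ k →* SpecialLinearGroup ι k where
  toFun M := ⟨embM P Q (M : Matrix κ κ k), by rw [embM_det h]; exact M.det_coe⟩
  map_one' := Subtype.ext embM_one
  map_mul' M N := Subtype.ext (embM_mul h)

theorem embSL_inj (h : Q * P = 1) : Function.Injective (embSL P Q h) := by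
  intro M N hMN
  apply Subtype.ext
  exact embM_inj h (congrArg Subtype.val hMN)

end emb

/-- injective images of `SL₂(k)` -/
theorem pair_of_inj {k : Type*} [Field k] {G : Type*} [Group G]
    (φ : SpecialLinearGroup (Fin 2) k →* G) (hφ : Function.Injective φ) {A B : Subgroup G}
    (hA : (upperUnipotentSL2 k).map φ = A) (hB : (lowerUnipotentSL2 k).map φ = B) :
    IsRankOnePair A B ∧ IsPSL2PairOver k A B := by
  constructor
  · rw [← hA, ← hB, ro_map_iff hφ]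
    exact rankOne_symm ro_SL2
  · refine ⟨φ, ?_, ?_, hA, hB⟩
    · rw [MonoidHom.range_eq_map, ← lower_sup_upper, Subgroup.map_sup, hA, hB, sup_comm]
    · rw [(MonoidHom.ker_eq_bot_iff φ).2 hφ]; exact bot_le

section tv
variable {ι : Type*} [Fintype ι] [DecidableEq ι] {k : Type*} [Field k]
  {p q φ ψ : ι → k}

theorem vv_mul (p φ q ψ : ι → k) : vecMulVec p φ * vecMulVec q ψ = (φ ⬝ᵥ q) • vecMulVec p ψ := by
  rw [vecMulVec_mul_vecMulVec, vecMulVec_smul]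

theorem tv_det (h : φ ⬝ᵥ p = 0) (c : k) : (1 + c • vecMulVec p φ : Matrix ι ι k).det = 1 := by
  rw [← smul_vecMulVec, vecMulVec_eq Unit, det_one_add_replicateCol_mul_replicateRow,
    dotProduct_smul, h, smul_zero, add_zero]

/-- `1 + c p φ` -/
def tv (h : φ ⬝ᵥ p = 0) (c : k) : SpecialLinearGroup ι k := ⟨1 + c • vecMulVec p φ, tv_det h c⟩

theorem coe_tv (h : φ ⬝ᵥ p = 0) (c : k) :
    (tv h c : Matrix ι ι k) = 1 + c • vecMulVec p φ := rfl

theorem tv_zero (h : φ ⬝ᵥ p = 0) : tv h 0 = 1 := by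
  apply Subtype.ext
  rw [coe_tv, zero_smul, add_zero]; rfl

theorem tv_mul (h : φ ⬝ᵥ p = 0) (c d : k) : tv h c * tv h d = tv h (c + d) := by
  apply Subtype.ext
  show (1 + c • vecMulVec p φ) * (1 + d • vecMulVec p φ) = 1 + (c + d) • vecMulVec p φ
  rw [add_mul, mul_add, mul_add, one_mul, mul_one, one_mul, smul_mul_smul_comm, vv_mul, h, zero_smul,
    smul_zero, add_zero, add_smul]
  abel

theorem tv_inv (h : φ ⬝ᵥ p = 0) (c : k) : (tv h c)⁻¹ = tv h (-c) := by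
  rw [inv_eq_iff_mul_eq_one, tv_mul, add_neg_cancel, tv_zero]

theorem vv_ne (hp : p ≠ 0) (hφ : φ ≠ 0) : vecMulVec p φ ≠ 0 := by
  obtain ⟨i, hi⟩ := Function.ne_iff.1 hp
  obtain ⟨j, hj⟩ := Function.ne_iff.1 hφ
  intro h
  have := congrFun (congrFun h i) j
  rw [vecMulVec_apply] at this
  exact (mul_ne_zero hi hj) this

theorem tv_inj (h : φ ⬝ᵥ p = 0) (hp : p ≠ 0) (hφ : φ ≠ 0) {c d : k} (hcd : tv h c = tv h d) : c = d := by
  have h1 := congrArg Subtype.val hcd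
  change 1 + c • vecMulVec p φ = 1 + d • vecMulVec p φ at h1
  have h2 := add_left_cancel h1
  rw [← sub_eq_zero, ← sub_smul, smul_eq_zero] at h2
  exact sub_eq_zero.1 (h2.resolve_right (vv_ne hp hφ))

/-- the group of transvections -/
def Tg (p φ : ι → k) : Subgroup (SpecialLinearGroup ι k) :=
  Subgroup.closure {g | ∃ c : k, (g : Matrix ι ι k) = 1 + c • vecMulVec p φ}

theorem mem_Tg (h : φ ⬝ᵥ p = 0) {g : SpecialLinearGroup ι k} : g ∈ Tg p φ ↔ ∃ c, g = tv h c := by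
  constructor
  · intro hg
    induction hg using Subgroup.closure_induction with
    | mem x hx =>
      obtain ⟨c, hc⟩ := hx
      exact ⟨c, Subtype.ext hc⟩
    | one => exact ⟨0, (tv_zero h).symm⟩
    | mul x y _ _ hx hy =>
      obtain ⟨c, rfl⟩ := hx
      obtain ⟨d, rfl⟩ := hy
      exact ⟨_, tv_mul h c d⟩
    | inv x _ hx =>
      obtain ⟨c, rfl⟩ := hx
      exact ⟨_, tv_inv h c⟩
  · rintro ⟨c, rfl⟩
    exact Subgroup.subset_closure ⟨c, rfl⟩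

theorem Tg_smul_left {a : k} (ha : a ≠ 0) (p φ : ι → k) : Tg (a • p) φ = Tg p φ := by
  unfold Tg
  congr 1
  ext g
  constructor
  · rintro ⟨c, hc⟩
    exact ⟨c * a, by rw [hc, smul_vecMulVec, smul_smul]⟩
  · rintro ⟨c, hc⟩
    exact ⟨c * a⁻¹, by rw [hc, smul_vecMulVec, smul_smul, mul_assoc, inv_mul_cancel₀ ha, mul_one]⟩

theorem Tg_smul_right {a : k} (ha : a ≠ 0) (p φ : ι → k) : Tg p (a • φ) = Tg p φ := by
  unfold Tg
  congr 1
  ext g
  constructor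
  · rintro ⟨c, hc⟩
    exact ⟨c * a, by rw [hc, vecMulVec_smul, smul_smul]⟩
  · rintro ⟨c, hc⟩
    exact ⟨c * a⁻¹, by rw [hc, vecMulVec_smul, smul_smul, mul_assoc, inv_mul_cancel₀ ha, mul_one]⟩

theorem tg_cm (h1 : φ ⬝ᵥ p = 0) (h2 : ψ ⬝ᵥ q = 0) (h3 : φ ⬝ᵥ q = 0) (h4 : ψ ⬝ᵥ p = 0) :
    Cm (Tg p φ) (Tg q ψ) := by
  intro a ha b hb
  obtain ⟨c, rfl⟩ := (mem_Tg h1).1 ha
  obtain ⟨d, rfl⟩ := (mem_Tg h2).1 hb
  apply Subtype.ext
  show (1 + c • vecMulVec p φ) * (1 + d • vecMulVec q ψ) = (1 + d • vecMulVec q ψ) * (1 + c • vecMulVec p φ)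
  rw [add_mul, add_mul, mul_add, mul_add, mul_add, mul_add, smul_mul_smul_comm, smul_mul_smul_comm,
    vv_mul, vv_mul, h3, h4, zero_smul, zero_smul, smul_zero, smul_zero]
  simp only [one_mul, mul_one, add_zero]
  abel

theorem ring_comm {R : Type*} [Ring R] {N M : R} (hN : N * N = 0) (hM : M * M = 0) (hMN : M * N = 0) :
    (1 + N) * (1 + M) * (1 + -N) * (1 + -M) = 1 + N * M := by
  have h1 : ∀ x, N * (N * x) = 0 := fun x => by rw [← mul_assoc, hN, zero_mul]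
  have h2 : ∀ x, M * (M * x) = 0 := fun x => by rw [← mul_assoc, hM, zero_mul]
  have h3 : ∀ x, M * (N * x) = 0 := fun x => by rw [← mul_assoc, hMN, zero_mul]
  simp only [add_mul, mul_add, mul_neg, neg_mul, one_mul, mul_one, mul_assoc, hN, hM, hMN, h1, h2, h3,
    neg_neg, neg_zero, add_zero, zero_add, mul_zero, zero_mul]
  abel

theorem tv_comm (h1 : φ ⬝ᵥ p = 0) (h2 : ψ ⬝ᵥ q = 0) (h4 : ψ ⬝ᵥ p = 0) (c d : k) :
    tv h1 c * tv h2 d * (tv h1 c)⁻¹ * (tv h2 d)⁻¹ = tv h4 (c * d * (φ ⬝ᵥ q)) := by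
  rw [tv_inv, tv_inv]
  apply Subtype.ext
  show (1 + c • vecMulVec p φ) * (1 + d • vecMulVec q ψ) * (1 + (-c) • vecMulVec p φ) *
    (1 + (-d) • vecMulVec q ψ) = 1 + (c * d * (φ ⬝ᵥ q)) • vecMulVec p ψ
  rw [neg_smul, neg_smul, ring_comm]
  · rw [smul_mul_smul_comm, vv_mul, smul_smul]
  · rw [smul_mul_smul_comm, vv_mul, h1, zero_smul, smul_zero]
  · rw [smul_mul_smul_comm, vv_mul, h2, zero_smul, smul_zero]
  · rw [smul_mul_smul_comm, vv_mul, h4, zero_smul, smul_zero]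

/-- the columns `p, q` -/
def cols (p q : ι → k) : Matrix ι (Fin 2) k := Matrix.of fun i j => ![p i, q i] j

/-- the rows `ψ, φ` -/
def rows (ψ φ : ι → k) : Matrix (Fin 2) ι k := Matrix.of ![ψ, φ]

theorem rows_cols (h1 : φ ⬝ᵥ p = 0) (h2 : ψ ⬝ᵥ q = 0) (h3 : φ ⬝ᵥ q = 1) (h4 : ψ ⬝ᵥ p = 1) :
    rows ψ φ * cols p q = 1 := by
  ext i j
  fin_cases i <;> fin_cases j
  · show ψ ⬝ᵥ p = 1
    exact h4
  · show ψ ⬝ᵥ q = 0
    exact h2
  · show φ ⬝ᵥ p = 0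
    exact h1
  · show φ ⬝ᵥ q = 1
    exact h3

theorem emb_xU (t : k) : embM (cols p q) (rows ψ φ) (xU t : Matrix (Fin 2) (Fin 2) k) =
    1 + t • vecMulVec p φ := by
  unfold embM
  congr 1
  ext i j
  simp [cols, rows, Matrix.mul_apply, Fin.sum_univ_two, vecMulVec_apply]
  ring

theorem emb_yL (t : k) : embM (cols p q) (rows ψ φ) (yL t : Matrix (Fin 2) (Fin 2) k) =
    1 + t • vecMulVec q ψ := by
  unfold embM
  congr 1
  ext i j
  simp [cols, rows, Matrix.mul_apply, Fin.sum_univ_two, vecMulVec_apply]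
  ring

theorem tg_ro (h1 : φ ⬝ᵥ p = 0) (h2 : ψ ⬝ᵥ q = 0) (h3 : φ ⬝ᵥ q ≠ 0) (h4 : ψ ⬝ᵥ p ≠ 0) :
    IsRankOnePair (Tg p φ) (Tg q ψ) ∧ IsPSL2PairOver k (Tg p φ) (Tg q ψ) := by
  have e1 : ((φ ⬝ᵥ q)⁻¹ • φ) ⬝ᵥ p = 0 := by rw [smul_dotProduct, h1, smul_zero]
  have e2 : ((ψ ⬝ᵥ p)⁻¹ • ψ) ⬝ᵥ q = 0 := by rw [smul_dotProduct, h2, smul_zero]
  have e3 : ((φ ⬝ᵥ q)⁻¹ • φ) ⬝ᵥ q = 1 := by
    rw [smul_dotProduct, smul_eq_mul, inv_mul_cancel₀ h3]
  have e4 : ((ψ ⬝ᵥ p)⁻¹ • ψ) ⬝ᵥ p = 1 := by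
    rw [smul_dotProduct, smul_eq_mul, inv_mul_cancel₀ h4]
  have hPQ := rows_cols e1 e2 e3 e4
  apply pair_of_inj _ (embSL_inj hPQ)
  · rw [← Tg_smul_right (inv_ne_zero h3) p φ]
    ext g
    rw [Subgroup.mem_map, mem_Tg e1]
    constructor
    · rintro ⟨x, hx, rfl⟩
      obtain ⟨t, rfl⟩ := mem_upper.1 hx
      exact ⟨t, Subtype.ext (emb_xU t)⟩
    · rintro ⟨t, rfl⟩
      exact ⟨xU t, mem_upper.2 ⟨t, rfl⟩, Subtype.ext (emb_xU t)⟩
  · rw [← Tg_smul_right (inv_ne_zero h4) q ψ]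
    ext g
    rw [Subgroup.mem_map, mem_Tg e2]
    constructor
    · rintro ⟨x, hx, rfl⟩
      obtain ⟨t, rfl⟩ := mem_lower.1 hx
      exact ⟨t, Subtype.ext (emb_yL t)⟩
    · rintro ⟨t, rfl⟩
      exact ⟨yL t, mem_lower.2 ⟨t, rfl⟩, Subtype.ext (emb_yL t)⟩

end tv

end Cfsg.Agent.H3
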