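import Mathlib
import Cfsg.Prelude.Def_RootSubgroups
import Cfsg.Agent.H3.TvA
import Cfsg.Agent.H3.RootD
import Cfsg.Agent.H5.LinBasic

/-!
The transvection groups of `SL(V)`.
-/

set_option autoImplicit false
open Cfsg Cfsg.Agent.H28 Matrix

namespace Cfsg.Agent.H3

section tv
variable {ι : Type*} [Fintype ι] [DecidableEq ι] {k : Type*} [Field k]
  {p q r φ ψ χ : ι → k}

theorem exists_dot_ne (h : p ≠ 0) : ∃ χ : ι → k, χ ⬝ᵥ p ≠ 0 := by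
  obtain ⟨i, hi⟩ := Function.ne_iff.1 h
  exact ⟨Pi.single i 1, by rw [single_dotProduct, one_mul]; exact hi⟩

theorem combine {V : Type*} [AddCommGroup V] {f g : V → k} (hf : ∀ x y, f (x + y) = f x + f y)
    (hg : ∀ x y, g (x + y) = g x + g y) {v w : V} (hv : f v ≠ 0) (hw : g w ≠ 0) :
    ∃ x, (x = v ∨ x = w ∨ x = v + w) ∧ f x ≠ 0 ∧ g x ≠ 0 := by
  by_cases h1 : g v = 0
  · by_cases h2 : f w = 0
    · exact ⟨v + w, Or.inr (Or.inr rfl), by rw [hf, h2, add_zero]; exact hv,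
        by rw [hg, h1, zero_add]; exact hw⟩
    · exact ⟨w, Or.inr (Or.inl rfl), h2, hw⟩
  · exact ⟨v, Or.inl rfl, hv, h1⟩

/-- a common opposite -/
theorem exists_opp (hp : p ≠ 0) (hq : q ≠ 0) (hφ : φ ≠ 0) (hψ : ψ ≠ 0) (h1 : φ ⬝ᵥ p = 0)
    (h2 : ψ ⬝ᵥ q = 0) : ∃ r χ : ι → k, χ ⬝ᵥ r = 0 ∧ φ ⬝ᵥ r ≠ 0 ∧ ψ ⬝ᵥ r ≠ 0 ∧ χ ⬝ᵥ p ≠ 0 ∧ χ ⬝ᵥ q ≠ 0 := by
  obtain ⟨v, hv⟩ := exists_dot_ne hφ
  obtain ⟨w, hw⟩ := exists_dot_ne hψ
  rw [dotProduct_comm] at hv hw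
  obtain ⟨r, -, hr1, hr2⟩ := combine (f := fun x => φ ⬝ᵥ x) (g := fun x => ψ ⬝ᵥ x)
    (fun x y => dotProduct_add _ _ _) (fun x y => dotProduct_add _ _ _) hv hw
  -- functionals vanishing on r
  obtain ⟨a, ha⟩ := exists_dot_ne hp
  obtain ⟨b, hb⟩ := exists_dot_ne hq
  have ha' : (a - ((a ⬝ᵥ r) / (φ ⬝ᵥ r)) • φ) ⬝ᵥ r = 0 := by
    rw [sub_dotProduct, smul_dotProduct, smul_eq_mul, div_mul_cancel₀ _ hr1, sub_self]
  have hb' : (b - ((b ⬝ᵥ r) / (ψ ⬝ᵥ r)) • ψ) ⬝ᵥ r = 0 := by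
    rw [sub_dotProduct, smul_dotProduct, smul_eq_mul, div_mul_cancel₀ _ hr2, sub_self]
  have ha2 : (a - ((a ⬝ᵥ r) / (φ ⬝ᵥ r)) • φ) ⬝ᵥ p ≠ 0 := by
    rw [sub_dotProduct, smul_dotProduct, h1, smul_zero, sub_zero]; exact ha
  have hb2 : (b - ((b ⬝ᵥ r) / (ψ ⬝ᵥ r)) • ψ) ⬝ᵥ q ≠ 0 := by
    rw [sub_dotProduct, smul_dotProduct, h2, smul_zero, sub_zero]; exact hb
  obtain ⟨χ, hχ, hχ1, hχ2⟩ := combine (f := fun x => x ⬝ᵥ p) (g := fun x => x ⬝ᵥ q)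
    (fun x y => add_dotProduct _ _ _) (fun x y => add_dotProduct _ _ _) ha2 hb2
  refine ⟨r, χ, ?_, hr1, hr2, hχ1, hχ2⟩
  rcases hχ with rfl | rfl | rfl
  · exact ha'
  · exact hb'
  · rw [add_dotProduct, ha', hb', add_zero]

/-- the set of transvection groups -/
def Tset (ι : Type*) [Fintype ι] [DecidableEq ι] (k : Type*) [Field k] :
    Set (Subgroup (SpecialLinearGroup ι k)) :=
  {A | ∃ p φ : ι → k, p ≠ 0 ∧ φ ≠ 0 ∧ φ ⬝ᵥ p = 0 ∧ A = Tg p φ}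

theorem Tg_mem (hp : p ≠ 0) (hφ : φ ≠ 0) (h : φ ⬝ᵥ p = 0) : Tg p φ ∈ Tset ι k := ⟨p, φ, hp, hφ, h, rfl⟩

theorem ne_zero_of_dot_left (h : φ ⬝ᵥ p ≠ 0) : φ ≠ 0 := by
  rintro rfl; exact h (zero_dotProduct _)

theorem ne_zero_of_dot_right (h : φ ⬝ᵥ p ≠ 0) : p ≠ 0 := by
  rintro rfl; exact h (dotProduct_zero _)

theorem sl_inv_mul (g : SpecialLinearGroup ι k) :
    ((g⁻¹ : SpecialLinearGroup ι k) : Matrix ι ι k) * (g : Matrix ι ι k) = 1 :=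
  congrArg Subtype.val (inv_mul_cancel g)

theorem sl_mul_inv (g : SpecialLinearGroup ι k) :
    (g : Matrix ι ι k) * ((g⁻¹ : SpecialLinearGroup ι k) : Matrix ι ι k) = 1 :=
  congrArg Subtype.val (mul_inv_cancel g)

theorem conj_Tg (h : φ ⬝ᵥ p = 0) (g : SpecialLinearGroup ι k) :
    conjBy (Tg p φ) g = Tg ((g : Matrix ι ι k) *ᵥ p) (φ ᵥ* ((g⁻¹ : SpecialLinearGroup ι k) : Matrix ι ι k)) := by
  have hgg := sl_inv_mul g
  have hgg' := sl_mul_inv g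
  have h' : (φ ᵥ* ((g⁻¹ : SpecialLinearGroup ι k) : Matrix ι ι k)) ⬝ᵥ ((g : Matrix ι ι k) *ᵥ p) = 0 := by
    rw [dotProduct_mulVec, vecMul_vecMul, hgg, vecMul_one, h]
  have key : ∀ c, g * tv h c * g⁻¹ = tv h' c := by
    intro c
    apply Subtype.ext
    show (g : Matrix ι ι k) * (1 + c • vecMulVec p φ) * ((g⁻¹ : SpecialLinearGroup ι k) : Matrix ι ι k) =
      1 + c • vecMulVec _ _
    rw [mul_add, mul_one, add_mul, hgg', Matrix.mul_smul, Matrix.smul_mul, mul_vecMulVec,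
      vecMulVec_mul]
  ext x
  rw [mem_Tg h', mem_conjBy, mem_Tg h]
  constructor
  · rintro ⟨c, hc⟩
    refine ⟨c, ?_⟩
    rw [← key, ← hc]; group
  · rintro ⟨c, rfl⟩
    refine ⟨c, ?_⟩
    rw [← key]; group

theorem mulVec_ne (g : SpecialLinearGroup ι k) (hp : p ≠ 0) : (g : Matrix ι ι k) *ᵥ p ≠ 0 := by
  intro h
  apply hp
  have : ((g⁻¹ : SpecialLinearGroup ι k) : Matrix ι ι k) *ᵥ ((g : Matrix ι ι k) *ᵥ p) = p := by
    rw [mulVec_mulVec, sl_inv_mul, one_mulVec]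
  rw [← this, h, mulVec_zero]

theorem vecMul_ne (g : SpecialLinearGroup ι k) (hp : φ ≠ 0) : φ ᵥ* (g : Matrix ι ι k) ≠ 0 := by
  intro h
  apply hp
  have : (φ ᵥ* (g : Matrix ι ι k)) ᵥ* ((g⁻¹ : SpecialLinearGroup ι k) : Matrix ι ι k) = φ := by
    rw [vecMul_vecMul, sl_mul_inv, vecMul_one]
  rw [← this, h, zero_vecMul]

theorem Tset_conj {A : Subgroup (SpecialLinearGroup ι k)} (hA : A ∈ Tset ι k)
    (g : SpecialLinearGroup ι k) : conjBy A g ∈ Tset ι k := by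
  obtain ⟨p, φ, hp, hφ, h, rfl⟩ := hA
  refine ⟨_, _, mulVec_ne g hp, vecMul_ne g⁻¹ hφ, ?_, conj_Tg h g⟩
  rw [dotProduct_mulVec, vecMul_vecMul, sl_inv_mul, vecMul_one, h]

theorem Tset_opp {A B : Subgroup (SpecialLinearGroup ι k)} (hA : A ∈ Tset ι k) (hB : B ∈ Tset ι k) :
    ∃ C ∈ Tset ι k, IsRankOnePair A C ∧ IsRankOnePair B C := by
  obtain ⟨p, φ, hp, hφ, h1, rfl⟩ := hA
  obtain ⟨q, ψ, hq, hψ, h2, rfl⟩ := hB
  obtain ⟨r, χ, h3, h4, h5, h6, h7⟩ := exists_opp hp hq hφ hψ h1 h2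
  exact ⟨Tg r χ, Tg_mem (ne_zero_of_dot_right h4) (ne_zero_of_dot_left h6) h3,
    (tg_ro h1 h3 h4 h6).1, (tg_ro h2 h3 h5 h7).1⟩

theorem Tset_conj_all {A B : Subgroup (SpecialLinearGroup ι k)} (hA : A ∈ Tset ι k)
    (hB : B ∈ Tset ι k) : ∃ g, B = conjBy A g := by
  obtain ⟨C, -, h1, h2⟩ := Tset_opp hA hB
  obtain ⟨x, -, hx⟩ := ro_mem_right h1
  obtain ⟨y, -, hy⟩ := ro_mem_right (rankOne_symm h2)
  exact ⟨y * x, by rw [hy, hx, conjBy_conjBy]⟩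

theorem tg_rc (hp : p ≠ 0) (hq : q ≠ 0) (hφ : φ ≠ 0) (hψ : ψ ≠ 0)
    (h1 : φ ⬝ᵥ p = 0) (h2 : ψ ⬝ᵥ q = 0) (h3 : φ ⬝ᵥ q ≠ 0) (h4 : ψ ⬝ᵥ p = 0) :
    RootCommutatorCase (Tset ι k) (Tg p φ) (Tg q ψ) := by
  have k1 : ∀ a ∈ Tg p φ, a ≠ 1 → Subgroup.closure ((fun b => a * b * a⁻¹ * b⁻¹) ''
      (Tg q ψ : Set (SpecialLinearGroup ι k))) = Tg p ψ := by
    intro a ha ha1
    obtain ⟨c, rfl⟩ := (mem_Tg h1).1 ha
    have hc : c ≠ 0 := by rintro rfl; exact ha1 (tv_zero h1)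
    apply le_antisymm
    · rw [Subgroup.closure_le]
      rintro _ ⟨b, hb, rfl⟩
      obtain ⟨d, rfl⟩ := (mem_Tg h2).1 hb
      simp only [tv_comm h1 h2 h4]
      exact (mem_Tg h4).2 ⟨_, rfl⟩
    · intro x hx
      obtain ⟨e, rfl⟩ := (mem_Tg h4).1 hx
      apply Subgroup.subset_closure
      refine ⟨tv h2 (c⁻¹ * e * (φ ⬝ᵥ q)⁻¹), (mem_Tg h2).2 ⟨_, rfl⟩, ?_⟩
      show tv h1 c * _ * _ * _ = _
      rw [tv_comm h1 h2 h4]
      congr 1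
      field_simp
  have k2 : ∀ b ∈ Tg q ψ, b ≠ 1 → Subgroup.closure ((fun a => a * b * a⁻¹ * b⁻¹) ''
      (Tg p φ : Set (SpecialLinearGroup ι k))) = Tg p ψ := by
    intro b hb hb1
    obtain ⟨d, rfl⟩ := (mem_Tg h2).1 hb
    have hd : d ≠ 0 := by rintro rfl; exact hb1 (tv_zero h2)
    apply le_antisymm
    · rw [Subgroup.closure_le]
      rintro _ ⟨a, ha, rfl⟩
      obtain ⟨c, rfl⟩ := (mem_Tg h1).1 ha
      simp only [tv_comm h1 h2 h4]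
      exact (mem_Tg h4).2 ⟨_, rfl⟩
    · intro x hx
      obtain ⟨e, rfl⟩ := (mem_Tg h4).1 hx
      apply Subgroup.subset_closure
      refine ⟨tv h1 (e * d⁻¹ * (φ ⬝ᵥ q)⁻¹), (mem_Tg h1).2 ⟨_, rfl⟩, ?_⟩
      show _ * tv h2 d * _ * _ = _
      rw [tv_comm h1 h2 h4]
      congr 1
      field_simp
  have k3 : ⁅Tg p φ, Tg q ψ⁆ = Tg p ψ := by
    apply le_antisymm
    · rw [Subgroup.commutator_le]
      intro a ha b hb
      obtain ⟨c, rfl⟩ := (mem_Tg h1).1 ha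
      obtain ⟨d, rfl⟩ := (mem_Tg h2).1 hb
      rw [commutatorElement_def, tv_comm h1 h2 h4]
      exact (mem_Tg h4).2 ⟨_, rfl⟩
    · intro x hx
      obtain ⟨e, rfl⟩ := (mem_Tg h4).1 hx
      have := Subgroup.commutator_mem_commutator ((mem_Tg h1).2 ⟨1, rfl⟩) ((mem_Tg h2).2 ⟨e * (φ ⬝ᵥ q)⁻¹, rfl⟩)
      rw [commutatorElement_def, tv_comm h1 h2 h4] at this
      have e1 : 1 * (e * (φ ⬝ᵥ q)⁻¹) * (φ ⬝ᵥ q) = e := by field_simp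
      rwa [e1] at this
  refine ⟨?_, ?_, ?_, ?_⟩
  · rw [k3]; exact Tg_mem hp hψ h4
  · rw [k3]
    have h5 : Cm (Tg p ψ) (Tg p φ ⊔ Tg q ψ) := Cm.sup_right (tg_cm h4 h1 h4 h1) (tg_cm h4 h2 h2 h4)
    exact h5
  · rw [k3]; exact k1
  · rw [k3]; exact k2

theorem Tset_pair {A B : Subgroup (SpecialLinearGroup ι k)} (hA : A ∈ Tset ι k)
    (hB : B ∈ Tset ι k) : ⁅A, B⁆ = ⊥ ∨ (IsRankOnePair A B ∧ IsPSL2PairOver k A B) ∨
      RootCommutatorCase (Tset ι k) A B := by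
  obtain ⟨p, φ, hp, hφ, h1, rfl⟩ := hA
  obtain ⟨q, ψ, hq, hψ, h2, rfl⟩ := hB
  by_cases h3 : φ ⬝ᵥ q = 0
  · by_cases h4 : ψ ⬝ᵥ p = 0
    · exact Or.inl (cm_iff.1 (tg_cm h1 h2 h3 h4))
    · right; right
      exact rc_symm (tg_rc hq hp hψ hφ h2 h1 h4 h3)
  · by_cases h4 : ψ ⬝ᵥ p = 0
    · right; right
      exact tg_rc hp hq hφ hψ h1 h2 h3 h4
    · right; left
      exact tg_ro h1 h2 h3 h4

theorem Tset_generates [Nontrivial ι] : (⨆ A ∈ Tset ι k, A : Subgroup (SpecialLinearGroup ι k)) = ⊤ := by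
  rw [eq_top_iff, ← Cfsg.Agent.H5.SL_closure_transvections, Subgroup.closure_le]
  rintro A ⟨i, j, h, c, rfl⟩
  have hij : (Pi.single j 1 : ι → k) ⬝ᵥ (Pi.single i 1 : ι → k) = 0 := by
    rw [single_dotProduct, Pi.single_eq_of_ne h.symm, mul_zero]
  have h1 : Tg (Pi.single i 1 : ι → k) (Pi.single j 1) ∈ Tset ι k :=
    Tg_mem (by simp) (by simp) hij
  have h2 : Tg (Pi.single i 1 : ι → k) (Pi.single j 1) ≤ ⨆ A ∈ Tset ι k, A :=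
    le_iSup₂_of_le (f := fun (A : Subgroup (SpecialLinearGroup ι k)) (_ : A ∈ Tset ι k) => A) _ h1 le_rfl
  apply h2
  apply Subgroup.subset_closure
  refine ⟨c, ?_⟩
  rw [← single_eq_single_vecMulVec_single]
  show transvection i j c = _
  unfold transvection
  rw [smul_single, smul_eq_mul, mul_one]

theorem Tset_root [Nontrivial ι] : IsRootSubgroupSet (Tset ι k) where
  commutative := by
    rintro A ⟨p, φ, hp, hφ, h, rfl⟩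
    exact cm_self_comm (tg_cm h h h h)
  ne_bot := by
    rintro A ⟨p, φ, hp, hφ, h, rfl⟩ hbot
    have h1 : tv h 1 ∈ Tg p φ := (mem_Tg h).2 ⟨1, rfl⟩
    rw [hbot, Subgroup.mem_bot, ← tv_zero h] at h1
    exact one_ne_zero (tv_inj h hp hφ h1)
  generates := Tset_generates
  conj_mem := fun A hA g => Tset_conj hA g
  pair := by
    intro A hA B hB
    rcases Tset_pair hA hB with h | h | h
    · exact Or.inl h
    · exact Or.inr (Or.inl h.1)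
    · exact Or.inr (Or.inr h)

theorem Tset_conn [Nontrivial ι] : IsConnectedFamily (FAdj (Tset ι k)) (Tset ι k) := by
  intro A hA B hB
  obtain ⟨C, hC, h1, h2⟩ := Tset_opp hA hB
  exact (Relation.ReflTransGen.single ⟨hA, hC, h1⟩).tail ⟨hC, hB, rankOne_symm h2⟩

theorem Tset_kroot [Nontrivial ι] : IsKRootSubgroupSet k (Tset ι k) := by
  refine ⟨Tset_root, fun A hA B hB h => ?_⟩
  rcases Tset_pair hA hB with h1 | h1 | h1
  · exact absurd h1 (ro_not_comm h)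
  · exact h1.2
  · exact absurd h (rc_not_ro Tset_root hB h1)

end tv

end Cfsg.Agent.H3
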