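import Cfsg.Agent.H3.Monomial

/-!
# Artin's induction theorem (helper3)
-/

set_option autoImplicit false
set_option linter.style.haveILetI false
set_option linter.unusedSimpArgs false
set_option linter.unusedSectionVars false
open Cfsg
open scoped ComplexConjugate

namespace Cfsg.Agent.H3

universe u v w

/-- Artin's function: `|G|` at the generators of `G`, `0` elsewhere. -/
noncomputable def artinFun (G : Type u) [Group G] : G → ℂ := by
  classical
  exact fun g => if Subgroup.zpowers g = ⊤ then (Nat.card G : ℂ) else 0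

theorem zpowers_eq_top_iff {G : Type u} [Group G] (C : Subgroup G) (x : C) :
    Subgroup.zpowers x = ⊤ ↔ Subgroup.zpowers (x : G) = C := by
  have h1 : Subgroup.zpowers (x : G) = (Subgroup.zpowers x).map C.subtype := by
    rw [MonoidHom.map_zpowers]; rfl
  rw [h1]
  constructor
  · intro h
    rw [h, ← MonoidHom.range_eq_map, Subgroup.range_subtype]
  · intro h
    rw [eq_top_iff]
    intro y _
    have : (y : G) ∈ (Subgroup.zpowers x).map C.subtype := by rw [h]; exact y.2
    obtain ⟨z, hz, hzy⟩ := this
    have : z = y := Subtype.ext hzy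
    rwa [← this]

theorem indFun_artinFun {G : Type u} [Group G] [Fintype G] (C : Subgroup G) (g : G) [DecidableEq (Subgroup G)] :
    indFun C (artinFun C) g = ∑ x : G, if Subgroup.zpowers (x⁻¹ * g * x) = C then (1 : ℂ) else 0 := by
  classical
  have hC : (Nat.card C : ℂ) ≠ 0 := by exact_mod_cast Nat.card_pos.ne'
  rw [indFun, Finset.mul_sum]
  refine Finset.sum_congr rfl fun x _ => ?_
  by_cases hx : x⁻¹ * g * x ∈ C
  · rw [extendByZero_mem _ _ hx, artinFun]
    by_cases h : Subgroup.zpowers (x⁻¹ * g * x) = C
    · have h2 : Subgroup.zpowers (⟨x⁻¹ * g * x, hx⟩ : C) = ⊤ := (zpowers_eq_top_iff C _).mpr h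
      rw [if_pos h, if_pos h2, inv_mul_cancel₀ hC]
    · have h2 : ¬ Subgroup.zpowers (⟨x⁻¹ * g * x, hx⟩ : C) = ⊤ :=
        fun h' => h ((zpowers_eq_top_iff C _).mp h')
      rw [if_neg h, if_neg h2, mul_zero]
  · rw [extendByZero_not_mem _ _ hx, mul_zero, if_neg]
    intro h
    apply hx
    rw [← h]
    exact Subgroup.mem_zpowers _

theorem artin_sum {G : Type u} [Group G] [Fintype G] :
    (fun _ : G => (Nat.card G : ℂ)) = ∑ C : Subgroup G, indFun C (artinFun C) := by
  classical
  ext g
  rw [Finset.sum_apply]
  simp only [indFun_artinFun]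
  rw [Finset.sum_comm]
  simp [Nat.card_eq_fintype_card]

theorem artinFun_isGen_aux (n : ℕ) : ∀ (G : Type u) [Group G] [Fintype G], Nat.card G = n →
    IsGeneralizedCharacter G (artinFun G) := by
  classical
  induction n using Nat.strong_induction_on with
  | _ n ih =>
  intro G _ _ hn
  have hcl : IsClassFunction G (artinFun G) := by
    intro g h
    have h1 : Subgroup.zpowers (h * g * h⁻¹) = ⊤ ↔ Subgroup.zpowers g = ⊤ := by
      have h2 : Subgroup.zpowers (h * g * h⁻¹) =
          (Subgroup.zpowers g).map (MulAut.conj h).toMonoidHom := by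
        rw [MonoidHom.map_zpowers]; simp
      rw [h2]
      constructor
      · intro h3
        rw [eq_top_iff]
        intro y _
        have : h * y * h⁻¹ ∈ (Subgroup.zpowers g).map (MulAut.conj h).toMonoidHom := by
          rw [h3]; trivial
        obtain ⟨z, hz, hzy⟩ := this
        have hzy' : h * z * h⁻¹ = h * y * h⁻¹ := by simpa using hzy
        have : z = y := by simpa using hzy'
        rwa [← this]
      · intro h3
        rw [h3]
        exact Subgroup.map_top_of_surjective _ (MulAut.conj h).surjective
    simp only [artinFun, h1]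
  have hsum := artin_sum (G := G)
  rw [← Finset.add_sum_erase _ _ (Finset.mem_univ (⊤ : Subgroup G))] at hsum
  have htop : indFun (⊤ : Subgroup G) (artinFun (⊤ : Subgroup G)) = artinFun G := by
    have h1 : artinFun (⊤ : Subgroup G) = fun x : (⊤ : Subgroup G) => artinFun G x := by
      ext x
      have h2 := zpowers_eq_top_iff (⊤ : Subgroup G) x
      have h3 : Nat.card (⊤ : Subgroup G) = Nat.card G :=
        Nat.card_congr Subgroup.topEquiv.toEquiv
      simp only [artinFun, h2, h3]
    rw [h1, indFun_top _ (classFun_restrict ⊤ hcl)]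
  rw [htop] at hsum
  have h4 : artinFun G = (Nat.card G : ℂ) • (fun _ : G => (1 : ℂ)) -
      ∑ C ∈ Finset.univ.erase (⊤ : Subgroup G), indFun C (artinFun C) := by
    rw [eq_sub_iff_add_eq, ← hsum]
    ext g
    simp
  rw [h4]
  refine isGen_sub ?_ (isGen_sum _ _ fun C hC => ?_)
  · have := isGen_intCast_smul (Nat.card G : ℤ) (isGen_one (G := G))
    simpa using this
  · haveI := Fintype.ofFinite C
    refine isGen_ind C (ih (Nat.card C) ?_ C rfl)
    rw [← hn]
    exact lt_of_le_of_ne (Subgroup.card_le_card_group C)
      fun h => (Finset.mem_erase.mp hC).1 (Subgroup.eq_top_of_card_eq C h)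

theorem artinFun_isGen {G : Type u} [Group G] [Fintype G] :
    IsGeneralizedCharacter G (artinFun G) := artinFun_isGen_aux (Nat.card G) G rfl

/-- **Artin's induction theorem** -/
theorem artin_induction {G : Type u} [Group G] [Fintype G] {χ : G → ℂ} (hχ : IsCharacter G χ) :
    (Nat.card G : ℂ) • χ ∈ linSpan G (fun A => IsCyclic A) := by
  classical
  have h1 : (Nat.card G : ℂ) • χ = ∑ C : Subgroup G, indFun C (fun c => artinFun C c * χ c) := by
    have h2 : (Nat.card G : ℂ) • χ = (fun _ : G => (Nat.card G : ℂ)) * χ := by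
      ext g; simp
    rw [h2, artin_sum, Finset.sum_mul]
    refine Finset.sum_congr rfl fun C _ => ?_
    rw [indFun_mul_restrict C _ (char_classFun hχ)]
  rw [h1]
  refine AddSubgroup.sum_mem _ fun C _ => ?_
  haveI := Fintype.ofFinite C
  by_cases hC : IsCyclic C
  · -- expand into linear characters
    have hgen : IsGeneralizedCharacter C (fun c : C => artinFun C c * χ c) :=
      isGen_mul artinFun_isGen (isGen_of_char (isChar_restrict C hχ))
    haveI := Fintype.ofFinite (IrrCharacter C)
    obtain ⟨m, -, hexp⟩ := gen_expand hgen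
    rw [hexp, indFun_sum]
    refine AddSubgroup.sum_mem _ fun ψ _ => ?_
    rw [indFun_smul, Int.cast_smul_eq_zsmul]
    refine AddSubgroup.zsmul_mem _ ?_ _
    haveI : IsMulCommutative C := by
      letI := hC.commGroup
      exact ⟨⟨fun x y => mul_comm x y⟩⟩
    obtain ⟨μ, hμ⟩ := exists_hom_of_char_one (irr_isChar ψ.2) (irr_degree_one_of_comm ψ.2)
    rw [hμ]
    exact AddSubgroup.subset_closure ⟨C, μ, hC, rfl⟩
  · have h0 : artinFun C = 0 := by
      ext c
      simp only [artinFun, Pi.zero_apply]
      rw [if_neg]
      intro h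
      apply hC
      exact ⟨c, fun x => by
        have : x ∈ (⊤ : Subgroup C) := trivial
        rwa [← h] at this⟩
    have h2 : (fun c : C => artinFun C c * χ c) = 0 := by
      ext c; rw [h0]; simp
    rw [h2, indFun_zero]
    exact AddSubgroup.zero_mem _

end Cfsg.Agent.H3
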