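import Cfsg.Agent.H3.Berger1

/-!
# Berger's theorem on quasi-primitive characters, triples (helper3)
-/

set_option autoImplicit false
set_option linter.style.haveILetI false
set_option linter.unusedSimpArgs false
set_option linter.unusedSectionVars false
set_option linter.unusedVariables false
open Cfsg
open scoped ComplexConjugate commutatorElement

namespace Cfsg.Agent.H3

universe u v w

theorem norm_char_of_scalar {G : Type u} [Group G] [Finite G] {V : Type v} [AddCommGroup V]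
    [Module ℂ V] [FiniteDimensional ℂ V] [Nontrivial V] (ρ : Representation ℂ G V) {g : G}
    (h : g ∈ scalarSubgroup ρ) : ‖ρ.character g‖ = (Module.finrank ℂ V : ℝ) := by
  obtain ⟨c, hc⟩ := exists_scalarHom ρ
  have h1 : ‖(c ⟨g, h⟩ : ℂ)‖ = 1 := by
    apply Complex.norm_eq_one_of_pow_eq_one (n := orderOf (⟨g, h⟩ : scalarSubgroup ρ))
    · rw [← Units.val_pow_eq_pow_val, ← map_pow, pow_orderOf_eq_one, map_one, Units.val_one]
    · exact (orderOf_pos _).ne'
  have h2 : ρ.character g = (c ⟨g, h⟩ : ℂ) * Module.finrank ℂ V := by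
    have h3 := hc ⟨g, h⟩
    show LinearMap.trace ℂ V (ρ g) = _
    have h4 : ρ g = (c ⟨g, h⟩ : ℂ) • (LinearMap.id : V →ₗ[ℂ] V) := h3
    rw [h4, map_smul, smul_eq_mul, LinearMap.trace_id]
  rw [h2, norm_mul, h1, one_mul, Complex.norm_natCast]

section

variable {G : Type u} [Group G] [Fintype G]

theorem triple_quasi {N : Subgroup G} (hN : N.Normal) [Fintype N] {φ : N → ℂ}
    (hφ : IsIrrCharacter N φ) (hinv : ∀ g : G, cj hN g φ = φ) {χ : G → ℂ}
    (hχ : IsIrrCharacter G χ) (hcon : classInner (fun n : N => χ n) φ ≠ 0)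
    (hq : Quasiprimitive χ) :
    ∃ (Γ : Type u) (_ : Group Γ) (_ : Fintype Γ) (π : Γ →* G) (s : N →* Γ) (a : ℕ)
      (τ : Representation ℂ Γ (Fin a → ℂ)) (β : Γ → ℂ), Function.Surjective π ∧
      (∀ n, π (s n) = n) ∧ (∀ x n, x * s n * x⁻¹ = s (cjN hN (π x) n)) ∧
      (∀ n, τ.character (s n) = φ n) ∧ φ 1 = a ∧ IsIrrCharacter Γ τ.character ∧ s.range.Normal ∧
      IsIrrCharacter s.range (fun l : s.range => τ.character (l : Γ)) ∧ IsIrrCharacter Γ β ∧
      (∀ l ∈ s.range, β l = β 1) ∧ (fun x => χ (π x)) = τ.character * β ∧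
      Quasiprimitive β ∧ (∀ x, π x = 1 → ∃ c : ℂ, τ x = c • LinearMap.id) ∧
      (Group.IsSolvable G → Group.IsSolvable Γ) := by
  obtain ⟨a, ρ, hρ, rfl⟩ := hφ
  obtain ⟨Γ, i1, i2, π, s, τ, β, h1, h2, h3, h4, h5, h6, h7, h8, h9⟩ :=
    exists_triple hN ρ hinv hχ hcon
  have hτs : ∀ n, τ.character (s n) = ρ.character n := fun n => by
    show LinearMap.trace ℂ _ (τ (s n)) = LinearMap.trace ℂ _ (ρ n)
    rw [h4]
  have hinj : Function.Injective s := by
    intro x y hxy
    have := congrArg π hxy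
    rw [h2, h2] at this
    exact Subtype.ext this
  have hrange : s.range.Normal := by
    constructor
    rintro _ ⟨n, rfl⟩ x
    exact ⟨cjN hN (π x) n, (h3 x n).symm⟩
  have hirr : IsIrrCharacter s.range (fun l : s.range => τ.character (l : Γ)) := by
    rw [← isIrr_comp_equiv_iff (MonoidHom.ofInjective hinj)]
    have h10 : (fun n => τ.character ((MonoidHom.ofInjective hinj n : s.range) : Γ)) =
        ρ.character := by
      ext n
      exact hτs n
    rw [h10]
    exact isIrrCharacter_of_rep ρ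
  have hU : IsIrrCharacter Γ τ.character :=
    isIrr_of_restrict (isCharacter_of_rep τ) s.range hirr
  have hβ : ∀ l ∈ s.range, β l = β 1 := by
    rintro _ ⟨n, rfl⟩
    exact h6 n
  have hprod : (fun x => χ (π x)) = τ.character * β := by
    ext x
    exact h7 x
  refine ⟨Γ, i1, i2, π, s, a, τ, β, h1, h2, h3, hτs, ?_, hU, hrange, hirr, h5, hβ, hprod, ?_, h8, h9⟩
  · rw [Representation.char_one]; simp
  · apply quasi_of_mul hU hrange hirr h5 hβ
    rw [← hprod]
    exact quasi_comap hq π h1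

/-- Case A of Berger's theorem -/
theorem berger_case_A {N H : Subgroup G} (hN : N.Normal) [Fintype N] (hNH : N ≤ H) (hH : H ≠ ⊤)
    {φ : N → ℂ} (hφ : IsIrrCharacter N φ) (hinv : ∀ g : G, cj hN g φ = φ) {χ : G → ℂ}
    (hχ : IsIrrCharacter G χ) (hcon : classInner (fun n : N => χ n) φ ≠ 0)
    (hq : Quasiprimitive χ) {ϑ : H → ℂ} (hϑ : IsIrrCharacter H ϑ) (hind : indFun H ϑ = χ)
    (hφ1 : φ 1 ≠ 1) {d : ℕ} (hd : χ 1 = d) (hsolv : Group.IsSolvable G)
    (ih : ∀ m < d, ∀ (Γ : Type u) [Group Γ] [Fintype Γ], Group.IsSolvable Γ → ∀ β : Γ → ℂ,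
      IsIrrCharacter Γ β → Quasiprimitive β → β 1 = m → Primitive β) : False := by
  obtain ⟨Γ, i1, i2, π, s, a, τ, β, h1, h2, h3, h4, h5, h6, h7, h8, h9, h10, h11, h12, -, h14⟩ :=
    triple_quasi hN hφ hinv hχ hcon hq
  obtain ⟨b, hb0, hb⟩ := irr_one_eq_nat h9
  obtain ⟨a', ha0, ha⟩ := irr_one_eq_nat hφ
  have haa : a' = a := by
    have : (a' : ℂ) = a := by rw [← ha, h5]
    exact_mod_cast this
  subst haa
  have hdab : d = a' * b := by
    have h15 := congrFun h11 1
    rw [map_one, Pi.mul_apply, hb, hd, Representation.char_one] at h15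
    have h16 : (d : ℂ) = ((a' * b : ℕ) : ℂ) := by rw [h15]; push_cast; simp
    exact_mod_cast h16
  have ha1 : a' ≠ 1 := by
    rintro rfl
    exact hφ1 (by rw [ha]; simp)
  have hbd : b < d := by
    rw [hdab]
    have : 1 < a' := by omega
    nlinarith
  have hprim := ih b hbd Γ (h14 hsolv) β h9 h12 hb
  have hLH : s.range ≤ H.comap π := by
    rintro _ ⟨n, rfl⟩
    rw [Subgroup.mem_comap, h2]
    exact hNH n.2
  have hϑ' : IsIrrCharacter (H.comap π) (fun x : H.comap π => ϑ ⟨π x, x.2⟩) :=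
    isIrr_comp_surjective hϑ (π.subgroupComap H) (π.subgroupComap_surjective_of_surjective H h1)
  have hind' : indFun (H.comap π) (fun x : H.comap π => ϑ ⟨π x, x.2⟩) = τ.character * β := by
    rw [indFun_comap π h1 H ϑ, ← h11, hind]
  obtain ⟨γ, hγ, hγβ⟩ := exists_ind_of_triple h6 h7 h8 h9 h10 hLH hϑ' hind'
  refine hprim (H.comap π) γ ?_ hγ hγβ
  intro htop
  apply hH
  rw [← Subgroup.map_comap_eq_self_of_surjective h1 H, htop, Subgroup.map_top_of_surjective π h1]

theorem classInner_mul_conj (a b c : G → ℂ) :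
    classInner (a * fun g => conj (b g)) c = classInner a (b * c) := by
  unfold classInner
  congr 1
  refine Finset.sum_congr rfl fun g _ => ?_
  simp only [Pi.mul_apply, map_mul]
  ring

/-- the relation on `H`: primitivity passes from `β` to `α` -/
theorem berger_alpha {α β ϑ : G → ℂ} (hα : IsCharacter G α) (hβ : IsIrrCharacter G β)
    (hϑ : IsIrrCharacter G ϑ) (hne : classInner ϑ (α * β) ≠ 0) (hdeg : ϑ 1 * α 1 = β 1)
    (hprim : Primitive β) : IsIrrCharacter G α ∧ Primitive α := by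
  have hαc : IsCharacter G (fun g => conj (α g)) := isChar_conj hα
  have h1 : ϑ * (fun g => conj (α g)) = β := by
    apply char_eq_of_degree (isChar_mul (irr_isChar hϑ) hαc) hβ
    · rw [classInner_mul_conj]; exact hne
    · rw [Pi.mul_apply]
      obtain ⟨n, hn⟩ := char_one_eq_nat hα
      show ϑ 1 * conj (α 1) = _
      rw [hn, Complex.conj_natCast, ← hn, hdeg]
  have h2 : IsIrrCharacter G (fun g => conj (α g)) := by
    apply irr_of_mul_irr (irr_isChar hϑ) hαc
    rw [h1]; exact hβ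
  have h3 : IsIrrCharacter G α := by
    have := isIrr_conj h2
    simpa using this
  refine ⟨h3, ?_⟩
  intro T γ hT hγ hind
  have h4 : indFun T ((fun t : T => conj (γ t)) * fun t : T => ϑ t) = β := by
    rw [← h1]
    have h5 := indFun_mul_restrict T (fun t : T => conj (γ t)) (irr_classFun hϑ)
    have h6 : (fun g => conj (α g)) = indFun T (fun t : T => conj (γ t)) := by
      rw [← indFun_conj, hind]
    rw [h6, mul_comm ϑ, ← h5]
    rfl
  have h5 : IsCharacter T ((fun t : T => conj (γ t)) * fun t : T => ϑ t) :=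
    isChar_mul (isChar_conj (irr_isChar hγ)) (isChar_restrict T (irr_isChar hϑ))
  exact hprim T _ hT (irr_of_ind_irr h5 (by rw [h4]; exact hβ)) h4

/-- quasi-primitive characters on a section that is an `r`-group modulo scalars, with degree
dividing a power of `p` -/
theorem berger_scalar {a : ℕ} (τ : Representation ℂ G (Fin a → ℂ))
    (hτ : IsIrrCharacter G τ.character) (hq : Quasiprimitive τ.character) {Z R : Subgroup G}
    (hZ : Z.Normal) (hR : R.Normal) (hZR : Z ≤ R) (hZs : ∀ z ∈ Z, z ∈ scalarSubgroup τ) {p r : ℕ}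
    [Fact r.Prime] (hp : p.Prime) (hpr : p ≠ r) {j : ℕ} (ha : a ∣ p ^ j)
    (hRr : ∀ x ∈ R, x ^ r ∈ Z) : ∀ x ∈ R, x ∈ scalarSubgroup τ := by
  obtain ⟨a', ha0, ha'⟩ := irr_one_eq_nat hτ
  rw [Representation.char_one] at ha'
  have haa : a' = a := by
    have : ((Module.finrank ℂ (Fin a → ℂ) : ℕ) : ℂ) = a' := ha'
    rw [Module.finrank_fin_fun] at this
    exact_mod_cast this.symm
  subst haa
  haveI : Nonempty (Fin a') := ⟨⟨0, ha0⟩⟩
  obtain ⟨κ, m, ⟨k, σ, hσ, rfl⟩, hm⟩ := hq R hR
  have hmk : a' = m * k := by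
    have h1 := congrFun hm 1
    rw [Subgroup.coe_one, Representation.char_one, Pi.smul_apply, Representation.char_one,
      smul_eq_mul, Module.finrank_fin_fun, Module.finrank_fin_fun] at h1
    exact_mod_cast h1
  have hm0 : 0 < m := Nat.pos_of_ne_zero (by rintro rfl; omega)
  have hk0 : 0 < k := Nat.pos_of_ne_zero (by rintro rfl; omega)
  haveI : Nonempty (Fin k) := ⟨⟨0, hk0⟩⟩
  have hnorm : ∀ x : R, (m : ℝ) * ‖σ.character x‖ = ‖τ.character (x : G)‖ := by
    intro x
    have h1 := congrFun hm x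
    rw [Pi.smul_apply, smul_eq_mul] at h1
    rw [h1, norm_mul, Complex.norm_natCast]
  have hZσ : ∀ z ∈ Z.subgroupOf R, ∃ c : ℂ, σ z = c • (LinearMap.id : (Fin k → ℂ) →ₗ[ℂ] _) := by
    intro z hz
    have h1 := norm_char_of_scalar τ (hZs z hz)
    rw [← hnorm z, hmk, Module.finrank_fin_fun] at h1
    push_cast at h1
    have h2 : ‖σ.character z‖ = k := by
      have hm0' : (m : ℝ) ≠ 0 := by exact_mod_cast hm0.ne'
      exact mul_left_cancel₀ hm0' h1
    exact ⟨_, H27.rep_scalar_of_norm_char_eq σ z (by simpa using hk0) (by simpa using h2)⟩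
  have h1 := finrank_dvd_index_of_scalar σ (Z.subgroupOf R) hZσ
  rw [Module.finrank_fin_fun] at h1
  obtain ⟨i, hi⟩ := relIndex_of_pGroup_map hZ hZR hRr
  rw [hi] at h1
  have h2 : k ∣ p ^ j := (Dvd.intro_left m hmk.symm).trans ha
  have h3 : k = 1 := by
    have h4 : Nat.Coprime (r ^ i) (p ^ j) :=
      Nat.Coprime.pow _ _ ((Nat.coprime_primes Fact.out hp).2 hpr.symm)
    exact Nat.eq_one_of_dvd_coprimes h4 h1 h2
  subst h3
  intro x hx
  have h4 : ‖σ.character ⟨x, hx⟩‖ = 1 := by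
    have h5 : (⟨x, hx⟩ : R) ∈ scalarSubgroup σ := by
      rw [mem_scalarSubgroup]
      refine ⟨σ.character ⟨x, hx⟩, ?_⟩
      apply LinearMap.ext
      intro v
      ext i
      have h6 : ∀ f : (Fin 1 → ℂ) →ₗ[ℂ] (Fin 1 → ℂ), ∀ v i, f v i =
          LinearMap.trace ℂ _ f * v i := by
        intro f v i
        rw [LinearMap.trace_eq_matrix_trace ℂ (Pi.basisFun ℂ (Fin 1))]
        have h7 : v = v 0 • (Pi.basisFun ℂ (Fin 1)) 0 := by
          ext i
          fin_cases i
          simp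
        fin_cases i
        conv_lhs => rw [h7]
        simp [Matrix.trace, LinearMap.toMatrix_apply, mul_comm]
      exact h6 _ v i
    have h6 := norm_char_of_scalar σ h5
    rw [h6]; simp
  have h5 : ‖τ.character x‖ = (Module.finrank ℂ (Fin a' → ℂ) : ℝ) := by
    rw [← hnorm ⟨x, hx⟩, h4, hmk, Module.finrank_fin_fun]; simp
  exact ⟨_, H27.rep_scalar_of_norm_char_eq τ x (by simpa using ha0) h5⟩

end

end Cfsg.Agent.H3
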