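import Cfsg.Agent.H3.Berger2

/-!
# Berger's theorem: quasi-primitive characters of solvable groups are primitive (helper3)
-/

set_option autoImplicit false
set_option linter.style.haveILetI false
set_option linter.unusedSimpArgs false
set_option linter.unusedSectionVars false
set_option linter.unusedVariables false
open Cfsg
open scoped ComplexConjugate commutatorElement

namespace Cfsg.Agent.H3

universe u v w

section

variable {G : Type u} [Group G] [Fintype G]

/-- Case B of Berger's theorem -/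
theorem berger_case_B {H : Subgroup G} (hmax : IsCoatom H) {χ : G → ℂ}
    (hχ : IsIrrCharacter G χ) (hq : Quasiprimitive χ) {ϑ : H → ℂ} (hϑ : IsIrrCharacter H ϑ)
    (hind : indFun H ϑ = χ) {L : Subgroup G} (hLcore : L = H.normalCore) {φ : L → ℂ}
    (hφ : IsIrrCharacter L φ) {e₀ : ℕ} (heφ : (fun l : L => χ l) = (e₀ : ℂ) • φ)
    (hφ1 : φ 1 = 1) {d : ℕ} (hd : χ 1 = d) (hsolv : Group.IsSolvable G)
    (ih : ∀ m < d, ∀ (Γ : Type u) [Group Γ] [Fintype Γ], Group.IsSolvable Γ → ∀ β : Γ → ℂ,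
      IsIrrCharacter Γ β → Quasiprimitive β → β 1 = m → Primitive β) : False := by
  classical
  haveI := hsolv
  have hHtop : H ≠ ⊤ := hmax.1
  have hL : L.Normal := by rw [hLcore]; infer_instance
  have hLH : L ≤ H := by rw [hLcore]; exact H.normalCore_le
  have hLmax : ∀ N : Subgroup G, N.Normal → N ≤ H → N ≤ L := by
    intro N hN h
    rw [hLcore]
    haveI := hN
    exact Subgroup.normal_le_normalCore.2 h
  haveI := Fintype.ofFinite H
  haveI := Fintype.ofFinite L
  -- basic facts about `φ`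
  obtain ⟨φh, hφh⟩ := H27.exists_hom_of_one (irr_isChar hφ) hφ1
  have hφn : ∀ l : L, ‖φ l‖ = 1 := by
    intro l
    rw [hφh l]
    apply Complex.norm_eq_one_of_pow_eq_one (n := orderOf l)
    · rw [← Units.val_pow_eq_pow_val, ← map_pow, pow_orderOf_eq_one, map_one, Units.val_one]
    · exact (orderOf_pos _).ne'
  have he₀ : (e₀ : ℂ) = χ 1 := by
    have h1 := congrFun heφ 1
    rw [Subgroup.coe_one, Pi.smul_apply, hφ1, smul_eq_mul, mul_one] at h1
    exact h1.symm
  have hχL : ∀ l : L, χ l = φ l * χ 1 := by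
    intro l
    have h1 := congrFun heφ l
    rw [Pi.smul_apply, smul_eq_mul, he₀] at h1
    rw [h1, mul_comm]
  -- `ϑ` is a constituent of `χ_H`
  have hne1 : classInner (fun u : H => χ u) ϑ ≠ 0 := by
    have h1 := frobenius_reciprocity H ϑ (irr_classFun hχ)
    rw [hind, classInner_self_of_irr hχ] at h1
    apply classInner_ne_zero_symm
    rw [← h1]; exact one_ne_zero
  have hsub := isChar_sub_irr (isChar_restrict H (irr_isChar hχ)) hϑ hne1
  have hϑL : ∀ l : G, ∀ hl : l ∈ L, ϑ ⟨l, hLH hl⟩ = φ ⟨l, hl⟩ * ϑ 1 := by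
    intro l hl
    exact constituent_scalar (irr_isChar hϑ) hsub (χ := fun u : H => χ u) (by ring)
      (hφn ⟨l, hl⟩) (by
        show χ l = _ * χ ((1 : H) : G)
        rw [Subgroup.coe_one]
        exact hχL ⟨l, hl⟩)
  -- the chief factor `M/L`
  have hLtop : L < ⊤ := lt_of_le_of_lt hLH (lt_top_iff_ne_top.2 hHtop)
  have hsL : Group.IsSolvable (G ⧸ L) :=
    Group.isSolvable_of_surjective (f := QuotientGroup.mk' L) (QuotientGroup.mk'_surjective L)
  obtain ⟨M, hM, hLM, -, hMmin⟩ := H1.exists_chief_above (Z := L) (C := ⊤) inferInstance hLtop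
  obtain ⟨hMcom, p, hp, hMp, -⟩ := chief_factor_solvable' hL hM hLM hMmin hsL
  haveI := hM
  have hMH : ¬ M ≤ H := by
    intro h
    exact hLM.not_ge (hLmax M hM h)
  have hsup : M ⊔ H = ⊤ := by
    apply hmax.2
    refine lt_of_le_of_ne le_sup_right fun h => hMH ?_
    rw [h]; exact le_sup_left
  have hfac : ∀ g : G, ∃ m ∈ M, m⁻¹ * g ∈ H := by
    intro g
    have h1 : g ∈ ((M ⊔ H : Subgroup G) : Set G) := by rw [hsup]; exact Subgroup.mem_top g
    rw [Subgroup.normal_mul] at h1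
    obtain ⟨m, hm, h, hh, hmh⟩ := h1
    refine ⟨m, hm, ?_⟩
    rw [← hmh]
    simpa using hh
  have hfac' : ∀ K : Subgroup G, M ≤ K → ∀ g : G, ∃ k ∈ K, k⁻¹ * g ∈ H := by
    intro K hMK g
    obtain ⟨m, hm, h1⟩ := hfac g
    exact ⟨m, hMK hm, h1⟩
  -- normality criterion
  have hnorm : ∀ K : Subgroup G, K.Normal → M ≤ K →
      (∀ x ∈ H ⊓ K, ∀ m ∈ M, m * x * m⁻¹ ∈ H) → (H ⊓ K) = L := by
    intro K hK hMK h1
    have h2 : (H ⊓ K).Normal := by
      constructor
      rintro x hx g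
      obtain ⟨m, hm, hh⟩ := hfac g
      have h3 : g * x * g⁻¹ = m * ((m⁻¹ * g) * x * (m⁻¹ * g)⁻¹) * m⁻¹ := by group
      refine ⟨?_, hK.conj_mem x hx.2 g⟩
      rw [h3]
      refine h1 _ ⟨?_, hK.conj_mem x hx.2 _⟩ m hm
      exact H.mul_mem (H.mul_mem hh hx.1) (H.inv_mem hh)
    apply le_antisymm
    · exact hLmax _ h2 inf_le_left
    · exact le_inf hLH (hLM.le.trans hMK)
  have hHM : H ⊓ M = L := by
    apply hnorm M hM le_rfl
    intro x hx m hm
    have h1 : m * x * m⁻¹ = ⁅m, x⁆ * x := by rw [commutatorElement_def]; group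
    rw [h1]
    exact H.mul_mem (hLH (hMcom (Subgroup.commutator_mem_commutator hm hx.2))) hx.1
  -- indices
  have hϑ1 : ϑ 1 ≠ 0 := irr_one_ne_zero hϑ
  have hidx : ∀ K : Subgroup G, M ≤ K → (H.subgroupOf K).index = H.index := by
    intro K hMK
    haveI := Fintype.ofFinite K
    have h1 := indFun_restrict_of_mul H K (hfac' K hMK) (irr_classFun hϑ) 1
    rw [indFun_one_apply, Subgroup.coe_one, indFun_one_apply] at h1
    have h2 : (H.index : ℂ) * ϑ 1 = ((H.subgroupOf K).index : ℂ) * ϑ 1 := h1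
    exact_mod_cast (mul_right_cancel₀ hϑ1 h2).symm
  have hcardK : ∀ K : Subgroup G, M ≤ K → H ⊓ K = L → K = M := by
    intro K hMK hHK
    have h1 := hidx K hMK
    have h2 := hidx M le_rfl
    have h3 : Nat.card (H.subgroupOf K) = Nat.card L := by
      rw [← hHK]
      rw [← Subgroup.card_map_of_injective (K := H.subgroupOf K) K.subtype_injective,
        Subgroup.subgroupOf_map_subtype]
    have h4 : Nat.card (H.subgroupOf M) = Nat.card L := by
      rw [← hHM]
      rw [← Subgroup.card_map_of_injective (K := H.subgroupOf M) M.subtype_injective,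
        Subgroup.subgroupOf_map_subtype]
    have h5 := (H.subgroupOf K).index_mul_card
    have h6 := (H.subgroupOf M).index_mul_card
    rw [h1, h3] at h5
    rw [h2, h4] at h6
    exact (Subgroup.eq_of_le_of_card_ge hMK (by rw [← h5, ← h6])).symm
  -- `χ_M = e ψ`
  haveI := Fintype.ofFinite M
  have hχM0 : (fun m : M => χ m) ≠ 0 := by
    intro h
    exact irr_one_ne_zero hχ (congrFun h 1)
  obtain ⟨ψ, hψ⟩ := exists_constituent (isChar_restrict M (irr_isChar hχ)) hχM0
  obtain ⟨hψinv, e, he0, heq⟩ := hom_constituent hM hχ (hq M hM) ψ.2 hψ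
  -- `ψ` vanishes off `L`
  have hLHM : H.subgroupOf M = L.subgroupOf M := by
    ext x
    rw [Subgroup.mem_subgroupOf, Subgroup.mem_subgroupOf]
    constructor
    · intro hx
      rw [← hHM]; exact ⟨hx, x.2⟩
    · intro hx
      exact hLH hx
  have hL'n : (L.subgroupOf M).Normal := hL.subgroupOf M
  have hψv : ∀ m : M, m ∉ L.subgroupOf M → (ψ : M → ℂ) m = 0 := by
    intro m hm
    have h1 : χ m = 0 := by
      rw [← hind, indFun_restrict_of_mul H M hfac (irr_classFun hϑ) m]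
      rw [← hLHM] at hm hL'n
      exact indFun_not_mem_normal hL'n _ hm
    have h2 := congrFun heq m
    rw [Pi.smul_apply, smul_eq_mul, h1] at h2
    exact (mul_eq_zero.1 h2.symm).resolve_left he0
  obtain ⟨a, ha0, ha⟩ := irr_one_eq_nat ψ.2
  have hψL : ∀ m : M, ∀ hm : (m : G) ∈ L, (ψ : M → ℂ) m = φ ⟨m, hm⟩ * a := by
    intro m hm
    have h1 := congrFun heq m
    have h2 := congrFun heq 1
    rw [Pi.smul_apply, smul_eq_mul] at h1 h2
    have h3 := hχL ⟨m, hm⟩
    have h4 : χ ((1 : M) : G) = χ 1 := rfl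
    rw [← h4, h2, ha] at h3
    have h5 : χ (m : G) = χ (((⟨m, hm⟩ : L) : L) : G) := rfl
    rw [h5, h3] at h1
    apply mul_left_cancel₀ he0
    rw [← h1]; ring
  have ha2 : a ^ 2 = H.index := by
    haveI := Fintype.ofFinite (L.subgroupOf M)
    have h1 := norm_of_vanish ψ.2 hψv
    have h2 : classInner (fun l : L.subgroupOf M => (ψ : M → ℂ) l)
        (fun l : L.subgroupOf M => (ψ : M → ℂ) l) = (a : ℂ) ^ 2 := by
      have h3 : ∀ l : L.subgroupOf M, (ψ : M → ℂ) l * conj ((ψ : M → ℂ) l) = (a : ℂ) ^ 2 := by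
        intro l
        rw [Complex.mul_conj, Complex.normSq_eq_norm_sq, hψL l l.2, norm_mul,
          hφn ⟨((l : M) : G), l.2⟩, Complex.norm_natCast, one_mul]
        push_cast; rfl
      unfold classInner
      rw [Finset.sum_congr rfl (fun l _ => h3 l), Finset.sum_const, Finset.card_univ, nsmul_eq_mul,
        Nat.card_eq_fintype_card, ← mul_assoc, inv_mul_cancel₀, one_mul]
      rw [← Nat.card_eq_fintype_card]; exact card_ne_zeroC
    rw [h2, ← hLHM, hidx M le_rfl] at h1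
    exact_mod_cast h1
  obtain ⟨t, ht0, ht⟩ := irr_one_eq_nat hϑ
  have hdat : d = a ^ 2 * t := by
    have h1 : (d : ℂ) = ((a ^ 2 * t : ℕ) : ℂ) := by
      rw [← hd, ← hind, indFun_one_apply, ht, ← ha2]; push_cast; rfl
    exact_mod_cast h1
  have hdea : d = e * a := by
    have h1 : (d : ℂ) = ((e * a : ℕ) : ℂ) := by
      have h2 := congrFun heq 1
      rw [Subgroup.coe_one, Pi.smul_apply, smul_eq_mul, ha, hd] at h2
      rw [h2]; push_cast; rfl
    exact_mod_cast h1
  have hea : e = a * t := by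
    apply Nat.eq_of_mul_eq_mul_right ha0
    rw [← hdea, hdat]; ring
  have ha1 : 1 < a := by
    by_contra hcon
    have h1 : a = 1 := by omega
    rw [h1] at ha2
    apply hHtop
    rw [← Subgroup.index_eq_one, ← ha2]; norm_num
  have he1 : 1 < e := by
    rw [hea]
    have : 1 ≤ t := ht0
    nlinarith
  have hed : e < d := by
    rw [hdea]
    nlinarith
  -- `M` is proper
  have hMtop : M < ⊤ := by
    rw [lt_top_iff_ne_top]
    intro hMt
    have h1 : IsIrrCharacter M (fun m : M => χ m) :=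
      isIrr_comp_surjective hχ M.subtype (fun x => ⟨⟨x, by rw [hMt]; exact Subgroup.mem_top x⟩, rfl⟩)
    have h2 := classInner_self_of_irr h1
    rw [heq, classInner_smul_left, classInner_smul_right, classInner_self_of_irr ψ.2] at h2
    simp only [Complex.conj_natCast, mul_one] at h2
    have h3 : e * e = 1 := by exact_mod_cast h2
    nlinarith
  -- the chief factor `K/M`
  have hsM : Group.IsSolvable (G ⧸ M) :=
    Group.isSolvable_of_surjective (f := QuotientGroup.mk' M) (QuotientGroup.mk'_surjective M)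
  obtain ⟨K, hK, hMK, -, hKmin⟩ := H1.exists_chief_above (Z := M) (C := ⊤) inferInstance hMtop
  obtain ⟨hKcom, r, hr, hKr, -⟩ := chief_factor_solvable' hM hK hMK hKmin hsM
  haveI := hK
  haveI : Fact p.Prime := ⟨hp⟩
  haveI : Fact r.Prime := ⟨hr⟩
  have hKM : H ⊓ K ≠ L := fun h => hMK.ne' (hcardK K hMK.le h)
  -- `p ≠ r`
  have hpr : p ≠ r := by
    rintro rfl
    have h1 := commutator_le_of_pgroup hL hM hK hLM hMK.le hMmin hMp hKr
    apply hKM
    apply hnorm K hK hMK.le
    intro x hx m hm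
    have h2 : m * x * m⁻¹ = ⁅m, x⁆ * x := by rw [commutatorElement_def]; group
    rw [h2]
    exact H.mul_mem (hLH (h1 (Subgroup.commutator_mem_commutator hm hx.2))) hx.1
  -- `a` divides a power of `p`
  obtain ⟨j, hj⟩ := relIndex_of_pGroup_map hL hLM.le hMp
  have haj : a ∣ p ^ j := by
    rw [← hj, ← hLHM, hidx M le_rfl, ← ha2]
    exact dvd_pow_self a (by norm_num)
  -- the triple for `(M, ψ)`
  obtain ⟨Γ, i1, i2, π, s, a', τ, β, h1, h2, h3, h4, h5, h6, h7, h8, h9, h10, h11, h12, h13, h14⟩ :=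
    triple_quasi hM ψ.2 hψinv hχ hψ hq
  have haa : a' = a := by
    have : (a' : ℂ) = a := by rw [← ha, h5]
    exact_mod_cast this
  subst haa
  haveI : Nonempty (Fin a') := ⟨⟨0, ha0⟩⟩
  let Hh : Subgroup Γ := H.comap π
  haveI := Fintype.ofFinite Hh
  have hHh : Hh ≠ ⊤ := by
    intro htop
    apply hHtop
    rw [← Subgroup.map_comap_eq_self_of_surjective h1 H]
    show Hh.map π = ⊤
    rw [htop, Subgroup.map_top_of_surjective π h1]
  have hfacΓ : ∀ x : Γ, ∃ l ∈ s.range, l⁻¹ * x ∈ Hh := by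
    intro x
    obtain ⟨m, hm, hmx⟩ := hfac (π x)
    refine ⟨s ⟨m, hm⟩, ⟨_, rfl⟩, ?_⟩
    rw [Subgroup.mem_comap, map_mul, map_inv, h2]
    exact hmx
  obtain ⟨hβH, hqβH⟩ := quasi_restrict h7 h9 h10 h12 hfacΓ
  have hβ1 : β 1 = e := by
    have h15 := congrFun h11 1
    rw [map_one, Pi.mul_apply, hd, Representation.char_one, Module.finrank_fin_fun, hdea] at h15
    push_cast at h15
    have h16 : (a' : ℂ) ≠ 0 := by exact_mod_cast ha0.ne'
    apply mul_left_cancel₀ h16
    rw [← h15, mul_comm]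
  haveI hsΓ : Group.IsSolvable Γ := h14 hsolv
  have hprimβ : Primitive (fun h : Hh => β h) :=
    ih e hed Hh (Group.isSolvable_of_isSolvable_injective Hh.subtype_injective) _ hβH hqβH (by
      rw [Subgroup.coe_one]; exact hβ1)
  -- `α`
  have hϑ' : IsIrrCharacter Hh (fun x : Hh => ϑ ⟨π x, x.2⟩) :=
    isIrr_comp_surjective hϑ (π.subgroupComap H) (π.subgroupComap_surjective_of_surjective H h1)
  have hind' : indFun Hh (fun x : Hh => ϑ ⟨π x, x.2⟩) = τ.character * β := by
    show indFun (H.comap π) (fun x : H.comap π => ϑ ⟨π x, x.2⟩) = τ.character * β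
    rw [indFun_comap π h1 H ϑ, ← h11, hind]
  have hχπ : IsIrrCharacter Γ (τ.character * β) := by
    rw [← h11]; exact isIrr_comp_surjective hχ π h1
  have hα : IsCharacter Hh (fun x : Hh => τ.character (x : Γ)) :=
    isChar_restrict Hh (irr_isChar h6)
  obtain ⟨hαirr, hαprim⟩ := berger_alpha hα hβH hϑ' (by
    have h15 := frobenius_reciprocity Hh (fun x : Hh => ϑ ⟨π x, x.2⟩) (irr_classFun hχπ)
    rw [hind', classInner_self_of_irr hχπ] at h15
    show classInner _ (fun x : Hh => (τ.character * β) x) ≠ 0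
    rw [← h15]; exact one_ne_zero) (by
    show ϑ ⟨π ((1 : Hh) : Γ), _⟩ * τ.character ((1 : Hh) : Γ) = β ((1 : Hh) : Γ)
    have h15 : (⟨π ((1 : Hh) : Γ), (1 : Hh).2⟩ : H) = 1 := by
      apply Subtype.ext
      show π ((1 : Hh) : Γ) = 1
      rw [Subgroup.coe_one, map_one]
    rw [h15, Subgroup.coe_one, ht, hβ1, Representation.char_one, Module.finrank_fin_fun, hea]
    push_cast; ring) hprimβ
  have hαq := primitive_quasiprimitive hαirr hαprim
  -- the scalars
  have hLs : ∀ x : Γ, π x ∈ L → x ∈ scalarSubgroup τ := by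
    intro x hx
    have h15 : x * (s ⟨π x, hLM.le hx⟩)⁻¹ ∈ scalarSubgroup τ := by
      obtain ⟨c, hc⟩ := h13 (x * (s ⟨π x, hLM.le hx⟩)⁻¹) (by
        rw [map_mul, map_inv, h2, mul_inv_cancel])
      exact ⟨c, hc⟩
    have h16 : s ⟨π x, hLM.le hx⟩ ∈ scalarSubgroup τ := by
      have h17 : ‖τ.character (s ⟨π x, hLM.le hx⟩)‖ =
          (Module.finrank ℂ (Fin a' → ℂ) : ℝ) := by
        rw [h4, hψL ⟨π x, hLM.le hx⟩ hx, norm_mul, hφn, one_mul, Complex.norm_natCast,
          Module.finrank_fin_fun]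
      exact ⟨_, H27.rep_scalar_of_norm_char_eq τ _ (by simpa using ha0) h17⟩
    have h17 := (scalarSubgroup τ).mul_mem h15 h16
    rwa [inv_mul_cancel_right] at h17
  let τ' : Representation ℂ Hh (Fin a' → ℂ) := τ.comp Hh.subtype
  have hτ' : ∀ x : Hh, x ∈ scalarSubgroup τ' ↔ (x : Γ) ∈ scalarSubgroup τ := fun x => Iff.rfl
  have hZn : ((L.comap π).subgroupOf Hh).Normal := (hL.comap π).subgroupOf Hh
  have hRn : ((K.comap π).subgroupOf Hh).Normal := (hK.comap π).subgroupOf Hh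
  have hscal := berger_scalar τ' hαirr hαq hZn hRn (by
    intro x hx
    exact hLM.le.trans hMK.le hx) (fun z hz => (hτ' z).2 (hLs z hz)) hp hpr haj (by
    intro x hx
    have h15 : π (x : Γ) ∈ K := hx
    have h16 := hKr _ h15
    have h17 : π (x : Γ) ^ r ∈ H ⊓ M := ⟨H.pow_mem x.2 r, h16⟩
    rw [hHM, ← map_pow] at h17
    exact h17)
  -- final contradiction
  apply hKM
  apply hnorm K hK hMK.le
  intro x hx m hm
  have key : ∀ y ∈ H ⊓ K, ∀ n ∈ M, n⁻¹ * (y * n * y⁻¹) ∈ L := by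
    intro y hy n hn
    obtain ⟨y', rfl⟩ := h1 y
    have h15 : y' ∈ scalarSubgroup τ := (hτ' ⟨y', hy.1⟩).1 (hscal ⟨y', hy.1⟩ hy.2)
    obtain ⟨c, hc⟩ := h15
    have h16 : τ (y' * s ⟨n, hn⟩ * y'⁻¹) = τ (s ⟨n, hn⟩) := by
      have h17 : τ (y' * s ⟨n, hn⟩) = τ (s ⟨n, hn⟩ * y') := by
        rw [map_mul, map_mul, hc]
        ext v
        simp
      rw [map_mul, h17, ← map_mul, mul_inv_cancel_right]
    have h17 : τ ((s ⟨n, hn⟩)⁻¹ * (y' * s ⟨n, hn⟩ * y'⁻¹)) = 1 := by
      rw [map_mul, h16, ← map_mul, inv_mul_cancel, map_one]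
    rw [h3, ← map_inv, ← map_mul] at h17
    have h18 : (ψ : M → ℂ) ((⟨n, hn⟩ : M)⁻¹ * cjN hM (π y') ⟨n, hn⟩) = a' := by
      rw [← h4, Representation.character, h17, LinearMap.trace_one, Module.finrank_fin_fun]
    by_contra hcon
    have h19 := hψv ((⟨n, hn⟩ : M)⁻¹ * cjN hM (π y') ⟨n, hn⟩) (by
      rw [Subgroup.mem_subgroupOf]
      exact hcon)
    rw [h18] at h19
    have : a' = 0 := by exact_mod_cast h19
    omega
  have h15 := key x⁻¹ ((H ⊓ K).inv_mem hx) m⁻¹ (M.inv_mem hm)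
  have h16 : m * x * m⁻¹ = x * (m⁻¹⁻¹ * (x⁻¹ * m⁻¹ * x⁻¹⁻¹))⁻¹ := by group
  rw [h16]
  exact H.mul_mem hx.1 (H.inv_mem (hLH h15))

theorem berger_main : ∀ (d : ℕ) (G : Type u) [Group G] [Fintype G], Group.IsSolvable G →
    ∀ χ : G → ℂ, IsIrrCharacter G χ → Quasiprimitive χ → χ 1 = d → Primitive χ := by
  intro d
  induction d using Nat.strong_induction_on with | _ d ih
  intro G _ _ hs χ hχ hq hd T θ hT hθ hind
  classical
  obtain ⟨H, hH, hTH⟩ := (eq_top_or_exists_le_coatom T).resolve_left hT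
  haveI := Fintype.ofFinite H
  have htrans := indFun_trans T H hTH θ
  set ϑ : H → ℂ := indFun (T.subgroupOf H) (fun x => θ ⟨(x : H), Subgroup.mem_subgroupOf.mp x.2⟩)
    with hϑdef
  have hϑc : IsCharacter H ϑ := isChar_ind _ (irr_isChar
    (isIrr_comp_surjective hθ (Subgroup.subgroupOfEquivOfLe hTH).toMonoidHom
      (Subgroup.subgroupOfEquivOfLe hTH).surjective))
  have hind' : indFun H ϑ = χ := by rw [htrans, hind]
  have hϑ : IsIrrCharacter H ϑ := irr_of_ind_irr hϑc (by rw [hind']; exact hχ)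
  let L : Subgroup G := H.normalCore
  have hL : L.Normal := inferInstance
  haveI := Fintype.ofFinite L
  have h0 : (fun l : L => χ l) ≠ 0 := fun h => irr_one_ne_zero hχ (congrFun h 1)
  obtain ⟨φ, hφ⟩ := exists_constituent (isChar_restrict L (irr_isChar hχ)) h0
  obtain ⟨hinv, e, he0, he⟩ := hom_constituent hL hχ (hq L hL) φ.2 hφ
  by_cases h1 : (φ : L → ℂ) 1 = 1
  · exact berger_case_B hH hχ hq hϑ hind' rfl φ.2 he h1 hd hs ih
  · exact berger_case_A hL H.normalCore_le hH.1 φ.2 hinv hχ hφ hq hϑ hind' h1 hd hs ih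

end

end Cfsg.Agent.H3
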