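import Cfsg.Agent.H3.CohF
import Cfsg.Agent.H3.Isometry
import Cfsg.Agent.H3.Sibley3
import Mathlib.GroupTheory.FixedPointFree

/-!
# Feit's coherence theorem for Frobenius groups (helper3)
-/

set_option autoImplicit false
set_option linter.style.haveILetI false
set_option linter.unusedSimpArgs false
set_option linter.unusedSectionVars false
set_option linter.unusedVariables false
open Cfsg
open scoped ComplexConjugate commutatorElement

namespace Cfsg.Agent.H3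

universe u v w

section equal

variable {L : Type u} [Group L] [Fintype L] {G : Type v} [Group G] [Fintype G]
variable {τ : (L → ℂ) → (G → ℂ)}

/-- irreducible characters of the same degree form a coherent set -/
theorem coh_equal {T : Set (L → ℂ)} (hirr : ∀ χ ∈ T, IsIrrCharacter L χ)
    (hdeg : ∀ χ ∈ T, ∀ ψ ∈ T, χ 1 = ψ 1) (hne : T.Nonempty)
    (hτ : IsLinearIsometryOn (zspanOn T ({1}ᶜ : Set L)) τ)
    (hτ1 : ∀ α ∈ zspanOn T ({1}ᶜ : Set L), τ α 1 = 0) : ∃ τ₁, CohMap T τ τ₁ := by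
  classical
  obtain ⟨χ₀, hχ₀⟩ := hne
  have hmem : ∀ φ ∈ T, φ - χ₀ ∈ zspanOn T ({1}ᶜ : Set L) := by
    intro φ hφ
    rw [zspanOn_one]
    exact ⟨zspan_sub (zspan_mem hφ) (zspan_mem hχ₀), by
      rw [Pi.sub_apply, hdeg χ₀ hχ₀ φ hφ, sub_self]⟩
  have hτ' : IsLinearIsometryOn (zOn T ({1}ᶜ : Set L) : Set (L → ℂ)) τ := hτ
  have hinner : ∀ φ ∈ T, ∀ ψ ∈ T, classInner (φ - χ₀) (ψ - χ₀) =
      (if φ = ψ then (1 : ℂ) else 0) - (if φ = χ₀ then 1 else 0) - (if χ₀ = ψ then 1 else 0) + 1 := by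
    have h1 : ∀ a ∈ T, ∀ b ∈ T, classInner a b = if a = b then (1 : ℂ) else 0 := by
      intro a ha b hb
      split_ifs with h
      · rw [h, classInner_self_of_irr (hirr b hb)]
      · exact classInner_of_irr_ne (hirr a ha) (hirr b hb) h
    intro φ hφ ψ hψ
    rw [classInner_sub_left, classInner_sub_right, classInner_sub_right, h1 φ hφ ψ hψ,
      h1 φ hφ χ₀ hχ₀, h1 χ₀ hχ₀ ψ hψ, h1 χ₀ hχ₀ χ₀ hχ₀, if_pos rfl]
    ring
  obtain ⟨ε, hε, μ, hμirr, hμinj, hμ⟩ := isometry_lemma (G := G) (ι := T) ⟨χ₀, hχ₀⟩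
    (fun φ => τ ((φ : L → ℂ) - χ₀)) (by
      show τ (χ₀ - χ₀) = 0
      rw [sub_self, iso_zero hτ']) (fun φ => hτ.2.2.2 _ (hmem φ φ.2))
    (fun φ => hτ1 _ (hmem φ φ.2)) (by
      intro φ hφ
      have hφ' : (φ : L → ℂ) ≠ χ₀ := fun h => hφ (Subtype.ext h)
      rw [hτ.2.2.1 _ (hmem φ φ.2) _ (hmem φ φ.2), hinner φ φ.2 φ φ.2, if_pos rfl, if_neg hφ',
        if_neg hφ'.symm]
      norm_num) (by
      intro φ ψ hφ hψ hne
      have hφ' : (φ : L → ℂ) ≠ χ₀ := fun h => hφ (Subtype.ext h)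
      have hψ' : (ψ : L → ℂ) ≠ χ₀ := fun h => hψ (Subtype.ext h)
      have hne' : (φ : L → ℂ) ≠ ψ := fun h => hne (Subtype.ext h)
      rw [hτ.2.2.1 _ (hmem φ φ.2) _ (hmem ψ ψ.2), hinner φ φ.2 ψ ψ.2, if_neg hne', if_neg hφ',
        if_neg hψ'.symm]
      norm_num)
  have hε2 : ε * conj ε = 1 := by rcases hε with rfl | rfl <;> simp
  have hX : SIrr (ε • μ ⟨χ₀, hχ₀⟩) := by
    rcases hε with rfl | rfl
    · rw [one_smul]; exact Or.inl (hμirr _)
    · rw [neg_one_smul]; exact Or.inr (by rw [neg_neg]; exact hμirr _)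
  obtain ⟨τ₁, h₁, -⟩ := cohMap_pivot hτ hχ₀ (irr_one_ne_zero (hirr _ hχ₀))
    (fun φ hφ => ⟨1, by rw [hdeg φ hφ χ₀ hχ₀]; simp⟩) hX.isGen
    (by rw [hX.norm, classInner_self_of_irr (hirr _ hχ₀)]) (by
      intro φ hφ a ha
      have ha1 : a = 1 := by
        have h1 : (a : ℂ) * χ₀ 1 = 1 * χ₀ 1 := by rw [← ha, hdeg φ hφ χ₀ hχ₀, one_mul]
        exact_mod_cast mul_right_cancel₀ (irr_one_ne_zero (hirr _ hχ₀)) h1
      rw [ha1, one_smul]
      have h2 := hμ ⟨φ, hφ⟩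
      change τ (φ - χ₀) = _ at h2
      rw [h2, classInner_smul_left, classInner_smul_right, ← mul_assoc, hε2, one_mul,
        classInner_sub_right, classInner_sub_right, classInner_self_of_irr (hμirr _),
        classInner_self_of_irr (hirr _ hχ₀)]
      by_cases h3 : φ = χ₀
      · subst h3
        rw [classInner_self_of_irr (hμirr _), classInner_self_of_irr (hirr _ hφ)]
      · rw [classInner_of_irr_ne (hμirr _) (hμirr _) (fun h => h3 (by
          have := hμinj h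
          exact (congrArg Subtype.val this).symm)), classInner_of_irr_ne (hirr _ hχ₀) (hirr _ hφ)
          (fun h => h3 h.symm)])
  exact ⟨τ₁, h₁⟩

/-- repeated Feit extension -/
theorem feit_extend (X Y : Finset (L → ℂ)) (hXY : X ⊆ Y)
    (hirr : ∀ ξ ∈ Y, IsIrrCharacter L ξ)
    (hτ : IsLinearIsometryOn (zspanOn (↑Y : Set (L → ℂ)) ({1}ᶜ : Set L)) τ)
    (hτ1 : ∀ α ∈ zspanOn (↑Y : Set (L → ℂ)) ({1}ᶜ : Set L), τ α 1 = 0)
    {τ₁ : (L → ℂ) → (G → ℂ)} (h₁ : CohMap (↑X : Set (L → ℂ)) τ τ₁) {ψ : L → ℂ}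
    (hψ : ψ ∈ X) (hdvd : ∀ χ ∈ Y, χ ∉ X → dg ψ ∣ dg χ ∧ 2 * dg ψ * dg χ < ∑ ξ ∈ X, dg ξ ^ 2) :
    ∃ τ₂, CohMap (↑Y : Set (L → ℂ)) τ τ₂ := by
  classical
  have key : ∀ Z : Finset (L → ℂ), Z ⊆ Y → ∃ τ₂, CohMap (↑(X ∪ Z) : Set (L → ℂ)) τ τ₂ := by
    intro Z
    induction Z using Finset.induction with
    | empty => intro _; exact ⟨τ₁, by simpa using h₁⟩
    | insert χ Z hχZ ih =>
      intro hZ
      obtain ⟨τ₂, h₂⟩ := ih ((Finset.subset_insert _ _).trans hZ)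
      by_cases hχ : χ ∈ X ∪ Z
      · refine ⟨τ₂, ?_⟩
        have : X ∪ Insert.insert χ Z = X ∪ Z := by
          rw [Finset.union_insert, Finset.insert_eq_of_mem hχ]
        rw [this]; exact h₂
      · have hχY : χ ∈ Y := hZ (Finset.mem_insert_self _ _)
        have hsub : X ∪ Z ⊆ Y := Finset.union_subset hXY ((Finset.subset_insert _ _).trans hZ)
        have hsub' : (Insert.insert χ (↑(X ∪ Z) : Set (L → ℂ))) ⊆ ↑Y := by
          intro φ hφ
          rcases hφ with rfl | hφ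
          · exact hχY
          · exact hsub hφ
        obtain ⟨h3, h4⟩ := hdvd χ hχY (fun h => hχ (Finset.mem_union_left _ h))
        obtain ⟨τ₃, h₃, -⟩ := feit_ext (S₀ := X ∪ Z) (χ := χ) (d := dg)
          (fun ξ hξ => hirr ξ (hsub hξ)) (hirr χ hχY) hχ (dg_eq (irr_isChar (hirr χ hχY)))
          (fun ξ hξ => dg_eq (irr_isChar (hirr ξ (hsub hξ))))
          (iso_mono hτ fun α hα => zspanOn_mono hsub' hα)
          (fun α hα => hτ1 α (zspanOn_mono hsub' hα)) h₂ (Finset.mem_union_left _ hψ) h3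
          (lt_of_lt_of_le h4 (Finset.sum_le_sum_of_subset Finset.subset_union_left))
        refine ⟨τ₃, ?_⟩
        rw [Finset.union_insert, Finset.coe_insert]
        exact h₃
  obtain ⟨τ₂, h₂⟩ := key Y (Finset.Subset.refl _)
  exact ⟨τ₂, by rwa [Finset.union_eq_right.2 hXY] at h₂⟩

end equal

section frob

variable {L : Type u} [Group L] [Fintype L] {K : Subgroup L}

theorem above_irr (hK : K.Normal) (hfpf : ∀ x : L, x ∉ K → ∀ k ∈ K, x * k = k * x → k = 1)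
    {A : Subgroup L} : ∀ χ ∈ inducedIrrAbove K A, IsIrrCharacter L χ := by
  rintro _ ⟨θ, hθ, hθ1, -, rfl⟩
  exact isIrr_ind_of_fpf hK hfpf hθ hθ1

theorem above_self (hK : K.Normal) : inducedIrrAbove K K = ∅ := by
  rw [Set.eq_empty_iff_forall_notMem]
  rintro _ ⟨θ, hθ, hθ1, h, -⟩
  haveI := Fintype.ofFinite K
  apply hθ1
  -- `θ` is constant
  have h1 : θ = (θ 1) • (fun _ => (1 : ℂ)) := by
    ext a
    rw [h a a.2]; simp
  by_contra hne
  have h2 := classInner_of_irr_ne hθ (isIrr_one (G := K)) hne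
  rw [h1, classInner_smul_left, classInner_self_of_irr isIrr_one, mul_one] at h2
  exact irr_one_ne_zero hθ h2

/-- the characters nontrivial on the kernel are the induced ones -/
theorem frob_set_eq (hK : K.Normal)
    (hfpf : ∀ x : L, x ∉ K → ∀ k ∈ K, x * k = k * x → k = 1) :
    {χ : L → ℂ | IsIrrCharacter L χ ∧ ∃ h ∈ K, χ h ≠ χ 1} = inducedIrrAbove K ⊥ := by
  have h1 := above_compl_eq hK hK le_rfl (fun χ hχ => above_irr hK hfpf χ hχ.1)
  rw [above_self hK, Set.diff_empty] at h1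
  exact h1.symm

/-- the Frobenius kernel is nilpotent, of order prime to its index -/
theorem frob_dvd_card (hK : K.Normal)
    (hfpf : ∀ x : L, x ∉ K → ∀ k ∈ K, x * k = k * x → k = 1) {A B : Subgroup L} (hA : A.Normal)
    (hB : B.Normal) (hBA : B ≤ A) (hAK : A ≤ K) : K.index ∣ B.relIndex A - 1 :=
  frob_dvd hB hA hBA hAK (frob_lift hK hfpf hB (hBA.trans hAK))

theorem frob_card_gt (hK : K.Normal)
    (hfpf : ∀ x : L, x ∉ K → ∀ k ∈ K, x * k = k * x → k = 1) {A B : Subgroup L} (hA : A.Normal)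
    (hB : B.Normal) (hBA : B < A) (hAK : A ≤ K) : K.index + 1 ≤ B.relIndex A := by
  have h1 := frob_dvd_card hK hfpf hA hB hBA.le hAK
  have h2 : B.relIndex A ≠ 1 := by
    rw [Ne, Subgroup.relIndex_eq_one]
    exact not_le_of_gt hBA
  have h3 : B.relIndex A ≠ 0 := Subgroup.index_ne_zero_of_finite
  have h4 := Nat.le_of_dvd (by omega) h1
  omega

variable {G : Type v} [Group G] [Fintype G] {τ : (L → ℂ) → (G → ℂ)}

/-- one step down -/
theorem feit_step (hK : K.Normal) (hfpf : ∀ x : L, x ∉ K → ∀ k ∈ K, x * k = k * x → k = 1)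
    (hτ : IsLinearIsometryOn (zspanOn (inducedIrrAbove K ⊥) ({1}ᶜ : Set L)) τ)
    (hτ1 : ∀ α ∈ zspanOn (inducedIrrAbove K ⊥) ({1}ᶜ : Set L), τ α 1 = 0)
    {A B : Subgroup L} (hA : A.Normal) (hBA : B ≤ A) (hAK : A ≤ K)
    {ψ : L → ℂ} (hψ : ψ ∈ inducedIrrAbove K A) (hψ1 : ψ 1 = K.index)
    {τ₁ : (L → ℂ) → (G → ℂ)} (h₁ : CohMap (inducedIrrAbove K A) τ τ₁)
    (hbound : ∀ θ : K → ℂ, IsIrrCharacter K θ → (∀ a : K, (a : L) ∈ B → θ a = θ 1) →
      2 * K.index * dg θ + 1 < A.relIndex K) :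
    ∃ τ₂, CohMap (inducedIrrAbove K B) τ τ₂ := by
  classical
  haveI := Fintype.ofFinite (IrrCharacter K)
  have he0 : 0 < K.index := Nat.pos_of_ne_zero Subgroup.index_ne_zero_of_finite
  have hB : inducedIrrAbove K B ⊆ inducedIrrAbove K ⊥ := above_mono bot_le
  obtain ⟨τ₂, h₂⟩ := feit_extend (Sa (K := K) A) (Sa (K := K) B)
    (fun φ hφ => mem_Sa.2 (above_mono hBA (mem_Sa.1 hφ)))
    (fun φ hφ => above_irr hK hfpf φ (mem_Sa.1 hφ)) (by
      rw [coe_Sa]; exact iso_mono hτ fun α hα => zspanOn_mono hB hα) (by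
      rw [coe_Sa]; exact fun α hα => hτ1 α (zspanOn_mono hB hα))
    (τ₁ := τ₁) (by rw [coe_Sa]; exact h₁) (mem_Sa.2 hψ) (by
      intro χ hχ hχA
      obtain ⟨θ, hθ, hθ1, hθB, rfl⟩ := mem_Sa.1 hχ
      rw [dg_of_eq hψ1, dg_ind (irr_isChar hθ)]
      refine ⟨Dvd.intro _ rfl, ?_⟩
      have h1 := sum_Sa (K := K) hK hA hAK
      have h2 : ∑ φ ∈ Sa (K := K) A, ((dg φ : ℝ) ^ 2 / nm φ) =
          ((∑ φ ∈ Sa (K := K) A, dg φ ^ 2 : ℕ) : ℝ) := by
        push_cast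
        refine Finset.sum_congr rfl fun φ hφ => ?_
        rw [nm_irr (above_irr hK hfpf φ (mem_Sa.1 hφ))]; simp
      rw [h2] at h1
      have h3 := hbound θ hθ hθB
      have h4 : ((2 * K.index * (K.index * dg θ) : ℕ) : ℝ) <
          ((∑ φ ∈ Sa (K := K) A, dg φ ^ 2 : ℕ) : ℝ) := by
        rw [h1]
        have h5 : ((2 * K.index * dg θ + 1 : ℕ) : ℝ) < A.relIndex K := by exact_mod_cast h3
        push_cast at h5 ⊢
        have h6 : (0 : ℝ) < K.index := by exact_mod_cast he0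
        nlinarith
      exact_mod_cast h4)
  exact ⟨τ₂, by rwa [coe_Sa] at h₂⟩

end frob

end Cfsg.Agent.H3
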