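import Cfsg.Agent.H3.FeitCoh
import Cfsg.Agent.H20.Fpf2

/-!
# Feit's coherence theorem for Frobenius groups (helper3)
-/

set_option autoImplicit false
set_option linter.style.haveILetI false
set_option linter.unusedSimpArgs false
set_option linter.unusedSectionVars false
set_option linter.unusedVariables false
open Cfsg
open scoped ComplexConjugate commutatorElement

namespace Cfsg.Agent.H3

universe u v w

theorem zspanOn_nonzero {L : Type u} [Group L] [Fintype L] {T : Set (L → ℂ)}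
    (hirr : ∀ χ ∈ T, IsIrrCharacter L χ) (htwo : ∃ χ ∈ T, ∃ ψ ∈ T, χ ≠ ψ) :
    ∃ α ∈ zspanOn T ({1}ᶜ : Set L), α ≠ 0 := by
  obtain ⟨χ, hχ, ψ, hψ, hne⟩ := htwo
  refine ⟨((dg ψ : ℕ) : ℤ) • χ - ((dg χ : ℕ) : ℤ) • ψ, ?_, ?_⟩
  · rw [zspanOn_one]
    refine ⟨zspan_sub (zspan_smul _ (zspan_mem hχ)) (zspan_smul _ (zspan_mem hψ)), ?_⟩
    rw [Pi.sub_apply, zsmul_eq_smul, zsmul_eq_smul, Pi.smul_apply, Pi.smul_apply,
      dg_eq (irr_isChar (hirr χ hχ)), dg_eq (irr_isChar (hirr ψ hψ))]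
    simp [mul_comm]
  · intro h
    have h1 : classInner (((dg ψ : ℕ) : ℤ) • χ - ((dg χ : ℕ) : ℤ) • ψ) χ = 0 := by
      rw [h]; simp [classInner]
    rw [classInner_sub_left, classInner_zsmul_left, classInner_zsmul_left,
      classInner_self_of_irr (hirr χ hχ), classInner_of_irr_ne (hirr ψ hψ) (hirr χ hχ) hne.symm] at h1
    have h2 := dg_pos (hirr ψ hψ)
    simp only [Int.cast_natCast, mul_one, mul_zero, sub_zero, Nat.cast_eq_zero] at h1
    omega

section chain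

variable {L : Type u} [Group L] [Fintype L] {K : Subgroup L}
variable {G : Type v} [Group G] [Fintype G] {τ : (L → ℂ) → (G → ℂ)}

/-- descending induction through a chief series -/
theorem feit_chain (hK : K.Normal) (hfpf : ∀ x : L, x ∉ K → ∀ k ∈ K, x * k = k * x → k = 1)
    (hnil : Group.IsNilpotent K)
    (hτ : IsLinearIsometryOn (zspanOn (inducedIrrAbove K ⊥) ({1}ᶜ : Set L)) τ)
    (hτ1 : ∀ α ∈ zspanOn (inducedIrrAbove K ⊥) ({1}ᶜ : Set L), τ α 1 = 0)
    (hK1 : K ≠ ⊥)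
    (hgood : ∀ A B : Subgroup L, A.Normal → B.Normal → B < A → A ≤ ⁅K, K⁆ →
      (∀ N : Subgroup L, N.Normal → B ≤ N → N ≤ A → N = B ∨ N = A) → ⁅A, K⁆ ≤ B →
      ∀ θ : K → ℂ, IsIrrCharacter K θ → (∀ a : K, (a : L) ∈ B → θ a = θ 1) →
        2 * K.index * dg θ + 1 < A.relIndex K) :
    ∃ τ₁, CohMap (inducedIrrAbove K ⊥) τ τ₁ := by
  haveI := hK
  haveI := hnil
  set K' : Subgroup L := ⁅K, K⁆ with hK'def
  have hK'n : K'.Normal := inferInstance
  have hK'K : K' < K := by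
    refine lt_of_le_of_ne (Subgroup.commutator_le_left K K) ?_
    intro h
    obtain ⟨n, hn⟩ := (Subgroup.isNilpotent_iff_lowerCentralSeries K).1 hnil
    exact hK1 (le_bot_iff.1 (nil_step' (M := ⊥) (A := K) ⟨n, hn.le⟩ le_rfl le_rfl inferInstance hK
      (by rw [← hK'def, h]; exact le_sup_left)))
  have hYdeg : ∀ φ ∈ inducedIrrAbove K K', φ 1 = K.index := by
    rintro _ ⟨θ, hθ, -, hθH, rfl⟩
    rw [indFun_one_apply, dg_eq (irr_isChar hθ), linear_degree (K' := K') (fun x hx y hy => by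
      have := Subgroup.commutator_mem_commutator (H₁ := K) (H₂ := K) hx hy
      rwa [commutatorElement_def] at this) hθ hθH]
    simp
  have hYS : inducedIrrAbove K K' ⊆ inducedIrrAbove K ⊥ := above_mono bot_le
  obtain ⟨ψ, hψ⟩ := exists_above hK hK'n hK'K
  have hstart : ∃ τ₁, CohMap (inducedIrrAbove K K') τ τ₁ :=
    coh_equal (above_irr hK hfpf) (fun χ hχ φ hφ => by rw [hYdeg χ hχ, hYdeg φ hφ]) ⟨ψ, hψ⟩
      (iso_mono hτ fun α hα => zspanOn_mono hYS hα) (fun α hα => hτ1 α (zspanOn_mono hYS hα))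
  obtain ⟨A, hA⟩ := Set.Finite.exists_minimal (s := {A : Subgroup L | A.Normal ∧ A ≤ K' ∧
    ∃ τ₁, CohMap (inducedIrrAbove K A) τ τ₁}) (Set.toFinite _) ⟨K', hK'n, le_rfl, hstart⟩
  obtain ⟨⟨hAn, hAK', τ₁, h₁⟩, hmin⟩ := hA
  by_cases hA1 : A = ⊥
  · rw [hA1] at h₁; exact ⟨τ₁, h₁⟩
  exfalso
  obtain ⟨B, hBn, -, hBA, hch⟩ := exists_chief_below (M := ⊥) (A := A) inferInstance
    (bot_lt_iff_ne_bot.2 hA1)
  have hnil' : ∃ n, K.lowerCentralSeries n ≤ ⊥ := by
    obtain ⟨n, hn⟩ := (Subgroup.isNilpotent_iff_lowerCentralSeries K).1 hnil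
    exact ⟨n, hn.le⟩
  have hcen : ⁅A, K⁆ ≤ B := nil_chief_central hK hnil' hAn hBn (hAK'.trans hK'K.le) bot_le hBA hch
  obtain ⟨τ₂, h₂⟩ := feit_step hK hfpf hτ hτ1 hAn hBA.le (hAK'.trans hK'K.le)
    (above_mono hAK' hψ) (hYdeg ψ hψ) h₁ (hgood A B hAn hBn hBA hAK' hch hcen)
  exact absurd (hmin ⟨hBn, hBA.le.trans hAK', τ₂, h₂⟩ hBA.le) (not_le_of_gt hBA)

theorem arith_feit {e t n : ℕ} (ht : t ^ 2 ≤ n) (hn : 4 * e ^ 2 + 1 < n) :
    2 * e * t + 1 < n := by
  obtain ⟨m, rfl⟩ : ∃ m, n = m + 1 := ⟨n - 1, by omega⟩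
  have h1 : 4 * e ^ 2 + 1 ≤ m := by omega
  have h2 : (2 * e * t) ^ 2 < m ^ 2 := by
    have h3 : (2 * e * t) ^ 2 = 4 * e ^ 2 * t ^ 2 := by ring
    rw [h3]
    calc 4 * e ^ 2 * t ^ 2 ≤ 4 * e ^ 2 * (m + 1) := Nat.mul_le_mul_left _ ht
      _ < m ^ 2 := by nlinarith
  have h3 : 2 * e * t < m := lt_of_pow_lt_pow_left₀ 2 (Nat.zero_le _) h2
  omega

/-- the case of a large commutator factor group -/
theorem feit_big (hK : K.Normal) (hfpf : ∀ x : L, x ∉ K → ∀ k ∈ K, x * k = k * x → k = 1)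
    (hnil : Group.IsNilpotent K)
    (hτ : IsLinearIsometryOn (zspanOn (inducedIrrAbove K ⊥) ({1}ᶜ : Set L)) τ)
    (hτ1 : ∀ α ∈ zspanOn (inducedIrrAbove K ⊥) ({1}ᶜ : Set L), τ α 1 = 0)
    (hK1 : K ≠ ⊥) (hbig : 4 * K.index ^ 2 + 1 < (⁅K, K⁆ : Subgroup L).relIndex K) :
    ∃ τ₁, CohMap (inducedIrrAbove K ⊥) τ τ₁ := by
  refine feit_chain hK hfpf hnil hτ hτ1 hK1 ?_
  intro A B hA hB hBA hAK' hch hcen θ hθ hθB
  have hAK : A ≤ K := hAK'.trans (Subgroup.commutator_le_left K K)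
  have h1 : dg θ ^ 2 ≤ A.relIndex K := by
    have h2 := deg_bound (B := B) (C := K) (D := A) hAK le_rfl (by
      intro x hx y hy
      have := hcen (Subgroup.commutator_mem_commutator hx hy)
      rwa [commutatorElement_def] at this) hθ hθB
    rwa [Subgroup.relIndex_self, one_pow, one_mul] at h2
  apply arith_feit h1
  refine lt_of_lt_of_le hbig ?_
  have h2 := Subgroup.relIndex_mul_relIndex A ⁅K, K⁆ K hAK' (Subgroup.commutator_le_left K K)
  rw [← h2]
  exact Nat.le_mul_of_pos_left _ (Nat.pos_of_ne_zero Subgroup.index_ne_zero_of_finite)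

/-- the centre of the factor group -/
theorem exists_center_above (hK : K.Normal) (hnil : Group.IsNilpotent K) {A B : Subgroup L}
    (hA : A.Normal) (hB : B.Normal) (hBA : B < A) (hAK' : A ≤ ⁅K, K⁆)
    (hch : ∀ N : Subgroup L, N.Normal → B ≤ N → N ≤ A → N = B ∨ N = A) (hcen : ⁅A, K⁆ ≤ B)
    (hnp : ∀ p m : ℕ, p.Prime → Nat.card K ≠ p ^ m) :
    ∃ D : Subgroup L, D.Normal ∧ A < D ∧ D < K ∧ ∀ x ∈ D, ∀ y ∈ K, x * y * x⁻¹ * y⁻¹ ∈ B := by
  haveI := hK
  haveI := hA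
  haveI := hB
  have hAK : A ≤ K := hAK'.trans (Subgroup.commutator_le_left K K)
  let π := QuotientGroup.mk' B
  haveI hKB : (K.map π).Normal := hK.map _ (QuotientGroup.mk'_surjective _)
  let D : Subgroup L := K ⊓ (Subgroup.centralizer ((K.map π : Subgroup (L ⧸ B)) : Set (L ⧸ B))).comap π
  have hDmem : ∀ x, x ∈ D ↔ x ∈ K ∧ ∀ y ∈ K, x * y * x⁻¹ * y⁻¹ ∈ B := by
    intro x
    rw [Subgroup.mem_inf, Subgroup.mem_comap, Subgroup.mem_centralizer_iff]
    refine and_congr_right fun hx => ⟨fun h y hy => ?_, fun h => ?_⟩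
    · have h1 := h (π y) ⟨y, hy, rfl⟩
      rw [← QuotientGroup.eq_one_iff]
      simp only [QuotientGroup.mk_mul, QuotientGroup.mk_inv]
      rw [mul_inv_eq_one, mul_inv_eq_iff_eq_mul]
      exact h1.symm
    · rintro _ ⟨y, hy, rfl⟩
      have h1 := h y hy
      rw [← QuotientGroup.eq_one_iff] at h1
      simp only [QuotientGroup.mk_mul, QuotientGroup.mk_inv] at h1
      rw [mul_inv_eq_one, mul_inv_eq_iff_eq_mul] at h1
      exact h1.symm
  have hDn : D.Normal := by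
    haveI : (Subgroup.centralizer ((K.map π : Subgroup (L ⧸ B)) : Set (L ⧸ B))).Normal :=
      Subgroup.normal_centralizer
    infer_instance
  have hAD : A ≤ D := by
    intro x hx
    rw [hDmem]
    refine ⟨hAK hx, fun y hy => ?_⟩
    have := hcen (Subgroup.commutator_mem_commutator hx hy)
    rwa [commutatorElement_def] at this
  refine ⟨D, hDn, lt_of_le_of_ne hAD ?_, lt_of_le_of_ne inf_le_left ?_, fun x hx => ((hDmem x).1 hx).2⟩
  · -- `A ≠ D`
    intro hAD'
    -- a prime `p` with `A ^ p ≤ B`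
    have h1 : B.relIndex A ≠ 1 := by
      rw [Ne, Subgroup.relIndex_eq_one]
      exact not_le_of_gt hBA
    obtain ⟨p, hp, hpd⟩ := Nat.exists_prime_and_dvd h1
    haveI : Fact p.Prime := ⟨hp⟩
    have hcommB : ∀ x ∈ A, ∀ y ∈ A, ((x : L) : L ⧸ B) * y = y * x := by
      intro x hx y hy
      have h2 : x * y * x⁻¹ * y⁻¹ ∈ B := by
        have := hcen (Subgroup.commutator_mem_commutator hx (hAK hy))
        rwa [commutatorElement_def] at this
      rw [← QuotientGroup.eq_one_iff] at h2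
      simp only [QuotientGroup.mk_mul, QuotientGroup.mk_inv] at h2
      rw [mul_inv_eq_one, mul_inv_eq_iff_eq_mul] at h2
      exact h2
    let N : Subgroup L := {
      carrier := {x | x ∈ A ∧ x ^ p ∈ B}
      one_mem' := ⟨A.one_mem, by rw [one_pow]; exact B.one_mem⟩
      mul_mem' := by
        rintro a b ⟨ha, hap⟩ ⟨hb, hbp⟩
        refine ⟨A.mul_mem ha hb, ?_⟩
        rw [← QuotientGroup.eq_one_iff] at hap hbp ⊢
        rw [QuotientGroup.mk_pow, QuotientGroup.mk_mul, (show Commute ((a : L) : L ⧸ B) b from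
          hcommB a ha b hb).mul_pow, ← QuotientGroup.mk_pow, ← QuotientGroup.mk_pow, hap, hbp,
          one_mul]
      inv_mem' := by
        rintro a ⟨ha, hap⟩
        exact ⟨A.inv_mem ha, by rw [inv_pow]; exact B.inv_mem hap⟩ }
    have hNn : N.Normal := by
      constructor
      rintro n ⟨hn, hnp⟩ g
      refine ⟨hA.conj_mem n hn g, ?_⟩
      rw [conj_pow]
      exact hB.conj_mem _ hnp g
    have hBN : B ≤ N := fun x hx => ⟨hBA.le hx, B.pow_mem hx p⟩
    have hNA : N ≤ A := fun x hx => hx.1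
    have hNA' : N = A := by
      rcases hch N hNn hBN hNA with h2 | h2
      · exfalso
        -- Cauchy
        haveI : (B.subgroupOf A).Normal := inferInstance
        have h3 : p ∣ Nat.card (A ⧸ B.subgroupOf A) := hpd
        obtain ⟨q, hq⟩ := exists_prime_orderOf_dvd_card' p h3
        obtain ⟨a, rfl⟩ := QuotientGroup.mk_surjective q
        have h4 : (a : L) ∈ N := by
          refine ⟨a.2, ?_⟩
          have h5 : ((a ^ p : A) : A ⧸ B.subgroupOf A) = 1 := by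
            rw [QuotientGroup.mk_pow, ← hq, pow_orderOf_eq_one]
          rw [QuotientGroup.eq_one_iff, Subgroup.mem_subgroupOf] at h5
          exact h5
        rw [h2] at h4
        have h5 : ((a : A) : A ⧸ B.subgroupOf A) = 1 := by
          rw [QuotientGroup.eq_one_iff, Subgroup.mem_subgroupOf]; exact h4
        rw [h5, orderOf_one] at hq
        exact hp.one_lt.ne hq
      · exact h2
    -- another prime dividing `|K|`
    obtain ⟨q, hq, hqp, hqd⟩ : ∃ q : ℕ, q.Prime ∧ q ≠ p ∧ q ∣ Nat.card K := by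
      by_contra hcon
      push Not at hcon
      refine hnp p _ hp (Nat.eq_prime_pow_of_unique_prime_dvd Nat.card_pos.ne' ?_)
      intro d hd hdK
      by_contra hdp
      exact hcon d hd hdp hdK
    haveI : Fact q.Prime := ⟨hq⟩
    have hqab := prime_dvd_ab hnil hq hqd
    -- it divides `|K / B|`
    haveI hBKn : (B.subgroupOf K).Normal := inferInstance
    have hqB : q ∣ Nat.card (K ⧸ B.subgroupOf K) := by
      refine hqab.trans ?_
      have h5 : B.subgroupOf K ≤ commutator K := by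
        intro x hx
        have h6 : (x : L) ∈ ⁅K, K⁆ := hAK' (hBA.le hx)
        have h7 : (commutator K).map K.subtype = ⁅K, K⁆ := by
          rw [commutator_def, Subgroup.map_commutator, ← MonoidHom.range_eq_map,
            Subgroup.range_subtype]
        rw [← h7] at h6
        obtain ⟨y, hy, hyx⟩ := h6
        rwa [← Subtype.ext hyx]
      exact Subgroup.index_dvd_of_le h5
    haveI hnilQ : Group.IsNilpotent (K ⧸ B.subgroupOf K) := inferInstance
    obtain ⟨P⟩ : Nonempty (Sylow q (K ⧸ B.subgroupOf K)) := inferInstance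
    have hPn : (P : Subgroup (K ⧸ B.subgroupOf K)).Normal :=
      P.normal_of_normalizerCondition Group.normalizerCondition_of_isNilpotent
    have hP1 : (P : Subgroup (K ⧸ B.subgroupOf K)) ≠ ⊥ := P.ne_bot_of_dvd_card hqB
    haveI := Fintype.ofFinite (K ⧸ B.subgroupOf K)
    obtain ⟨Z, hZn, hZ1, hZP, hZc, -⟩ := exists_min_central
      (L := K ⧸ B.subgroupOf K) (K := ⊤) (A := P) inferInstance
      ((Group.isNilpotent_congr Subgroup.topEquiv).2 hnilQ) hPn le_top hP1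
    obtain ⟨⟨z, hz⟩, hz1⟩ := Subgroup.ne_bot_iff_exists_ne_one.1 hZ1
    obtain ⟨k, rfl⟩ := QuotientGroup.mk_surjective z
    have hkD : (k : L) ∈ D := by
      rw [hDmem]
      refine ⟨k.2, fun y hy => ?_⟩
      have h5 := hZc _ hz (⟨y, hy⟩ : K) (Subgroup.mem_top _)
      have h6 : ((k * ⟨y, hy⟩ * k⁻¹ * ⟨y, hy⟩⁻¹ : K) : K ⧸ B.subgroupOf K) = 1 := by
        simp only [QuotientGroup.mk_mul, QuotientGroup.mk_inv]
        rw [h5]; group
      rw [QuotientGroup.eq_one_iff, Subgroup.mem_subgroupOf] at h6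
      exact h6
    rw [← hAD', ← hNA'] at hkD
    have hkp : (k : K ⧸ B.subgroupOf K) ^ p = 1 := by
      rw [← QuotientGroup.mk_pow, QuotientGroup.eq_one_iff, Subgroup.mem_subgroupOf]
      exact hkD.2
    obtain ⟨j, hj⟩ := P.isPGroup' ⟨_, hZP hz⟩
    have hkq : (k : K ⧸ B.subgroupOf K) ^ q ^ j = 1 := congrArg Subtype.val hj
    apply hz1
    apply Subtype.ext
    show (k : K ⧸ B.subgroupOf K) = 1
    rw [← orderOf_eq_one_iff]
    exact Nat.eq_one_of_dvd_coprimes (((Nat.coprime_primes hp hq).2 hqp.symm).pow_right j)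
      (orderOf_dvd_of_pow_eq_one hkp) (orderOf_dvd_of_pow_eq_one hkq)
  · intro hDK
    have h1 : ⁅K, K⁆ ≤ B := by
      rw [Subgroup.commutator_le]
      intro x hx y hy
      rw [commutatorElement_def]
      exact ((hDmem x).1 (hDK ▸ hx)).2 y hy
    exact not_le_of_gt hBA (hAK'.trans h1)

theorem arith_feit2 {e t r s : ℕ} (he : 0 < e) (ht0 : 0 < t) (ht : t ^ 2 ≤ r) (hr : e + 1 ≤ r)
    (hs : e + 1 ≤ s) : 2 * e * t + 1 < s * r := by
  have h1 : (e + 1) * r ≤ s * r := Nat.mul_le_mul_right _ hs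
  rcases Nat.lt_or_ge t 2 with h | h
  · have : t = 1 := by omega
    subst this
    nlinarith
  · have h3 : (e + 1) * t ^ 2 ≤ (e + 1) * r := Nat.mul_le_mul_left _ ht
    have h4 : 2 * t ≤ t ^ 2 := by nlinarith
    have h5 : (e + 1) * (2 * t) ≤ (e + 1) * t ^ 2 := Nat.mul_le_mul_left _ h4
    have h6 : (e + 1) * (2 * t) = 2 * e * t + 2 * t := by ring
    omega

/-- the case of a kernel not of prime power order -/
theorem feit_mixed (hK : K.Normal) (hfpf : ∀ x : L, x ∉ K → ∀ k ∈ K, x * k = k * x → k = 1)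
    (hnil : Group.IsNilpotent K)
    (hτ : IsLinearIsometryOn (zspanOn (inducedIrrAbove K ⊥) ({1}ᶜ : Set L)) τ)
    (hτ1 : ∀ α ∈ zspanOn (inducedIrrAbove K ⊥) ({1}ᶜ : Set L), τ α 1 = 0)
    (hK1 : K ≠ ⊥) (hnp : ∀ p m : ℕ, p.Prime → Nat.card K ≠ p ^ m) :
    ∃ τ₁, CohMap (inducedIrrAbove K ⊥) τ τ₁ := by
  refine feit_chain hK hfpf hnil hτ hτ1 hK1 ?_
  intro A B hA hB hBA hAK' hch hcen θ hθ hθB
  obtain ⟨D, hD, hAD, hDK, hDc⟩ := exists_center_above hK hnil hA hB hBA hAK' hch hcen hnp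
  have h1 : dg θ ^ 2 ≤ D.relIndex K := by
    have h2 := deg_bound (B := B) (C := K) (D := D) hDK.le le_rfl hDc hθ hθB
    rwa [Subgroup.relIndex_self, one_pow, one_mul] at h2
  rw [← Subgroup.relIndex_mul_relIndex A D K hAD.le hDK.le]
  exact arith_feit2 (Nat.pos_of_ne_zero Subgroup.index_ne_zero_of_finite) (dg_pos hθ) h1
    (frob_card_gt hK hfpf hK hD hDK le_rfl) (frob_card_gt hK hfpf hD hA hAD hDK.le)

end chain

end Cfsg.Agent.H3
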