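import Cfsg.Agent.H3.FeitCoh2

/-!
# Feit's coherence theorem: the abelian case and the final statements (helper3)
-/

set_option autoImplicit false
set_option linter.style.haveILetI false
set_option linter.unusedSimpArgs false
set_option linter.unusedSectionVars false
set_option linter.unusedVariables false
open Cfsg
open scoped ComplexConjugate commutatorElement

namespace Cfsg.Agent.H3

universe u v w

section basic

variable {L : Type u} [Group L] [Finite L] {K : Subgroup L}

theorem frob_coprime [Fintype L] (hK : K.Normal)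
    (hfpf : ∀ x : L, x ∉ K → ∀ k ∈ K, x * k = k * x → k = 1) :
    Nat.Coprime (Nat.card K) K.index := by
  have h1 := frob_dvd_card hK hfpf hK (B := ⊥) inferInstance bot_le le_rfl
  rw [Subgroup.relIndex_bot_left] at h1
  have h2 : Nat.Coprime (Nat.card K) (Nat.card K - 1) := by
    have h2 : 0 < Nat.card K := Nat.card_pos
    have h3 : Nat.card K = (Nat.card K - 1) + 1 := by omega
    rw [h3, Nat.add_sub_cancel, Nat.coprime_comm]
    exact (Nat.coprime_self_add_right).2 (Nat.coprime_one_right _)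
  exact Nat.Coprime.coprime_dvd_right h1 h2

/-- an element of prime order outside the kernel -/
theorem frob_exists_prime [Fintype L] (hK : K.Normal)
    (hfpf : ∀ x : L, x ∉ K → ∀ k ∈ K, x * k = k * x → k = 1) {r : ℕ} (hr : r.Prime)
    (hrd : r ∣ K.index) : ∃ x : L, orderOf x = r ∧ x ∉ K := by
  haveI : Fact r.Prime := ⟨hr⟩
  have h1 : r ∣ Nat.card L := by
    rw [← K.card_mul_index]; exact hrd.mul_left _
  obtain ⟨x, hx⟩ := exists_prime_orderOf_dvd_card' r h1
  refine ⟨x, hx, fun hxK => ?_⟩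
  have h2 : r ∣ Nat.card K := by
    rw [← hx, ← Subgroup.orderOf_mk x hxK]
    exact orderOf_dvd_natCard _
  have h3 := Nat.dvd_gcd h2 hrd
  rw [(frob_coprime hK hfpf : Nat.gcd _ _ = 1)] at h3
  exact hr.one_lt.ne' (Nat.dvd_one.1 h3)

theorem frob_nilpotent [Fintype L] (hK : K.Normal) (hKtop : K ≠ ⊤)
    (hfpf : ∀ x : L, x ∉ K → ∀ k ∈ K, x * k = k * x → k = 1) : Group.IsNilpotent K := by
  have h1 : K.index ≠ 1 := fun h => hKtop (Subgroup.index_eq_one.1 h)
  obtain ⟨r, hr, hrd⟩ := Nat.exists_prime_and_dvd h1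
  obtain ⟨x, hx, hxK⟩ := frob_exists_prime hK hfpf hr hrd
  exact H20.Fpf.isNilpotent_of_conj hr (by rw [← hx]; exact pow_orderOf_eq_one x)
    (fun y hy => hK.conj_mem y hy x) (fun y hy h => hfpf x hxK y hy h)

/-- a Frobenius group of even index has an abelian kernel -/
theorem frob_comm_of_even [Fintype L] (hK : K.Normal)
    (hfpf : ∀ x : L, x ∉ K → ∀ k ∈ K, x * k = k * x → k = 1) (he : 2 ∣ K.index) :
    ∀ a ∈ K, ∀ b ∈ K, a * b = b * a := by
  obtain ⟨x, hx, hxK⟩ := frob_exists_prime hK hfpf Nat.prime_two he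
  have hx2 : x * x = 1 := by rw [← sq, ← hx]; exact pow_orderOf_eq_one x
  let φ : K →* K := (cjEquiv hK x).toMonoidHom
  have hφ : ∀ k : K, ((φ k : K) : L) = x * k * x⁻¹ := fun k => rfl
  have h1 : MonoidHom.FixedPointFree φ := by
    intro k hk
    have h2 : x * (k : L) * x⁻¹ = k := congrArg Subtype.val hk
    exact Subtype.ext (hfpf x hxK k k.2 (mul_inv_eq_iff_eq_mul.1 h2))
  have h2 : Function.Involutive φ := by
    intro k
    apply Subtype.ext
    rw [hφ, hφ]
    have h3 : x⁻¹ = x := inv_eq_of_mul_eq_one_left hx2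
    rw [h3]
    calc x * (x * k * x) * x = (x * x) * k * (x * x) := by group
      _ = k := by rw [hx2]; simp
  intro a ha b hb
  exact congrArg Subtype.val (h1.commute_all_of_involutive h2 ⟨a, ha⟩ ⟨b, hb⟩).eq

end basic

section abelian

variable {L : Type u} [Group L] [Fintype L] {K : Subgroup L}

theorem frob_two (hK : K.Normal) (hfpf : ∀ x : L, x ∉ K → ∀ k ∈ K, x * k = k * x → k = 1)
    (hK1 : K ≠ ⊥) (hcard : Nat.card K ≠ K.index + 1 ∨ ¬ ∀ a ∈ K, ∀ b ∈ K, a * b = b * a) :
    ∃ χ ∈ inducedIrrAbove K ⊥, ∃ ψ ∈ inducedIrrAbove K ⊥, χ ≠ ψ := by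
  classical
  haveI := Fintype.ofFinite (IrrCharacter K)
  haveI := hK
  by_contra hcon
  push Not at hcon
  obtain ⟨χ, hχ⟩ := exists_above hK (A := ⊥) inferInstance (bot_lt_iff_ne_bot.2 hK1)
  have hS : Sa (K := K) ⊥ = {χ} := by
    ext φ
    rw [mem_Sa, Finset.mem_singleton]
    exact ⟨fun h => hcon φ h χ hχ, fun h => h ▸ hχ⟩
  -- the derived subgroup is trivial
  have hab : ∀ a ∈ K, ∀ b ∈ K, a * b = b * a := by
    by_contra hnab
    have hK'1 : (⁅K, K⁆ : Subgroup L) ≠ ⊥ := by
      intro h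
      apply hnab
      intro a ha b hb
      have h1 := Subgroup.commutator_mem_commutator (H₁ := K) (H₂ := K) ha hb
      rw [h, Subgroup.mem_bot, commutatorElement_eq_one_iff_mul_comm] at h1
      exact h1
    by_cases hKK : (⁅K, K⁆ : Subgroup L) < K
    · obtain ⟨ψ, hψ⟩ := exists_compl_above hK (Z := ⁅K, K⁆) inferInstance hKK.le hK'1
      obtain ⟨ξ, hξ⟩ := exists_above hK (A := ⁅K, K⁆) inferInstance hKK
      have := hcon ψ hψ.1 ξ (above_mono bot_le hξ)
      rw [this] at hψ
      exact hψ.2 hξ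
    · have hKtop : K ≠ ⊤ ∨ K = ⊤ := by tauto
      have hKK' : (⁅K, K⁆ : Subgroup L) = K := by
        by_contra hne
        exact hKK (lt_of_le_of_ne (Subgroup.commutator_le_left K K) hne)
      rcases hKtop with h | h
      · have hnil := frob_nilpotent hK h hfpf
        obtain ⟨n, hn⟩ := (Subgroup.isNilpotent_iff_lowerCentralSeries K).1 hnil
        exact hK1 (le_bot_iff.1 (nil_step' (M := ⊥) (A := K) ⟨n, hn.le⟩ le_rfl le_rfl inferInstance
          hK (by rw [hKK']; exact le_sup_left)))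
      · -- `K = L`: only one nontrivial irreducible character, so `|L| = 2`
        have h1 := sum_Sa (K := K) hK (A := ⊥) inferInstance bot_le
        rw [hS, Finset.sum_singleton, nm_irr (above_irr hK hfpf χ hχ), Subgroup.relIndex_bot_left,
          h, Subgroup.index_top] at h1
        have h2 : dg χ ^ 2 + 1 = Nat.card (⊤ : Subgroup L) := by
          have : ((dg χ ^ 2 + 1 : ℕ) : ℝ) = (Nat.card (⊤ : Subgroup L) : ℝ) := by
            push_cast at h1 ⊢
            linarith
          exact_mod_cast this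
        have h3 : Nat.card (⊤ : Subgroup L) = Nat.card L := Subgroup.card_top
        obtain ⟨m, hm⟩ : ∃ m : ℕ, dg χ ∣ Nat.card L ∧ m = dg χ := by
          exact ⟨dg χ, irr_degree_dvd_card (above_irr hK hfpf χ hχ)
            (dg_eq (irr_isChar (above_irr hK hfpf χ hχ))), rfl⟩
        have h4 : dg χ ∣ 1 := by
          have h5 : dg χ ∣ dg χ ^ 2 := dvd_pow_self _ two_ne_zero
          have h6 := hm.1
          rw [← h3, ← h2] at h6
          exact (Nat.dvd_add_right h5).1 h6
        have h5 : dg χ = 1 := Nat.dvd_one.1 h4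
        rw [h5] at h2
        have h6 : Nat.card L = 2 := by rw [← h3, ← h2]; norm_num
        apply hnab
        haveI : Fact (Nat.Prime 2) := ⟨Nat.prime_two⟩
        haveI := isCyclic_of_prime_card h6
        letI := (inferInstance : IsCyclic L).commGroup
        intro a _ b _
        exact mul_comm a b
  rcases hcard with hcard | hcard
  · apply hcard
    obtain ⟨θ, hθ, hθ1, -, rfl⟩ := id hχ
    have h1 := sum_Sa (K := K) hK (A := ⊥) inferInstance bot_le
    rw [hS, Finset.sum_singleton, nm_irr (above_irr hK hfpf _ hχ), Subgroup.relIndex_bot_left,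
      dg_ind (irr_isChar hθ), linear_degree (K' := ⊥) (fun x hx y hy => by
        rw [Subgroup.mem_bot, hab x hx y hy]; group) hθ (fun a ha => by
        rw [Subgroup.mem_bot] at ha
        rw [show a = 1 from Subtype.ext ha])] at h1
    have h2 : (0 : ℝ) < K.index := by
      exact_mod_cast Nat.pos_of_ne_zero Subgroup.index_ne_zero_of_finite
    have h3 : (Nat.card K : ℝ) = K.index + 1 := by
      push_cast at h1
      have h4 : (K.index : ℝ) * K.index = K.index * (Nat.card K - 1) := by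
        rw [← h1]; ring
      have h5 := mul_left_cancel₀ h2.ne' h4
      linarith
    exact_mod_cast h3
  · exact hcard hab

/-- if there is only one such character then the kernel is elementary abelian of order `e + 1` -/
theorem frob_single (hK : K.Normal) (hfpf : ∀ x : L, x ∉ K → ∀ k ∈ K, x * k = k * x → k = 1)
    (hK1 : K ≠ ⊥) (hone : ¬ ∃ χ ∈ inducedIrrAbove K ⊥, ∃ ψ ∈ inducedIrrAbove K ⊥, χ ≠ ψ) :
    Nat.card K = K.index + 1 ∧ (∀ a ∈ K, ∀ b ∈ K, a * b = b * a) ∧
      ∃ p : ℕ, p.Prime ∧ ∀ a ∈ K, a ^ p = 1 := by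
  haveI := hK
  have h1 : Nat.card K = K.index + 1 := by
    by_contra h
    exact hone (frob_two hK hfpf hK1 (Or.inl h))
  have h2 : ∀ a ∈ K, ∀ b ∈ K, a * b = b * a := by
    by_contra h
    exact hone (frob_two hK hfpf hK1 (Or.inr h))
  refine ⟨h1, h2, ?_⟩
  have hcard1 : Nat.card K ≠ 1 := fun h => hK1 (Subgroup.card_eq_one.1 h)
  obtain ⟨p, hp, hpd⟩ := Nat.exists_prime_and_dvd hcard1
  haveI : Fact p.Prime := ⟨hp⟩
  refine ⟨p, hp, ?_⟩
  let N : Subgroup L := {
    carrier := {x | x ∈ K ∧ x ^ p = 1}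
    one_mem' := ⟨K.one_mem, one_pow _⟩
    mul_mem' := by
      rintro a b ⟨ha, hap⟩ ⟨hb, hbp⟩
      refine ⟨K.mul_mem ha hb, ?_⟩
      rw [(show Commute a b from h2 a ha b hb).mul_pow, hap, hbp, one_mul]
    inv_mem' := by
      rintro a ⟨ha, hap⟩
      exact ⟨K.inv_mem ha, by rw [inv_pow, hap, inv_one]⟩ }
  have hNn : N.Normal := by
    constructor
    rintro n ⟨hn, hnp⟩ g
    exact ⟨hK.conj_mem n hn g, by rw [conj_pow, hnp]; group⟩
  have hN1 : N ≠ ⊥ := by
    obtain ⟨a, ha⟩ := exists_prime_orderOf_dvd_card' p hpd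
    intro h
    have h3 : (a : L) ∈ N := ⟨a.2, by
      have : a ^ p = 1 := by rw [← ha]; exact pow_orderOf_eq_one a
      exact congrArg Subtype.val this⟩
    rw [h, Subgroup.mem_bot] at h3
    have h4 : a = 1 := Subtype.ext h3
    rw [h4, orderOf_one] at ha
    exact hp.one_lt.ne ha
  have hNK : N ≤ K := fun x hx => hx.1
  have hNeq : N = K := by
    by_contra hne
    have h3 := frob_card_gt hK hfpf hK hNn (lt_of_le_of_ne hNK hne) le_rfl
    have h4 := frob_card_gt hK hfpf hNn (B := ⊥) inferInstance (bot_lt_iff_ne_bot.2 hN1) hNK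
    have h5 := Subgroup.relIndex_mul_relIndex ⊥ N K bot_le hNK
    rw [Subgroup.relIndex_bot_left] at h4
    rw [Subgroup.relIndex_bot_left, Subgroup.relIndex_bot_left, h1] at h5
    have h6 : 0 < K.index := Nat.pos_of_ne_zero Subgroup.index_ne_zero_of_finite
    nlinarith [Nat.mul_le_mul h4 h3]
  intro a ha
  rw [← hNeq] at ha
  exact ha.2

variable {G : Type v} [Group G] [Fintype G] {τ : (L → ℂ) → (G → ℂ)}

/-- the abelian case -/
theorem feit_abelian (hK : K.Normal) (hfpf : ∀ x : L, x ∉ K → ∀ k ∈ K, x * k = k * x → k = 1)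
    (hK1 : K ≠ ⊥)
    (hτ : IsLinearIsometryOn (zspanOn (inducedIrrAbove K ⊥) ({1}ᶜ : Set L)) τ)
    (hτ1 : ∀ α ∈ zspanOn (inducedIrrAbove K ⊥) ({1}ᶜ : Set L), τ α 1 = 0)
    (hab : ∀ a ∈ K, ∀ b ∈ K, a * b = b * a) :
    ∃ τ₁, CohMap (inducedIrrAbove K ⊥) τ τ₁ := by
  obtain ⟨χ, hχ⟩ := exists_above hK (A := ⊥) inferInstance (bot_lt_iff_ne_bot.2 hK1)
  have hdeg : ∀ φ ∈ inducedIrrAbove K ⊥, φ 1 = K.index := by
    rintro _ ⟨θ, hθ, -, hθH, rfl⟩
    rw [indFun_one_apply, dg_eq (irr_isChar hθ), linear_degree (K' := ⊥) (fun x hx y hy => by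
      rw [Subgroup.mem_bot, hab x hx y hy]; group) hθ hθH]
    simp
  exact coh_equal (above_irr hK hfpf) (fun χ hχ φ hφ => by rw [hdeg χ hχ, hdeg φ hφ]) ⟨χ, hχ⟩ hτ hτ1

end abelian

end Cfsg.Agent.H3
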