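import Mathlib
import Cfsg.Prelude.Def_RootSubgroups

/-!
Root involutions: elementary facts about pairs of involutions.
-/

set_option autoImplicit false
open Cfsg

namespace Cfsg.Agent.H3

variable {G : Type*} [Group G] {D : Set G}

theorem inv_of_order_two {a : G} (h : orderOf a = 2) : a⁻¹ = a := by
  have : a * a = 1 := by rw [← pow_two, ← h, pow_orderOf_eq_one]
  exact inv_eq_of_mul_eq_one_left this

theorem sq_of_order_two {a : G} (h : orderOf a = 2) : a * a = 1 := by
  rw [← pow_two, ← h, pow_orderOf_eq_one]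

theorem ne_one_of_order_two {a : G} (h : orderOf a = 2) : a ≠ 1 := by
  rintro rfl; simp at h

theorem order_two_of {a : G} (h : a * a = 1) (h1 : a ≠ 1) : orderOf a = 2 :=
  orderOf_eq_prime (by rw [pow_two, h]) h1

theorem order_conj' (g x : G) : orderOf (g * x * g⁻¹) = orderOf x :=
  orderOf_injective (MulAut.conj g).toMonoidHom (MulAut.conj g).injective x

theorem odd_order_comm {a b : G} (h : Odd (orderOf (a * b))) : Odd (orderOf (b * a)) := by
  have : b * a = b * (a * b) * b⁻¹ := by group
  rw [this, order_conj']; exact h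

theorem order_mul_comm (a b : G) : orderOf (a * b) = orderOf (b * a) := by
  have : b * a = b * (a * b) * b⁻¹ := by group
  rw [this, order_conj']

/-- an element with odd order and square one is trivial. -/
theorem eq_one_of_sq_of_odd {x : G} (h : Odd (orderOf x)) (h2 : x * x = 1) : x = 1 := by
  have h3 : orderOf x ∣ 2 := orderOf_dvd_of_pow_eq_one (by rw [pow_two, h2])
  have : orderOf x = 1 := by
    rcases (Nat.dvd_prime Nat.prime_two).mp h3 with h4 | h4
    · exact h4
    · rw [h4] at h; exact absurd h (by decide)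
  exact orderOf_eq_one_iff.mp this

/-- commuting involutions with product of odd order are equal. -/
theorem eq_of_comm_odd {a b : G} (ha : a * a = 1) (hb : b * b = 1) (hc : a * b = b * a)
    (h : Odd (orderOf (a * b))) : a = b := by
  have h1 : a * b = 1 := eq_one_of_sq_of_odd h (by
    calc a * b * (a * b) = a * (b * a) * b := by group
      _ = a * (a * b) * b := by rw [hc]
      _ = (a * a) * (b * b) := by group
      _ = 1 := by rw [ha, hb, one_mul])
  have : a = b⁻¹ := eq_inv_of_mul_eq_one_left h1
  rw [this]; exact inv_eq_of_mul_eq_one_left hb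

/-- an involution inverts the product with another one. -/
theorem inv_product {a b : G} (ha : a * a = 1) (hb : b * b = 1) : a * (a * b) * a⁻¹ = (a * b)⁻¹ := by
  have ha' : a⁻¹ = a := inv_eq_of_mul_eq_one_left ha
  have hb' : b⁻¹ = b := inv_eq_of_mul_eq_one_left hb
  rw [mul_inv_rev, ha', hb', ← mul_assoc, ha, one_mul]

theorem conj_mul_self_eq {a b : G} (ha : a * a = 1) (hb : b * b = 1) :
    (b * a * b⁻¹) * a = (b * a) * (b * a) := by
  have hb' : b⁻¹ = b := inv_eq_of_mul_eq_one_left hb
  rw [hb']; group

theorem sq_eq_conj {a b : G} (hb : b * b = 1) : (a * b) ^ 2 = a * (b * a * b⁻¹) := by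
  have hb' : b⁻¹ = b := inv_eq_of_mul_eq_one_left hb
  rw [hb', pow_two]; group

namespace RI

variable (hD : IsRootInvolutionSet D)
include hD

theorem sq {a : G} (ha : a ∈ D) : a * a = 1 := sq_of_order_two (hD.orderOf_eq a ha)

theorem inv {a : G} (ha : a ∈ D) : a⁻¹ = a := inv_of_order_two (hD.orderOf_eq a ha)

theorem ne_one {a : G} (ha : a ∈ D) : a ≠ 1 := ne_one_of_order_two (hD.orderOf_eq a ha)

theorem conj {a b : G} (ha : a ∈ D) (hb : b ∈ D) : b * a * b ∈ D := by
  have := hD.conj_mem a ha b
  rwa [inv hD hb] at this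

theorem sq_comm {a b : G} (ha : a ∈ D) (hb : b ∈ D) (h : (a * b) * (a * b) = 1) : a * b = b * a := by
  have h1 : a * b = (a * b)⁻¹ := eq_inv_of_mul_eq_one_left h
  rwa [mul_inv_rev, inv hD ha, inv hD hb] at h1

theorem comm_sq {a b : G} (ha : a ∈ D) (hb : b ∈ D) (h : a * b = b * a) : (a * b) * (a * b) = 1 := by
  calc a * b * (a * b) = a * (b * a) * b := by group
      _ = a * (a * b) * b := by rw [h]
      _ = (a * a) * (b * b) := by group
      _ = 1 := by rw [sq hD ha, sq hD hb, one_mul]

theorem eq_of_comm_odd {a b : G} (ha : a ∈ D) (hb : b ∈ D) (hc : a * b = b * a)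
    (h : Odd (orderOf (a * b))) : a = b :=
  H3.eq_of_comm_odd (sq hD ha) (sq hD hb) hc h

end RI

end Cfsg.Agent.H3
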