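import Mathlib
import Cfsg.Prelude.Def_RootSubgroups
import Cfsg.Agent.H3.InvA
import Cfsg.Agent.H1.Cores
import Cfsg.Agent.H4.BaerSuzuki

/-!
Root involutions: the three kinds of pairs and lines.
-/

set_option autoImplicit false
open Cfsg

namespace Cfsg.Agent.H3.RI

variable {G : Type*} [Group G] {D : Set G}

/-- the product has odd order and the elements are different. -/
def od (a b : G) : Prop := a ≠ b ∧ Odd (orderOf (a * b))

/-- the product has order four. -/
def fr (a b : G) : Prop := orderOf (a * b) = 4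

theorem od_symm {a b : G} (h : od a b) : od b a := ⟨h.1.symm, odd_order_comm h.2⟩

theorem fr_symm {a b : G} (h : fr a b) : fr b a := by
  unfold fr at *; rw [order_mul_comm]; exact h

theorem od_conj {a b : G} (g : G) : od (g * a * g⁻¹) (g * b * g⁻¹) ↔ od a b := by
  unfold od
  have : g * a * g⁻¹ * (g * b * g⁻¹) = g * (a * b) * g⁻¹ := by group
  rw [this, order_conj']
  constructor
  · rintro ⟨h1, h2⟩; exact ⟨fun h => h1 (by rw [h]), h2⟩
  · rintro ⟨h1, h2⟩
    refine ⟨fun h => h1 ?_, h2⟩
    have := congrArg (fun z => g⁻¹ * z * g) h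
    simpa [mul_assoc] using this

theorem fr_conj {a b : G} (g : G) : fr (g * a * g⁻¹) (g * b * g⁻¹) ↔ fr a b := by
  unfold fr
  have : g * a * g⁻¹ * (g * b * g⁻¹) = g * (a * b) * g⁻¹ := by group
  rw [this, order_conj']

theorem comm_conj {a b : G} (g : G) :
    (g * a * g⁻¹) * (g * b * g⁻¹) = (g * b * g⁻¹) * (g * a * g⁻¹) ↔ a * b = b * a := by
  have e1 : g * a * g⁻¹ * (g * b * g⁻¹) = g * (a * b) * g⁻¹ := by group
  have e2 : g * b * g⁻¹ * (g * a * g⁻¹) = g * (b * a) * g⁻¹ := by group
  rw [e1, e2]
  constructor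
  · intro h
    have := congrArg (fun z => g⁻¹ * z * g) h
    simpa [mul_assoc] using this
  · intro h; rw [h]

theorem sq_root {r : G} (h : Odd (orderOf r)) : ∃ k : ℕ, r = (r ^ 2) ^ k := by
  obtain ⟨m, hm⟩ := h
  refine ⟨m + 1, ?_⟩
  rw [← pow_mul, show 2 * (m + 1) = orderOf r + 1 by omega, pow_succ, pow_orderOf_eq_one, one_mul]

/-- a square root inside the cyclic group. -/
theorem sq_root' {r : G} (h : Odd (orderOf r)) : ∃ k : ℕ, r = (r ^ k) ^ 2 := by
  obtain ⟨m, hm⟩ := h
  refine ⟨m + 1, ?_⟩
  rw [← pow_mul, show (m + 1) * 2 = orderOf r + 1 by omega, pow_succ, pow_orderOf_eq_one, one_mul]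

theorem odd_pow {r : G} (h : Odd (orderOf r)) (k : ℕ) : Odd (orderOf (r ^ k)) := by
  exact h.of_dvd_nat (orderOf_pow_dvd k)

theorem four_odd {r : G} (h : Odd (orderOf r)) (h4 : r ^ 4 = 1) : r = 1 := by
  have : orderOf r ∣ 4 := orderOf_dvd_of_pow_eq_one h4
  have h2 : orderOf r = 1 := by
    have : orderOf r ∣ 2 ^ 2 := by norm_num; exact this
    obtain ⟨k, hk, hk2⟩ := (Nat.dvd_prime_pow Nat.prime_two).mp this
    rw [hk2] at h
    rcases Nat.eq_zero_or_pos k with h0 | h0
    · rw [hk2, h0, pow_zero]
    · exact absurd h (by rw [Nat.not_odd_iff_even]; exact (Nat.even_pow.mpr ⟨even_two, h0.ne'⟩))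
  exact orderOf_eq_one_iff.mp h2

variable (hD : IsRootInvolutionSet D)
include hD

theorem tri {a b : G} (ha : a ∈ D) (hb : b ∈ D) : a * b = b * a ∨ od a b ∨ fr a b := by
  by_cases hab : a = b
  · left; rw [hab]
  rcases hD.pair a ha b hb with h | h | h
  · exact Or.inl h
  · exact Or.inr (Or.inl ⟨hab, h⟩)
  · exact Or.inr (Or.inr h.1)

theorem not_comm_od {a b : G} (ha : a ∈ D) (hb : b ∈ D) (h : a * b = b * a) (h2 : od a b) : False :=
  h2.1 (eq_of_comm_odd hD ha hb h h2.2)

theorem not_comm_fr {a b : G} (ha : a ∈ D) (hb : b ∈ D) (h : a * b = b * a) (h2 : fr a b) : False := by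
  have h3 := comm_sq hD ha hb h
  have : orderOf (a * b) ∣ 2 := orderOf_dvd_of_pow_eq_one (by rw [pow_two, h3])
  unfold fr at h2
  rw [h2] at this
  exact absurd this (by decide)

omit hD in
theorem not_od_fr {a b : G} (h : od a b) (h2 : fr a b) : False := by
  have := h.2
  unfold fr at h2
  rw [h2] at this
  exact absurd this (by decide)

theorem four_mem {a b : G} (ha : a ∈ D) (hb : b ∈ D) (h : fr a b) : (a * b) ^ 2 ∈ D := by
  rcases hD.pair a ha b hb with h1 | h1 | h1
  · exact (not_comm_fr hD ha hb h1 h).elim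
  · have h2 : orderOf (a * b) = 4 := h
    rw [h2] at h1; exact absurd h1 (by decide)
  · exact h1.2

theorem ord4 {a b : G} (h : fr a b) : a * b * a * b * a * b * a * b = 1 := by
  have : (a * b) ^ 4 = 1 := by
    have h2 : orderOf (a * b) = 4 := h
    rw [← h2, pow_orderOf_eq_one]
  calc a * b * a * b * a * b * a * b = (a * b) ^ 4 := by simp only [pow_succ, pow_zero, one_mul, mul_assoc]
    _ = 1 := this

/-- `v = (ab)²` equals `(ba)²`. -/
theorem four_swap {a b : G} (ha : a ∈ D) (hb : b ∈ D) (h : fr a b) : a * b * a * b = b * a * b * a := by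
  have h1 := ord4 hD h
  have haa := sq hD ha
  have hbb := sq hD hb
  have : a * b * a * b = (a * b * a * b)⁻¹ := by
    apply eq_inv_of_mul_eq_one_left
    calc a * b * a * b * (a * b * a * b) = a * b * a * b * a * b * a * b := by group
      _ = 1 := h1
  rw [this]
  simp only [mul_inv_rev, inv hD ha, inv hD hb]
  group

theorem four_comm_left {a b : G} (ha : a ∈ D) (hb : b ∈ D) (h : fr a b) :
    (a * b) ^ 2 * a = a * (a * b) ^ 2 := by
  have h1 := four_swap hD ha hb h
  have e : (a * b) ^ 2 = a * b * a * b := by rw [pow_two]; group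
  rw [e]
  calc a * b * a * b * a = a * (b * a * b * a) := by group
    _ = a * (a * b * a * b) := by rw [h1]

theorem four_comm_right {a b : G} (ha : a ∈ D) (hb : b ∈ D) (h : fr a b) :
    (a * b) ^ 2 * b = b * (a * b) ^ 2 := by
  have h1 := four_swap hD ha hb h
  have e : (a * b) ^ 2 = a * b * a * b := by rw [pow_two]; group
  rw [e]
  calc a * b * a * b * b = b * a * b * a * b := by rw [h1]
    _ = b * (a * b * a * b) := by group

theorem four_mul_left {a b : G} (ha : a ∈ D) : a * (a * b) ^ 2 = b * a * b := by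
  have haa := sq hD ha
  rw [pow_two]
  calc a * (a * b * (a * b)) = (a * a) * b * a * b := by group
    _ = b * a * b := by rw [haa, one_mul]

theorem four_symm_val {a b : G} (ha : a ∈ D) (hb : b ∈ D) (h : fr a b) : (a * b) ^ 2 = (b * a) ^ 2 := by
  have h1 := four_swap hD ha hb h
  rw [pow_two, pow_two]
  calc a * b * (a * b) = a * b * a * b := by group
    _ = b * a * b * a := h1
    _ = b * a * (b * a) := by group

theorem four_mul_right {a b : G} (ha : a ∈ D) (hb : b ∈ D) (h : fr a b) : b * (a * b) ^ 2 = a * b * a := by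
  rw [four_symm_val hD ha hb h]
  exact four_mul_left hD hb

/-- the commutator of a pair of order four is a product partner. -/
theorem four_partner {a b : G} (ha : a ∈ D) (hb : b ∈ D) (h : fr a b) :
    (a * b) ^ 2 ∈ productPartners D a := by
  have h1 := four_mem hD ha hb h
  have h2 := four_comm_left hD ha hb h
  have h3 := four_mul_left (b := b) hD ha
  refine ⟨⟨h1, h2, ?_⟩, ?_⟩
  · intro h4
    rw [h4, sq hD ha] at h3
    have := ne_one hD (conj hD ha hb)
    exact this h3.symm
  · rw [h2, h3]; exact conj hD ha hb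

theorem four_partner' {a b : G} (ha : a ∈ D) (hb : b ∈ D) (h : fr a b) :
    (a * b) ^ 2 ∈ productPartners D b := by
  rw [four_symm_val hD ha hb h]
  exact four_partner hD hb ha (fr_symm h)

omit hD in
theorem pp_mem {a b : G} (h : b ∈ productPartners D a) : b ∈ D := h.1.1

omit hD in
theorem pp_comm {a b : G} (h : b ∈ productPartners D a) : b * a = a * b := h.1.2.1

omit hD in
theorem pp_ne {a b : G} (h : b ∈ productPartners D a) : b ≠ a := h.1.2.2

omit hD in
theorem pp_mul {a b : G} (h : b ∈ productPartners D a) : b * a ∈ D := h.2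

omit hD in
theorem pp_symm {a b : G} (ha : a ∈ D) (h : b ∈ productPartners D a) : a ∈ productPartners D b :=
  ⟨⟨ha, h.1.2.1.symm, h.1.2.2.symm⟩, by rw [← h.1.2.1]; exact h.2⟩

/-- the third member of the line. -/
theorem pp_third {a b : G} (ha : a ∈ D) (h : b ∈ productPartners D a) : a * b ∈ productPartners D a := by
  have hb := pp_mem h
  refine ⟨⟨?_, ?_, ?_⟩, ?_⟩
  · rw [← pp_comm h]; exact pp_mul h
  · calc a * b * a = a * (b * a) := by group
      _ = a * (a * b) := by rw [pp_comm h]
  · intro h1
    have : b = 1 := by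
      have := congrArg (fun z => a⁻¹ * z) h1
      simpa using this
    exact ne_one hD hb this
  · have : a * b * a = b := by
      calc a * b * a = a * (b * a) := by group
        _ = a * (a * b) := by rw [pp_comm h]
        _ = (a * a) * b := by group
        _ = b := by rw [sq hD ha, one_mul]
    rw [this]; exact hb

theorem pp_third' {a b : G} (ha : a ∈ D) (h : b ∈ productPartners D a) : a ∈ productPartners D (a * b) :=
  pp_symm ha (pp_third hD ha h)

theorem pp_third'' {a b : G} (ha : a ∈ D) (h : b ∈ productPartners D a) : a * b ∈ productPartners D b := by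
  rw [← pp_comm h]
  exact pp_third hD (pp_mem h) (pp_symm ha h)

theorem pp_conj {a b : G} (g : G) (h : b ∈ productPartners D a) :
    g * b * g⁻¹ ∈ productPartners D (g * a * g⁻¹) := by
  refine ⟨⟨hD.conj_mem _ (pp_mem h) g, (comm_conj g).mpr (pp_comm h), ?_⟩, ?_⟩
  · intro h1
    apply pp_ne h
    have := congrArg (fun z => g⁻¹ * z * g) h1
    simpa [mul_assoc] using this
  · have : g * b * g⁻¹ * (g * a * g⁻¹) = g * (b * a) * g⁻¹ := by group
    rw [this]
    exact hD.conj_mem _ (pp_mul h) g

/-- Main lemma: an element of odd order inverted by `a` and centralized by a product partner is trivial. -/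
theorem inverted_centralized {a b ρ : G} (ha : a ∈ D) (hb : b ∈ productPartners D a)
    (ho : Odd (orderOf ρ)) (hinv : a * ρ * a = ρ⁻¹) (hc : b * ρ = ρ * b) : ρ = 1 := by
  have haa := sq hD ha
  have hbb := sq hD (pp_mem hb)
  have hab : a * b ∈ D := by rw [← pp_comm hb]; exact pp_mul hb
  obtain ⟨k, hk⟩ := sq_root' ho
  -- σ = ρ^k
  set σ := ρ ^ k with hσ
  have hσinv : a * σ * a = σ⁻¹ := by
    have : a * σ * a⁻¹ = (a * ρ * a⁻¹) ^ k := by rw [conj_pow]
    rw [inv hD ha] at this
    rw [this, hinv, inv_pow]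
  have hσb : b * σ = σ * b := by
    have : Commute b ρ := hc
    exact (this.pow_right k).eq
  -- (ab)ρ ∈ D
  have h1 : a * b * ρ ∈ D := by
    have h2 := hD.conj_mem _ hab σ⁻¹
    have h3 : σ⁻¹ * (a * b) * σ⁻¹⁻¹ = a * b * ρ := by
      rw [inv_inv, hk, pow_two, ← hσinv]
      calc a * σ * a * (a * b) * σ = a * σ * (a * a) * b * σ := by group
        _ = a * (σ * b) * σ := by rw [haa]; group
        _ = a * (b * σ) * σ := by rw [hσb]
        _ = a * b * (σ * σ) := by group
    rwa [h3] at h2
  have h2 : a * (a * b * ρ) = b * ρ := by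
    calc a * (a * b * ρ) = (a * a) * b * ρ := by group
      _ = b * ρ := by rw [haa, one_mul]
  have hcomm : Commute b ρ := hc
  rcases tri hD ha h1 with h3 | h3 | h3
  · have h4 := comm_sq hD ha h1 h3
    rw [h2] at h4
    apply eq_one_of_sq_of_odd ho
    calc ρ * ρ = (b * b) * (ρ * ρ) := by rw [hbb, one_mul]
      _ = (b * ρ) * (b * ρ) := by rw [hcomm.mul_mul_mul_comm]
      _ = 1 := h4
  · exfalso
    have h4 := h3.2
    rw [h2] at h4
    have h5 : (b * ρ) ^ orderOf (b * ρ) = 1 := pow_orderOf_eq_one _
    rw [hcomm.mul_pow] at h5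
    have h6 : b ^ orderOf (b * ρ) = b := by
      obtain ⟨j, hj⟩ := h4
      rw [hj, pow_succ, pow_mul, pow_two, hbb, one_pow, one_mul]
    rw [h6] at h5
    have h7 : b = (ρ ^ orderOf (b * ρ))⁻¹ := eq_inv_of_mul_eq_one_left h5
    have h8 : Odd (orderOf b) := by
      rw [h7, orderOf_inv]; exact odd_pow ho _
    rw [hD.orderOf_eq b (pp_mem hb)] at h8
    exact absurd h8 (by decide)
  · have h4 : orderOf (b * ρ) = 4 := by rw [← h2]; exact h3
    have h5 : (b * ρ) ^ 4 = 1 := by rw [← h4, pow_orderOf_eq_one]
    rw [hcomm.mul_pow] at h5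
    have h6 : b ^ 4 = 1 := by
      calc b ^ 4 = (b * b) * (b * b) := by simp only [pow_succ, pow_zero, one_mul, mul_assoc]
        _ = 1 := by rw [hbb, one_mul]
    rw [h6, one_mul] at h5
    exact four_odd ho h5

/-- a member commuting with `a` is not odd with a product partner of `a`. -/
theorem comm_not_od {a e d : G} (ha : a ∈ D) (he : e ∈ productPartners D a) (hd : d ∈ D)
    (hda : d * a = a * d) : ¬ od d e := by
  intro h
  have heD := pp_mem he
  have h1 : d * e = 1 := by
    apply inverted_centralized hD heD (pp_symm ha he) h.2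
    · rw [mul_inv_rev, inv hD hd, inv hD heD]
      calc e * (d * e) * e = e * d * (e * e) := by group
        _ = e * d := by rw [sq hD heD, mul_one]
    · calc a * (d * e) = (a * d) * e := by group
        _ = d * (a * e) := by rw [← hda]; group
        _ = d * e * a := by rw [← pp_comm he]; group
  apply h.1
  have : d = e⁻¹ := eq_inv_of_mul_eq_one_left h1
  rw [this, inv hD heD]

/-- type `(odd, four, ·)` lines: the third member is odd. -/
theorem od_of_fr {a e x : G} (ha : a ∈ D) (he : e ∈ productPartners D a) (hx : x ∈ D)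
    (hax : od a x) (hex : fr e x) : od (a * e) x := by
  have heD := pp_mem he
  have haeD : a * e ∈ D := by rw [← pp_comm he]; exact pp_mul he
  have haa := sq hD ha
  have hee := sq hD heD
  have hxx := sq hD hx
  have hae : e * a = a * e := pp_comm he
  rcases tri hD haeD hx with h | h | h
  · exfalso
    exact comm_not_od hD haeD (pp_third' hD ha he) hx h.symm (od_symm hax)
  · exact h
  · exfalso
    set u := (x * e) ^ 2 with hu
    have huD : u ∈ D := four_mem hD hx heD (fr_symm hex)
    have hux : u * x = x * u := four_comm_left hD hx heD (fr_symm hex)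
    have huu := sq hD huD
    have hexe : e * x * e = x * u := by
      rw [hu, four_mul_left hD hx]
    set r := a * x with hr
    have hsq : (a * e * x) ^ 2 = r * u * r := by
      rw [pow_two]
      calc a * e * x * (a * e * x) = a * e * x * (a * e) * x := by group
        _ = a * e * x * (e * a) * x := by rw [hae]
        _ = a * (e * x * e) * a * x := by group
        _ = a * (x * u) * a * x := by rw [hexe]
        _ = r * u * r := by rw [hr]; group
    have h4 : (a * e * x) ^ 4 = 1 := by
      have : orderOf (a * e * x) = 4 := h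
      rw [← this, pow_orderOf_eq_one]
    have h5 : r * u * r * (r * u * r) = 1 := by
      rw [← hsq, ← pow_add]; exact h4
    have h6 : u * (r ^ 2) * u = (r ^ 2)⁻¹ := by
      apply eq_inv_of_mul_eq_one_left
      calc u * r ^ 2 * u * r ^ 2 = r⁻¹ * (r * u * r * (r * u * r)) * r := by rw [pow_two]; group
        _ = 1 := by rw [h5]; group
    obtain ⟨k, hk⟩ := sq_root hax.2
    have h7 : u * r * u = r⁻¹ := by
      have e1 : u * (r ^ 2) ^ k * u⁻¹ = (u * r ^ 2 * u⁻¹) ^ k := by rw [conj_pow]
      rw [inv hD huD, h6, inv_pow, ← hk] at e1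
      exact e1
    have h8 : x * r * x = r⁻¹ := by
      rw [hr, mul_inv_rev, inv hD ha, inv hD hx]
      calc x * (a * x) * x = x * a * (x * x) := by group
        _ = x * a := by rw [hxx, mul_one]
    -- t = x u commutes with r and x, hence with a
    have h9 : (x * u) * r = r * (x * u) := by
      have e1 : x * u * r * (u * x) = r := by
        calc x * u * r * (u * x) = x * (u * r * u) * x := by group
          _ = x * r⁻¹ * x := by rw [h7]
          _ = (x⁻¹ * r * x⁻¹)⁻¹ := by group
          _ = (x * r * x)⁻¹ := by rw [inv hD hx]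
          _ = r := by rw [h8, inv_inv]
      have e2 : (u * x) * (x * u) = 1 := by
        calc (u * x) * (x * u) = u * (x * x) * u := by group
          _ = 1 := by rw [hxx, mul_one, huu]
      calc (x * u) * r = x * u * r * ((u * x) * (x * u)) := by rw [e2, mul_one]
        _ = (x * u * r * (u * x)) * (x * u) := by group
        _ = r * (x * u) := by rw [e1]
    have h10 : (x * u) * x = x * (x * u) := by
      rw [mul_assoc, hux]
    have h11 : (x * u) * a = a * (x * u) := by
      have e1 : a = r * x := by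
        rw [hr, mul_assoc, hxx, mul_one]
      rw [e1]
      exact ((show Commute (x * u) r from h9).mul_right (show Commute (x * u) x from h10)).eq
    rw [← hexe] at h11
    -- conjugate by e
    have h12 : x * a = a * x := by
      have e1 : e * (e * x * e * a) * e = x * (e * a * e) := by
        calc e * (e * x * e * a) * e = (e * e) * x * (e * a * e) := by group
          _ = x * (e * a * e) := by rw [hee, one_mul]
      have e2 : e * (a * (e * x * e)) * e = (e * a * e) * x := by
        calc e * (a * (e * x * e)) * e = (e * a * e) * x * (e * e) := by group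
          _ = (e * a * e) * x := by rw [hee, mul_one]
      have e3 : e * a * e = a := by rw [hae, mul_assoc, hee, mul_one]
      rw [h11, e2, e3] at e1
      exact e1.symm
    exact not_comm_od hD hx ha h12 (od_symm hax)

/-- if `x` is odd with `a` it is odd with one of the other two members of a line through `a`. -/
theorem od_line {a e x : G} (ha : a ∈ D) (he : e ∈ productPartners D a) (hx : x ∈ D)
    (hax : od a x) : od e x ∨ od (a * e) x := by
  rcases tri hD (pp_mem he) hx with h | h | h
  · exact absurd (od_symm hax) (comm_not_od hD (pp_mem he) (pp_symm ha he) hx h.symm)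
  · exact Or.inl h
  · exact Or.inr (od_of_fr hD ha he hx hax h)

/-- a member of a line through `a` is odd or four with `x` when `x` is odd with `a`. -/
theorem od_or_fr {a e x : G} (ha : a ∈ D) (he : e ∈ productPartners D a) (hx : x ∈ D)
    (hax : od a x) : od e x ∨ fr e x := by
  rcases tri hD (pp_mem he) hx with h | h | h
  · exact absurd (od_symm hax) (comm_not_od hD (pp_mem he) (pp_symm ha he) hx h.symm)
  · exact Or.inl h
  · exact Or.inr h

/-- commuting with `a`: a product partner commutes or is four. -/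
theorem comm_or_fr {a e x : G} (ha : a ∈ D) (he : e ∈ productPartners D a) (hx : x ∈ D)
    (hxa : x * a = a * x) : x * e = e * x ∨ fr x e := by
  rcases tri hD hx (pp_mem he) with h | h | h
  · exact Or.inl h
  · exact absurd h (comm_not_od hD ha he hx hxa)
  · exact Or.inr h

/-- odd members are conjugate by an element of the dihedral group. -/
theorem od_conj_elem {a b : G} (ha : a ∈ D) (hb : b ∈ D) (h : od a b) :
    ∃ k : ℕ, (a * b) ^ k * a * ((a * b) ^ k)⁻¹ = b := by
  have haa := sq hD ha
  have hbb := sq hD hb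
  have hodd : Odd (orderOf (b * a)) := odd_order_comm h.2
  -- (ab)^{2k} a = b  iff  (ab)^{2k} = b a
  obtain ⟨k, hk⟩ := sq_root' h.2
  obtain ⟨m, hm⟩ := h.2
  -- choose j with (ab)^{2j} = (ab)^{-1}
  refine ⟨m, ?_⟩
  have h1 : (a * b) ^ m * a * ((a * b) ^ m)⁻¹ = (a * b) ^ (2 * m) * a := by
    have h2 : a * (a * b) * a⁻¹ = (a * b)⁻¹ := inv_product haa hbb
    have h3 : a * (a * b) ^ m * a⁻¹ = ((a * b) ^ m)⁻¹ := by
      rw [← conj_pow, h2, inv_pow]
    have h4 : a * ((a * b) ^ m)⁻¹ = (a * b) ^ m * a := by
      have h5 : a * ((a * b) ^ m)⁻¹ * a⁻¹ = (a * b) ^ m := by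
        have := congrArg (fun z => z⁻¹) h3
        simpa [mul_assoc] using this
      calc a * ((a * b) ^ m)⁻¹ = (a * ((a * b) ^ m)⁻¹ * a⁻¹) * a := by group
        _ = (a * b) ^ m * a := by rw [h5]
    calc (a * b) ^ m * a * ((a * b) ^ m)⁻¹ = (a * b) ^ m * (a * ((a * b) ^ m)⁻¹) := by group
      _ = (a * b) ^ m * ((a * b) ^ m * a) := by rw [h4]
      _ = (a * b) ^ (2 * m) * a := by rw [two_mul, pow_add]; group
  rw [h1]
  have h2 : (a * b) ^ (2 * m) * (a * b) = 1 := by
    rw [← pow_succ, ← hm, pow_orderOf_eq_one]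
  have h3 : (a * b) ^ (2 * m) = (a * b)⁻¹ := eq_inv_of_mul_eq_one_left h2
  rw [h3, mul_inv_rev, inv hD ha, inv hD hb, mul_assoc, haa, mul_one]

end Cfsg.Agent.H3.RI
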