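import Mathlib
import Cfsg.Prelude.Def_RootSubgroups
import Cfsg.Agent.H3.InvB
import Cfsg.Agent.H1.Cores
import Cfsg.Agent.H4.BaerSuzuki

/-!
Root involutions: components of the odd graph, the 2-core.
-/

set_option autoImplicit false
open Cfsg

namespace Cfsg.Agent.H3.RI

variable {G : Type*} [Group G] {D : Set G}

theorem oadj_iff {a b : G} : OddAdj D a b ↔ a ∈ D ∧ b ∈ D ∧ od a b := Iff.rfl

theorem oadj_symm {a b : G} (h : OddAdj D a b) : OddAdj D b a := ⟨h.2.1, h.1, od_symm h.2.2⟩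

theorem oreach_symm {a b : G} (h : Relation.ReflTransGen (OddAdj D) a b) :
    Relation.ReflTransGen (OddAdj D) b a := by
  induction h with
  | refl => exact .refl
  | tail _ h ih => exact Relation.ReflTransGen.head (oadj_symm h) ih

theorem ocomp_eq {a b : G} (h : Relation.ReflTransGen (OddAdj D) a b) :
    elemComponentOf (OddAdj D) D a = elemComponentOf (OddAdj D) D b := by
  ext c
  constructor
  · rintro ⟨hc, h1⟩; exact ⟨hc, (oreach_symm h).trans h1⟩
  · rintro ⟨hc, h1⟩; exact ⟨hc, h.trans h1⟩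

theorem oreach_mem {a b : G} (ha : a ∈ D) (h : Relation.ReflTransGen (OddAdj D) a b) : b ∈ D := by
  induction h with
  | refl => exact ha
  | tail _ h _ => exact h.2.1

theorem oiso_iff {w : G} :
    IsIsolatedElem (OddAdj D) D w ↔ w ∈ D ∧ ∀ b ∈ D, ¬ od w b := by
  constructor
  · rintro ⟨h1, h2⟩
    exact ⟨h1, fun b hb h => (h2 b).1 ⟨h1, hb, h⟩⟩
  · rintro ⟨h1, h2⟩
    exact ⟨h1, fun b => ⟨fun h => h2 b h.2.1 h.2.2, fun h => h2 b h.1 (od_symm h.2.2)⟩⟩

theorem exists_od_of_comp {a a' : G} (h : a' ∈ elemComponentOf (OddAdj D) D a) (hne : a' ≠ a) :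
    ∃ x ∈ D, od a x := by
  obtain ⟨_, h⟩ := h
  rcases Relation.ReflTransGen.cases_head h with h1 | ⟨c, h1, _⟩
  · exact absurd h1.symm hne
  · exact ⟨c, h1.2.1, h1.2.2⟩

theorem closure_normal {S : Set G} (h : ∀ s ∈ S, ∀ g : G, g * s * g⁻¹ ∈ S) :
    (Subgroup.closure S).Normal := by
  have : Subgroup.closure S = Subgroup.normalClosure S := by
    apply le_antisymm Subgroup.closure_le_normalClosure
    apply Subgroup.closure_mono
    intro x hx
    rw [Group.mem_conjugatesOfSet_iff] at hx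
    obtain ⟨s, hs, hc⟩ := hx
    obtain ⟨g, rfl⟩ := isConj_iff.mp hc
    exact h s hs g
  rw [this]; infer_instance

theorem odd_pgroup_one {Q : Subgroup G} (hQ : IsPGroup 2 Q) {x : G} (hx : x ∈ Q)
    (ho : Odd (orderOf x)) : x = 1 := by
  obtain ⟨k, hk⟩ := (IsPGroup.iff_orderOf.mp hQ) ⟨x, hx⟩
  rw [Subgroup.orderOf_mk] at hk
  rw [hk] at ho
  have : k = 0 := by
    by_contra h
    exact absurd ho (by rw [Nat.not_odd_iff_even]; exact (Nat.even_pow.mpr ⟨even_two, h⟩))
  rw [this, pow_zero] at hk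
  exact orderOf_eq_one_iff.mp hk

theorem two_pow_odd_one {x : G} {n : ℕ} (hx : x ^ 2 ^ n = 1) (ho : Odd (orderOf x)) : x = 1 := by
  have h1 : orderOf x ∣ 2 ^ n := orderOf_dvd_of_pow_eq_one hx
  obtain ⟨k, hk, hk2⟩ := (Nat.dvd_prime_pow Nat.prime_two).mp h1
  rw [hk2] at ho
  have : k = 0 := by
    by_contra h
    exact absurd ho (by rw [Nat.not_odd_iff_even]; exact (Nat.even_pow.mpr ⟨even_two, h⟩))
  rw [this, pow_zero] at hk2
  exact orderOf_eq_one_iff.mp hk2

/-- Baer–Suzuki for members without odd conjugates. -/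
theorem mem_core [Finite G] (hD : IsRootInvolutionSet D) {w : G} (hw : w ∈ D)
    (h : ∀ g : G, ¬ od w (g * w * g⁻¹)) : w ∈ pCore 2 G := by
  by_contra hn
  obtain ⟨g, k, h1, h2, h3⟩ := Cfsg.Agent.H4.inverts_odd_of_not_mem_core w (hD.orderOf_eq w hw) (by
    intro N hN hNp hwN
    exact hn (Cfsg.Agent.H1.le_pCore hN hNp hwN))
  have hg := hD.conj_mem w hw g
  have h4 : (w * (g * w * g⁻¹)) ^ 4 = 1 := by
    rcases tri hD hw hg with h5 | h5 | h5
    · have := comm_sq hD hw hg h5
      calc (w * (g * w * g⁻¹)) ^ 4 = ((w * (g * w * g⁻¹)) * (w * (g * w * g⁻¹))) ^ 2 := by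
            rw [← pow_two, ← pow_mul]
        _ = 1 := by rw [this, one_pow]
    · exact absurd h5 (h g)
    · have : orderOf (w * (g * w * g⁻¹)) = 4 := h5
      rw [← this, pow_orderOf_eq_one]
  apply h1
  apply four_odd h2
  rw [← pow_mul, mul_comm, pow_mul, h4, one_pow]

theorem core_not_od [Finite G] (hD : IsRootInvolutionSet D) {d : G} (hd : d ∈ D)
    (hdc : d ∈ pCore 2 G) {b : G} (hb : b ∈ D) : ¬ od d b := by
  intro h
  have hn := Cfsg.Agent.H1.pCore_normal 2 G
  have h1 : (d * b) * (d * b) ∈ pCore 2 G := by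
    have h2 := hn.conj_mem d hdc b
    rw [inv hD hb] at h2
    have : (d * b) * (d * b) = d * (b * d * b) := by group
    rw [this]
    exact mul_mem hdc h2
  have h2 : Odd (orderOf ((d * b) * (d * b))) := by
    rw [← pow_two]; exact odd_pow h.2 2
  have h3 := odd_pgroup_one (Cfsg.Agent.H1.pCore_isPGroup 2 G) h1 h2
  have h4 := eq_one_of_sq_of_odd h.2 h3
  apply h.1
  have : d = b⁻¹ := eq_inv_of_mul_eq_one_left h4
  rw [this, inv hD hb]

theorem od_conj_iff' {a b : G} (g : G) : od a (g * b * g⁻¹) ↔ od (g⁻¹ * a * g) b := by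
  rw [← od_conj g (a := g⁻¹ * a * g)]
  have : g * (g⁻¹ * a * g) * g⁻¹ = a := by group
  rw [this]

/-- Lemma: product partners lie in the component or are isolated. -/
theorem partner_comp (hD : IsRootInvolutionSet D) {a e x : G} (ha : a ∈ D) (he : e ∈ productPartners D a)
    (hx : x ∈ D) (hax : od a x) :
    Relation.ReflTransGen (OddAdj D) a e ∨ IsIsolatedElem (OddAdj D) D e := by
  by_cases hw : IsIsolatedElem (OddAdj D) D e
  · exact Or.inr hw
  left
  rw [oiso_iff] at hw
  push Not at hw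
  obtain ⟨y, hy, hey⟩ := hw (pp_mem he)
  have heD := pp_mem he
  have haeD : a * e ∈ D := by rw [← pp_comm he]; exact pp_mul he
  have hx1 : Relation.ReflTransGen (OddAdj D) a x := .single ⟨ha, hx, hax⟩
  have hy1 : Relation.ReflTransGen (OddAdj D) y e := .single ⟨hy, heD, od_symm hey⟩
  rcases od_or_fr hD ha he hx hax with h | h
  · exact hx1.trans (.single ⟨hx, heD, od_symm h⟩)
  · have h1 : od (a * e) x := od_of_fr hD ha he hx hax h
    have h2 : Relation.ReflTransGen (OddAdj D) a (a * e) := hx1.trans (.single ⟨hx, haeD, od_symm h1⟩)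
    rcases od_or_fr hD heD (pp_symm ha he) hy hey with h3 | h3
    · exact Relation.ReflTransGen.trans (.single ⟨ha, hy, h3⟩) hy1
    · have h4 : od (e * a) y := od_of_fr hD heD (pp_symm ha he) hy hey h3
      rw [pp_comm he] at h4
      exact h2.trans (Relation.ReflTransGen.trans (.single ⟨haeD, hy, h4⟩) hy1)

end Cfsg.Agent.H3.RI
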