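import Mathlib
import Cfsg.Prelude.Def_RootSubgroups
import Cfsg.Agent.H3.InvB

/-!
Root involutions: the operator `φ` and its surjectivity.
-/

set_option autoImplicit false
open Cfsg

namespace Cfsg.Agent.H3.RI

variable {G : Type*} [Group G] {D : Set G}

theorem sq_inj_odd {x y : G} (hx : Odd (orderOf x)) (hy : Odd (orderOf y)) (h : x * x = y * y) : x = y := by
  obtain ⟨m, hm⟩ : Odd (orderOf x * orderOf y) := hx.mul hy
  have e1 : ∀ z : G, z ^ (orderOf x * orderOf y) = 1 → z = (z * z) ^ (m + 1) := by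
    intro z hz
    rw [← pow_two, ← pow_mul, show 2 * (m + 1) = orderOf x * orderOf y + 1 by omega, pow_succ, hz, one_mul]
  rw [e1 x (by rw [pow_mul, pow_orderOf_eq_one, one_pow]),
    e1 y (by rw [mul_comm, pow_mul, pow_orderOf_eq_one, one_pow]), h]

/-- the elements on which `φ` operates. -/
def mset (D : Set G) (a x : G) : Set G := {b | b ∈ productPartners D a ∧ fr b x}

/-- the operator. -/
def phi (a x b : G) : G := (a * (b * x) ^ 2) ^ 2

variable (hD : IsRootInvolutionSet D)
include hD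

section
variable {a x b : G} (ha : a ∈ D) (hx : x ∈ D) (hax : od a x) (hb : b ∈ mset D a x)
include ha hx hax hb

theorem u_mem : (b * x) ^ 2 ∈ D := four_mem hD (pp_mem hb.1) hx hb.2

theorem u_fr : fr a ((b * x) ^ 2) := by
  have hbD := pp_mem hb.1
  have hu := u_mem hD ha hx hax hb
  have h1 : (b * x) ^ 2 ∈ productPartners D x := four_partner' hD hbD hx hb.2
  rcases od_or_fr hD hx h1 ha (od_symm hax) with h2 | h2
  · exact absurd h2 (comm_not_od hD hbD (pp_symm ha hb.1) hu (four_comm_left hD hbD hx hb.2))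
  · exact fr_symm h2

theorem phi_mem : phi a x b ∈ mset D a x := by
  have hbD := pp_mem hb.1
  have hu := u_mem hD ha hx hax hb
  have h1 := u_fr hD ha hx hax hb
  have h2 := four_partner hD ha hu h1
  have h3 := four_partner' hD ha hu h1
  refine ⟨h2, ?_⟩
  have h4 : x * (b * x) ^ 2 = (b * x) ^ 2 * x := (four_comm_right hD hbD hx hb.2).symm
  rcases comm_or_fr hD hu h3 hx h4 with h5 | h5
  · exfalso
    exact comm_not_od hD (pp_mem h2) (pp_symm ha h2) hx h5 (od_symm hax)
  · exact fr_symm h5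

theorem phi_eq : phi a x b = ((a * x) * b * (a * x)⁻¹) * ((a * x)⁻¹ * b * (a * x)) := by
  have hbD := pp_mem hb.1
  have haa := sq hD ha
  have hxx := sq hD hx
  have hbb := sq hD hbD
  have hab : b * a = a * b := pp_comm hb.1
  have hub : (b * x) ^ 2 * b = b * (b * x) ^ 2 := four_comm_left hD hbD hx hb.2
  have hai := inv hD ha
  have hxi := inv hD hx
  rw [mul_inv_rev, hai, hxi]
  -- u = b (x b x)
  have hu : (b * x) ^ 2 = b * (x * b * x) := by rw [pow_two]; group
  -- b commutes with x b x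
  have hbx : (x * b * x) * b = b * (x * b * x) := by
    rw [hu] at hub
    have := congrArg (fun z => b * z) hub
    calc (x * b * x) * b = b * (b * (x * b * x) * b) := by
          rw [show b * (b * (x * b * x) * b) = (b * b) * (x * b * x) * b by group, hbb, one_mul]
      _ = b * (b * (b * (x * b * x))) := by rw [hub]
      _ = (b * b) * (b * (x * b * x)) := by group
      _ = b * (x * b * x) := by rw [hbb, one_mul]
  have hbax : (a * x * b * x * a) * b = b * (a * x * b * x * a) := by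
    calc (a * x * b * x * a) * b = a * (x * b * x) * (a * b) := by group
      _ = a * (x * b * x) * (b * a) := by rw [hab]
      _ = a * ((x * b * x) * b) * a := by group
      _ = a * (b * (x * b * x)) * a := by rw [hbx]
      _ = (a * b) * (x * b * x) * a := by group
      _ = (b * a) * (x * b * x) * a := by rw [hab]
      _ = b * (a * x * b * x * a) := by group
  unfold phi
  rw [hu]
  calc (a * (b * (x * b * x))) ^ 2 = a * b * (x * b * x) * (a * b) * (x * b * x) := by rw [pow_two]; group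
    _ = b * a * (x * b * x) * (a * b) * (x * b * x) := by rw [← hab]
    _ = b * ((a * x * b * x * a) * b) * (x * b * x) := by group
    _ = b * (b * (a * x * b * x * a)) * (x * b * x) := by rw [hbax]
    _ = (b * b) * (a * x * b * x * a) * (x * b * x) := by group
    _ = (a * x * b * x * a) * (x * b * x) := by rw [hbb, one_mul]
    _ = a * x * b * (x * a) * (x * (a * a) * b * x) := by rw [haa]; group
    _ = a * x * b * (x * a) * (x * a * (a * b) * x) := by group
    _ = a * x * b * (x * a) * (x * a * (b * a) * x) := by rw [hab]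
    _ = a * x * b * (x * a) * (x * a * b * (a * x)) := by group

end

section
variable {a x : G} (ha : a ∈ D) (hx : x ∈ D) (hax : od a x)
include ha hx hax

theorem phi_iter_mem (k : ℕ) {b : G} (hb : b ∈ mset D a x) : (phi a x)^[k] b ∈ mset D a x := by
  induction k with
  | zero => exact hb
  | succ k ih =>
    rw [Function.iterate_succ_apply']
    exact phi_mem hD ha hx hax ih

theorem phi_iter_two (m : ℕ) : ∀ {b : G}, b ∈ mset D a x →
    (phi a x)^[2 ^ m] b = ((a * x) ^ 2 ^ m * b * ((a * x) ^ 2 ^ m)⁻¹) * (((a * x) ^ 2 ^ m)⁻¹ * b * (a * x) ^ 2 ^ m) := by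
  induction m with
  | zero =>
    intro b hb
    rw [pow_zero, Function.iterate_one, pow_one]
    exact phi_eq hD ha hx hax hb
  | succ m ih =>
    intro b hb
    rw [pow_succ, mul_two, Function.iterate_add_apply]
    have h1 := phi_iter_mem hD ha hx hax (2 ^ m) hb
    rw [ih h1]
    set g := (phi a x)^[2 ^ m] b with hg
    have h2 := ih hb
    rw [← hg] at h2
    have hbb := sq hD (pp_mem hb.1)
    rw [pow_add]
    set ρ := (a * x) ^ 2 ^ m with hρ
    calc ρ * g * ρ⁻¹ * (ρ⁻¹ * g * ρ)
        = ρ * (ρ * b * ρ⁻¹ * (ρ⁻¹ * b * ρ)) * ρ⁻¹ * (ρ⁻¹ * (ρ * b * ρ⁻¹ * (ρ⁻¹ * b * ρ)) * ρ) := by rw [h2]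
      _ = ρ * ρ * b * ρ⁻¹ * ρ⁻¹ * (b * b) * (ρ⁻¹ * ρ⁻¹ * b * ρ * ρ) := by group
      _ = ρ * ρ * b * ρ⁻¹ * ρ⁻¹ * (ρ⁻¹ * ρ⁻¹ * b * ρ * ρ) := by rw [hbb, mul_one]
      _ = ρ * ρ * b * (ρ * ρ)⁻¹ * ((ρ * ρ)⁻¹ * b * (ρ * ρ)) := by group

theorem phi_inj {b c : G} (hb : b ∈ mset D a x) (hc : c ∈ mset D a x) (h : phi a x b = phi a x c) : b = c := by
  have hbD := pp_mem hb.1
  have hcD := pp_mem hc.1
  have hbb := sq hD hbD
  have hcc := sq hD hcD
  rw [phi_eq hD ha hx hax hb, phi_eq hD ha hx hax hc] at h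
  have hrodd := hax.2
  obtain ⟨k, hk⟩ := sq_root hrodd
  have hb1 : (a * b) * x = b * (a * x) := by rw [← pp_comm hb.1, mul_assoc]
  have hc1 : (a * c) * x = c * (a * x) := by rw [← pp_comm hc.1, mul_assoc]
  have hbodd : Odd (orderOf (b * (a * x))) := by
    rw [← hb1]; exact (od_of_fr hD ha hb.1 hx hax hb.2).2
  have hcodd : Odd (orderOf (c * (a * x))) := by
    rw [← hc1]; exact (od_of_fr hD ha hc.1 hx hax hc.2).2
  set r := a * x with hr
  -- c b commutes with r²
  have h1 : Commute (r ^ 2) (c * b) := by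
    have h2 : r * (c * b) * r⁻¹ = r⁻¹ * (c * b) * r := by
      have h3 : (r * c * r⁻¹) * (r * c * r⁻¹) = 1 := by
        calc (r * c * r⁻¹) * (r * c * r⁻¹) = r * (c * c) * r⁻¹ := by group
          _ = 1 := by rw [hcc]; group
      have h4 : (r⁻¹ * b * r) * (r⁻¹ * b * r) = 1 := by
        calc (r⁻¹ * b * r) * (r⁻¹ * b * r) = r⁻¹ * (b * b) * r := by group
          _ = 1 := by rw [hbb]; group
      calc r * (c * b) * r⁻¹ = (r * c * r⁻¹) * (r * b * r⁻¹) := by group
        _ = (r * c * r⁻¹) * (r * b * r⁻¹) * ((r⁻¹ * b * r) * (r⁻¹ * b * r)) := by rw [h4, mul_one]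
        _ = (r * c * r⁻¹) * (r * b * r⁻¹ * (r⁻¹ * b * r)) * (r⁻¹ * b * r) := by group
        _ = (r * c * r⁻¹) * (r * c * r⁻¹ * (r⁻¹ * c * r)) * (r⁻¹ * b * r) := by rw [h]
        _ = ((r * c * r⁻¹) * (r * c * r⁻¹)) * ((r⁻¹ * c * r) * (r⁻¹ * b * r)) := by group
        _ = r⁻¹ * (c * b) * r := by rw [h3]; group
    show r ^ 2 * (c * b) = c * b * r ^ 2
    calc r ^ 2 * (c * b) = r * (r * (c * b) * r⁻¹) * r := by rw [pow_two]; group
      _ = r * (r⁻¹ * (c * b) * r) * r := by rw [h2]
      _ = c * b * r ^ 2 := by rw [pow_two]; group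
  have h2 : Commute r (c * b) := by
    rw [hk]; exact h1.pow_left k
  -- s = b c commutes with r
  have h3 : Commute r (b * c) := by
    have : b * c = (c * b)⁻¹ := by rw [mul_inv_rev, inv hD hbD, inv hD hcD]
    rw [this]; exact h2.inv_right
  have h4 : (b * r) * (b * r) = (c * r) * (c * r) := by
    have e1 : b = (b * c) * c := by rw [mul_assoc, hcc, mul_one]
    calc (b * r) * (b * r) = ((b * c) * c) * r * (((b * c) * c) * r) := by rw [← e1]
      _ = (b * c) * c * (r * (b * c)) * c * r := by group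
      _ = (b * c) * c * ((b * c) * r) * c * r := by rw [h3.eq]
      _ = b * (c * c) * b * c * r * c * r := by group
      _ = (b * b) * c * r * c * r := by rw [hcc]; group
      _ = (c * r) * (c * r) := by rw [hbb]; group
  have h5 := sq_inj_odd hbodd hcodd h4
  exact mul_right_cancel h5

/-- surjectivity of the operator. -/
theorem phi_surj {b : G} (hb : b ∈ mset D a x) : ∃ c ∈ mset D a x, phi a x c = b := by
  set n := orderOf (a * x) with hn
  have hodd : Odd n := hax.2
  have hcop : Nat.Coprime 2 n := (Nat.coprime_two_left).mpr hodd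
  have hnpos : 0 < n := hodd.pos
  have htot : 0 < n.totient := Nat.totient_pos.mpr hnpos
  have hmod : 2 ^ n.totient ≡ 1 [MOD n] := Nat.ModEq.pow_totient hcop
  have hr : (a * x) ^ 2 ^ n.totient = a * x := by
    have := (pow_eq_pow_iff_modEq (x := a * x)).mpr hmod
    rw [this, pow_one]
  have h1 := phi_iter_two hD ha hx hax n.totient hb
  rw [hr, ← phi_eq hD ha hx hax hb] at h1
  obtain ⟨j, hj⟩ : ∃ j, 2 ^ n.totient = j + 2 := by
    have : 2 ≤ 2 ^ n.totient := by
      calc 2 = 2 ^ 1 := by norm_num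
        _ ≤ 2 ^ n.totient := Nat.pow_le_pow_right (by norm_num) htot
    exact ⟨2 ^ n.totient - 2, by omega⟩
  rw [hj, Function.iterate_succ_apply'] at h1
  have h2 := phi_iter_mem hD ha hx hax (j + 1) hb
  have h3 := phi_inj hD ha hx hax h2 hb h1
  rw [Function.iterate_succ_apply'] at h3
  exact ⟨(phi a x)^[j] b, phi_iter_mem hD ha hx hax j hb, h3⟩

/-- Every product partner of `a` which is four with some `x` odd with `a` is a commutator `[a, u]`,
with `u` commuting with `x`. -/
theorem exists_comm_eq {b : G} (hb : b ∈ productPartners D a) (hbx : fr b x) :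
    ∃ u ∈ D, u * x = x * u ∧ u ∈ productPartners D x ∧ fr a u ∧ (a * u) ^ 2 = b := by
  obtain ⟨c, hc, hcb⟩ := phi_surj hD ha hx hax ⟨hb, hbx⟩
  refine ⟨(c * x) ^ 2, u_mem hD ha hx hax hc, four_comm_right hD (pp_mem hc.1) hx hc.2,
    four_partner' hD (pp_mem hc.1) hx hc.2, u_fr hD ha hx hax hc, hcb⟩

end

end Cfsg.Agent.H3.RI
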