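import Mathlib
import Cfsg.Prelude.Def_RootSubgroups
import Cfsg.Agent.H3.InvC
import Cfsg.Agent.H3.InvD

/-!
Root involutions: blocks of members with the same odd partners.
-/

set_option autoImplicit false
open Cfsg

namespace Cfsg.Agent.H3.RI

variable {G : Type*} [Group G] {D : Set G}

/-- members with the same odd partners as `e₀`. -/
def blk (D : Set G) (e₀ : G) : Set G := {z | z ∈ D ∧ ∀ x ∈ D, od z x ↔ od e₀ x}

theorem conj_trans' {p g a b c : G} (h1 : g * a * g⁻¹ = b) (h2 : p * b * p⁻¹ = c) :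
    (p * g) * a * (p * g)⁻¹ = c := by
  rw [← h2, ← h1]; group

theorem blk_self {e : G} (he : e ∈ D) : e ∈ blk D e := ⟨he, fun _ _ => Iff.rfl⟩

theorem blk_iff {e z z' : G} (hz : z ∈ blk D e) (hz' : z' ∈ blk D e) {x : G} (hx : x ∈ D) :
    od z x ↔ od z' x := (hz.2 x hx).trans (hz'.2 x hx).symm

theorem blk_not_od {e z z' : G} (hz : z ∈ blk D e) (hz' : z' ∈ blk D e) : ¬ od z z' := by
  intro h
  have := (blk_iff hz hz' hz'.1).mp h
  exact this.1 rfl

theorem blk_of_iff {e z z' : G} (hz : z ∈ blk D e) (hz' : z' ∈ D) (h : ∀ x ∈ D, od z' x ↔ od z x) :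
    z' ∈ blk D e := ⟨hz', fun x hx => (h x hx).trans (hz.2 x hx)⟩

variable (hD : IsRootInvolutionSet D)
include hD

theorem conj_mem' {x : G} (hx : x ∈ D) (g : G) : g⁻¹ * x * g ∈ D := by
  have := hD.conj_mem x hx g⁻¹
  rwa [inv_inv] at this

/-- an element mapping one member of the block into the block preserves it. -/
theorem blk_conj {e z : G} {g : G} (hz : z ∈ blk D e) (hg : g * z * g⁻¹ ∈ blk D e) {w : G} (hw : w ∈ blk D e) :
    g * w * g⁻¹ ∈ blk D e := by
  refine blk_of_iff hg (hD.conj_mem _ hw.1 g) (fun x hx => ?_)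
  have e1 : x = g * (g⁻¹ * x * g) * g⁻¹ := by group
  rw [e1, od_conj, od_conj]
  exact blk_iff hw hz (conj_mem' hD hx g)

theorem blk_conj_comm {e z b : G} (hb : b ∈ D) (hz : z ∈ blk D e) (hbz : b * z = z * b) {w : G}
    (hw : w ∈ blk D e) : b * w * b ∈ blk D e := by
  have h1 : b * z * b⁻¹ ∈ blk D e := by
    have : b * z * b⁻¹ = z := by rw [hbz]; group
    rw [this]; exact hz
  have := blk_conj hD hz h1 hw
  rwa [inv hD hb] at this

section conn
variable [Finite G] (hc : IsConnectedSet (OddAdj D) D)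
include hc

theorem conj_of_conn {a b : G} (ha : a ∈ D) (hb : b ∈ D) : ∃ g : G, g * a * g⁻¹ = b := by
  have h := hc a ha b hb
  clear hb
  induction h with
  | refl => exact ⟨1, by group⟩
  | @tail b c _ h ih =>
    obtain ⟨g, hg⟩ := ih
    obtain ⟨k, hk⟩ := od_conj_elem hD h.1 h.2.1 h.2.2
    exact ⟨(b * c) ^ k * g, conj_trans' hg hk⟩

theorem od_subset_eq {a b : G} (ha : a ∈ D) (hb : b ∈ D) (h : ∀ x ∈ D, od a x → od b x) :
    ∀ x ∈ D, od b x → od a x := by
  obtain ⟨g, hg⟩ := conj_of_conn hD hc ha hb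
  have himg : {x | x ∈ D ∧ od b x} = (fun x => g * x * g⁻¹) '' {x | x ∈ D ∧ od a x} := by
    ext x
    constructor
    · rintro ⟨hx, hbx⟩
      refine ⟨g⁻¹ * x * g, ⟨conj_mem' hD hx g, ?_⟩, by group⟩
      have e1 : x = g * (g⁻¹ * x * g) * g⁻¹ := by group
      rw [← hg, e1, od_conj] at hbx
      exact hbx
    · rintro ⟨y, ⟨hy, hay⟩, rfl⟩
      refine ⟨hD.conj_mem y hy g, ?_⟩
      rw [← hg, od_conj]; exact hay
  have hcard : {x | x ∈ D ∧ od b x}.ncard = {x | x ∈ D ∧ od a x}.ncard := by
    rw [himg]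
    exact Set.ncard_image_of_injective _ (fun x y hxy => by
      have := congrArg (fun z => g⁻¹ * z * g) hxy
      simpa [mul_assoc] using this)
  have hsub : {x | x ∈ D ∧ od a x} ⊆ {x | x ∈ D ∧ od b x} := fun x hx => ⟨hx.1, h x hx.1 hx.2⟩
  have heq := Set.eq_of_subset_of_ncard_le hsub hcard.le (Set.toFinite _)
  intro x hx hbx
  have : x ∈ {x | x ∈ D ∧ od b x} := ⟨hx, hbx⟩
  rw [← heq] at this
  exact this.2

/-- commuting members of a block with product in `D`: the product is in the block. -/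
theorem blk_mul {e z z' : G} (hz : z ∈ blk D e) (hz' : z' ∈ blk D e) (hp : z' ∈ productPartners D z) :
    z * z' ∈ blk D e := by
  have hv := pp_third hD hz.1 hp
  have hvD := pp_mem hv
  have h1 : ∀ x ∈ D, od (z * z') x → od z x := by
    intro x hx h
    -- line {z z', z, z'}
    rcases od_line hD hvD (pp_symm hz.1 hv) hx h with h2 | h2
    · exact h2
    · have : z * z' * z = z' := by
        calc z * z' * z = z * (z' * z) := by group
          _ = z * (z * z') := by rw [pp_comm hp]
          _ = (z * z) * z' := by group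
          _ = z' := by rw [sq hD hz.1, one_mul]
      rw [this] at h2
      exact (blk_iff hz' hz hx).mp h2
  exact blk_of_iff hz hvD (fun x hx => ⟨h1 x hx, od_subset_eq hD hc hvD hz.1 h1 x hx⟩)

/-- for `b` normalizing the block with `fr e b`, the commutator lies in the block. -/
theorem blk_four {e₀ e b : G} (he : e ∈ blk D e₀) (hb : b ∈ D) (heb : b * e * b ∈ blk D e₀) (h : fr e b) :
    (e * b) ^ 2 ∈ blk D e₀ := by
  have h1 : b * e * b ∈ productPartners D e := by
    have h2 := pp_third hD he.1 (four_partner hD he.1 hb h)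
    rwa [four_mul_left hD he.1] at h2
  have h3 := blk_mul hD hc he heb h1
  have : e * (b * e * b) = (e * b) ^ 2 := by rw [pow_two]; group
  rwa [this] at h3

/-- every member has an odd partner as soon as there are two members. -/
theorem exists_od {a b : G} (ha : a ∈ D) (hb : b ∈ D) (hab : a ≠ b) : ∃ x ∈ D, od a x := by
  rcases Relation.ReflTransGen.cases_head (hc a ha b hb) with h1 | ⟨c, h1, _⟩
  · exact absurd h1 hab
  · exact ⟨c, h1.2.1, h1.2.2⟩

/-- blocks are abelian. -/
theorem blk_comm {e z z' : G} (hz : z ∈ blk D e) (hz' : z' ∈ blk D e) : z * z' = z' * z := by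
  classical
  rcases tri hD hz.1 hz'.1 with h | h | h
  · exact h
  · exact absurd h (blk_not_od hz hz')
  exfalso
  set T := blk D e with hT
  set Q := Subgroup.closure T with hQ
  -- Q normalizes T
  have hnorm : ∀ q ∈ Q, ∀ t ∈ T, q * t * q⁻¹ ∈ T := by
    intro q hq
    induction hq using Subgroup.closure_induction with
    | mem q hq =>
      intro t ht
      exact blk_conj hD hq (by have : q * q * q⁻¹ = q := by group
                               rw [this]; exact hq) ht
    | one => intro t ht; simpa using ht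
    | mul x y _ _ hx hy =>
      intro t ht
      have := hx _ (hy t ht)
      have e1 : x * y * t * (x * y)⁻¹ = x * (y * t * y⁻¹) * x⁻¹ := by group
      rwa [e1]
    | inv x _ hx =>
      intro t ht
      rw [inv_inv]
      -- finite order
      have h1 : ∀ k : ℕ, ∀ t ∈ T, x ^ k * t * (x ^ k)⁻¹ ∈ T := by
        intro k
        induction k with
        | zero => intro t ht; simpa using ht
        | succ k ih =>
          intro t ht
          have := hx _ (ih t ht)
          have e1 : x ^ (k + 1) * t * (x ^ (k + 1))⁻¹ = x * (x ^ k * t * (x ^ k)⁻¹) * x⁻¹ := by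
            rw [pow_succ']; group
          rwa [e1]
      have h2 := h1 (orderOf x - 1) t ht
      have h3 : x ^ (orderOf x - 1) = x⁻¹ := by
        apply eq_inv_of_mul_eq_one_left
        rw [← pow_succ, Nat.sub_add_cancel (orderOf_pos x), pow_orderOf_eq_one]
      rw [h3, inv_inv] at h2
      exact h2
  -- root involution set of Q
  set TQ : Set ↥Q := {q | (q : G) ∈ T} with hTQ
  have hRI : IsRootInvolutionSet TQ := by
    refine ⟨?_, ?_, ?_, ?_⟩
    · intro d hd
      rw [← Subgroup.orderOf_coe]; exact hD.orderOf_eq _ hd.1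
    · rw [eq_top_iff]
      rintro ⟨q, hq⟩ -
      have h1 : q ∈ Subgroup.map Q.subtype (Subgroup.closure TQ) := by
        rw [MonoidHom.map_closure]
        have h2 : (Q.subtype : ↥Q → G) '' TQ = T := by
          ext t
          constructor
          · rintro ⟨s, hs, rfl⟩; exact hs
          · intro ht; exact ⟨⟨t, Subgroup.subset_closure ht⟩, ht, rfl⟩
        rw [h2]; exact hq
      obtain ⟨s, hs, hsq⟩ := h1
      have : s = ⟨q, hq⟩ := Subtype.ext hsq
      rwa [this] at hs
    · intro d hd g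
      exact hnorm g g.2 d hd
    · intro a ha b hb
      rcases tri hD ha.1 hb.1 with h1 | h1 | h1
      · exact Or.inl (Subtype.ext h1)
      · exact absurd h1 (blk_not_od ha hb)
      · right; right
        refine ⟨?_, ?_⟩
        · rw [← Subgroup.orderOf_coe]; exact h1
        · have hba : (b : G) * a * b ∈ T := by
            have := hnorm b b.2 a ha
            rwa [inv hD hb.1] at this
          exact blk_four hD hc ha hb.1 hba h1
  have hcore : pCore 2 ↥Q = ⊤ := by
    rw [eq_top_iff, ← hRI.generates, Subgroup.closure_le]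
    intro w hw
    refine mem_core hRI hw (fun g hg => ?_)
    have h1 : (g * w * g⁻¹ : ↥Q) ∈ TQ := hRI.conj_mem w hw g
    apply blk_not_od hw h1
    refine ⟨fun h2 => hg.1 (Subtype.ext h2), ?_⟩
    have h3 := hg.2
    rw [← Subgroup.orderOf_coe] at h3
    exact h3
  have hQp : IsPGroup 2 ↥Q := by
    have h1 := Cfsg.Agent.H1.pCore_isPGroup 2 ↥Q
    rw [hcore] at h1
    exact h1.of_equiv Subgroup.topEquiv
  haveI : Fact (Nat.Prime 2) := ⟨Nat.prime_two⟩
  haveI hnil : Group.IsNilpotent ↥Q := hQp.isNilpotent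
  have hzQ : z ∈ Q := Subgroup.subset_closure hz
  have hz'Q : z' ∈ Q := Subgroup.subset_closure hz'
  haveI : Nontrivial ↥Q := ⟨⟨z, hzQ⟩, 1, fun h => ne_one hD hz.1 (congrArg Subtype.val h)⟩
  have hlt : commutator ↥Q < ⊤ := IsSolvable.commutator_lt_top_of_nontrivial ↥Q
  apply hlt.ne
  -- T ⊆ [Q,Q]
  have hcomm : Q ≤ ⁅Q, Q⁆ := by
    rw [hQ, Subgroup.closure_le, ← hQ]
    -- v in [Q,Q]
    have hv : (z * z') ^ 2 ∈ ⁅Q, Q⁆ := by
      have h0 := Subgroup.commutator_mem_commutator hzQ hz'Q
      rw [commutatorElement_def, inv hD hz.1, inv hD hz'.1] at h0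
      have : (z * z') ^ 2 = z * z' * z * z' := by rw [pow_two]; group
      rw [this]
      exact h0
    have hzz : z' * z * z' ∈ T := by
      have := hnorm z' hz'Q z hz
      rwa [inv hD hz'.1] at this
    have hvT : (z * z') ^ 2 ∈ T := blk_four hD hc hz hz'.1 hzz h
    obtain ⟨x, hx, hzx⟩ := exists_od hD hc hz.1 hz'.1 (by
      rintro rfl
      exact not_comm_fr hD hz.1 hz.1 rfl h)
    intro t ht
    -- element mapping v to t
    have h1 : od ((z * z') ^ 2) x := (blk_iff hvT hz hx).mpr hzx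
    have h2 : od t x := (blk_iff ht hz hx).mpr hzx
    obtain ⟨k, hk⟩ := od_conj_elem hD hvT.1 hx h1
    obtain ⟨l, hl⟩ := od_conj_elem hD hx ht.1 (od_symm h2)
    set n := (x * t) ^ l * ((z * z') ^ 2 * x) ^ k with hn
    have h3 : n * (z * z') ^ 2 * n⁻¹ = t := conj_trans' hk hl
    have h4 : ∀ s ∈ T, n * s * n⁻¹ ∈ T := fun s hs => blk_conj hD hvT (by rw [h3]; exact ht) hs
    have h5 : Q.map (MulAut.conj n).toMonoidHom ≤ Q := by
      rw [hQ, MonoidHom.map_closure, Subgroup.closure_le]
      rintro _ ⟨s, hs, rfl⟩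
      exact Subgroup.subset_closure (h4 s hs)
    have h6 : (⁅Q, Q⁆).map (MulAut.conj n).toMonoidHom ≤ ⁅Q, Q⁆ := by
      rw [Subgroup.map_commutator]
      exact Subgroup.commutator_mono h5 h5
    have h7 : n * (z * z') ^ 2 * n⁻¹ ∈ ⁅Q, Q⁆ := h6 ⟨_, hv, rfl⟩
    rwa [h3] at h7
  rw [eq_top_iff]
  rintro ⟨q, hq⟩ -
  have h1 := hcomm hq
  have h2 : ⁅Q, Q⁆ = (commutator ↥Q).map Q.subtype := by
    rw [commutator_def, Subgroup.map_commutator, ← MonoidHom.range_eq_map, Subgroup.range_subtype]
  rw [h2] at h1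
  obtain ⟨s, hs, hsq⟩ := h1
  have : s = ⟨q, hq⟩ := Subtype.ext hsq
  rwa [this] at hs

end conn

end Cfsg.Agent.H3.RI
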