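import Mathlib
import Cfsg.Prelude.Def_RootSubgroups
import Cfsg.Agent.H3.InvE

/-!
Root involutions: centralizers of blocks.
-/

set_option autoImplicit false
open Cfsg

namespace Cfsg.Agent.H3.RI

variable {G : Type*} [Group G] {D : Set G}

section conn
variable (hD : IsRootInvolutionSet D)
variable [Finite G] (hc : IsConnectedSet (OddAdj D) D)
include hD hc

theorem blk_not_four {e₀ d b e : G} (hd : d ∈ blk D e₀) (hb : b ∈ D) (hbd : b * d = d * b)
    (he : e ∈ blk D e₀) : ¬ fr e b := by
  intro h
  have heb := blk_conj_comm hD hb hd hbd he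
  set t := (e * b) ^ 2 with ht
  have htT : t ∈ blk D e₀ := blk_four hD hc he hb heb h
  have htb : t ∈ productPartners D b := four_partner' hD he.1 hb h
  have hbt : b ∈ productPartners D t := pp_symm hb htb
  have htv : t = e * (b * e * b) := by rw [ht, pow_two]; group
  -- choose x
  have hex : ∃ x ∈ D, od t x ∧ ¬ od b x := by
    by_contra hcon
    push Not at hcon
    have h1 := od_subset_eq hD hc htT.1 hb hcon
    have hbT : b ∈ blk D e₀ := blk_of_iff htT hb (fun x hx => ⟨h1 x hx, hcon x hx⟩)
    exact not_comm_fr hD he.1 hb (blk_comm hD hc he hbT) h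
  obtain ⟨x, hx, htx, hbx⟩ := hex
  have hbx4 : fr b x := by
    rcases od_or_fr hD htT.1 hbt hx htx with h1 | h1
    · exact absurd h1 hbx
    · exact h1
  obtain ⟨u, hu, hux, hupx, htu, hb_eq⟩ := exists_comm_eq hD htT.1 hx htx hbt hbx4
  have hzu : ∀ z ∈ blk D e₀, fr z u := by
    intro z hz
    have h1 : od z x := (blk_iff hz htT hx).mpr htx
    rcases od_or_fr hD hx hupx hz.1 (od_symm h1) with h2 | h2
    · exfalso
      exact not_od_fr ((blk_iff hz htT hu).mp (od_symm h2)) htu
    · exact fr_symm h2
  have hnT : ∀ z ∈ blk D e₀, u * z * u ∉ blk D e₀ := by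
    intro z hz h1
    have h2 := blk_four hD hc hz hu h1 (hzu z hz)
    exact not_comm_fr hD h2.1 hu (four_comm_right hD hz.1 hu (hzu z hz)) (hzu _ h2)
  have htt := sq hD htT.1
  have huu := sq hD hu
  have hee := sq hD he.1
  have hte : t * e = e * t := blk_comm hD hc htT he
  set w := (e * u) ^ 2 with hw
  have hwD : w ∈ D := four_mem hD he.1 hu (hzu e he)
  have hww := sq hD hwD
  have hwe : w * e = e * w := four_comm_left hD he.1 hu (hzu e he)
  have hwu : w * u = u * w := four_comm_right hD he.1 hu (hzu e he)
  have hueu : u * e * u = e * w := (four_mul_left hD he.1).symm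
  have hb1 : b = t * (u * t * u) := by rw [← hb_eq, pow_two]; group
  have hb2 : b = (u * t * u) * t := by
    rw [← hb_eq, four_symm_val hD htT.1 hu htu, pow_two]; group
  -- beb = (utu) e (utu)
  have hbeb : b * e * b = u * t * u * e * (u * t * u) := by
    have : b * e * b = ((u * t * u) * t) * e * (t * (u * t * u)) := by rw [← hb2, ← hb1]
    rw [this]
    calc ((u * t * u) * t) * e * (t * (u * t * u)) = (u * t * u) * (t * e) * t * (u * t * u) := by group
      _ = (u * t * u) * (e * t) * t * (u * t * u) := by rw [hte]
      _ = (u * t * u) * e * (t * t) * (u * t * u) := by group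
      _ = u * t * u * e * (u * t * u) := by rw [htt]; group
  have hbeb2 : b * e * b = u * e * (t * w * t) * u := by
    rw [hbeb]
    calc u * t * u * e * (u * t * u) = u * t * (u * e * u) * t * u := by group
      _ = u * t * (e * w) * t * u := by rw [hueu]
      _ = u * (t * e) * w * t * u := by group
      _ = u * (e * t) * w * t * u := by rw [hte]
      _ = u * e * (t * w * t) * u := by group
  have hwtT : w * t * w ∈ blk D e₀ := blk_conj_comm hD hwD he hwe htT
  rcases tri hD htT.1 hwD with h1 | h1 | h1
  · -- commute
    have : b * e * b = e := by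
      rw [hbeb2]
      calc u * e * (t * w * t) * u = u * e * (w * (t * t)) * u := by rw [h1]; group
        _ = u * e * (w * u) := by rw [htt]; group
        _ = u * e * (u * w) := by rw [hwu]
        _ = (u * e * u) * w := by group
        _ = e * w * w := by rw [hueu]
        _ = e := by rw [mul_assoc, hww, mul_one]
    apply not_comm_fr hD he.1 hb _ h
    calc e * b = (b * e * b) * b := by rw [this]
      _ = b * e * (b * b) := by group
      _ = b * e := by rw [sq hD hb, mul_one]
  · -- odd: impossible
    have h2 := blk_comm hD hc htT hwtT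
    have h3 : (t * w) * (t * w) = t * (w * t * w) := by group
    have h4 : (t * w) ^ 4 = 1 := by
      have e1 : (t * w) ^ 4 = (t * w) * (t * w) * ((t * w) * (t * w)) := by
        simp only [pow_succ, pow_zero, one_mul, mul_assoc]
      rw [e1, h3]
      calc t * (w * t * w) * (t * (w * t * w)) = t * (w * t * w) * ((w * t * w) * t) := by rw [h2]
        _ = t * w * t * (w * w) * t * w * t := by group
        _ = t * w * (t * t) * w * t := by rw [hww]; group
        _ = t * (w * w) * t := by rw [htt]; group
        _ = 1 := by rw [hww, mul_one, htt]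
    have h5 := four_odd h1.2 h4
    apply h1.1
    have : t = w⁻¹ := eq_inv_of_mul_eq_one_left h5
    rw [this, inv hD hwD]
  · have hβT : (t * w) ^ 2 ∈ blk D e₀ := blk_four hD hc htT hwD hwtT h1
    have hβw : (t * w) ^ 2 * w = w * (t * w) ^ 2 := four_comm_right hD htT.1 hwD h1
    set β := (t * w) ^ 2 with hβ
    have htwt : t * w * t = β * w := by
      rw [hβ, pow_two]
      calc t * w * t = t * w * t * (w * w) := by rw [hww, mul_one]
        _ = t * w * (t * w) * w := by group
    have h2 : b * e * b = e * (u * β * u) := by
      rw [hbeb2, htwt]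
      calc u * e * (β * w) * u = u * e * (u * u) * (β * w) * u := by rw [huu, mul_one]
        _ = (u * e * u) * (u * β * (w * u)) := by group
        _ = (e * w) * (u * β * (u * w)) := by rw [hueu, hwu]
        _ = e * (w * u) * β * (u * w) := by group
        _ = e * (u * w) * β * (u * w) := by rw [hwu]
        _ = e * u * (w * β) * u * w := by group
        _ = e * u * (β * w) * u * w := by rw [hβw]
        _ = e * u * β * (w * u) * w := by group
        _ = e * u * β * (u * w) * w := by rw [hwu]
        _ = e * (u * β * u) * (w * w) := by group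
        _ = e * (u * β * u) := by rw [hww, mul_one]
    have h3 : t = u * β * u := by
      calc t = e * (b * e * b) := htv
        _ = e * (e * (u * β * u)) := by rw [h2]
        _ = (e * e) * (u * β * u) := by group
        _ = u * β * u := by rw [hee, one_mul]
    apply hnT β hβT
    rw [← h3]; exact htT

/-- two members of the same block have the same commuting members. -/
theorem blk_comm_iff {e₀ d e y : G} (hd : d ∈ blk D e₀) (he : e ∈ blk D e₀) (hy : y ∈ D)
    (h : y * d = d * y) : y * e = e * y := by
  rcases tri hD hy he.1 with h1 | h1 | h1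
  · exact h1
  · exfalso
    exact not_comm_od hD hd.1 hy h.symm ((blk_iff he hd hy).mp (od_symm h1))
  · exact absurd (fr_symm h1) (blk_not_four hD hc hd hy h he)

end conn

section
variable (hD : IsRootInvolutionSet D)
include hD

/-- equal commuting sets imply equal odd sets. -/
theorem od_of_comm_eq {d e x : G} (hd : d ∈ D) (he : e ∈ D)
    (h : ∀ y ∈ D, y * d = d * y ↔ y * e = e * y) (hx : x ∈ D) (hdx : od d x) : od e x := by
  rcases tri hD he hx with h1 | h1 | h1
  · exact (not_comm_od hD hd hx ((h x hx).mpr h1.symm).symm hdx).elim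
  · exact h1
  · exfalso
    have hv := four_mem hD he hx h1
    have h2 := four_partner' hD he hx h1
    have h3 : (e * x) ^ 2 * d = d * (e * x) ^ 2 := (h _ hv).mpr (four_comm_left hD he hx h1)
    exact comm_not_od hD hv (pp_symm hx h2) hd h3.symm hdx

end

end Cfsg.Agent.H3.RI
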