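import Mathlib
import Cfsg.Prelude.Def_RootSubgroups
import Cfsg.Agent.H3.InvF

/-!
Root involutions: generic lines are commutators, and the symmetric group of degree four.
-/

set_option autoImplicit false
open Cfsg

namespace Cfsg.Agent.H3.RI

variable {G : Type*} [Group G] {D : Set G}

section conn
variable (hD : IsRootInvolutionSet D)
variable [Finite G] (hc : IsConnectedSet (OddAdj D) D)
include hD hc

/-- `q ∈ X_p` not in the block of `p` is a commutator `[p,u]`. -/
theorem good {p q : G} (hp : p ∈ D) (hq : q ∈ productPartners D p) (h : q ∉ blk D p) :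
    ∃ u ∈ D, fr p u ∧ (p * u) ^ 2 = q := by
  have hex : ∃ x ∈ D, od p x ∧ ¬ od q x := by
    by_contra hcon
    push Not at hcon
    have h1 := od_subset_eq hD hc hp (pp_mem hq) hcon
    exact h ⟨pp_mem hq, fun x hx => ⟨h1 x hx, hcon x hx⟩⟩
  obtain ⟨x, hx, hpx, hqx⟩ := hex
  have hqx4 : fr q x := by
    rcases od_or_fr hD hp hq hx hpx with h1 | h1
    · exact absurd h1 hqx
    · exact h1
  obtain ⟨u, hu, _, _, h1, h2⟩ := exists_comm_eq hD hp hx hpx hq hqx4
  exact ⟨u, hu, h1, h2⟩

theorem not_blk_of_not_comm {p q y : G} (hp : p ∈ D) (hq : q ∈ D) (hy : y ∈ D) (h1 : y * p = p * y)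
    (h2 : y * q ≠ q * y) : q ∉ blk D p :=
  fun h => h2 (blk_comm_iff hD hc (blk_self hp) h hy h1)

end conn

section
variable (hD : IsRootInvolutionSet D)
include hD

/-- if `[b,x'] = u`, `[a,u] = b` and `a` commutes with `b` then `a` and `x'` are odd. -/
theorem nm_od {a b x u : G} (ha : a ∈ D) (hb : b ∈ D) (hx : x ∈ D) (hab : a * b = b * a)
    (hbx : fr b x) (hu : (b * x) ^ 2 = u) (hau : fr a u) (hab2 : (a * u) ^ 2 = b) : od a x := by
  have haa := sq hD ha
  have hbb := sq hD hb
  have hxx := sq hD hx
  have huD : u ∈ D := by rw [← hu]; exact four_mem hD hb hx hbx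
  have huv : u = b * (x * b * x) := by rw [← hu, pow_two]; group
  have hub : u * b = b * u := by rw [← hu]; exact four_comm_left hD hb hx hbx
  rcases tri hD ha hx with h | h | h
  · exfalso
    apply not_comm_fr hD ha huD _ hau
    have h1 : Commute a b := hab
    have h2 : Commute a x := h
    rw [huv]
    exact (h1.mul_right ((h2.mul_right h1).mul_right h2)).eq
  · exact h
  · exfalso
    set b' := x * b * x with hb'
    set a' := x * a * x with ha'
    have hbb' : b' * b = b * b' := by
      rw [huv] at hub
      calc b' * b = b * (b * b' * b) := by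
            rw [show b * (b * b' * b) = (b * b) * (b' * b) by group, hbb, one_mul]
        _ = b * (b * (b * b')) := by rw [hub]
        _ = (b * b) * (b * b') := by group
        _ = b * b' := by rw [hbb, one_mul]
    have hb'b' : b' * b' = 1 := by
      rw [hb']
      calc x * b * x * (x * b * x) = x * b * (x * x) * b * x := by group
        _ = x * (b * b) * x := by rw [hxx]; group
        _ = 1 := by rw [hbb, mul_one, hxx]
    -- (a b')² = b
    have h1 : a * b' * a * b' = b := by
      have e1 : (a * u) ^ 2 = a * b' * a * b' := by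
        rw [pow_two, huv]
        calc a * (b * b') * (a * (b * b')) = a * (b * b') * (a * b) * b' := by group
          _ = a * (b * b') * (b * a) * b' := by rw [hab]
          _ = a * (b' * b) * (b * a) * b' := by rw [hbb']
          _ = a * b' * (b * b) * a * b' := by group
          _ = a * b' * a * b' := by rw [hbb]; group
      rw [← e1, hab2]
    -- conjugate by x : (a' b)² = b'
    have h2 : a' * b * a' * b = b' := by
      have e1 : x * (a * b' * a * b') * x = a' * b * a' * b := by
        rw [ha', hb']
        calc x * (a * (x * b * x) * a * (x * b * x)) * x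
            = x * a * x * b * (x * a * x) * b * (x * x) := by group
          _ = x * a * x * b * (x * a * x) * b := by rw [hxx, mul_one]
      rw [← e1, h1]
    have hg : a' * a = a * a' := by
      have e1 := four_comm_left hD ha hx h
      have e2 : (a * x) ^ 2 = a * a' := by rw [pow_two, ha']; group
      rw [e2] at e1
      calc a' * a = (a * a) * (a' * a) := by rw [haa, one_mul]
        _ = a * (a * a' * a) := by group
        _ = a * (a * (a * a')) := by rw [e1]
        _ = (a * a) * (a * a') := by group
        _ = a * a' := by rw [haa, one_mul]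
    have h3 : a' * b * a' = b' * b := by
      calc a' * b * a' = (a' * b * a' * b) * b := by rw [mul_assoc _ b b, hbb, mul_one]
        _ = b' * b := by rw [h2]
    -- conjugation by g = a a'
    have h4 : (a' * a) * b * (a * a') = b' * b := by
      calc (a' * a) * b * (a * a') = a' * (a * b) * a * a' := by group
        _ = a' * (b * a) * a * a' := by rw [hab]
        _ = a' * b * (a * a) * a' := by group
        _ = b' * b := by rw [haa, mul_one, h3]
    have hxa : x * a' = a * x := by
      rw [ha']
      calc x * (x * a * x) = (x * x) * a * x := by group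
        _ = a * x := by rw [hxx, one_mul]
    have hxa' : x * a = a' * x := by
      rw [ha']
      calc x * a = x * a * (x * x) := by rw [hxx, mul_one]
        _ = x * a * x * x := by group
    have hgx : (a' * a) * x = x * (a' * a) := by
      calc (a' * a) * x = a' * (a * x) := by group
        _ = a' * (x * a') := by rw [hxa]
        _ = (a' * x) * a' := by group
        _ = (x * a) * a' := by rw [hxa']
        _ = x * (a * a') := by group
        _ = x * (a' * a) := by rw [hg]
    have hgx' : x * (a * a') = (a * a') * x := by rw [← hg, hgx]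
    have h5 : (a' * a) * b' * (a * a') = b * b' := by
      rw [hb']
      calc (a' * a) * (x * b * x) * (a * a') = ((a' * a) * x) * b * (x * (a * a')) := by group
        _ = (x * (a' * a)) * b * ((a * a') * x) := by rw [hgx, hgx']
        _ = x * ((a' * a) * b * (a * a')) * x := by group
        _ = x * (b' * b) * x := by rw [h4]
        _ = x * b' * (x * x) * b * x := by rw [hxx]; group
        _ = x * b' * x * (x * b * x) := by group
        _ = b * (x * b * x) := by
            have : x * b' * x = b := by
              rw [hb']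
              calc x * (x * b * x) * x = (x * x) * b * (x * x) := by group
                _ = b := by rw [hxx]; group
            rw [this]
    have h6 : b = b' := by
      have e1 : (a' * a) * b * (a * a') = (a' * a) * b' * (a * a') := by rw [h4, h5, hbb']
      have e2 := mul_right_cancel e1
      exact mul_left_cancel e2
    apply not_comm_fr hD hb hx _ hbx
    calc b * x = b' * x := by rw [← h6]
      _ = x * b * (x * x) := by rw [hb']; group
      _ = x * b := by rw [hxx, mul_one]

/-- if `φ(b) = b` then `ax` has order three. -/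
theorem order_three {a b x : G} (ha : a ∈ D) (hx : x ∈ D) (hax : od a x) (hb : b ∈ mset D a x)
    (h : phi a x b = b) : orderOf (a * x) = 3 := by
  have hbD := pp_mem hb.1
  have hbb := sq hD hbD
  have haa := sq hD ha
  have hxx := sq hD hx
  have h1 := phi_eq hD ha hx hax hb
  rw [h] at h1
  have hub : (b * x) ^ 2 * b = b * (b * x) ^ 2 := four_comm_left hD hbD hx hb.2
  have hab : b * a = a * b := pp_comm hb.1
  set r := a * x with hr
  have hax' : Odd (orderOf r) := hax.2
  clear_value r
  -- b_{-1} = r⁻¹ b r = x b x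
  have e1 : r⁻¹ * b * r = x * b * x := by
    rw [hr, mul_inv_rev, inv hD ha, inv hD hx]
    calc x * a * b * (a * x) = x * (a * b) * a * x := by group
      _ = x * (b * a) * a * x := by rw [hab]
      _ = x * b * (a * a) * x := by group
      _ = x * b * x := by rw [haa, mul_one]
  have hc : (r⁻¹ * b * r) * b = b * (r⁻¹ * b * r) := by
    rw [e1]
    have hu : (b * x) ^ 2 = b * (x * b * x) := by rw [pow_two]; group
    rw [hu] at hub
    calc (x * b * x) * b = b * (b * (x * b * x) * b) := by
          rw [show b * (b * (x * b * x) * b) = (b * b) * (x * b * x) * b by group, hbb, one_mul]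
      _ = b * (b * (b * (x * b * x))) := by rw [hub]
      _ = (b * b) * (b * (x * b * x)) := by group
      _ = b * (x * b * x) := by rw [hbb, one_mul]
  -- b₁ = b b_{-1}
  have h11 : (r⁻¹ * b * r) * (r⁻¹ * b * r) = 1 := by
    calc (r⁻¹ * b * r) * (r⁻¹ * b * r) = r⁻¹ * (b * b) * r := by group
      _ = 1 := by rw [hbb]; group
  have h2 : r * b * r⁻¹ = b * (r⁻¹ * b * r) := by
    calc r * b * r⁻¹ = r * b * r⁻¹ * ((r⁻¹ * b * r) * (r⁻¹ * b * r)) := by rw [h11, mul_one]
      _ = (r * b * r⁻¹ * (r⁻¹ * b * r)) * (r⁻¹ * b * r) := by group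
      _ = b * (r⁻¹ * b * r) := by rw [← h1]
  -- b₂ = b₁ b = b_{-1}
  have h3 : r * (r * b * r⁻¹) * r⁻¹ = r⁻¹ * b * r := by
    calc r * (r * b * r⁻¹) * r⁻¹ = r * (b * (r⁻¹ * b * r)) * r⁻¹ := by rw [h2]
      _ = (r * b * r⁻¹) * b := by group
      _ = b * (r⁻¹ * b * r) * b := by rw [h2]
      _ = b * ((r⁻¹ * b * r) * b) := by group
      _ = b * (b * (r⁻¹ * b * r)) := by rw [hc]
      _ = (b * b) * (r⁻¹ * b * r) := by group
      _ = r⁻¹ * b * r := by rw [hbb, one_mul]
  have h4 : b * r ^ 3 = r ^ 3 * b := by
    have : r ^ 3 * b * (r ^ 3)⁻¹ = b := by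
      have hr3 : r ^ 3 = r * r * r := by rw [pow_succ, pow_two]
      calc r ^ 3 * b * (r ^ 3)⁻¹ = r * (r * (r * b * r⁻¹) * r⁻¹) * r⁻¹ := by
            rw [hr3]; group
        _ = r * (r⁻¹ * b * r) * r⁻¹ := by rw [h3]
        _ = b := by group
    calc b * r ^ 3 = (r ^ 3 * b * (r ^ 3)⁻¹) * r ^ 3 := by rw [this]
      _ = r ^ 3 * b := by group
  have h5 : a * r ^ 3 * a = (r ^ 3)⁻¹ := by
    have e2 : a * r * a⁻¹ = r⁻¹ := by rw [hr]; exact inv_product haa hxx
    have e3 : a * r ^ 3 * a⁻¹ = (a * r * a⁻¹) ^ 3 := by rw [conj_pow]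
    rw [inv hD ha] at e3 e2
    rw [e3, e2, inv_pow]
  have h6 := inverted_centralized hD ha hb.1 (odd_pow hax' 3) h5 h4
  have h7 : r ≠ 1 := by
    intro h8
    apply hax.1
    have : a = x⁻¹ := eq_inv_of_mul_eq_one_left (by rw [← hr]; exact h8)
    rw [this, inv hD hx]
  exact orderOf_eq_prime h6 h7

end

section conn
variable (hD : IsRootInvolutionSet D)
variable [Finite G] (hc : IsConnectedSet (OddAdj D) D)
include hD hc

/-- the symmetric group of degree four. -/
theorem exists_three {a b : G} (ha : a ∈ D) (hb : b ∈ productPartners D a) (hbE : b ∉ blk D a) :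
    ∃ u ∈ D, ∃ x ∈ D, fr a u ∧ (a * u) ^ 2 = b ∧ fr b x ∧ (b * x) ^ 2 = u ∧ od a x ∧ orderOf (a * x) = 3 := by
  have hbD := pp_mem hb
  obtain ⟨u, hu, hau, hb2⟩ := good hD hc ha hb hbE
  have hub : u ∈ productPartners D b := by
    have := four_partner' hD ha hu hau
    rw [hb2] at this
    exact pp_symm hu this
  have huE : u ∉ blk D b := not_blk_of_not_comm hD hc hbD hu ha (pp_comm hb).symm
    (fun h => not_comm_fr hD ha hu h hau)
  obtain ⟨x, hx, hbx, hu2⟩ := good hD hc hbD hub huE
  have hax : od a x := nm_od hD ha hbD hx (pp_comm hb).symm hbx hu2 hau hb2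
  refine ⟨u, hu, x, hx, hau, hb2, hbx, hu2, hax, ?_⟩
  apply order_three hD ha hx hax ⟨hb, hbx⟩
  unfold phi
  rw [hu2, hb2]

end conn

end Cfsg.Agent.H3.RI
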