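import Mathlib
import Cfsg.Prelude.Def_RootSubgroups
import Cfsg.Prelude.Def_QuasithinSetup
import Cfsg.Agent.H3.InvG
import Cfsg.Agent.H18.PCore

/-!
Root involutions: normal subgroups.
-/

set_option autoImplicit false
open Cfsg

namespace Cfsg.Agent.H3.RI

variable {G : Type*} [Group G] {D : Set G}

theorem mem_twoZ {x : G} (h : ∀ y : G, x * y * x⁻¹ * y⁻¹ ∈ pCore 2 G) : x ∈ twoZCore G := by
  rw [twoZCore, Subgroup.mem_comap, Subgroup.mem_center_iff]
  intro q
  obtain ⟨y, rfl⟩ := QuotientGroup.mk'_surjective _ q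
  have h1 := (QuotientGroup.eq_one_iff (x * y * x⁻¹ * y⁻¹)).mpr (h y)
  have h2 : (QuotientGroup.mk' (pCore 2 G)) (x * y * x⁻¹ * y⁻¹) = 1 := h1
  rw [map_mul, map_mul, map_mul, map_inv, map_inv] at h2
  rw [mul_inv_eq_one, mul_inv_eq_iff_eq_mul] at h2
  exact h2.symm

theorem twoZ_comm {x : G} (h : x ∈ twoZCore G) (y : G) : x * y * x⁻¹ * y⁻¹ ∈ pCore 2 G := by
  rw [twoZCore, Subgroup.mem_comap, Subgroup.mem_center_iff] at h
  have h1 := h (QuotientGroup.mk' (pCore 2 G) y)
  rw [← QuotientGroup.eq_one_iff]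
  show (QuotientGroup.mk' (pCore 2 G)) (x * y * x⁻¹ * y⁻¹) = 1
  rw [map_mul, map_mul, map_mul, map_inv, map_inv, ← h1]
  group

section
variable (hD : IsRootInvolutionSet D)
variable [Finite G]
include hD

/-- the members of `D` which have a partner do not produce odd pairs inside a normal subgroup avoiding `D`. -/
theorem normal_not_od {N : Subgroup G} (hN : N.Normal) (hND : ∀ d ∈ D, d ∉ N) {d e : G} (hd : d ∈ D)
    (he : e ∈ productPartners D d) {n : G} (hn : n ∈ N) : ¬ od d (n * d * n⁻¹) := by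
  intro h
  set x := n * d * n⁻¹ with hx
  have hxD : x ∈ D := hD.conj_mem d hd n
  have heD := pp_mem he
  -- (e x)² ∈ N
  have hdx : d * x ∈ N := by
    have h1 : d * x = (d * n * d⁻¹) * n⁻¹ * (d * d) := by
      rw [hx]
      have hdd := sq hD hd
      calc d * (n * d * n⁻¹) = d * n * d⁻¹ * (d * d) * n⁻¹ := by group
        _ = d * n * d⁻¹ * n⁻¹ := by rw [hdd]; group
        _ = (d * n * d⁻¹) * n⁻¹ * (d * d) := by rw [hdd, mul_one]
    rw [h1, sq hD hd, mul_one]
    exact mul_mem (hN.conj_mem n hn d) (inv_mem hn)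
  have hexN : (e * x) * (e * x) ∈ N := by
    -- e x = (e d) (d x)
    have hdd := sq hD hd
    have h1 : e * x = (e * d) * (d * x) := by
      calc e * x = e * (d * d) * x := by rw [hdd, mul_one]
        _ = (e * d) * (d * x) := by group
    have h2 := comm_sq hD heD hd (pp_comm he)
    have h3 : (e * x) * (e * x) = ((e * d) * (d * x) * (e * d)⁻¹) * ((e * d) * (e * d)) * (d * x) := by
      rw [h1]; group
    rw [h3, h2, mul_one]
    exact mul_mem (hN.conj_mem _ hdx _) hdx
  rcases od_or_fr hD hd he hxD h with h1 | h1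
  · obtain ⟨k, hk⟩ := sq_root h1.2
    have h2 : e * x ∈ N := by
      rw [hk, pow_two]; exact pow_mem hexN k
    have h3 : e * d ∈ N := by
      have : e * d = (e * x) * (d * x)⁻¹ := by
        rw [mul_inv_rev, inv hD hd]; group
      rw [this]; exact mul_mem h2 (inv_mem hdx)
    exact hND _ (pp_mul he) h3
  · have h2 := four_mem hD heD hxD h1
    rw [pow_two] at h2
    exact hND _ h2 hexN

/-- a normal subgroup avoiding `D` is central modulo `O₂`. -/
theorem normal_le_twoZ {N : Subgroup G} (hN : N.Normal) (hND : ∀ d ∈ D, d ∉ N)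
    (hpp : ∀ d ∈ D, (productPartners D d).Nonempty) : N ≤ twoZCore G := by
  classical
  have hkey : ∀ d ∈ D, ∀ n ∈ N, n * d * n⁻¹ * d⁻¹ ∈ pCore 2 G := by
    intro d hd n hn
    obtain ⟨e, he⟩ := hpp d hd
    have hdd := sq hD hd
    set M := N ⊔ Subgroup.zpowers d with hM
    have hdM : d ∈ M := Subgroup.mem_sup_right (Subgroup.mem_zpowers d)
    have hNM : N ≤ M := le_sup_left
    -- d in the 2-core of M
    have h1 : (⟨d, hdM⟩ : ↥M) ∈ pCore 2 ↥M := by
      by_contra hcon
      obtain ⟨g, k, h1, h2, h3⟩ := Cfsg.Agent.H4.inverts_odd_of_not_mem_core (⟨d, hdM⟩ : ↥M)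
        (by rw [Subgroup.orderOf_mk]; exact hD.orderOf_eq d hd) (by
          intro K hK hKp hdK
          exact hcon (Cfsg.Agent.H1.le_pCore hK hKp hdK))
      obtain ⟨g, hg⟩ := g
      -- g = m * d^i
      rw [hM, Subgroup.mem_sup_of_normal_left] at hg
      obtain ⟨m, hm, z, hz, rfl⟩ := hg
      have hconj : m * z * d * (m * z)⁻¹ = m * d * m⁻¹ := by
        obtain ⟨i, rfl⟩ := Subgroup.mem_zpowers_iff.mp hz
        have : d ^ i * d = d * d ^ i := (Commute.self_zpow d i).symm.eq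
        calc m * d ^ i * d * (m * d ^ i)⁻¹ = m * (d ^ i * d) * (d ^ i)⁻¹ * m⁻¹ := by group
          _ = m * (d * d ^ i) * (d ^ i)⁻¹ * m⁻¹ := by rw [this]
          _ = m * d * m⁻¹ := by group
      have hnod := normal_not_od hD hN hND hd he hm
      have hmD := hD.conj_mem d hd m
      have h4 : (d * (m * d * m⁻¹)) ^ 4 = 1 := by
        rcases tri hD hd hmD with h5 | h5 | h5
        · have := comm_sq hD hd hmD h5
          calc (d * (m * d * m⁻¹)) ^ 4 = ((d * (m * d * m⁻¹)) * (d * (m * d * m⁻¹))) ^ 2 := by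
                rw [← pow_two, ← pow_mul]
            _ = 1 := by rw [this, one_pow]
        · exact absurd h5 hnod
        · have : orderOf (d * (m * d * m⁻¹)) = 4 := h5
          rw [← this, pow_orderOf_eq_one]
      apply h1
      apply four_odd h2
      rw [← pow_mul, mul_comm, pow_mul]
      have h6 : ((⟨d, hdM⟩ : ↥M) * (⟨m * z, hg⟩ * ⟨d, hdM⟩ * (⟨m * z, hg⟩ : ↥M)⁻¹)) ^ 4 = 1 := by
        apply Subtype.ext
        show (d * (m * z * d * (m * z)⁻¹)) ^ 4 = 1
        rw [hconj]; exact h4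
      rw [h6, one_pow]
    have hdR : d ∈ pCoreOf 2 M := ⟨⟨d, hdM⟩, h1, rfl⟩
    have hRN : pCoreOf 2 M ⊓ N ≤ pCore 2 G := by
      haveI := hN
      refine le_trans ?_ (Cfsg.Agent.H18.pCoreOf_le_pCore_of_normal (p := 2) N)
      apply Cfsg.Agent.H18.le_pCoreOf inf_le_right
      · apply Cfsg.Agent.H18.le_normalizer_inf
        · exact hNM.trans (Cfsg.Agent.H18.le_normalizer_pCoreOf M)
        · exact Cfsg.Agent.H18.le_normalizer_of_normal
      · exact Cfsg.Agent.H18.isPGroup_mono (Cfsg.Agent.H18.isPGroup_pCoreOf M) inf_le_left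
    apply hRN
    refine Subgroup.mem_inf.mpr ⟨?_, ?_⟩
    · have h2 : n * d * n⁻¹ ∈ pCoreOf 2 M :=
        Cfsg.Agent.H18.conj_mem_of_mem_normalizer ((Cfsg.Agent.H18.le_normalizer_pCoreOf M) (hNM hn)) hdR
      exact mul_mem h2 (inv_mem hdR)
    · have : n * d * n⁻¹ * d⁻¹ = n * (d * n⁻¹ * d⁻¹) := by group
      rw [this]
      exact mul_mem hn (hN.conj_mem _ (inv_mem hn) d)
  intro n hn
  apply mem_twoZ
  -- the elements y with [n,y] in the core form a subgroup containing D
  have hn' := Cfsg.Agent.H1.pCore_normal 2 G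
  have : ∀ y ∈ Subgroup.closure D, n * y * n⁻¹ * y⁻¹ ∈ pCore 2 G := by
    intro y hy
    induction hy using Subgroup.closure_induction with
    | mem y hy => exact hkey y hy n hn
    | one => have : n * 1 * n⁻¹ * 1⁻¹ = 1 := by group
             rw [this]; exact one_mem _
    | mul x y _ _ hx hy =>
      have : n * (x * y) * n⁻¹ * (x * y)⁻¹ = (n * x * n⁻¹ * x⁻¹) * (x * (n * y * n⁻¹ * y⁻¹) * x⁻¹) := by group
      rw [this]; exact mul_mem hx (hn'.conj_mem _ hy x)
    | inv x _ hx =>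
      have : n * x⁻¹ * n⁻¹ * x⁻¹⁻¹ = x⁻¹ * (n * x * n⁻¹ * x⁻¹)⁻¹ * x⁻¹⁻¹ := by group
      rw [this]; exact hn'.conj_mem _ (inv_mem hx) _
  intro y
  exact this y (by rw [hD.generates]; trivial)

/-- members with an odd partner are not in the two-Z-core. -/
theorem not_mem_twoZ {d x : G} (hd : d ∈ D) (hx : x ∈ D) (h : od d x) : d ∉ twoZCore G := by
  intro h1
  have h2 := twoZ_comm h1 x
  rw [inv hD hd, inv hD hx] at h2
  have h3 : d * x * d * x = (d * x) ^ 2 := by rw [pow_two]; group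
  rw [h3] at h2
  have h4 := odd_pgroup_one (Cfsg.Agent.H1.pCore_isPGroup 2 G) h2 (odd_pow h.2 2)
  rw [pow_two] at h4
  have h5 := eq_one_of_sq_of_odd h.2 h4
  apply h.1
  have : d = x⁻¹ := eq_inv_of_mul_eq_one_left h5
  rw [this, inv hD hx]

end

/-- the two-Z-core is solvable. -/
theorem twoZ_solvable [Finite G] : Group.IsSolvable ↥(twoZCore G) := by
  haveI : Fact (Nat.Prime 2) := ⟨Nat.prime_two⟩
  have hle : pCore 2 G ≤ twoZCore G := by
    intro x hx
    apply mem_twoZ
    intro y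
    have hn := Cfsg.Agent.H1.pCore_normal 2 G
    have : x * y * x⁻¹ * y⁻¹ = x * (y * x⁻¹ * y⁻¹) := by group
    rw [this]
    exact mul_mem hx (hn.conj_mem _ (inv_mem hx) y)
  let f : ↥(pCore 2 G) →* ↥(twoZCore G) := Subgroup.inclusion hle
  let g : ↥(twoZCore G) →* ↥(Subgroup.center (G ⧸ pCore 2 G)) :=
    { toFun := fun x => ⟨QuotientGroup.mk' (pCore 2 G) x, x.2⟩
      map_one' := Subtype.ext (by simp)
      map_mul' := fun x y => Subtype.ext (by
        show QuotientGroup.mk' (pCore 2 G) ((x : G) * (y : G)) = _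
        rw [map_mul]; rfl) }
  have hfg : g.ker ≤ f.range := by
    intro x hx
    rw [MonoidHom.mem_ker] at hx
    have h1 : QuotientGroup.mk' (pCore 2 G) (x : G) = 1 := congrArg Subtype.val hx
    have h2 : (x : G) ∈ pCore 2 G := (QuotientGroup.eq_one_iff (x : G)).mp h1
    exact ⟨⟨x, h2⟩, Subtype.ext rfl⟩
  haveI : Group.IsNilpotent ↥(pCore 2 G) := (Cfsg.Agent.H1.pCore_isPGroup 2 G).isNilpotent
  haveI : Group.IsSolvable ↥(pCore 2 G) := inferInstance
  haveI : Group.IsSolvable ↥(Subgroup.center (G ⧸ pCore 2 G)) :=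
    Group.isSolvable_of_comm (fun a b => Subtype.ext ((Subgroup.mem_center_iff.mp b.2 a)))
  exact Group.isSolvable_of_ker_le_range f g hfg

end Cfsg.Agent.H3.RI
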