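import Mathlib

/-!
Three-cycles; a bound for groups with Carmichael's relations up to a central involution.
-/

set_option autoImplicit false
open Equiv Equiv.Perm Subgroup

namespace Cfsg.Agent.H3

section perm
variable {α : Type*} [DecidableEq α]

/-- the three-cycle `(a b c)` -/
def tc (a b c : α) : Perm α := swap a b * swap b c

theorem tc_a {a b c : α} (hab : a ≠ b) (hac : a ≠ c) : tc a b c a = b := by
  unfold tc
  rw [Perm.mul_apply, swap_apply_of_ne_of_ne hab hac, swap_apply_left]

theorem tc_b {a b c : α} (hac : a ≠ c) (hbc : b ≠ c) : tc a b c b = c := by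
  unfold tc
  rw [Perm.mul_apply, swap_apply_left, swap_apply_of_ne_of_ne hac.symm hbc.symm]

theorem tc_c {a b c : α} : tc a b c c = a := by
  unfold tc
  rw [Perm.mul_apply, swap_apply_right, swap_apply_right]

theorem tc_o {a b c x : α} (ha : x ≠ a) (hb : x ≠ b) (hc : x ≠ c) : tc a b c x = x := by
  unfold tc
  rw [Perm.mul_apply, swap_apply_of_ne_of_ne hb hc, swap_apply_of_ne_of_ne ha hb]

theorem swap_conj' (σ : Perm α) (a b : α) : σ * swap a b * σ⁻¹ = swap (σ a) (σ b) := by
  rw [Equiv.mul_swap_eq_swap_mul, mul_assoc, mul_inv_cancel, mul_one]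

theorem tc_conj (σ : Perm α) (a b c : α) : σ * tc a b c * σ⁻¹ = tc (σ a) (σ b) (σ c) := by
  unfold tc
  rw [← swap_conj', ← swap_conj']
  group

/-- equality of permutations from equality on cases -/
theorem perm_ext4 {σ τ : Perm α} (s : Finset α) (h1 : ∀ x ∈ s, σ x = τ x) (h2 : ∀ x ∉ s, σ x = τ x) : σ = τ := by
  ext x
  by_cases hx : x ∈ s
  · exact h1 x hx
  · exact h2 x hx

theorem tc_mul_tc_inv {u v i j : α} (huv : u ≠ v) (hui : u ≠ i) (huj : u ≠ j) (hvi : v ≠ i) (hvj : v ≠ j)
    (hij : i ≠ j) : tc u i j * tc u v i = tc u v j := by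
  ext x
  rw [Perm.mul_apply]
  by_cases hxu : x = u
  · subst hxu
    rw [tc_a huv hui, tc_o huv.symm hvi hvj, tc_a huv huj]
  by_cases hxv : x = v
  · subst hxv
    rw [tc_b hui hvi, tc_b huj hij, tc_b huj hvj]
  by_cases hxi : x = i
  · subst hxi
    rw [tc_c, tc_a hui huj, tc_o hui.symm hvi.symm hij]
  by_cases hxj : x = j
  · subst hxj
    rw [tc_o hxu hxv hxi, tc_c, tc_c]
  · rw [tc_o hxu hxv hxi, tc_o hxu hxi hxj, tc_o hxu hxv hxj]

theorem tc_split {u a b c : α} (hua : u ≠ a) (hub : u ≠ b) (huc : u ≠ c) (hab : a ≠ b) (hac : a ≠ c)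
    (hbc : b ≠ c) : tc u a b * tc u b c = tc a b c := by
  ext x
  rw [Perm.mul_apply]
  by_cases hxu : x = u
  · subst hxu
    rw [tc_a hub huc, tc_c, tc_o hua hub huc]
  by_cases hxa : x = a
  · subst hxa
    rw [tc_o hxu hab hac, tc_b hub hab, tc_a hab hac]
  by_cases hxb : x = b
  · subst hxb
    rw [tc_b huc hbc, tc_o huc.symm hac.symm hbc.symm, tc_b hac hbc]
  by_cases hxc : x = c
  · subst hxc
    rw [tc_c, tc_a hua hub, tc_c]
  · rw [tc_o hxu hxb hxc, tc_o hxu hxa hxb, tc_o hxa hxb hxc]

theorem tc_rot {a b c : α} (hab : a ≠ b) (hac : a ≠ c) (hbc : b ≠ c) : tc a b c = tc b c a := by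
  ext x
  by_cases hxa : x = a
  · subst hxa
    rw [tc_a hab hac, tc_c]
  by_cases hxb : x = b
  · subst hxb
    rw [tc_b hac hbc, tc_a hbc hab.symm]
  by_cases hxc : x = c
  · subst hxc
    rw [tc_c, tc_b hab.symm hac.symm]
  · rw [tc_o hxa hxb hxc, tc_o hxb hxc hxa]

theorem tc_inv {a b c : α} (hab : a ≠ b) (hac : a ≠ c) (hbc : b ≠ c) : (tc a b c)⁻¹ = tc b a c := by
  rw [inv_eq_iff_mul_eq_one]
  ext x
  rw [Perm.mul_apply, Perm.one_apply]
  by_cases hxa : x = a
  · subst hxa
    rw [tc_b hbc hac, tc_c]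
  by_cases hxb : x = b
  · subst hxb
    rw [tc_a hab.symm hbc, tc_a hab hac]
  by_cases hxc : x = c
  · subst hxc
    rw [tc_c, tc_b hac hbc]
  · rw [tc_o hxb hxa hxc, tc_o hxa hxb hxc]

theorem tc_mul_tc {u v i j : α} (huv : u ≠ v) (hui : u ≠ i) (huj : u ≠ j) (hvi : v ≠ i) (hvj : v ≠ j)
    (hij : i ≠ j) : tc u v i * tc u v j = swap u i * swap v j := by
  ext x
  rw [Perm.mul_apply, Perm.mul_apply]
  by_cases hxu : x = u
  · subst hxu
    rw [tc_a huv huj, tc_b hui hvi, swap_apply_of_ne_of_ne huv huj, swap_apply_left]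
  by_cases hxv : x = v
  · subst hxv
    rw [tc_b huj hvj, tc_o huj.symm hvj.symm hij.symm, swap_apply_left,
      swap_apply_of_ne_of_ne huj.symm hij.symm]
  by_cases hxi : x = i
  · subst hxi
    rw [tc_o hxu hxv hij, tc_c, swap_apply_of_ne_of_ne hxv hij, swap_apply_right]
  by_cases hxj : x = j
  · subst hxj
    rw [tc_c, tc_a huv hui, swap_apply_right, swap_apply_of_ne_of_ne huv.symm hvi]
  · rw [tc_o hxu hxv hxj, tc_o hxu hxv hxi, swap_apply_of_ne_of_ne hxv hxj,
      swap_apply_of_ne_of_ne hxu hxi]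

variable [Fintype α]

theorem tc_three {a b c : α} (hab : a ≠ b) (hac : a ≠ c) (hbc : b ≠ c) : (tc a b c).IsThreeCycle := by
  unfold tc
  rw [swap_comm a b]
  exact isThreeCycle_swap_mul_swap_same hab.symm hbc hac

theorem exists_tc {σ : Perm α} (h : σ.IsThreeCycle) : ∃ a b c, a ≠ b ∧ a ≠ c ∧ b ≠ c ∧ σ = tc a b c := by
  have h3 : σ ^ 3 = 1 := by rw [← h.orderOf]; exact pow_orderOf_eq_one σ
  have hne : σ ≠ 1 := by
    rintro rfl
    have := h.orderOf
    rw [orderOf_one] at this
    omega
  obtain ⟨a, ha⟩ : ∃ a, σ a ≠ a := by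
    by_contra hcon
    push Not at hcon
    exact hne (Perm.ext hcon)
  have h3' : ∀ x, σ (σ (σ x)) = x := by
    intro x
    have := congrArg (fun τ : Perm α => τ x) h3
    simpa [pow_succ] using this
  have hb : σ (σ a) ≠ σ a := fun h => ha (σ.injective h)
  have hc : σ (σ a) ≠ a := by
    intro h
    have h4 := h3' a
    rw [h] at h4
    exact ha h4
  refine ⟨a, σ a, σ (σ a), ha.symm, hc.symm, hb.symm, ?_⟩
  have hs : ({a, σ a, σ (σ a)} : Finset α) = σ.support := by
    apply Finset.eq_of_subset_of_card_le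
    · intro x hx
      rw [mem_support]
      simp only [Finset.mem_insert, Finset.mem_singleton] at hx
      rcases hx with rfl | rfl | rfl
      · exact ha
      · exact hb
      · rw [h3']; exact hc.symm
    · rw [h.card_support, Finset.card_eq_three.2 ⟨a, σ a, σ (σ a), ha.symm, hc.symm, hb.symm, rfl⟩]
  ext x
  by_cases hxa : x = a
  · subst hxa
    rw [tc_a ha.symm hc.symm]
  by_cases hxb : x = σ a
  · subst hxb
    rw [tc_b hc.symm hb.symm]
  by_cases hxc : x = σ (σ a)
  · subst hxc
    rw [tc_c, h3']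
  · rw [tc_o hxa hxb hxc]
    have : x ∉ σ.support := by
      rw [← hs]
      simp [hxa, hxb, hxc]
    exact notMem_support.1 this

theorem closure_tc {u v : α} (huv : u ≠ v) {K : Subgroup (Perm α)}
    (hK : ∀ i, i ≠ u → i ≠ v → tc u v i ∈ K) : alternatingGroup α ≤ K := by
  have h1 : ∀ i j, i ≠ u → j ≠ u → i ≠ j → tc u i j ∈ K := by
    intro i j hi hj hij
    by_cases hiv : i = v
    · subst hiv
      exact hK j hj hij.symm
    by_cases hjv : j = v
    · subst hjv
      have h2 := K.inv_mem (hK i hi hiv)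
      rw [tc_inv huv hi.symm (Ne.symm hiv), tc_rot huv.symm (Ne.symm hiv) hi.symm] at h2
      exact h2
    have h2 := tc_mul_tc_inv huv hi.symm hj.symm (Ne.symm hiv) (Ne.symm hjv) hij
    rw [← eq_mul_inv_iff_mul_eq] at h2
    rw [h2]
    exact K.mul_mem (hK j hj hjv) (K.inv_mem (hK i hi hiv))
  rw [← closure_three_cycles_eq_alternating, closure_le]
  intro σ hσ
  obtain ⟨a, b, c, hab, hac, hbc, rfl⟩ := exists_tc hσ
  by_cases hua : u = a
  · subst hua
    exact h1 b c hab.symm hac.symm hbc
  by_cases hub : u = b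
  · subst hub
    have : tc a u c = tc u c a := tc_rot hab hac hbc
    rw [this]
    exact h1 c a hbc.symm hab hac.symm
  by_cases huc : u = c
  · subst huc
    have : tc a b u = tc u a b := by rw [tc_rot hab hac hbc, tc_rot hbc hab.symm hac.symm]
    rw [this]
    exact h1 a b hac hbc hab
  have h3 := tc_split hua hub huc hab hac hbc
  show tc a b c ∈ K
  rw [← h3]
  exact K.mul_mem (h1 a b (Ne.symm hua) (Ne.symm hub) hab) (h1 b c (Ne.symm hub) (Ne.symm huc) hbc)

theorem ex_not_mem (s : Finset α) (h : s.card < Fintype.card α) : ∃ x, x ∉ s := by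
  by_contra hcon
  push Not at hcon
  have : s = Finset.univ := Finset.eq_univ_iff_forall.2 hcon
  rw [this, Finset.card_univ] at h
  exact lt_irrefl _ h

end perm

section carm
variable {G : Type*} [Group G] {w : G} {x : ℕ → G}

/-- the subgroup generated by `w` and the first `k` elements -/
def CH (w : G) (x : ℕ → G) (k : ℕ) : Subgroup G := closure ({w} ∪ {g | ∃ i < k, g = x i})

theorem w_mem (k : ℕ) : w ∈ CH w x k := subset_closure (Or.inl rfl)

theorem x_mem {i k : ℕ} (h : i < k) : x i ∈ CH w x k := subset_closure (Or.inr ⟨i, h, rfl⟩)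

theorem CH_card [Finite G] (hw : ∀ g, w * g = g * w) (hw2 : w * w = 1) {N : ℕ}
    (h3 : ∀ i < N, x i * x i * x i = 1)
    (h2 : ∀ i < N, ∀ j < N, i ≠ j → x i * x j * (x i * x j) = w) :
    ∀ k ≤ N, Nat.card (CH w x k) ≤ (k + 2).factorial := by
  intro k
  induction k with
  | zero =>
    intro _
    have h : CH w x 0 ≤ zpowers w := by
      unfold CH
      rw [closure_le]
      rintro g (hg | ⟨i, hi, _⟩)
      · rw [Set.mem_singleton_iff.1 hg]; exact mem_zpowers w
      · omega
    have h1 := Nat.card_le_card_of_injective _ (Subgroup.inclusion_injective h)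
    rw [Nat.card_zpowers] at h1
    have h4 : orderOf w ≤ 2 := orderOf_le_of_pow_eq_one (by norm_num) (by rw [pow_two, hw2])
    show _ ≤ Nat.factorial 2
    simp only [Nat.factorial]
    omega
  | succ k ih =>
    intro hk
    have ihk := ih (by omega)
    set K := CH w x k with hK
    set X := x k with hX
    have X3 : X * X * X = 1 := h3 k (by omega)
    have Xi : X * X = X⁻¹ := eq_inv_of_mul_eq_one_left X3
    have hwi : w⁻¹ = w := inv_eq_of_mul_eq_one_left hw2
    -- relations
    have r1 : ∀ i < k, X * x i = w * (x i)⁻¹ * X⁻¹ := by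
      intro i hi
      have h := h2 k (by omega) i (by omega) (by omega)
      have h5 : X * x i = w * (X * x i)⁻¹ := eq_mul_inv_of_mul_eq h
      rw [h5, mul_inv_rev]; group
    have r1' : ∀ i < k, x i * X = w * X⁻¹ * (x i)⁻¹ := by
      intro i hi
      have h := h2 i (by omega) k (by omega) (by omega)
      have h5 : x i * X = w * (x i * X)⁻¹ := eq_mul_inv_of_mul_eq h
      rw [h5, mul_inv_rev]; group
    have r2 : ∀ i < k, ∀ j < k, i ≠ j → x j * x i = w * (x i)⁻¹ * (x j)⁻¹ := by
      intro i hi j hj hij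
      have h := h2 j (by omega) i (by omega) hij.symm
      have h5 : x j * x i = w * (x j * x i)⁻¹ := eq_mul_inv_of_mul_eq h
      rw [h5, mul_inv_rev]; group
    have xi : ∀ i < k, x i * x i = (x i)⁻¹ := fun i hi =>
      eq_inv_of_mul_eq_one_left (h3 i (by omega))
    -- the set of representatives
    let R : Option (Option (Option (Fin k))) → G := fun o => match o with
      | none => 1
      | some none => X
      | some (some none) => X⁻¹
      | some (some (some j)) => X⁻¹ * x j
    let S : Set G := {g | ∃ κ ∈ K, ∃ o, g = κ * R o}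
    have hS1 : (1 : G) ∈ S := ⟨1, K.one_mem, none, by simp [R]⟩
    have hmul : ∀ κ ∈ K, ∀ g ∈ S, κ * g ∈ S := by
      rintro κ hκ _ ⟨κ', hκ', o, rfl⟩
      exact ⟨κ * κ', K.mul_mem hκ hκ', o, by rw [mul_assoc]⟩
    have hR : ∀ o, R o ∈ S := fun o => ⟨1, K.one_mem, o, by rw [one_mul]⟩
    have hXx : ∀ j < k, X * x j ∈ S := by
      intro j hj
      rw [r1 j hj]
      exact hmul _ (K.mul_mem (w_mem k) (K.inv_mem (x_mem hj))) _ (hR (some (some none)))
    -- `X * x j * x j`
    have hXxx : ∀ j < k, X * (x j)⁻¹ ∈ S := by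
      intro j hj
      have : X * (x j)⁻¹ = (w * (x j)⁻¹) * (X⁻¹ * x j) := by
        calc X * (x j)⁻¹ = X * (x j * x j) := by rw [xi j hj]
          _ = (X * x j) * x j := by rw [mul_assoc]
          _ = (w * (x j)⁻¹) * (X⁻¹ * x j) := by rw [r1 j hj, mul_assoc (w * (x j)⁻¹)]
      rw [this]
      exact hmul _ (K.mul_mem (w_mem k) (K.inv_mem (x_mem hj))) _ (hR (some (some (some ⟨j, hj⟩))))
    have hstep : ∀ y ∈ ({w} ∪ {g | ∃ i < k + 1, g = x i} : Set G), ∀ o, R o * y ∈ S := by
      rintro y (hy | ⟨i, hi, rfl⟩) o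
      · rw [Set.mem_singleton_iff.1 hy, ← hw]
        exact hmul _ (w_mem k) _ (hR o)
      · by_cases hik : i = k
        · subst hik
          match o with
          | none =>
            show (1 : G) * X ∈ S
            rw [one_mul]; exact hR (some none)
          | some none =>
            show X * X ∈ S
            rw [Xi]; exact hR (some (some none))
          | some (some none) =>
            show X⁻¹ * X ∈ S
            rw [inv_mul_cancel]; exact hS1
          | some (some (some j)) =>
            show X⁻¹ * x j * X ∈ S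
            have : X⁻¹ * x j * X = w * (X * (x j)⁻¹) := by
              rw [mul_assoc, r1' j j.2, ← mul_assoc, ← mul_assoc, ← hw X⁻¹, mul_assoc w, ← mul_inv_rev, Xi,
                inv_inv, mul_assoc]
            rw [this]
            exact hmul _ (w_mem i) _ (hXxx j j.2)
        · have hi' : i < k := by omega
          match o with
          | none =>
            show (1 : G) * x i ∈ S
            have := hmul _ (x_mem (w := w) hi') _ hS1
            rwa [mul_one, ← one_mul (x i)] at this
          | some none => exact hXx i hi'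
          | some (some none) => exact hR (some (some (some ⟨i, hi'⟩)))
          | some (some (some j)) =>
            show X⁻¹ * x j * x i ∈ S
            by_cases hij : i = j
            · have : X⁻¹ * x j * x i = w * x i * X := by
                rw [hij, mul_assoc, xi j j.2, ← mul_inv_rev, r1' j j.2, mul_inv_rev, mul_inv_rev, inv_inv,
                  inv_inv, hwi, mul_assoc w, hw, mul_assoc]
              rw [this]
              exact hmul _ (K.mul_mem (w_mem k) (x_mem hi')) _ (hR (some none))
            · have : X⁻¹ * x j * x i = x i * (X * (x j)⁻¹) := by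
                rw [mul_assoc, r2 i hi' j j.2 hij]
                have h5 : X⁻¹ * (x i)⁻¹ = w * (x i * X) := by
                  rw [r1' i hi', ← mul_assoc, ← mul_assoc, hw2, one_mul]
                calc X⁻¹ * (w * (x i)⁻¹ * (x j)⁻¹) = w * (X⁻¹ * (x i)⁻¹) * (x j)⁻¹ := by
                      rw [← mul_assoc, ← mul_assoc, ← hw X⁻¹, mul_assoc w]
                  _ = x i * (X * (x j)⁻¹) := by
                      rw [h5, ← mul_assoc w, hw2, one_mul, mul_assoc]
              rw [this]
              exact hmul _ (x_mem hi') _ (hXxx j j.2)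
    have hstep' : ∀ g ∈ S, ∀ y ∈ ({w} ∪ {g | ∃ i < k + 1, g = x i} : Set G), g * y ∈ S := by
      rintro _ ⟨κ, hκ, o, rfl⟩ y hy
      rw [mul_assoc]
      exact hmul κ hκ _ (hstep y hy o)
    have hinv : ∀ y ∈ ({w} ∪ {g | ∃ i < k + 1, g = x i} : Set G), y⁻¹ = y ∨ y⁻¹ = y * y := by
      rintro y (hy | ⟨i, hi, rfl⟩)
      · rw [Set.mem_singleton_iff.1 hy]; exact Or.inl hwi
      · exact Or.inr (eq_inv_of_mul_eq_one_left (h3 i (by omega))).symm
    have hall : (CH w x (k + 1) : Set G) ⊆ S := by
      intro g hg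
      unfold CH at hg
      induction hg using Subgroup.closure_induction_right with
      | one => exact hS1
      | mul_right g _ y hy ih => exact hstep' g ih y hy
      | mul_inv_cancel g _ y hy ih =>
        rcases hinv y hy with h | h
        · rw [h]; exact hstep' g ih y hy
        · rw [h, ← mul_assoc]; exact hstep' _ (hstep' g ih y hy) y hy
    have hcard : Nat.card (CH w x (k + 1)) ≤ Nat.card (K × Option (Option (Option (Fin k)))) := by
      let f : K × Option (Option (Option (Fin k))) → S := fun p => ⟨p.1 * R p.2, p.1, p.1.2, p.2, rfl⟩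
      have hf : Function.Surjective f := by
        rintro ⟨_, κ, hκ, o, rfl⟩
        exact ⟨⟨⟨κ, hκ⟩, o⟩, rfl⟩
      refine le_trans ?_ (Nat.card_le_card_of_surjective f hf)
      exact Nat.card_le_card_of_injective (fun g : CH w x (k + 1) => (⟨g, hall g.2⟩ : S))
        (fun a b hab => Subtype.ext (congrArg (fun s : S => (s : G)) hab))
    rw [Nat.card_prod] at hcard
    have hopt : Nat.card (Option (Option (Option (Fin k)))) = k + 3 := by
      simp [Nat.card_eq_fintype_card]
    rw [hopt] at hcard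
    refine hcard.trans ?_
    rw [show k + 1 + 2 = (k + 2) + 1 from rfl, Nat.factorial_succ, mul_comm]
    exact Nat.mul_le_mul le_rfl ihk

end carm

end Cfsg.Agent.H3
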