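import Mathlib
import Cfsg.Agent.H3.MultA

/-!
Real lifts of three-cycles to central extensions of alternating groups.
-/

set_option autoImplicit false
open Equiv Equiv.Perm Subgroup

namespace Cfsg.Agent.H3

variable {Γ : Type*} [Group Γ] {α : Type*} [DecidableEq α] (π : Γ →* Perm α)

/-- real lifts of `(a b c)` -/
structure RL (a b c : α) (X : Γ) : Prop where
  im : π X = tc a b c
  cube : X * X * X = 1
  inv : ∀ g d e, d ≠ e → d ≠ a → d ≠ b → d ≠ c → e ≠ a → e ≠ b → e ≠ c →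
    π g = swap a b * swap d e → g * X * g⁻¹ = X⁻¹

variable {π}

theorem ex_dd [Fintype α] (hrange : ∀ σ ∈ alternatingGroup α, ∃ g, π g = σ) {a b d e : α} (hab : a ≠ b)
    (hde : d ≠ e) : ∃ g, π g = swap a b * swap d e :=
  hrange _ (mul_mem_alternatingGroup_of_isSwap ⟨a, b, hab, rfl⟩ ⟨d, e, hde, rfl⟩)

theorem ex_tc [Fintype α] (hrange : ∀ σ ∈ alternatingGroup α, ∃ g, π g = σ) {a b c : α} (hab : a ≠ b)
    (hac : a ≠ c) (hbc : b ≠ c) : ∃ g, π g = tc a b c := hrange _ (tc_three hab hac hbc).mem_alternatingGroup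

theorem RL.conj {a b c : α} {X : Γ} (h : RL π a b c X) (k : Γ) :
    RL π (π k a) (π k b) (π k c) (k * X * k⁻¹) := by
  refine ⟨?_, ?_, ?_⟩
  · rw [map_mul, map_mul, map_inv, h.im, tc_conj]
  · have : k * X * k⁻¹ * (k * X * k⁻¹) * (k * X * k⁻¹) = k * (X * X * X) * k⁻¹ := by group
    rw [this, h.cube]; group
  · intro g d e hde hda hdb hdc hea heb hec hg
    have hdd : ∀ y z : α, y ≠ π k z → (π k)⁻¹ y ≠ z := by
      intro y z h1 h2
      apply h1
      rw [← h2, ← Perm.mul_apply, mul_inv_cancel, Perm.one_apply]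
    have h1 := h.inv (k⁻¹ * g * k) ((π k)⁻¹ d) ((π k)⁻¹ e) (fun h => hde ((π k)⁻¹.injective h))
      (hdd _ _ hda) (hdd _ _ hdb) (hdd _ _ hdc) (hdd _ _ hea) (hdd _ _ heb) (hdd _ _ hec) (by
        rw [map_mul, map_mul, map_inv, hg]
        have e1 : swap a b = (π k)⁻¹ * swap (π k a) (π k b) * (π k)⁻¹⁻¹ := by
          rw [swap_conj', ← Perm.mul_apply, ← Perm.mul_apply, inv_mul_cancel, Perm.one_apply, Perm.one_apply]
        rw [e1, ← swap_conj' (π k)⁻¹ d e]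
        group)
    calc g * (k * X * k⁻¹) * g⁻¹ = k * ((k⁻¹ * g * k) * X * (k⁻¹ * g * k)⁻¹) * k⁻¹ := by group
      _ = (k * X * k⁻¹)⁻¹ := by rw [h1]; group

section
variable (hker : ∀ g, π g = 1 → ∀ h, g * h = h * g)
include hker

theorem eq_one_of_sq_cube {ζ : Γ} (h2 : ζ * ζ = 1) (h3 : ζ * ζ * ζ = 1) : ζ = 1 := by
  rwa [h2, one_mul] at h3

theorem RL.unique {a b c : α} {X Y : Γ} (hX : RL π a b c X) (hY : RL π a b c Y) {g : Γ} {d e : α}
    (hde : d ≠ e) (hda : d ≠ a) (hdb : d ≠ b) (hdc : d ≠ c) (hea : e ≠ a) (heb : e ≠ b) (hec : e ≠ c)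
    (hg : π g = swap a b * swap d e) : X = Y := by
  obtain ⟨ζ, hζ⟩ : ∃ ζ, Y = X * ζ := ⟨X⁻¹ * Y, by group⟩
  have hz : ∀ h, ζ * h = h * ζ := hker ζ (by
    have : ζ = X⁻¹ * Y := by rw [hζ]; group
    rw [this, map_mul, map_inv, hX.im, hY.im, inv_mul_cancel])
  have h1 := hX.inv g d e hde hda hdb hdc hea heb hec hg
  have h2 := hY.inv g d e hde hda hdb hdc hea heb hec hg
  have h3 : ζ * ζ * ζ = 1 := by
    have := hY.cube
    rw [hζ] at this
    have e1 : X * ζ * (X * ζ) * (X * ζ) = X * X * X * (ζ * ζ * ζ) := by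
      rw [mul_assoc X ζ (X * ζ), ← mul_assoc ζ X ζ, hz X]
      calc X * (X * ζ * ζ) * (X * ζ) = X * X * ((ζ * ζ) * X) * ζ := by group
        _ = X * X * (X * (ζ * ζ)) * ζ := by
          rw [mul_assoc ζ ζ X, hz X, ← mul_assoc ζ X ζ, hz X, mul_assoc X ζ ζ]
        _ = X * X * X * (ζ * ζ * ζ) := by group
    rw [e1, hX.cube, one_mul] at this
    exact this
  have h4 : ζ * ζ = 1 := by
    rw [hζ] at h2
    have e1 : g * (X * ζ) * g⁻¹ = X⁻¹ * ζ := by
      rw [← h1]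
      calc g * (X * ζ) * g⁻¹ = g * X * (ζ * g⁻¹) := by group
        _ = g * X * g⁻¹ * ζ := by rw [hz]; group
    rw [e1, mul_inv_rev] at h2
    have e2 : ζ * X⁻¹ = ζ⁻¹ * X⁻¹ := by rw [hz]; exact h2
    have e3 : ζ = ζ⁻¹ := mul_right_cancel e2
    calc ζ * ζ = ζ * ζ⁻¹ := by rw [← e3]
      _ = 1 := mul_inv_cancel ζ
  have h5 := eq_one_of_sq_cube hker h4 h3
  rw [hζ, h5, mul_one]

end

end Cfsg.Agent.H3
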