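import Mathlib
import Cfsg.Agent.H3.MultB

/-!
Existence of real lifts.
-/

set_option autoImplicit false
open Equiv Equiv.Perm Subgroup

namespace Cfsg.Agent.H3

variable {Γ : Type*} [Group Γ] {α : Type*} [DecidableEq α] {π : Γ →* Perm α}

section
variable (hker : ∀ g, π g = 1 → ∀ h, g * h = h * g)
include hker

/-- commuting modulo the centre -/
theorem comm_of_inv {T c : Γ} (hT : T * T * T = 1) (h1 : π (c * T * c⁻¹) = π T) (h2 : π (c * c) = 1) :
    c * T * c⁻¹ = T := by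
  obtain ⟨ζ, hζ⟩ : ∃ ζ, c * T * c⁻¹ = T * ζ := ⟨T⁻¹ * (c * T * c⁻¹), by group⟩
  have hz : ∀ h, ζ * h = h * ζ := hker ζ (by
    have : ζ = T⁻¹ * (c * T * c⁻¹) := by rw [hζ]; group
    rw [this, map_mul, h1, map_inv, inv_mul_cancel])
  have h3 : ζ * ζ * ζ = 1 := by
    have e1 : (c * T * c⁻¹) * (c * T * c⁻¹) * (c * T * c⁻¹) = 1 := by
      have : (c * T * c⁻¹) * (c * T * c⁻¹) * (c * T * c⁻¹) = c * (T * T * T) * c⁻¹ := by group
      rw [this, hT]; group
    rw [hζ] at e1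
    have e2 : T * ζ * (T * ζ) * (T * ζ) = T * T * T * (ζ * ζ * ζ) := by
      calc T * ζ * (T * ζ) * (T * ζ) = T * (ζ * T) * (ζ * T) * ζ := by group
        _ = T * (T * ζ) * (T * ζ) * ζ := by rw [hz]
        _ = T * T * (ζ * T) * ζ * ζ := by group
        _ = T * T * (T * ζ) * ζ * ζ := by rw [hz]
        _ = T * T * T * (ζ * ζ * ζ) := by group
    rw [e2, hT, one_mul] at e1
    exact e1
  have h4 : ζ * ζ = 1 := by
    have e1 : (c * c) * T * (c * c)⁻¹ = T := by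
      rw [hker _ h2 T]; group
    have e2 : (c * c) * T * (c * c)⁻¹ = T * (ζ * ζ) := by
      calc (c * c) * T * (c * c)⁻¹ = c * (c * T * c⁻¹) * c⁻¹ := by group
        _ = c * (T * ζ) * c⁻¹ := by rw [hζ]
        _ = c * T * (ζ * c⁻¹) := by group
        _ = c * T * (c⁻¹ * ζ) := by rw [hz]
        _ = (c * T * c⁻¹) * ζ := by group
        _ = T * (ζ * ζ) := by rw [hζ]; group
    rw [e1] at e2
    exact mul_left_cancel (a := T) (by rw [mul_one]; exact e2.symm)
  rw [hζ, eq_one_of_sq_cube hker h4 h3, mul_one]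

/-- a lift inverted by one element -/
theorem exists_base {t σ : Perm α} (ht : t * t * t = 1) (hσ : σ * σ = 1) (hσt : σ * t * σ⁻¹ = t⁻¹)
    {S g : Γ} (hS : π S = t) (hg : π g = σ) : ∃ T, π T = t ∧ T * T * T = 1 ∧ g * T * g⁻¹ = T⁻¹ := by
  obtain ⟨η, hη⟩ : ∃ η, g * S⁻¹ * g⁻¹ = S * η := ⟨S⁻¹ * (g * S⁻¹ * g⁻¹), by group⟩
  have hηc : ∀ h, η * h = h * η := hker η (by
    have : η = S⁻¹ * (g * S⁻¹ * g⁻¹) := by rw [hη]; group
    rw [this, map_mul, map_mul, map_mul, map_inv, map_inv, hS, hg]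
    have : σ * t⁻¹ * σ⁻¹ = (σ * t * σ⁻¹)⁻¹ := by group
    rw [this, hσt]; group)
  obtain ⟨θ, hθ⟩ : ∃ θ, θ = S * S * S := ⟨_, rfl⟩
  have hθc : ∀ h, θ * h = h * θ := hker θ (by rw [hθ, map_mul, map_mul, hS, ht])
  have e1 : θ⁻¹ = θ * (η * η * η) := by
    have h1 : g * θ⁻¹ * g⁻¹ = θ⁻¹ := by
      have h2 : θ⁻¹ * g⁻¹ = g⁻¹ * θ⁻¹ := by
        have := congrArg (fun y => y⁻¹) (hθc g)
        simp only [mul_inv_rev] at this
        exact this.symm
      rw [mul_assoc, h2]; group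
    rw [← h1]
    calc g * θ⁻¹ * g⁻¹ = (g * S⁻¹ * g⁻¹) * (g * S⁻¹ * g⁻¹) * (g * S⁻¹ * g⁻¹) := by rw [hθ]; group
      _ = S * (η * S) * η * S * η := by rw [hη]; group
      _ = S * (S * η) * η * S * η := by rw [hηc]
      _ = S * S * η * (η * S) * η := by group
      _ = S * S * η * (S * η) * η := by rw [hηc]
      _ = S * S * (η * S) * η * η := by group
      _ = S * S * (S * η) * η * η := by rw [hηc]
      _ = θ * (η * η * η) := by rw [hθ]; group
  have e2 : θ * θ * (η * η * η) = 1 := by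
    calc θ * θ * (η * η * η) = θ * (θ * (η * η * η)) := by group
      _ = 1 := by rw [← e1, mul_inv_cancel]
  have hξc : ∀ h, (θ * η)⁻¹ * h = h * (θ * η)⁻¹ := by
    intro h
    have : (θ * η) * h = h * (θ * η) := by
      rw [mul_assoc, hηc, ← mul_assoc, hθc, mul_assoc]
    calc (θ * η)⁻¹ * h = (θ * η)⁻¹ * (h * (θ * η)) * (θ * η)⁻¹ := by group
      _ = (θ * η)⁻¹ * ((θ * η) * h) * (θ * η)⁻¹ := by rw [this]
      _ = h * (θ * η)⁻¹ := by group
  refine ⟨S * (θ * η)⁻¹, ?_, ?_, ?_⟩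
  · have : π ((θ * η)⁻¹) = 1 := by
      have h1 : π θ = 1 := by rw [hθ, map_mul, map_mul, hS, ht]
      have h2 : π η = 1 := by
        have : η = S⁻¹ * (g * S⁻¹ * g⁻¹) := by rw [hη]; group
        rw [this, map_mul, map_mul, map_mul, map_inv, map_inv, hS, hg]
        have : σ * t⁻¹ * σ⁻¹ = (σ * t * σ⁻¹)⁻¹ := by group
        rw [this, hσt]; group
      rw [map_inv, map_mul, h1, h2]; simp
    rw [map_mul, this, mul_one, hS]
  · set ξ := (θ * η)⁻¹ with hξ
    have h1 : S * ξ * (S * ξ) * (S * ξ) = θ * (ξ * ξ * ξ) := by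
      calc S * ξ * (S * ξ) * (S * ξ) = S * (ξ * S) * (ξ * S) * ξ := by group
        _ = S * (S * ξ) * (S * ξ) * ξ := by rw [hξc]
        _ = S * S * (ξ * S) * ξ * ξ := by group
        _ = S * S * (S * ξ) * ξ * ξ := by rw [hξc]
        _ = θ * (ξ * ξ * ξ) := by rw [hθ]; group
    have h2 : (θ * η) * (θ * η) * (θ * η) = θ := by
      calc (θ * η) * (θ * η) * (θ * η) = θ * (η * θ) * (η * θ) * η := by group
        _ = θ * (θ * η) * (θ * η) * η := by rw [hηc]
        _ = θ * θ * (η * θ) * η * η := by group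
        _ = θ * θ * (θ * η) * η * η := by rw [hηc]
        _ = θ * (θ * θ * (η * η * η)) := by group
        _ = θ := by rw [e2, mul_one]
    have h3 : ξ * ξ * ξ = θ⁻¹ := by
      have : ξ * ξ * ξ = ((θ * η) * (θ * η) * (θ * η))⁻¹ := by rw [hξ]; group
      rw [this, h2]
    rw [h1, h3, mul_inv_cancel]
  · set ξ := (θ * η)⁻¹ with hξ
    have h1 : g * S * g⁻¹ = (S * η)⁻¹ := by rw [← hη]; group
    have h2 : g * (S * ξ) * g⁻¹ = (g * S * g⁻¹) * ξ := by
      calc g * (S * ξ) * g⁻¹ = g * S * (ξ * g⁻¹) := by group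
        _ = (g * S * g⁻¹) * ξ := by rw [hξc]; group
    rw [h2, h1]
    -- `(S η)⁻¹ ξ = ξ⁻¹ S⁻¹`
    have h3 : (S * η)⁻¹ * ξ = (S * η * (θ * η))⁻¹ := by
      have h4 : (θ * η) * (S * η) = (S * η) * (θ * η) := by
        calc (θ * η) * (S * η) = θ * (η * (S * η)) := by group
          _ = θ * ((S * η) * η) := by rw [hηc]
          _ = (θ * (S * η)) * η := by group
          _ = ((S * η) * θ) * η := by rw [hθc]
          _ = (S * η) * (θ * η) := by group
      rw [hξ, ← _root_.mul_inv_rev, h4]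
    rw [h3]
    congr 1
    have h6 : S * η * (θ * η) = S * (η * (θ * η)) := by group
    rw [h6, hξ]
    congr 1
    rw [eq_inv_iff_mul_eq_one]
    calc η * (θ * η) * (θ * η) = (η * θ) * (η * θ) * η := by group
      _ = (θ * η) * (θ * η) * η := by rw [hηc]
      _ = θ * (η * θ) * η * η := by group
      _ = θ * (θ * η) * η * η := by rw [hηc]
      _ = θ * θ * (η * η * η) := by group
      _ = 1 := e2

end

end Cfsg.Agent.H3
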