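import Mathlib
import Cfsg.Agent.H3.MultC

/-!
Central extensions of alternating groups of degree at least 8.
-/

set_option autoImplicit false
open Equiv Equiv.Perm Subgroup
open scoped commutatorElement

namespace Cfsg.Agent.H3

variable {Γ : Type*} [Group Γ] {α : Type*} [DecidableEq α] [Fintype α] {π : Γ →* Perm α}

theorem ex2 (s : Finset α) (h : s.card + 2 ≤ Fintype.card α) : ∃ x y, x ≠ y ∧ x ∉ s ∧ y ∉ s := by
  obtain ⟨x, hx⟩ := ex_not_mem s (by omega)
  obtain ⟨y, hy⟩ := ex_not_mem (insert x s) (by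
    have := Finset.card_insert_le x s
    omega)
  refine ⟨x, y, ?_, hx, fun h => hy (Finset.mem_insert_of_mem h)⟩
  rintro rfl
  exact hy (Finset.mem_insert_self _ _)

theorem swap_sq (a b : α) : swap a b * swap a b = 1 := swap_mul_self a b

theorem swap_comm_disj {a b d e : α} (hda : d ≠ a) (hdb : d ≠ b) (hea : e ≠ a) (heb : e ≠ b) :
    swap a b * swap d e = swap d e * swap a b := by
  have h := Equiv.mul_swap_eq_swap_mul (swap a b) d e
  rwa [swap_apply_of_ne_of_ne hda hdb, swap_apply_of_ne_of_ne hea heb] at h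

theorem dd_sq {a b d e : α} (hda : d ≠ a) (hdb : d ≠ b) (hea : e ≠ a) (heb : e ≠ b) :
    swap a b * swap d e * (swap a b * swap d e) = 1 := by
  calc swap a b * swap d e * (swap a b * swap d e) = swap a b * (swap d e * swap a b) * swap d e := by group
    _ = (swap a b * swap a b) * (swap d e * swap d e) := by
      rw [← swap_comm_disj hda hdb hea heb]; group
    _ = 1 := by rw [swap_sq, swap_sq, one_mul]

section
variable (hker : ∀ g, π g = 1 → ∀ h, g * h = h * g)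
  (hrange : ∀ σ ∈ alternatingGroup α, ∃ g, π g = σ) (h8 : 8 ≤ Fintype.card α)
include hker hrange h8

theorem RL_exists {a b c : α} (hab : a ≠ b) (hac : a ≠ c) (hbc : b ≠ c) : ∃ X, RL π a b c X := by
  obtain ⟨d₀, e₀, hde, hd, he⟩ := ex2 ({a, b, c} : Finset α) (by
    have := Finset.card_le_three (a := a) (b := b) (c := c)
    omega)
  simp only [Finset.mem_insert, Finset.mem_singleton, not_or] at hd he
  have hσt : ∀ d e : α, d ≠ a → d ≠ b → d ≠ c → e ≠ a → e ≠ b → e ≠ c →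
      (swap a b * swap d e) * tc a b c * (swap a b * swap d e)⁻¹ = (tc a b c)⁻¹ := by
    intro d e hda hdb hdc hea heb hec
    rw [tc_conj, tc_inv hab hac hbc, Perm.mul_apply, Perm.mul_apply, Perm.mul_apply,
      swap_apply_of_ne_of_ne hda.symm hea.symm, swap_apply_of_ne_of_ne hdb.symm heb.symm,
      swap_apply_of_ne_of_ne hdc.symm hec.symm, swap_apply_left, swap_apply_right,
      swap_apply_of_ne_of_ne hac.symm hbc.symm]
  obtain ⟨g₀, hg₀⟩ := ex_dd hrange hab hde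
  obtain ⟨S, hS⟩ := ex_tc hrange hab hac hbc
  have ht3 : tc a b c * tc a b c * tc a b c = 1 := by
    have := pow_orderOf_eq_one (tc a b c)
    rw [(tc_three hab hac hbc).orderOf] at this
    rw [← this, pow_succ, pow_succ, pow_one]
  obtain ⟨T, hT1, hT2, hT3⟩ := exists_base hker ht3 (dd_sq hd.1 hd.2.1 he.1 he.2.1)
    (hσt d₀ e₀ hd.1 hd.2.1 hd.2.2 he.1 he.2.1 he.2.2) hS hg₀
  have P0 : ∀ g, π g = swap a b * swap d₀ e₀ → g * T * g⁻¹ = T⁻¹ := by
    intro g hg
    have h1 := hker (g₀⁻¹ * g) (by rw [map_mul, map_inv, hg, hg₀, inv_mul_cancel]) T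
    calc g * T * g⁻¹ = g₀ * ((g₀⁻¹ * g) * T) * (g₀⁻¹ * g)⁻¹ * g₀⁻¹ := by group
      _ = g₀ * (T * (g₀⁻¹ * g)) * (g₀⁻¹ * g)⁻¹ * g₀⁻¹ := by rw [h1]
      _ = g₀ * T * g₀⁻¹ := by group
      _ = T⁻¹ := hT3
  have step : ∀ d e d' e' : α, d ≠ e → d ≠ a → d ≠ b → d ≠ c → e ≠ a → e ≠ b → e ≠ c →
      d' ≠ a → d' ≠ b → d' ≠ c → e' ≠ a → e' ≠ b → e' ≠ c → d' ≠ d → d' ≠ e → e' ≠ d → e' ≠ e →
      (∀ g, π g = swap a b * swap d e → g * T * g⁻¹ = T⁻¹) →
      (∀ g, π g = swap a b * swap d' e' → g * T * g⁻¹ = T⁻¹) := by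
    intro d e d' e' hde hda hdb hdc hea heb hec hda' hdb' hdc' hea' heb' hec' h1 h2 h3 h4 hP g' hg'
    obtain ⟨g, hg⟩ := ex_dd hrange hab hde
    have hc : π (g⁻¹ * g') = swap d e * swap d' e' := by
      rw [map_mul, map_inv, hg, hg', mul_inv_rev, swap_inv, swap_inv]
      calc swap d e * swap a b * (swap a b * swap d' e') = swap d e * (swap a b * swap a b) * swap d' e' := by group
        _ = _ := by rw [swap_sq, mul_one]
    have h5 := comm_of_inv hker (T := T) (c := g⁻¹ * g') hT2 (by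
      rw [map_mul, map_mul, map_inv, hT1, hc, tc_conj, Perm.mul_apply, Perm.mul_apply, Perm.mul_apply,
        swap_apply_of_ne_of_ne hda'.symm hea'.symm, swap_apply_of_ne_of_ne hdb'.symm heb'.symm,
        swap_apply_of_ne_of_ne hdc'.symm hec'.symm, swap_apply_of_ne_of_ne hda.symm hea.symm,
        swap_apply_of_ne_of_ne hdb.symm heb.symm, swap_apply_of_ne_of_ne hdc.symm hec.symm]) (by
      rw [map_mul, hc]
      exact dd_sq h1 h2 h3 h4)
    calc g' * T * g'⁻¹ = g * ((g⁻¹ * g') * T * (g⁻¹ * g')⁻¹) * g⁻¹ := by group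
      _ = g * T * g⁻¹ := by rw [h5]
      _ = T⁻¹ := hP g hg
  refine ⟨T, hT1, hT2, ?_⟩
  intro g d e hde' hda hdb hdc hea heb hec hg
  by_cases hdis : d ≠ d₀ ∧ d ≠ e₀ ∧ e ≠ d₀ ∧ e ≠ e₀
  · exact step d₀ e₀ d e hde hd.1 hd.2.1 hd.2.2 he.1 he.2.1 he.2.2 hda hdb hdc hea heb hec
      hdis.1 hdis.2.1 hdis.2.2.1 hdis.2.2.2 P0 g hg
  · have h1 : ∃ f, (d = d₀ ∨ d = e₀ ∨ d = f) ∧ (e = d₀ ∨ e = e₀ ∨ e = f) := by
      by_contra hcon
      push Not at hcon
      have a1 := hcon d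
      have a2 := hcon e
      apply hdis
      refine ⟨?_, ?_, ?_, ?_⟩
      · rintro rfl
        exact (a2 (Or.inl rfl)).2.2 rfl
      · rintro rfl
        exact (a2 (Or.inr (Or.inl rfl))).2.2 rfl
      · rintro rfl
        exact (a1 (Or.inr (Or.inr rfl))).1 rfl
      · rintro rfl
        exact (a1 (Or.inr (Or.inr rfl))).2.1 rfl
    obtain ⟨f, hf1, hf2⟩ := h1
    obtain ⟨d₁, e₁, hde₁, hd₁, he₁⟩ := ex2 ({a, b, c, d₀, e₀, f} : Finset α) (by
      have := Finset.card_le_six (a := a) (b := b) (c := c) (d := d₀) (e := e₀) (f := f)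
      omega)
    simp only [Finset.mem_insert, Finset.mem_singleton, not_or] at hd₁ he₁
    obtain ⟨x1, x2, x3, x4, x5, x6⟩ := hd₁
    obtain ⟨y1, y2, y3, y4, y5, y6⟩ := he₁
    have P1 := step d₀ e₀ d₁ e₁ hde hd.1 hd.2.1 hd.2.2 he.1 he.2.1 he.2.2 x1 x2 x3 y1 y2 y3
      x4 x5 y4 y5 P0
    have k1 : d ≠ d₁ := by
      rcases hf1 with h | h | h
      · rw [h]; exact Ne.symm x4
      · rw [h]; exact Ne.symm x5
      · rw [h]; exact Ne.symm x6
    have k2 : d ≠ e₁ := by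
      rcases hf1 with h | h | h
      · rw [h]; exact Ne.symm y4
      · rw [h]; exact Ne.symm y5
      · rw [h]; exact Ne.symm y6
    have k3 : e ≠ d₁ := by
      rcases hf2 with h | h | h
      · rw [h]; exact Ne.symm x4
      · rw [h]; exact Ne.symm x5
      · rw [h]; exact Ne.symm x6
    have k4 : e ≠ e₁ := by
      rcases hf2 with h | h | h
      · rw [h]; exact Ne.symm y4
      · rw [h]; exact Ne.symm y5
      · rw [h]; exact Ne.symm y6
    exact step d₁ e₁ d e hde₁ x1 x2 x3 y1 y2 y3 hda hdb hdc hea heb hec k1 k2 k3 k4 P1 g hg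

theorem RL.unique' {a b c : α} (hab : a ≠ b) {X Y : Γ} (hX : RL π a b c X)
    (hY : RL π a b c Y) : X = Y := by
  obtain ⟨d, e, hde, hd, he⟩ := ex2 ({a, b, c} : Finset α) (by
    have := Finset.card_le_three (a := a) (b := b) (c := c)
    omega)
  simp only [Finset.mem_insert, Finset.mem_singleton, not_or] at hd he
  obtain ⟨g, hg⟩ := ex_dd hrange hab hde
  exact hX.unique hker hY hde hd.1 hd.2.1 hd.2.2 he.1 he.2.1 he.2.2 hg

theorem exists_family {u v : α} (huv : u ≠ v) : ∃ (X : α → Γ) (w : Γ), (∀ h, w * h = h * w) ∧ w * w = 1 ∧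
    (∀ i, i ≠ u → i ≠ v → π (X i) = tc u v i ∧ X i * X i * X i = 1) ∧
    ∀ i j, i ≠ u → i ≠ v → j ≠ u → j ≠ v → i ≠ j → X i * X j * (X i * X j) = w := by
  have h1 : ∀ i : α, ∃ X : Γ, i ≠ u → i ≠ v → RL π u v i X := by
    intro i
    by_cases hi : i ≠ u ∧ i ≠ v
    · obtain ⟨X, hX⟩ := RL_exists hker hrange h8 huv (Ne.symm hi.1) (Ne.symm hi.2)
      exact ⟨X, fun _ _ => hX⟩
    · exact ⟨1, fun h h' => absurd ⟨h, h'⟩ hi⟩
  choose X hX using h1
  let W : α → α → Γ := fun i j => X i * X j * (X i * X j)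
  have hWc : ∀ i j, i ≠ u → i ≠ v → j ≠ u → j ≠ v → i ≠ j → ∀ h, W i j * h = h * W i j := by
    intro i j hiu hiv hju hjv hij
    apply hker
    show π (X i * X j * (X i * X j)) = 1
    rw [map_mul, map_mul, (hX i hiu hiv).im, (hX j hju hjv).im,
      tc_mul_tc huv (Ne.symm hiu) (Ne.symm hju) (Ne.symm hiv) (Ne.symm hjv) hij]
    exact dd_sq (Ne.symm huv) (Ne.symm hiv) hju (Ne.symm hij)
  have hWsymm : ∀ i j, i ≠ u → i ≠ v → j ≠ u → j ≠ v → i ≠ j → W j i = W i j := by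
    intro i j hiu hiv hju hjv hij
    have h2 := hWc i j hiu hiv hju hjv hij (X i)⁻¹
    calc W j i = (X i)⁻¹ * W i j * X i := by
          show X j * X i * (X j * X i) = (X i)⁻¹ * (X i * X j * (X i * X j)) * X i
          group
      _ = W i j := by rw [← h2]; group
  have hWstep : ∀ i j j', i ≠ u → i ≠ v → j ≠ u → j ≠ v → j' ≠ u → j' ≠ v → i ≠ j → i ≠ j' →
      W i j = W i j' := by
    intro i j j' hiu hiv hju hjv hju' hjv' hij hij'
    by_cases hjj : j = j'
    · rw [hjj]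
    obtain ⟨l, hl⟩ := ex_not_mem ({u, v, i, j, j'} : Finset α) (by
      have := Finset.card_le_five (a := u) (b := v) (c := i) (d := j) (e := j')
      omega)
    simp only [Finset.mem_insert, Finset.mem_singleton, not_or] at hl
    obtain ⟨l1, l2, l3, l4, l5⟩ := hl
    obtain ⟨k, hk⟩ := ex_tc hrange hjj (Ne.symm l4) (Ne.symm l5)
    have ku : π k u = u := by rw [hk]; exact tc_o (Ne.symm hju) (Ne.symm hju') (Ne.symm l1)
    have kv : π k v = v := by rw [hk]; exact tc_o (Ne.symm hjv) (Ne.symm hjv') (Ne.symm l2)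
    have ki : π k i = i := by rw [hk]; exact tc_o hij hij' (Ne.symm l3)
    have kj : π k j = j' := by rw [hk]; exact tc_a hjj (Ne.symm l4)
    have c1 : k * X i * k⁻¹ = X i := by
      have := (hX i hiu hiv).conj k
      rw [ku, kv, ki] at this
      exact RL.unique' hker hrange h8 huv this (hX i hiu hiv)
    have c2 : k * X j * k⁻¹ = X j' := by
      have := (hX j hju hjv).conj k
      rw [ku, kv, kj] at this
      exact RL.unique' hker hrange h8 huv this (hX j' hju' hjv')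
    have h2 := hWc i j hiu hiv hju hjv hij k
    calc W i j = (W i j * k) * k⁻¹ := by group
      _ = k * W i j * k⁻¹ := by rw [h2]
      _ = (k * X i * k⁻¹) * (k * X j * k⁻¹) * ((k * X i * k⁻¹) * (k * X j * k⁻¹)) := by
        show k * (X i * X j * (X i * X j)) * k⁻¹ = _
        group
      _ = W i j' := by rw [c1, c2]
  have hW2 : ∀ i j, i ≠ u → i ≠ v → j ≠ u → j ≠ v → i ≠ j → W i j * W i j = 1 := by
    intro i j hiu hiv hju hjv hij
    obtain ⟨d, e, hde, hd, he⟩ := ex2 ({u, v, i, j} : Finset α) (by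
      have := Finset.card_le_four (a := u) (b := v) (c := i) (d := j)
      omega)
    simp only [Finset.mem_insert, Finset.mem_singleton, not_or] at hd he
    obtain ⟨d1, d2, d3, d4⟩ := hd
    obtain ⟨e1, e2, e3, e4⟩ := he
    obtain ⟨g, hg⟩ := ex_dd hrange huv hde
    have c1 := (hX i hiu hiv).inv g d e hde d1 d2 d3 e1 e2 e3 hg
    have c2 := (hX j hju hjv).inv g d e hde d1 d2 d4 e1 e2 e4 hg
    have h2 := hWc i j hiu hiv hju hjv hij g
    have h3 : W i j = (W j i)⁻¹ := by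
      calc W i j = (W i j * g) * g⁻¹ := by group
        _ = g * W i j * g⁻¹ := by rw [h2]
        _ = (g * X i * g⁻¹) * (g * X j * g⁻¹) * ((g * X i * g⁻¹) * (g * X j * g⁻¹)) := by
          show g * (X i * X j * (X i * X j)) * g⁻¹ = _
          group
        _ = (W j i)⁻¹ := by
          rw [c1, c2]
          show _ = (X j * X i * (X j * X i))⁻¹
          group
    rw [hWsymm i j hiu hiv hju hjv hij] at h3
    calc W i j * W i j = W i j * (W i j)⁻¹ := by rw [← h3]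
      _ = 1 := mul_inv_cancel _
  obtain ⟨i₀, j₀, hij₀, hi₀, hj₀⟩ := ex2 ({u, v} : Finset α) (by
    have := Finset.card_le_two (a := u) (b := v)
    omega)
  simp only [Finset.mem_insert, Finset.mem_singleton, not_or] at hi₀ hj₀
  refine ⟨X, W i₀ j₀, hWc i₀ j₀ hi₀.1 hi₀.2 hj₀.1 hj₀.2 hij₀, hW2 i₀ j₀ hi₀.1 hi₀.2 hj₀.1 hj₀.2 hij₀,
    fun i hiu hiv => ⟨(hX i hiu hiv).im, (hX i hiu hiv).cube⟩, ?_⟩
  intro i j hiu hiv hju hjv hij
  show W i j = W i₀ j₀
  -- chain through a new index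
  obtain ⟨l, hl⟩ := ex_not_mem ({u, v, i, i₀} : Finset α) (by
    have := Finset.card_le_four (a := u) (b := v) (c := i) (d := i₀)
    omega)
  simp only [Finset.mem_insert, Finset.mem_singleton, not_or] at hl
  obtain ⟨l1, l2, l3, l4⟩ := hl
  calc W i j = W i l := hWstep i j l hiu hiv hju hjv l1 l2 hij (Ne.symm l3)
    _ = W l i := (hWsymm i l hiu hiv l1 l2 (Ne.symm l3)).symm
    _ = W l i₀ := hWstep l i i₀ l1 l2 hiu hiv hi₀.1 hi₀.2 l3 l4
    _ = W i₀ l := (hWsymm l i₀ l1 l2 hi₀.1 hi₀.2 l4).symm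
    _ = W i₀ j₀ := hWstep i₀ l j₀ hi₀.1 hi₀.2 l1 l2 hj₀.1 hj₀.2 (Ne.symm l4) hij₀

end

/-- the bound for degree at least 8 -/
theorem card_ker_le [Finite Γ] {n : ℕ} (h8 : 8 ≤ n) (π : Γ →* Perm (Fin n))
    (hker : ∀ g, π g = 1 → ∀ h, g * h = h * g)
    (hrange : ∀ σ, σ ∈ alternatingGroup (Fin n) ↔ ∃ g, π g = σ) (hd : π.ker ≤ commutator Γ) :
    Nat.card π.ker ≤ 2 := by
  have hn2 : 2 ≤ n := by omega
  let u : Fin n := ⟨0, by omega⟩
  let v : Fin n := ⟨1, by omega⟩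
  have huv : u ≠ v := by
    intro h
    have := congrArg Fin.val h
    simp [u, v] at this
  obtain ⟨X, w, hw, hw2, hX, hXX⟩ := exists_family hker (fun σ hσ => (hrange σ).1 hσ)
    (by rw [Fintype.card_fin]; exact h8) huv
  let y : ℕ → Fin n := fun k => if h : k + 2 < n then ⟨k + 2, h⟩ else u
  have hy : ∀ k < n - 2, (y k : ℕ) = k + 2 := by
    intro k hk
    have : k + 2 < n := by omega
    simp [y, this]
  have hyu : ∀ k < n - 2, y k ≠ u := by
    intro k hk h
    have h1 := congrArg Fin.val h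
    rw [hy k hk] at h1
    simp [u] at h1
  have hyv : ∀ k < n - 2, y k ≠ v := by
    intro k hk h
    have h1 := congrArg Fin.val h
    rw [hy k hk] at h1
    simp [v] at h1
  have hyy : ∀ i < n - 2, ∀ j < n - 2, i ≠ j → y i ≠ y j := by
    intro i hi j hj hij h
    have h1 := congrArg Fin.val h
    rw [hy i hi, hy j hj] at h1
    omega
  have hcard := CH_card (x := fun k => X (y k)) hw hw2 (N := n - 2)
    (fun i hi => (hX _ (hyu i hi) (hyv i hi)).2)
    (fun i hi j hj hij => hXX _ _ (hyu i hi) (hyv i hi) (hyu j hj) (hyv j hj) (hyy i hi j hj hij))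
    (n - 2) le_rfl
  set H := CH w (fun k => X (y k)) (n - 2) with hH
  rw [show n - 2 + 2 = n by omega] at hcard
  have hmap : alternatingGroup (Fin n) ≤ H.map π := by
    apply closure_tc huv
    intro i hiu hiv
    have hi2 : 2 ≤ (i : ℕ) := by
      by_contra h
      have h1 : (i : ℕ) = 0 ∨ (i : ℕ) = 1 := by omega
      rcases h1 with h1 | h1
      · exact hiu (Fin.ext h1)
      · exact hiv (Fin.ext h1)
    have hi3 : (i : ℕ) - 2 < n - 2 := by have := i.2; omega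
    refine ⟨X (y ((i : ℕ) - 2)), x_mem (x := fun k => X (y k)) hi3, ?_⟩
    rw [(hX _ (hyu _ hi3) (hyv _ hi3)).1]
    congr 1
    apply Fin.ext
    rw [hy _ hi3]; omega
  -- `Γ = H Z`
  have hHZ : ∀ g : Γ, ∃ h ∈ H, ∃ z, (∀ k, z * k = k * z) ∧ g = h * z := by
    intro g
    obtain ⟨h, hh, hhg⟩ := hmap ((hrange _).2 ⟨g, rfl⟩)
    refine ⟨h, hh, h⁻¹ * g, hker _ (by rw [map_mul, map_inv, hhg, inv_mul_cancel]), by group⟩
  have hcomm : commutator Γ ≤ H := by
    rw [commutator_def, Subgroup.commutator_le]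
    rintro a - b -
    obtain ⟨a₁, ha₁, z₁, hz₁, rfl⟩ := hHZ a
    obtain ⟨b₁, hb₁, z₂, hz₂, rfl⟩ := hHZ b
    have : ⁅a₁ * z₁, b₁ * z₂⁆ = ⁅a₁, b₁⁆ := by
      rw [commutatorElement_def, commutatorElement_def, mul_inv_rev, mul_inv_rev]
      calc a₁ * z₁ * (b₁ * z₂) * (z₁⁻¹ * a₁⁻¹) * (z₂⁻¹ * b₁⁻¹)
          = a₁ * (z₁ * (b₁ * z₂)) * (z₁⁻¹ * a₁⁻¹) * (z₂⁻¹ * b₁⁻¹) := by group
        _ = a₁ * b₁ * (z₂ * a₁⁻¹) * z₂⁻¹ * b₁⁻¹ := by rw [hz₁]; group
        _ = a₁ * b₁ * a₁⁻¹ * b₁⁻¹ := by rw [hz₂]; group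
    rw [this, commutatorElement_def]
    exact H.mul_mem (H.mul_mem (H.mul_mem ha₁ hb₁) (H.inv_mem ha₁)) (H.inv_mem hb₁)
  have hZH : π.ker ≤ H := hd.trans hcomm
  let f : H →* Perm (Fin n) := π.comp H.subtype
  have hf1 : Nat.card f.range * Nat.card f.ker = Nat.card H := by
    rw [Subgroup.card_eq_card_quotient_mul_card_subgroup f.ker,
      Nat.card_congr (QuotientGroup.quotientKerEquivRange f).toEquiv]
  have hf2 : Nat.card (alternatingGroup (Fin n)) ≤ Nat.card f.range := by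
    have : alternatingGroup (Fin n) ≤ f.range := by
      intro σ hσ
      obtain ⟨h, hh, hhσ⟩ := hmap hσ
      exact ⟨⟨h, hh⟩, hhσ⟩
    exact Nat.card_le_card_of_injective _ (Subgroup.inclusion_injective this)
  have hf3 : Nat.card π.ker ≤ Nat.card f.ker :=
    Nat.card_le_card_of_injective (fun z : π.ker => (⟨⟨z, hZH z.2⟩, z.2⟩ : f.ker))
      (fun a b hab => Subtype.ext (congrArg (fun s : f.ker => ((s : H) : Γ)) hab))
  haveI : Nontrivial (Fin n) := ⟨u, v, huv⟩
  have hA := two_mul_nat_card_alternatingGroup (α := Fin n)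
  rw [Nat.card_eq_fintype_card (α := Perm (Fin n)), Fintype.card_perm, Fintype.card_fin] at hA
  have hpos : 0 < Nat.card (alternatingGroup (Fin n)) := Nat.card_pos
  have h9 : Nat.card (alternatingGroup (Fin n)) * Nat.card π.ker ≤
      Nat.card (alternatingGroup (Fin n)) * 2 := by
    calc _ ≤ Nat.card f.range * Nat.card f.ker := Nat.mul_le_mul hf2 hf3
      _ = Nat.card H := hf1
      _ ≤ n.factorial := hcard
      _ = _ := by rw [← hA, mul_comm]
  exact Nat.le_of_mul_le_mul_left h9 hpos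

end Cfsg.Agent.H3
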