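import Mathlib
import Cfsg.Agent.H15.SchurTr
import Cfsg.Agent.H27.PGrp

/-!
Central extensions of groups whose order is `4 m`, `m` odd and square-free.
-/

set_option autoImplicit false
open Subgroup

namespace Cfsg.Agent.H3

theorem card_comm_le_two {P : Type*} [Group P] [Finite P] {k : ℕ} (hP : Nat.card P = 2 ^ k) (K : Subgroup P)
    (hK : K ≤ center P) (hKi : K.index = 4) : Nat.card (commutator P) ≤ 2 := by
  haveI : Fact (Nat.Prime 2) := ⟨Nat.prime_two⟩
  have h1 : (center P).index ∣ 4 := by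
    rw [← hKi]; exact Subgroup.index_dvd_of_le hK
  by_cases h4 : (center P).index = 4
  · rw [Cfsg.Agent.H27.card_commutator_of_index_center 2 hP (by rw [h4]; norm_num)]
  · have h2 : (center P).index ∣ 2 := by
      have h5 : (center P).index ≤ 4 := Nat.le_of_dvd (by norm_num) h1
      interval_cases h : (center P).index
      · omega
      · norm_num
      · norm_num
      · omega
      · omega
    have hcyc : IsCyclic (P ⧸ center P) := by
      rcases (Nat.dvd_prime Nat.prime_two).1 h2 with h | h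
      · rw [Subgroup.index_eq_one] at h
        haveI : Subsingleton (P ⧸ center P) := by
          rw [h]; exact QuotientGroup.subsingleton_quotient_top
        exact isCyclic_of_subsingleton
      · exact isCyclic_of_prime_card (p := 2) (by rw [← Subgroup.index_eq_card, h])
    have hcomm := commutative_of_cyclic_center_quotient (QuotientGroup.mk' (center P))
      (by rw [QuotientGroup.ker_mk'])
    have h3 : commutator P = ⊥ := by
      rw [commutator_def, Subgroup.commutator_eq_bot_iff_le_centralizer]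
      intro x _
      rw [Subgroup.mem_centralizer_iff]
      intro y _
      exact hcomm y x
    rw [h3]; simp

universe u v

theorem card_ker_small {E : Type u} {G : Type v} [Group E] [Group G] [Finite E] [Finite G]
    (σ : E →* G) (hs : Function.Surjective σ) (hc : σ.ker ≤ Subgroup.center E)
    (hd : σ.ker ≤ commutator E) {m : ℕ} (hG : Nat.card G = 4 * m) (hm : ¬ 2 ∣ m)
    (hsq : ∀ p : ℕ, p.Prime → p ≠ 2 → ¬ p ^ 2 ∣ Nat.card G) : Nat.card σ.ker ≤ 2 := by
  haveI : Fact (Nat.Prime 2) := ⟨Nat.prime_two⟩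
  have hodd : ∀ p : ℕ, p.Prime → p ≠ 2 → ¬ p ∣ Nat.card σ.ker := by
    intro p hp hp2
    haveI : Fact p.Prime := ⟨hp⟩
    apply Cfsg.Agent.H15.SchurTr.not_dvd_of_cyclic σ hc hd p
    intro P
    obtain ⟨k, hk⟩ := P.isPGroup'.exists_card_eq
    have h1 : p ^ k ∣ Nat.card G := by rw [← hk]; exact Subgroup.card_subgroup_dvd_card _
    have h2 : k < 2 := by
      by_contra h
      exact hsq p hp hp2 ((pow_dvd_pow p (by omega)).trans h1)
    interval_cases k
    · rw [pow_zero] at hk
      haveI : Subsingleton P := (Nat.card_eq_one_iff_unique.1 hk).1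
      exact isCyclic_of_subsingleton
    · rw [pow_one] at hk
      exact isCyclic_of_prime_card hk
  obtain ⟨k, hk⟩ : ∃ k, Nat.card σ.ker = 2 ^ k := by
    refine ⟨(Nat.card σ.ker).primeFactorsList.length, Nat.eq_prime_pow_of_unique_prime_dvd Nat.card_pos.ne' ?_⟩
    intro q hq hqd
    by_contra hne
    exact hodd q hq hne hqd
  have hZ2 : IsPGroup 2 σ.ker := IsPGroup.of_card hk
  obtain ⟨P, hP⟩ := hZ2.exists_le_sylow
  obtain ⟨l, hl⟩ := P.isPGroup'.exists_card_eq
  have hPi := P.not_dvd_index
  have hE : Nat.card E = 2 ^ k * (4 * m) := by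
    rw [← hG, ← hk, Subgroup.card_eq_card_quotient_mul_card_subgroup σ.ker,
      Nat.card_congr (QuotientGroup.quotientKerEquivOfSurjective σ hs).toEquiv, mul_comm]
  have hcard : Nat.card (P : Subgroup E) = 2 ^ (k + 2) := by
    have h1 := Subgroup.card_mul_index (P : Subgroup E)
    have hl' : Nat.card (P : Subgroup E) = 2 ^ l := hl
    rw [hl', hE] at h1
    rw [hl']
    apply Nat.dvd_antisymm
    · have h2 : 2 ^ l ∣ 2 ^ (k + 2) * m := ⟨(P : Subgroup E).index, by rw [h1]; ring⟩
      exact (Nat.Coprime.pow_left l ((Nat.Prime.coprime_iff_not_dvd Nat.prime_two).2 hm)).dvd_of_dvd_mul_right h2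
    · have h2 : 2 ^ (k + 2) ∣ 2 ^ l * (P : Subgroup E).index := ⟨m, by rw [h1]; ring⟩
      exact (Nat.Coprime.pow_left (k + 2)
        ((Nat.Prime.coprime_iff_not_dvd Nat.prime_two).2 hPi)).dvd_of_dvd_mul_right h2
  have hK : (σ.ker.subgroupOf (P : Subgroup E)).index = 4 := by
    have h1 := Subgroup.card_mul_index (σ.ker.subgroupOf (P : Subgroup E))
    have h2 : Nat.card (σ.ker.subgroupOf (P : Subgroup E)) = 2 ^ k := by
      rw [← hk]
      exact Nat.card_congr (Subgroup.subgroupOfEquivOfLe hP).toEquiv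
    have h3 : Nat.card (P : Subgroup E) = 2 ^ (k + 2) := hcard
    rw [h2, h3, pow_add] at h1
    exact Nat.eq_of_mul_eq_mul_left (by positivity) h1
  have hcomm : Nat.card (commutator (P : Subgroup E)) ≤ 2 := by
    apply card_comm_le_two (k := k + 2) hcard (σ.ker.subgroupOf (P : Subgroup E)) _ hK
    intro z hz
    have h2 := Subgroup.mem_center_iff.1 (hc (Subgroup.mem_subgroupOf.1 hz))
    rw [Subgroup.mem_center_iff]
    intro g
    exact Subtype.ext (h2 g)
  have hle : ∀ z : σ.ker, ∃ h : (z : E) ∈ (P : Subgroup E),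
      (⟨z, h⟩ : (P : Subgroup E)) ∈ commutator (P : Subgroup E) := by
    rintro ⟨z, hz⟩
    refine ⟨hP hz, ?_⟩
    obtain ⟨h, h1⟩ := Cfsg.Agent.H15.SchurTr.transfer_central (P : Subgroup E) (hc hz) (hd hz)
    have h3 : (⟨z, hP hz⟩ : (P : Subgroup E)) ^ (P : Subgroup E).index ∈ commutator (P : Subgroup E) := h1
    obtain ⟨a, ha⟩ := P.isPGroup' ⟨z, hP hz⟩
    have hcop : Nat.Coprime (P : Subgroup E).index (2 ^ a) :=
      ((Nat.Prime.coprime_iff_not_dvd Nat.prime_two).2 hPi).symm.pow_right a
    rw [← Abelianization.ker_of, MonoidHom.mem_ker] at h3 ⊢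
    rw [map_pow] at h3
    have h5 : (Abelianization.of (⟨z, hP hz⟩ : (P : Subgroup E))) ^ 2 ^ a = 1 := by
      rw [← map_pow, ha, map_one]
    have h7 := Nat.dvd_gcd (orderOf_dvd_of_pow_eq_one h3) (orderOf_dvd_of_pow_eq_one h5)
    rw [hcop] at h7
    exact orderOf_eq_one_iff.1 (Nat.dvd_one.1 h7)
  refine le_trans (Nat.card_le_card_of_injective
    (fun z : σ.ker => (⟨⟨z, (hle z).1⟩, (hle z).2⟩ : commutator (P : Subgroup E))) ?_) hcomm
  intro a b hab
  apply Subtype.ext
  exact congrArg (fun s : commutator (P : Subgroup E) => ((s : (P : Subgroup E)) : E)) hab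

end Cfsg.Agent.H3
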