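import Cfsg.Agent.H3.PrimChar
import Cfsg.Agent.H3.Monomial

/-!
# Monomial characters from irreducible restriction (helper3)
-/

set_option autoImplicit false
set_option linter.style.haveILetI false
set_option linter.unusedSimpArgs false
set_option linter.unusedSectionVars false
set_option linter.unusedVariables false
open Cfsg
open scoped ComplexConjugate commutatorElement

namespace Cfsg.Agent.H3

universe u v w

/-- every irreducible character is induced from a primitive one -/
theorem exists_primitive {G : Type u} [Group G] [Fintype G] {ψ : G → ℂ} (hψ : IsIrrCharacter G ψ) :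
    ∃ (U : Subgroup G) (_ : Fintype U) (η : U → ℂ), IsIrrCharacter U η ∧ indFun U η = ψ ∧
      Primitive η := by
  classical
  obtain ⟨U, ⟨η, h1, h2⟩, hmin⟩ := WellFounded.has_min (wellFounded_lt (α := Subgroup G))
    {U : Subgroup G | ∃ η : U → ℂ, IsIrrCharacter U η ∧ indFun U η = ψ}
    ⟨⊤, fun x => ψ x, isIrr_comp_surjective hψ (⊤ : Subgroup G).subtype
        (fun x => ⟨⟨x, Subgroup.mem_top x⟩, rfl⟩), indFun_top _ (classFun_restrict _
          (irr_classFun hψ))⟩
  refine ⟨U, Fintype.ofFinite U, η, h1, h2, ?_⟩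
  letI := Fintype.ofFinite U
  intro T θ hT hθ hind
  apply hmin (T.map U.subtype)
  · refine ⟨fun x => θ ((T.equivMapOfInjective U.subtype U.subtype_injective).symm x),
      (isIrr_comp_equiv_iff (T.equivMapOfInjective U.subtype U.subtype_injective).symm).2 hθ, ?_⟩
    rw [← indFun_map, hind, h2]
  · refine lt_of_le_of_ne (Subgroup.map_subtype_le T) fun h => hT ?_
    rw [eq_top_iff]
    intro x _
    have hx : (x : G) ∈ T.map U.subtype := by rw [h]; exact x.2
    obtain ⟨y, hy, hyx⟩ := hx
    have : y = x := Subtype.ext hyx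
    rwa [← this]

theorem relIndex_le_index' {G : Type u} [Group G] [Finite G] (U N : Subgroup G) :
    U.relIndex N ≤ U.index := by
  have h := Subgroup.relIndex_le_of_le_right (H := U) (le_top : N ≤ ⊤)
    (by rw [Subgroup.relIndex_top_right]; exact Subgroup.index_ne_zero_of_finite)
  rwa [Subgroup.relIndex_top_right] at h

theorem monomial_of_restrict {G : Type u} [Group G] [Fintype G] (hs : Group.IsSolvable G)
    {N : Subgroup G} (hN : N.Normal)
    (hab : ∀ (p : ℕ), p.Prime → ∀ Q : Subgroup G, Q ≤ N → IsPGroup p Q →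
      ∀ a ∈ Q, ∀ b ∈ Q, a * b = b * a) {ψ : G → ℂ} (hψ : IsIrrCharacter G ψ)
    (hψN : IsIrrCharacter N (fun n : N => ψ n)) : Monomial (fun _ => True) ψ := by
  classical
  obtain ⟨U, _, η, hη, hind, hprim⟩ := exists_primitive hψ
  haveI := Fintype.ofFinite N
  have hUs : Group.IsSolvable U := inferInstance
  have hq := primitive_quasiprimitive hη hprim
  obtain ⟨n, ρ, hρ, rfl⟩ := id hη
  have hMn : (N.subgroupOf U).Normal := hN.subgroupOf U
  have hsc := quasiprimitive_normal_scalar ρ hq hMn inferInstance (by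
    intro p hp Q hQ hQp a ha b hb
    have := hab p hp (Q.map U.subtype) (by
      rintro _ ⟨x, hx, rfl⟩
      exact hQ hx) (hQp.map _) a ⟨a, ha, rfl⟩ b ⟨b, hb, rfl⟩
    exact Subtype.ext this)
  have hn1 : ρ.character 1 = n := by rw [Representation.char_one]; simp
  have hn0 : n ≠ 0 := by
    rintro rfl
    exact irr_one_ne_zero hη (by rw [hn1]; simp)
  haveI : Nonempty (Fin n) := ⟨⟨0, Nat.pos_of_ne_zero hn0⟩⟩
  obtain ⟨c, hc⟩ := exists_scalarHom ρ
  -- the linear character of `U ∩ N` as a subgroup of `N`
  let M₁ : Subgroup N := U.subgroupOf N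
  let f : M₁ →* U := {
    toFun := fun x => ⟨x, x.2⟩
    map_one' := rfl
    map_mul' := fun _ _ => rfl }
  let f' : M₁ →* scalarSubgroup ρ := {
    toFun := fun x => ⟨f x, hsc (show ((x : N) : G) ∈ N from (x : N).2)⟩
    map_one' := rfl
    map_mul' := fun _ _ => rfl }
  let lam : M₁ →* ℂˣ := c.comp f'
  have hlam : ∀ x : M₁, ρ.character (f x) = n * (lam x : ℂ) := by
    intro x
    have := hc (f' x)
    show LinearMap.trace ℂ _ (ρ (f x)) = _
    have h1 : ((f' x : scalarSubgroup ρ) : U) = f x := rfl
    rw [h1] at this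
    rw [this, map_smul, smul_eq_mul, LinearMap.trace_id, Module.finrank_fintype_fun_eq_card,
      Fintype.card_fin, mul_comm]
    rfl
  haveI := Fintype.ofFinite M₁
  -- the complement of `η` in `ψ_U`
  have hne : classInner (fun u : U => ψ u) ρ.character ≠ 0 := by
    have h1 := frobenius_reciprocity U ρ.character (irr_classFun hψ)
    rw [hind, classInner_self_of_irr hψ] at h1
    apply classInner_ne_zero_symm
    rw [← h1]; exact one_ne_zero
  have hsub := isChar_sub_irr (isChar_restrict U (irr_isChar hψ)) hη hne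
  obtain ⟨j, hj⟩ := classInner_char_nat (isChar_comp hsub f) (irr_isChar (isIrr_hf lam))
  have h1 : classInner (fun x : M₁ => ρ.character (f x)) (hf lam) = n := by
    have h2 : (fun x : M₁ => ρ.character (f x)) = (n : ℂ) • hf lam := by
      ext x
      rw [hlam]; rfl
    rw [h2, classInner_smul_left, classInner_self_of_irr (isIrr_hf lam), mul_one]
  have h2 : classInner (fun x : M₁ => ψ (x : N)) (hf lam) = ((n + j : ℕ) : ℂ) := by
    have h3 : (fun x : M₁ => ψ (x : N)) = (fun x : M₁ => ρ.character (f x)) +
        fun x : M₁ => ((fun u : U => ψ u) - ρ.character) (f x) := by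
      ext x
      simp only [Pi.add_apply, Pi.sub_apply]
      show ψ (x : N) = ρ.character (f x) + (ψ (x : N) - ρ.character (f x))
      ring
    rw [h3, classInner_add_left, h1, hj]
    push_cast; ring
  have hψNc := irr_isChar hψN
  have h3 : classInner (indFun M₁ (hf lam)) (fun n : N => ψ n) = ((n + j : ℕ) : ℂ) := by
    rw [frobenius_reciprocity M₁ (hf lam) (irr_classFun hψN),
      classInner_char_symm (irr_isChar (isIrr_hf lam)) (isChar_restrict M₁ hψNc)]
    exact h2
  have h4 : indFun M₁ (hf lam) 1 = (M₁.index : ℂ) := by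
    rw [indFun_one_apply, hf_at_one, mul_one]
  have h5 : (fun n : N => ψ n) 1 = ((U.index * n : ℕ) : ℂ) := by
    show ψ ((1 : N) : G) = _
    rw [Subgroup.coe_one, ← hind, indFun_one_apply, hn1]
    push_cast; ring
  have h6 := char_mult_degree_le (isChar_ind M₁ (irr_isChar (isIrr_hf lam))) hψN h3 h4 h5
  have h7 : M₁.index ≤ U.index := relIndex_le_index' U N
  have hU0 : 0 < U.index := Nat.pos_of_ne_zero Subgroup.index_ne_zero_of_finite
  have hn : n = 1 := by
    by_contra hne1
    have h8 : 2 ≤ n := by omega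
    have h9 : n * (U.index * n) ≤ U.index :=
      (Nat.mul_le_mul_right _ (Nat.le_add_right n j)).trans (h6.trans h7)
    have h10 : 2 * (U.index * 2) ≤ n * (U.index * n) :=
      Nat.mul_le_mul h8 (Nat.mul_le_mul_left _ h8)
    omega
  have h8 : Monomial (fun _ => True) ρ.character := monomial_linear (irr_isChar hη) (by
    rw [hn1, hn]; simp)
  rw [← hind]
  exact monomial_ind U (fun _ _ => trivial) h8

end Cfsg.Agent.H3
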