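import Mathlib
import Cfsg.Prelude.Def_RootSubgroups
import Cfsg.Agent.H28.RankOne

/-!
The linear Baer–Suzuki theorem.
-/

set_option autoImplicit false

namespace Cfsg.Agent.H3.QP

open scoped commutatorElement
open Cfsg.Agent.H28

universe u v

variable {k : Type u} [Field k] {M : Type v} [AddCommGroup M] [Module k M]

theorem unip_iff {H : Subgroup (LinearMap.GeneralLinearGroup k M)} : IsUnipotentOn H ↔
    ∃ n : ℕ, ∀ l : List (LinearMap.GeneralLinearGroup k M), (∀ g ∈ l, g ∈ H) → l.length = n →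
    (l.map fun g : LinearMap.GeneralLinearGroup k M => (g : M →ₗ[k] M) - 1).prod = 0 := by
  have key : ∀ l : List (LinearMap.GeneralLinearGroup k M), (List.map (fun g : M →ₗ[k] M => g - 1) (do
          let a ← l
          pure (a : M →ₗ[k] M))) = (l.map fun g : LinearMap.GeneralLinearGroup k M => (g : M →ₗ[k] M) - 1) := by
    intro l
    induction l with
    | nil => rfl
    | cons a l ih =>
      simp at ih ⊢
      exact ih
  constructor
  · rintro ⟨n, hn⟩
    refine ⟨n, fun l h1 h2 => ?_⟩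
    rw [← key]
    exact hn l h1 h2
  · rintro ⟨n, hn⟩
    refine ⟨n, fun l h1 h2 => ?_⟩
    have := hn l h1 h2
    rw [← key] at this
    exact this

/-- closed under multiplication -/
def Alg (J : Submodule k (M →ₗ[k] M)) : Prop := J * J ≤ J
/-- nilpotent -/
def Nil (J : Submodule k (M →ₗ[k] M)) : Prop := ∃ n : ℕ, J ^ n = ⊥

/-- the augmentation ideal -/
def Jsp (H : Subgroup (LinearMap.GeneralLinearGroup k M)) : Submodule k (M →ₗ[k] M) :=
  Submodule.span k {x | ∃ g ∈ H, x = (g : M →ₗ[k] M) - 1}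

theorem mem_Jsp {H : Subgroup (LinearMap.GeneralLinearGroup k M)} {g : LinearMap.GeneralLinearGroup k M} (hg : g ∈ H) :
    (g : M →ₗ[k] M) - 1 ∈ Jsp H := Submodule.subset_span ⟨g, hg, rfl⟩

theorem Alg.mem {J : Submodule k (M →ₗ[k] M)} (h : Alg J) {x y : M →ₗ[k] M} (hx : x ∈ J) (hy : y ∈ J) : x * y ∈ J :=
  h (Submodule.mul_mem_mul hx hy)

theorem Jsp_alg (H : Subgroup (LinearMap.GeneralLinearGroup k M)) : Alg (Jsp H) := by
  unfold Alg Jsp
  rw [Submodule.span_mul_span, Submodule.span_le]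
  rintro _ ⟨_, ⟨g, hg, rfl⟩, _, ⟨h, hh, rfl⟩, rfl⟩
  have : ((g : M →ₗ[k] M) - 1) * ((h : M →ₗ[k] M) - 1) =
      (((g * h : LinearMap.GeneralLinearGroup k M) : M →ₗ[k] M) - 1) - ((g : M →ₗ[k] M) - 1) - ((h : M →ₗ[k] M) - 1) := by
    rw [Units.val_mul, sub_mul, mul_sub, mul_one, one_mul]; abel
  change ((g : M →ₗ[k] M) - 1) * ((h : M →ₗ[k] M) - 1) ∈ _
  rw [this]
  exact sub_mem (sub_mem (mem_Jsp (mul_mem hg hh)) (mem_Jsp hg)) (mem_Jsp hh)

theorem Jsp_mono {H K : Subgroup (LinearMap.GeneralLinearGroup k M)} (h : H ≤ K) : Jsp H ≤ Jsp K := by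
  apply Submodule.span_mono
  rintro _ ⟨g, hg, rfl⟩
  exact ⟨g, h hg, rfl⟩

theorem Jsp_le {H : Subgroup (LinearMap.GeneralLinearGroup k M)} {J : Submodule k (M →ₗ[k] M)}
    (h : ∀ g ∈ H, (g : M →ₗ[k] M) - 1 ∈ J) : Jsp H ≤ J := by
  apply Submodule.span_le.2
  rintro _ ⟨g, hg, rfl⟩
  exact h g hg

theorem Nil.mono {J K : Submodule k (M →ₗ[k] M)} (hK : Nil K) (h : J ≤ K) : Nil J := by
  obtain ⟨n, hn⟩ := hK
  exact ⟨n, eq_bot_iff.2 ((pow_le_pow_left' h n).trans hn.le)⟩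

theorem nil_of_unip {H : Subgroup (LinearMap.GeneralLinearGroup k M)} (h : IsUnipotentOn H) : Nil (Jsp H) := by
  obtain ⟨n, hn⟩ := unip_iff.1 h
  refine ⟨n, ?_⟩
  have key : ∀ n : ℕ, Jsp H ^ n ≤ Submodule.span k {x | ∃ l : List (LinearMap.GeneralLinearGroup k M), (∀ g ∈ l, g ∈ H) ∧
      l.length = n ∧ x = (l.map fun g : LinearMap.GeneralLinearGroup k M => (g : M →ₗ[k] M) - 1).prod} := by
    intro n
    induction n with
    | zero =>
      rw [pow_zero, Submodule.one_eq_span]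
      apply Submodule.span_mono
      rintro _ rfl
      exact ⟨[], by simp, rfl, by simp⟩
    | succ n ih =>
      rw [pow_succ']
      refine (mul_le_mul' (le_refl _) ih).trans ?_
      unfold Jsp
      rw [Submodule.span_mul_span]
      apply Submodule.span_mono
      rintro _ ⟨_, ⟨g, hg, rfl⟩, _, ⟨l, hl, hlen, rfl⟩, rfl⟩
      refine ⟨g :: l, ?_, by rw [List.length_cons, hlen], ?_⟩
      · intro x hx
        rcases List.mem_cons.1 hx with rfl | hx
        exacts [hg, hl x hx]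
      · exact (List.prod_cons).symm
  rw [eq_bot_iff]
  refine (key n).trans (Submodule.span_le.2 ?_)
  rintro _ ⟨l, hl, hlen, rfl⟩
  exact hn l hl hlen

theorem unip_of_nil {H : Subgroup (LinearMap.GeneralLinearGroup k M)} {J : Submodule k (M →ₗ[k] M)} (hJ : Nil J)
    (h : ∀ g ∈ H, (g : M →ₗ[k] M) - 1 ∈ J) : IsUnipotentOn H := by
  obtain ⟨n, hn⟩ := hJ
  rw [unip_iff]
  refine ⟨n, fun l hl hlen => ?_⟩
  have key : ∀ l : List (LinearMap.GeneralLinearGroup k M), (∀ g ∈ l, g ∈ H) →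
      (l.map fun g : LinearMap.GeneralLinearGroup k M => (g : M →ₗ[k] M) - 1).prod ∈ J ^ l.length := by
    intro l
    induction l with
    | nil => intro _; simp only [List.map_nil, List.prod_nil, List.length_nil, pow_zero]; exact Submodule.one_le.1 (le_refl _)
    | cons g l ih =>
      intro hl
      have e : ((g :: l).map fun g : LinearMap.GeneralLinearGroup k M => (g : M →ₗ[k] M) - 1).prod =
        ((g : M →ₗ[k] M) - 1) * (l.map fun g : LinearMap.GeneralLinearGroup k M => (g : M →ₗ[k] M) - 1).prod := List.prod_cons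
      rw [e, List.length_cons, pow_succ']
      exact Submodule.mul_mem_mul (h g (hl g (by simp))) (ih (fun x hx => hl x (by simp [hx])))
  have := key l hl
  rw [hlen, hn] at this
  exact this

variable [FiniteDimensional k M]

theorem Alg.inv_mem {J : Submodule k (M →ₗ[k] M)} (hJ : Alg J) {g : LinearMap.GeneralLinearGroup k M}
    (hg : (g : M →ₗ[k] M) - 1 ∈ J) : ((g⁻¹ : LinearMap.GeneralLinearGroup k M) : M →ₗ[k] M) - 1 ∈ J := by
  have hmaps : ∀ y ∈ J, (g : M →ₗ[k] M) * y ∈ J := by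
    intro y hy
    have : (g : M →ₗ[k] M) * y = ((g : M →ₗ[k] M) - 1) * y + y := by rw [sub_mul, one_mul]; abel
    rw [this]
    exact add_mem (hJ.mem hg hy) hy
  let L : J →ₗ[k] J := (LinearMap.mulLeft k (g : M →ₗ[k] M)).restrict (fun y hy => hmaps y hy)
  have hL : Function.Injective L := by
    intro x y hxy
    have h1 : (g : M →ₗ[k] M) * x = (g : M →ₗ[k] M) * y := congrArg Subtype.val hxy
    apply Subtype.ext
    have h2 := congrArg (fun t => ((g⁻¹ : LinearMap.GeneralLinearGroup k M) : M →ₗ[k] M) * t) h1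
    change ((g⁻¹ : LinearMap.GeneralLinearGroup k M) : M →ₗ[k] M) * ((g : M →ₗ[k] M) * (x : M →ₗ[k] M)) =
      ((g⁻¹ : LinearMap.GeneralLinearGroup k M) : M →ₗ[k] M) * ((g : M →ₗ[k] M) * (y : M →ₗ[k] M)) at h2
    rw [← mul_assoc, ← mul_assoc, Units.inv_mul, one_mul, one_mul] at h2
    exact h2
  have hs : Function.Surjective L := LinearMap.surjective_of_injective hL
  obtain ⟨⟨y, hy⟩, hxy⟩ := hs ⟨_, hg⟩
  have h1 : (g : M →ₗ[k] M) * y = (g : M →ₗ[k] M) - 1 := congrArg Subtype.val hxy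
  have h2 : ((g⁻¹ : LinearMap.GeneralLinearGroup k M) : M →ₗ[k] M) - 1 = -y := by
    have h3 := congrArg (fun t => ((g⁻¹ : LinearMap.GeneralLinearGroup k M) : M →ₗ[k] M) * t) h1
    change ((g⁻¹ : LinearMap.GeneralLinearGroup k M) : M →ₗ[k] M) * ((g : M →ₗ[k] M) * y) =
      ((g⁻¹ : LinearMap.GeneralLinearGroup k M) : M →ₗ[k] M) * ((g : M →ₗ[k] M) - 1) at h3
    rw [← mul_assoc, Units.inv_mul, one_mul, mul_sub, Units.inv_mul, mul_one] at h3
    rw [h3]; abel
  rw [h2]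
  exact neg_mem hy

theorem Alg.mul_mem' {J : Submodule k (M →ₗ[k] M)} (hJ : Alg J) {g h : LinearMap.GeneralLinearGroup k M}
    (hg : (g : M →ₗ[k] M) - 1 ∈ J) (hh : (h : M →ₗ[k] M) - 1 ∈ J) :
    ((g * h : LinearMap.GeneralLinearGroup k M) : M →ₗ[k] M) - 1 ∈ J := by
  have : ((g * h : LinearMap.GeneralLinearGroup k M) : M →ₗ[k] M) - 1 =
      ((g : M →ₗ[k] M) - 1) * ((h : M →ₗ[k] M) - 1) + ((g : M →ₗ[k] M) - 1) + ((h : M →ₗ[k] M) - 1) := by
    rw [Units.val_mul, sub_mul, mul_sub, mul_one, one_mul]; abel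
  rw [this]
  exact add_mem (add_mem (hJ.mem hg hh) hg) hh

theorem Alg.closure {J : Submodule k (M →ₗ[k] M)} (hJ : Alg J) {S : Set (LinearMap.GeneralLinearGroup k M)}
    (hS : ∀ g ∈ S, (g : M →ₗ[k] M) - 1 ∈ J) : ∀ g ∈ Subgroup.closure S, (g : M →ₗ[k] M) - 1 ∈ J := by
  intro g hg
  induction hg using Subgroup.closure_induction with
  | mem x hx => exact hS x hx
  | one => rw [Units.val_one, sub_self]; exact zero_mem _
  | mul x y _ _ hx hy => exact hJ.mul_mem' hx hy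
  | inv x _ hx => exact hJ.inv_mem hx

/-- the group `1 + J` -/
def UG {J : Submodule k (M →ₗ[k] M)} (hJ : Alg J) : Subgroup (LinearMap.GeneralLinearGroup k M) where
  carrier := {g | (g : M →ₗ[k] M) - 1 ∈ J}
  mul_mem' := fun hg hh => hJ.mul_mem' hg hh
  one_mem' := by
    rw [Set.mem_setOf_eq, Units.val_one, sub_self]; exact zero_mem _
  inv_mem' := fun hg => hJ.inv_mem hg

theorem mem_UG {J : Submodule k (M →ₗ[k] M)} {hJ : Alg J} {g : LinearMap.GeneralLinearGroup k M} :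
    g ∈ UG hJ ↔ (g : M →ₗ[k] M) - 1 ∈ J := Iff.rfl

omit [FiniteDimensional k M] in
theorem Alg.pow_le {J : Submodule k (M →ₗ[k] M)} (hJ : Alg J) (n : ℕ) : J ^ (n + 2) ≤ J ^ (n + 1) := by
  rw [pow_succ J (n + 1), pow_succ J n, mul_assoc]
  exact mul_le_mul' (le_refl _) hJ

omit [FiniteDimensional k M] in
theorem Alg.pow_anti {J : Submodule k (M →ₗ[k] M)} (hJ : Alg J) {i j : ℕ} (hij : i ≤ j) : J ^ (j + 1) ≤ J ^ (i + 1) := by
  induction j, hij using Nat.le_induction with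
  | base => exact le_refl _
  | succ j _ ih => exact (hJ.pow_le j).trans ih

omit [FiniteDimensional k M] in
theorem Alg.pow_alg {J : Submodule k (M →ₗ[k] M)} (hJ : Alg J) (n : ℕ) : Alg (J ^ (n + 1)) := by
  unfold Alg
  rw [← pow_add]
  exact hJ.pow_anti (i := n) (j := n + 1 + n) (by omega)

theorem group_nilpotent {J : Submodule k (M →ₗ[k] M)} (hJ : Alg J) (hN : Nil J)
    {H : Subgroup (LinearMap.GeneralLinearGroup k M)} (hH : ∀ g ∈ H, (g : M →ₗ[k] M) - 1 ∈ J) : Group.IsNilpotent H := by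
  rw [Subgroup.isNilpotent_iff_lowerCentralSeries]
  obtain ⟨n, hn⟩ := hN
  refine ⟨n, ?_⟩
  have key : ∀ i : ℕ, H.lowerCentralSeries i ≤ UG (hJ.pow_alg i) := by
    intro i
    induction i with
    | zero =>
      intro g hg
      rw [mem_UG, zero_add, pow_one]
      exact hH g hg
    | succ i ih =>
      rw [Subgroup.lowerCentralSeries_succ, Subgroup.commutator_le]
      intro a ha b hb
      have ha' := ih ha
      rw [mem_UG] at ha'
      have hb' := hH b hb
      rw [mem_UG]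
      have e1 : ((⁅a, b⁆ : LinearMap.GeneralLinearGroup k M) : M →ₗ[k] M) - 1 =
          (((a : M →ₗ[k] M) - 1) * ((b : M →ₗ[k] M) - 1) - ((b : M →ₗ[k] M) - 1) * ((a : M →ₗ[k] M) - 1)) *
            (((a⁻¹ * b⁻¹ : LinearMap.GeneralLinearGroup k M)) : M →ₗ[k] M) := by
        have h1 : (((a : M →ₗ[k] M) - 1) * ((b : M →ₗ[k] M) - 1) - ((b : M →ₗ[k] M) - 1) * ((a : M →ₗ[k] M) - 1)) =
          ((a * b : LinearMap.GeneralLinearGroup k M) : M →ₗ[k] M) - ((b * a : LinearMap.GeneralLinearGroup k M) : M →ₗ[k] M) := by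
          rw [Units.val_mul, Units.val_mul]; noncomm_ring
        rw [h1, sub_mul, ← Units.val_mul, ← Units.val_mul, commutatorElement_def]
        have e3 : a * b * a⁻¹ * b⁻¹ = a * b * (a⁻¹ * b⁻¹) := by group
        have e4 : b * a * (a⁻¹ * b⁻¹) = 1 := by group
        rw [e3, e4, Units.val_one]
      have h2 : ((a : M →ₗ[k] M) - 1) * ((b : M →ₗ[k] M) - 1) - ((b : M →ₗ[k] M) - 1) * ((a : M →ₗ[k] M) - 1) ∈ J ^ (i + 2) := by
        apply sub_mem
        · rw [pow_succ J (i + 1)]; exact Submodule.mul_mem_mul ha' hb'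
        · rw [pow_succ' J (i + 1)]; exact Submodule.mul_mem_mul hb' ha'
      have h3 : (((a⁻¹ * b⁻¹ : LinearMap.GeneralLinearGroup k M)) : M →ₗ[k] M) - 1 ∈ J :=
        hJ.mul_mem' (hJ.inv_mem (by have := hJ.pow_anti (Nat.zero_le i) ha'; rwa [zero_add, pow_one] at this)) (hJ.inv_mem hb')
      rw [e1]
      have h4 : ∀ x ∈ J ^ (i + 2), x * (((a⁻¹ * b⁻¹ : LinearMap.GeneralLinearGroup k M)) : M →ₗ[k] M) ∈ J ^ (i + 2) := by
        intro x hx
        have e2 : x * (((a⁻¹ * b⁻¹ : LinearMap.GeneralLinearGroup k M)) : M →ₗ[k] M) =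
            x * ((((a⁻¹ * b⁻¹ : LinearMap.GeneralLinearGroup k M)) : M →ₗ[k] M) - 1) + x := by rw [mul_sub, mul_one]; abel
        rw [e2]
        refine add_mem ?_ hx
        apply hJ.pow_le (i + 1)
        rw [pow_succ J (i + 2)]
        exact Submodule.mul_mem_mul hx h3
      exact h4 _ h2
  rw [eq_bot_iff]
  intro g hg
  have := key n hg
  rw [mem_UG, pow_succ, hn, Submodule.bot_mul, Submodule.mem_bot, sub_eq_zero] at this
  rw [Subgroup.mem_bot]
  exact Units.ext this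

end Cfsg.Agent.H3.QP
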