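import Mathlib
import Cfsg.Agent.H3.QPBS

/-!
The linear Baer–Suzuki theorem, conclusion.
-/

set_option autoImplicit false

namespace Cfsg.Agent.H3.QP

open scoped commutatorElement
open Cfsg.Agent.H28

universe u v

section semiring
variable {R : Type*} [IdemSemiring R]

/-- the situation: `c = 1 + b` -/
structure BSD (a b c : R) : Prop where
  aa : a * a ≤ a
  bb : b * b ≤ b
  cc : c * c ≤ c
  bc : b ≤ c
  oc : 1 ≤ c
  ca : c * a ≤ a * c

variable {a b c : R}

theorem BSD.of (ha : a * a ≤ a) (hb : b * b ≤ b) (hba : b * a ≤ a + a * b) : BSD a b (1 + b) where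
  aa := ha
  bb := hb
  cc := by
    have h0 : (1 + b) * (1 + b) = 1 + b + (b + b * b) := by rw [add_mul, one_mul, mul_add, mul_one]
    have h1 : b + b * b ≤ b := by rw [add_eq_sup]; exact sup_le le_rfl hb
    rw [h0]
    calc 1 + b + (b + b * b) ≤ 1 + b + b := add_le_add_right h1 _
      _ = 1 + b := by rw [add_assoc, add_idem]
  bc := by rw [add_eq_sup]; exact le_sup_right
  oc := by rw [add_eq_sup]; exact le_sup_left
  ca := by
    rw [add_mul, one_mul, mul_add, mul_one]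
    calc a + b * a ≤ a + (a + a * b) := add_le_add_right hba _
      _ = a + a * b := by rw [← add_assoc, add_idem]

variable (h : BSD a b c)
include h

theorem BSD.pow (i : ℕ) : (a * c) ^ i ≤ a ^ i * c := by
  induction i with
  | zero => rw [pow_zero, pow_zero, one_mul]; exact h.oc
  | succ i ih =>
    rw [pow_succ, pow_succ]
    calc (a * c) ^ i * (a * c) ≤ a ^ i * c * (a * c) := mul_le_mul' ih le_rfl
      _ = a ^ i * (c * a) * c := by simp only [mul_assoc]
      _ ≤ a ^ i * (a * c) * c := mul_le_mul' (mul_le_mul' le_rfl h.ca) le_rfl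
      _ = a ^ i * a * (c * c) := by simp only [mul_assoc]
      _ ≤ a ^ i * a * c := mul_le_mul' le_rfl h.cc

theorem BSD.KK : (a * c) * (a * c) ≤ a * c := by
  calc (a * c) * (a * c) = a * (c * a) * c := by simp only [mul_assoc]
    _ ≤ a * (a * c) * c := mul_le_mul' (mul_le_mul' le_rfl h.ca) le_rfl
    _ = a * a * (c * c) := by simp only [mul_assoc]
    _ ≤ a * c := mul_le_mul' h.aa h.cc

theorem BSD.bK : b * (a * c) ≤ a * c := by
  calc b * (a * c) ≤ c * (a * c) := mul_le_mul' h.bc le_rfl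
    _ = (c * a) * c := by rw [mul_assoc]
    _ ≤ (a * c) * c := mul_le_mul' h.ca le_rfl
    _ = a * (c * c) := by rw [mul_assoc]
    _ ≤ a * c := mul_le_mul' le_rfl h.cc

theorem BSD.Kb : (a * c) * b ≤ a * c := by
  calc (a * c) * b ≤ (a * c) * c := mul_le_mul' le_rfl h.bc
    _ = a * (c * c) := by rw [mul_assoc]
    _ ≤ a * c := mul_le_mul' le_rfl h.cc

theorem BSD.alg : (a * c + b) * (a * c + b) ≤ a * c + b := by
  have h1 := h.KK
  have h2 := h.bK
  have h3 := h.Kb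
  have h4 := h.bb
  generalize a * c = K at *
  rw [add_mul, mul_add, mul_add]
  simp only [add_eq_sup]
  exact sup_le (sup_le (h1.trans le_sup_left) (h3.trans le_sup_left)) (sup_le (h2.trans le_sup_left) (h4.trans le_sup_right))

theorem BSD.pow2 (i : ℕ) : (a * c + b) ^ (i + 1) ≤ a * c + b ^ (i + 1) := by
  have h1 := h.KK
  have h2 := h.bK
  have h3 := h.Kb
  generalize a * c = K at *
  have hbi : ∀ i : ℕ, b ^ i * K ≤ K := by
    intro i
    induction i with
    | zero => rw [pow_zero, one_mul]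
    | succ i ih =>
      rw [pow_succ, mul_assoc]
      exact (mul_le_mul' le_rfl h2).trans ih
  induction i with
  | zero => rw [zero_add, pow_one, pow_one]
  | succ i ih =>
    rw [pow_succ, pow_succ b (i + 1)]
    refine (mul_le_mul' ih le_rfl).trans ?_
    rw [add_mul, mul_add, mul_add]
    simp only [add_eq_sup]
    exact sup_le (sup_le (h1.trans le_sup_left) (h3.trans le_sup_left))
      (sup_le ((hbi _).trans le_sup_left) le_sup_right)

end semiring

variable {k : Type u} [Field k] {M : Type v} [AddCommGroup M] [Module k M]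

/-- product of a nilpotent algebra and a nilpotent algebra normalizing it -/
theorem alg_nil_sup {a b : Submodule k (M →ₗ[k] M)} (ha : Alg a) (hb : Alg b) (hna : Nil a) (hnb : Nil b)
    (hba : b * a ≤ a + a * b) : ∃ J : Submodule k (M →ₗ[k] M), Alg J ∧ Nil J ∧ a ≤ J ∧ b ≤ J := by
  have h : BSD a b (1 + b) := BSD.of ha hb hba
  refine ⟨a * (1 + b) + b, h.alg, ?_, ?_, ?_⟩
  · obtain ⟨r, hr⟩ := hna
    obtain ⟨s, hs⟩ := hnb
    refine ⟨(s + 1) * r, ?_⟩
    rw [pow_mul, eq_bot_iff]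
    have h1 : (a * (1 + b) + b) ^ (s + 1) ≤ a * (1 + b) := by
      refine (h.pow2 s).trans ?_
      rw [pow_succ, hs, Submodule.bot_mul]
      exact sup_le le_rfl bot_le
    refine (pow_le_pow_left' h1 r).trans ((h.pow r).trans ?_)
    rw [hr, Submodule.bot_mul]
  · rw [mul_add, mul_one, add_assoc]
    exact le_sup_left
  · exact le_sup_right

/-- a subgroup normalizing another -/
theorem Jsp_normal {Z L : Subgroup (LinearMap.GeneralLinearGroup k M)}
    (hL : ∀ g ∈ L, ∀ z ∈ Z, g * z * g⁻¹ ∈ Z) : Jsp L * Jsp Z ≤ Jsp Z + Jsp Z * Jsp L := by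
  conv_lhs => unfold Jsp
  rw [Submodule.span_mul_span, Submodule.span_le]
  rintro _ ⟨_, ⟨g, hg, rfl⟩, _, ⟨z, hz, rfl⟩, rfl⟩
  have h2 := hL g hg z hz
  have : ((g : M →ₗ[k] M) - 1) * ((z : M →ₗ[k] M) - 1) =
      ((((g * z * g⁻¹ : LinearMap.GeneralLinearGroup k M) : M →ₗ[k] M) - 1) - ((z : M →ₗ[k] M) - 1)) +
        (((g * z * g⁻¹ : LinearMap.GeneralLinearGroup k M) : M →ₗ[k] M) - 1) * ((g : M →ₗ[k] M) - 1) := by
    have e1 : ((g * z * g⁻¹ : LinearMap.GeneralLinearGroup k M) : M →ₗ[k] M) * (g : M →ₗ[k] M) = (g : M →ₗ[k] M) * z := by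
      rw [← Units.val_mul, ← Units.val_mul]; congr 1; group
    rw [sub_mul _ 1 ((g : M →ₗ[k] M) - 1), mul_sub _ (g : M →ₗ[k] M) 1, e1, sub_mul, mul_sub]
    simp only [mul_one, one_mul]
    abel
  change ((g : M →ₗ[k] M) - 1) * ((z : M →ₗ[k] M) - 1) ∈ _
  rw [this]
  exact add_mem (Submodule.mem_sup_left (sub_mem (mem_Jsp h2) (mem_Jsp hz)))
    (Submodule.mem_sup_right (Submodule.mul_mem_mul (mem_Jsp h2) (mem_Jsp hg)))

/-- normalizer growth for families of subgroups -/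
theorem growth {Γ : Type*} [Group Γ] {X : Subgroup Γ} (hX : Group.IsNilpotent X) {S T : Set (Subgroup Γ)}
    (hSX : ∀ A ∈ S, A ≤ X) (hconj : ∀ A ∈ S, ∀ x ∈ X, conjBy A x ∈ S) (hTS : T ⊆ S) {A₀ : Subgroup Γ} (hA₀ : A₀ ∈ S)
    (hA₀T : A₀ ∉ T) : ∃ A ∈ S, A ∉ T ∧ ∀ a ∈ A, ∀ z ∈ (⨆ B ∈ T, B), a * z * a⁻¹ ∈ (⨆ B ∈ T, B) := by
  set Z := (⨆ B ∈ T, B) with hZ
  have hBZ : ∀ B ∈ T, B ≤ Z := fun B hB => le_iSup₂_of_le B hB le_rfl
  have hZX : Z ≤ X := iSup₂_le (fun B hB => hSX B (hTS hB))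
  by_cases hall : ∀ x ∈ X, ∀ z ∈ Z, x * z * x⁻¹ ∈ Z
  · exact ⟨A₀, hA₀, hA₀T, fun a ha z hz => hall a (hSX A₀ hA₀ ha) z hz⟩
  -- the normalizer of `Z` in `X`
  let N : Subgroup X := Subgroup.normalizer ((Z.subgroupOf X : Subgroup X) : Set X)
  have hN : ∀ x : X, x ∈ N → ∀ z ∈ Z, (x : Γ) * z * (x : Γ)⁻¹ ∈ Z := by
    intro x hx z hz
    have := (Subgroup.mem_normalizer_iff.1 hx ⟨z, hZX hz⟩).1 (Subgroup.mem_subgroupOf.2 hz)
    exact Subgroup.mem_subgroupOf.1 this
  have hNlt : N < ⊤ := by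
    rw [lt_top_iff_ne_top]
    intro h
    apply hall
    intro x hx z hz
    exact hN ⟨x, hx⟩ (by rw [h]; trivial) z hz
  have hlt := Group.normalizerCondition_of_isNilpotent (G := X) N hNlt
  obtain ⟨x, hx, hxN⟩ := SetLike.exists_of_lt hlt
  -- one of `x`, `x⁻¹` moves `Z` out of `Z`
  have key : ∃ y : X, y ∈ Subgroup.normalizer (N : Set X) ∧ ¬ conjBy Z (y : Γ) ≤ Z := by
    by_contra hcon
    push Not at hcon
    apply hxN
    rw [Subgroup.mem_normalizer_iff]
    intro z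
    rw [Subgroup.mem_subgroupOf, Subgroup.mem_subgroupOf]
    constructor
    · intro hz
      exact hcon x hx ⟨z, hz, rfl⟩
    · intro hz
      have h1 := hcon x⁻¹ (inv_mem hx) ⟨_, hz, rfl⟩
      have h2 : ((x : Γ)⁻¹) * ((x * z * x⁻¹ : X) : Γ) * ((x : Γ)⁻¹)⁻¹ = z := by
        push_cast
        group
      rw [← h2]
      exact h1
  obtain ⟨y, hy, hyZ⟩ := key
  have h3 : ∃ B ∈ T, ¬ conjBy B (y : Γ) ≤ Z := by
    by_contra hcon
    push Not at hcon
    apply hyZ
    rw [hZ]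
    simp only [conjBy, Subgroup.map_iSup]
    exact iSup₂_le hcon
  obtain ⟨B, hB, hBy⟩ := h3
  refine ⟨conjBy B (y : Γ), hconj B (hTS hB) y y.2, fun h => hBy (hBZ _ h), ?_⟩
  rintro _ ⟨b, hb, rfl⟩ z hz
  have h4 : (⟨b, hZX (hBZ B hB hb)⟩ : X) ∈ N := by
    apply Subgroup.le_normalizer
    exact Subgroup.mem_subgroupOf.2 (hBZ B hB hb)
  have h5 := (Subgroup.mem_normalizer_iff.1 hy _).1 h4
  exact hN _ h5 z hz

end Cfsg.Agent.H3.QP
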