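import Mathlib
import Cfsg.Agent.H3.QPBS2

/-!
The linear Baer–Suzuki theorem, main theorem.
-/

set_option autoImplicit false

namespace Cfsg.Agent.H3.QP

open scoped commutatorElement
open Cfsg.Agent.H28

universe u v

theorem exists_max_of_bdd {α : Type*} (P : α → Prop) (f : α → ℕ) (B : ℕ) (hB : ∀ x, f x ≤ B) (hne : ∃ x, P x) :
    ∃ x, P x ∧ ∀ y, P y → f y ≤ f x := by
  obtain ⟨x₀, hx₀⟩ := hne
  have h1 : (({x | P x} : Set α)).Nonempty := ⟨x₀, hx₀⟩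
  let g : α → ℕ := fun x => B - f x
  refine ⟨Function.argminOn g {x | P x} h1, Function.argminOn_mem g _ h1, fun y hy => ?_⟩
  have h2 : g (Function.argminOn g {x | P x} h1) ≤ g y := Function.argminOn_le g _ (Set.mem_setOf_eq ▸ hy)
  have h3 := hB y
  have h4 := hB (Function.argminOn g {x | P x} h1)
  simp only [g] at h2
  simp only [g] at h4 ⊢
  omega

variable {k : Type u} [Field k] {M : Type v} [AddCommGroup M] [Module k M] [FiniteDimensional k M]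

/-- a unipotent family of subgroups -/
def UF (T : Set (Subgroup (LinearMap.GeneralLinearGroup k M))) : Prop :=
  ∃ J : Submodule k (M →ₗ[k] M), Alg J ∧ Nil J ∧ ∀ A ∈ T, ∀ a ∈ A, (a : M →ₗ[k] M) - 1 ∈ J

variable {T X Y W : Set (Subgroup (LinearMap.GeneralLinearGroup k M))}

theorem UF.sup_mem {J : Submodule k (M →ₗ[k] M)} (hJ : Alg J) (h : ∀ A ∈ T, ∀ a ∈ A, (a : M →ₗ[k] M) - 1 ∈ J) :
    ∀ g ∈ (⨆ A ∈ T, A), (g : M →ₗ[k] M) - 1 ∈ J := by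
  have : (⨆ A ∈ T, A) ≤ UG hJ := iSup₂_le (fun A hA a ha => h A hA a ha)
  intro g hg
  exact this hg

theorem UF.unip (h : UF T) : IsUnipotentOn (⨆ A ∈ T, A) := by
  obtain ⟨J, hJ, hN, h⟩ := h
  exact unip_of_nil hN (UF.sup_mem hJ h)

theorem UF.jsp (h : UF T) : Nil (Jsp (⨆ A ∈ T, A)) := by
  obtain ⟨J, hJ, hN, h⟩ := h
  exact hN.mono (Jsp_le (UF.sup_mem hJ h))

theorem jsp_mem {A : Subgroup (LinearMap.GeneralLinearGroup k M)} (hA : A ∈ T) {a : LinearMap.GeneralLinearGroup k M} (ha : a ∈ A) :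
    (a : M →ₗ[k] M) - 1 ∈ Jsp (⨆ A ∈ T, A) :=
  mem_Jsp ((le_iSup₂_of_le (f := fun (A : Subgroup (LinearMap.GeneralLinearGroup k M)) (_ : A ∈ T) => A) A hA le_rfl) ha)

theorem jsp_mono (h : X ⊆ Y) : Jsp (⨆ A ∈ X, A) ≤ Jsp (⨆ A ∈ Y, A) :=
  Jsp_mono (biSup_mono h)

/-- maximal unipotent families -/
def MaxUF (W X : Set (Subgroup (LinearMap.GeneralLinearGroup k M))) : Prop :=
  X ⊆ W ∧ UF X ∧ ∀ Y, X ⊆ Y → Y ⊆ W → UF Y → Y ⊆ X

theorem MaxUF.mem (h : MaxUF W X) {A : Subgroup (LinearMap.GeneralLinearGroup k M)} (hA : A ∈ W)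
    (hAJ : ∀ a ∈ A, (a : M →ₗ[k] M) - 1 ∈ Jsp (⨆ A ∈ X, A)) : A ∈ X := by
  refine h.2.2 (insert A X) (Set.subset_insert _ _) (Set.insert_subset hA h.1) ?_ (Set.mem_insert _ _)
  refine ⟨Jsp (⨆ A ∈ X, A), Jsp_alg _, h.2.1.jsp, ?_⟩
  rintro B (rfl | hB) a ha
  · exact hAJ a ha
  · exact jsp_mem hB ha

theorem exists_maxUF (hTW : T ⊆ W) (hT : UF T) : ∃ X, T ⊆ X ∧ MaxUF W X := by
  obtain ⟨X₁, ⟨h1, h2, h3⟩, hmax⟩ := exists_max_of_bdd (fun X => T ⊆ X ∧ X ⊆ W ∧ UF X)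
    (fun X => Module.finrank k (Jsp (⨆ A ∈ X, A))) (Module.finrank k (M →ₗ[k] M)) (fun X => Submodule.finrank_le _)
    ⟨T, le_rfl, hTW, hT⟩
  set J := Jsp (⨆ A ∈ X₁, A) with hJ
  let X : Set (Subgroup (LinearMap.GeneralLinearGroup k M)) := {A | A ∈ W ∧ ∀ a ∈ A, (a : M →ₗ[k] M) - 1 ∈ J}
  have hX₁ : X₁ ⊆ X := fun A hA => ⟨h2 hA, fun a ha => jsp_mem hA ha⟩
  have hXJ : Jsp (⨆ A ∈ X, A) = J := by
    apply le_antisymm
    · exact Jsp_le (UF.sup_mem (Jsp_alg _) (fun A hA a ha => hA.2 a ha))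
    · exact jsp_mono hX₁
  have hUX : UF X := ⟨J, Jsp_alg _, h3.jsp, fun A hA a ha => hA.2 a ha⟩
  refine ⟨X, h1.trans hX₁, fun A hA => hA.1, hUX, fun Y hXY hYW hUY A hA => ⟨hYW hA, fun a ha => ?_⟩⟩
  have h4 := jsp_mono hXY
  rw [hXJ] at h4
  have h5 := Submodule.eq_of_le_of_finrank_le h4 (hmax Y ⟨(h1.trans hX₁).trans hXY, hYW, hUY⟩)
  rw [h5]
  exact jsp_mem hA ha

theorem MaxUF.conj {G : Subgroup (LinearMap.GeneralLinearGroup k M)} (hWG : ∀ A ∈ W, A ≤ G)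
    (hconj : ∀ A ∈ W, ∀ g ∈ G, conjBy A g ∈ W) (h : MaxUF W X) : ∀ A ∈ X, ∀ x ∈ (⨆ A ∈ X, A), conjBy A x ∈ X := by
  intro A hA x hx
  have hxG : x ∈ G := by
    have : (⨆ A ∈ X, A) ≤ G := iSup₂_le (fun A hA => hWG A (h.1 hA))
    exact this hx
  apply h.mem (hconj A (h.1 hA) x hxG)
  rintro _ ⟨a, ha, rfl⟩
  have haX : a ∈ (⨆ A ∈ X, A) :=
    (le_iSup₂_of_le (f := fun (A : Subgroup (LinearMap.GeneralLinearGroup k M)) (_ : A ∈ X) => A) A hA le_rfl) ha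
  exact mem_Jsp (mul_mem (mul_mem hx haX) (inv_mem hx))

theorem MaxUF.notsub (hX : MaxUF W X) (hY : MaxUF W Y) (hXY : X ≠ Y) : ∃ A ∈ X, A ∉ Y := by
  by_contra hcon
  push Not at hcon
  exact hXY (Set.Subset.antisymm hcon (hX.2.2 Y hcon hY.1 hY.2.1))

theorem MaxUF.grow {G : Subgroup (LinearMap.GeneralLinearGroup k M)} (hWG : ∀ A ∈ W, A ≤ G)
    (hconj : ∀ A ∈ W, ∀ g ∈ G, conjBy A g ∈ W) (hX : MaxUF W X) (hY : MaxUF W Y) (hXY : X ≠ Y) :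
    ∃ A ∈ X, A ∉ Y ∧ A ≤ Subgroup.normalizer ((⨆ B ∈ X ∩ Y, B : Subgroup (LinearMap.GeneralLinearGroup k M)) :
      Set (LinearMap.GeneralLinearGroup k M)) := by
  obtain ⟨A₀, hA₀, hA₀Y⟩ := hX.notsub hY hXY
  have hnil : Group.IsNilpotent (⨆ A ∈ X, A : Subgroup (LinearMap.GeneralLinearGroup k M)) :=
    group_nilpotent (Jsp_alg _) hX.2.1.jsp (fun g hg => mem_Jsp hg)
  obtain ⟨A, hA, hAT, hn⟩ := growth hnil (S := X) (T := X ∩ Y)
    (fun A hA => le_iSup₂_of_le (f := fun (A : Subgroup (LinearMap.GeneralLinearGroup k M)) (_ : A ∈ X) => A) A hA le_rfl)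
    (hX.conj hWG hconj) Set.inter_subset_left hA₀ (fun h => hA₀Y h.2)
  refine ⟨A, hA, fun h => hAT ⟨hA, h⟩, fun a ha => ?_⟩
  rw [Subgroup.mem_normalizer_iff]
  intro z
  constructor
  · exact fun hz => hn a ha z hz
  · intro hz
    have := hn a⁻¹ (inv_mem ha) _ hz
    have e : a⁻¹ * (a * z * a⁻¹) * a⁻¹⁻¹ = z := by group
    rwa [e] at this

theorem baer_suzuki {G : Subgroup (LinearMap.GeneralLinearGroup k M)} (hWG : ∀ A ∈ W, A ≤ G)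
    (hWW : ∀ A ∈ W, ∀ B ∈ W, IsUnipotentOn (A ⊔ B)) (hconj : ∀ A ∈ W, ∀ g ∈ G, conjBy A g ∈ W) : UF W := by
  by_contra hW
  -- two distinct maximal families
  have hUF2 : ∀ A ∈ W, ∀ B ∈ W, UF ({A, B} : Set (Subgroup (LinearMap.GeneralLinearGroup k M))) := by
    intro A hA B hB
    refine ⟨Jsp (A ⊔ B), Jsp_alg _, nil_of_unip (hWW A hA B hB), ?_⟩
    rintro C (rfl | rfl) a ha
    · exact mem_Jsp (Subgroup.mem_sup_left ha)
    · exact mem_Jsp (Subgroup.mem_sup_right ha)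
  have hne : ∃ p : Set (Subgroup (LinearMap.GeneralLinearGroup k M)) × Set (Subgroup (LinearMap.GeneralLinearGroup k M)),
      MaxUF W p.1 ∧ MaxUF W p.2 ∧ p.1 ≠ p.2 := by
    obtain ⟨X, -, hX⟩ := exists_maxUF (T := ∅) (W := W) (Set.empty_subset _)
      ⟨⊥, by unfold Alg; rw [Submodule.bot_mul], ⟨1, by rw [pow_one]⟩, by simp⟩
    have hXW : X ≠ W := by rintro rfl; exact hW hX.2.1
    obtain ⟨B, hB, hBX⟩ := Set.exists_of_ssubset (hX.1.ssubset_of_ne hXW)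
    obtain ⟨Y, hY1, hY⟩ := exists_maxUF (T := {B, B}) (W := W) (by simpa using hB) (hUF2 B hB B hB)
    refine ⟨(X, Y), hX, hY, ?_⟩
    intro h
    apply hBX
    have h' : X = Y := h
    rw [h']
    exact hY1 (by simp)
  obtain ⟨⟨X, Y⟩, ⟨hX, hY, hXY⟩, hmax⟩ := exists_max_of_bdd
    (fun p : Set (Subgroup (LinearMap.GeneralLinearGroup k M)) × Set (Subgroup (LinearMap.GeneralLinearGroup k M)) =>
      MaxUF W p.1 ∧ MaxUF W p.2 ∧ p.1 ≠ p.2)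
    (fun p => Module.finrank k (Jsp (⨆ A ∈ p.1 ∩ p.2, A))) (Module.finrank k (M →ₗ[k] M)) (fun X => Submodule.finrank_le _) hne
  simp only at hX hY hXY hmax
  obtain ⟨A, hA, hAY, hAn⟩ := hX.grow hWG hconj hY hXY
  obtain ⟨B, hB, hBX, hBn⟩ := hY.grow hWG hconj hX hXY.symm
  rw [Set.inter_comm] at hBn
  set Z := (⨆ B ∈ X ∩ Y, B : Subgroup (LinearMap.GeneralLinearGroup k M)) with hZ
  have hLn : A ⊔ B ≤ Subgroup.normalizer (Z : Set (LinearMap.GeneralLinearGroup k M)) := sup_le hAn hBn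
  have hZalg := Jsp_alg (k := k) (M := M) Z
  have hZnil : Nil (Jsp Z) := hX.2.1.jsp.mono (jsp_mono Set.inter_subset_left)
  obtain ⟨J, hJ, hJn, hJ1, hJ2⟩ := alg_nil_sup hZalg (Jsp_alg (A ⊔ B)) hZnil (nil_of_unip (hWW A (hX.1 hA) B (hY.1 hB)))
    (Jsp_normal (fun g hg z hz => (Subgroup.mem_normalizer_iff.1 (hLn hg) z).1 hz))
  have hUT : UF (insert A (insert B (X ∩ Y))) := by
    refine ⟨J, hJ, hJn, ?_⟩
    rintro C (rfl | rfl | hC) a ha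
    · exact hJ2 (mem_Jsp (Subgroup.mem_sup_left ha))
    · exact hJ2 (mem_Jsp (Subgroup.mem_sup_right ha))
    · exact hJ1 (jsp_mem hC ha)
  obtain ⟨V, hV1, hV⟩ := exists_maxUF (W := W) (Set.insert_subset (hX.1 hA) (Set.insert_subset (hY.1 hB)
    (Set.inter_subset_left.trans hX.1))) hUT
  by_cases hVX : V = X
  · apply hBX
    rw [← hVX]
    exact hV1 (by simp)
  · have h1 := hmax (V, X) ⟨hV, hX, hVX⟩
    simp only at h1
    have h2 : X ∩ Y ⊆ V ∩ X := fun C hC => ⟨hV1 (by simp [hC.1, hC.2]), hC.1⟩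
    have h3 := Submodule.eq_of_le_of_finrank_le (jsp_mono h2) h1
    apply hAY
    apply hY.mem (hX.1 hA)
    intro a ha
    have hAVX : A ∈ V ∩ X := ⟨hV1 (by simp), hA⟩
    have h4 : (a : M →ₗ[k] M) - 1 ∈ Jsp (⨆ C ∈ V ∩ X, C) := jsp_mem hAVX ha
    rw [← h3] at h4
    exact jsp_mono Set.inter_subset_right h4

end Cfsg.Agent.H3.QP
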