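import Mathlib
import Cfsg.Agent.H2.Dick4

/-!
Quadratic pairs: elementary matrices in `SL₂` and Dickson's generation theorem.
-/

set_option autoImplicit false

namespace Cfsg.Agent.H3.QP

open Matrix (SpecialLinearGroup)

section basic
variable {R : Type*} [CommRing R]

theorem ext2 {A B : SpecialLinearGroup (Fin 2) R} (h00 : A.1 0 0 = B.1 0 0) (h01 : A.1 0 1 = B.1 0 1)
    (h10 : A.1 1 0 = B.1 1 0) (h11 : A.1 1 1 = B.1 1 1) : A = B := by
  apply Subtype.ext
  ext i j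
  fin_cases i <;> fin_cases j
  · exact h00
  · exact h01
  · exact h10
  · exact h11

theorem mul00 (A B : SpecialLinearGroup (Fin 2) R) :
    (A * B).1 0 0 = A.1 0 0 * B.1 0 0 + A.1 0 1 * B.1 1 0 := by
  change (A.1 * B.1) 0 0 = _
  rw [Matrix.mul_apply, Fin.sum_univ_two]

theorem mul01 (A B : SpecialLinearGroup (Fin 2) R) :
    (A * B).1 0 1 = A.1 0 0 * B.1 0 1 + A.1 0 1 * B.1 1 1 := by
  change (A.1 * B.1) 0 1 = _
  rw [Matrix.mul_apply, Fin.sum_univ_two]

theorem mul10 (A B : SpecialLinearGroup (Fin 2) R) :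
    (A * B).1 1 0 = A.1 1 0 * B.1 0 0 + A.1 1 1 * B.1 1 0 := by
  change (A.1 * B.1) 1 0 = _
  rw [Matrix.mul_apply, Fin.sum_univ_two]

theorem mul11 (A B : SpecialLinearGroup (Fin 2) R) :
    (A * B).1 1 1 = A.1 1 0 * B.1 0 1 + A.1 1 1 * B.1 1 1 := by
  change (A.1 * B.1) 1 1 = _
  rw [Matrix.mul_apply, Fin.sum_univ_two]

theorem inv_val (A : SpecialLinearGroup (Fin 2) R) :
    (A⁻¹).1 = !![A.1 1 1, -A.1 0 1; -A.1 1 0, A.1 0 0] :=
  (Matrix.SpecialLinearGroup.coe_inv A).trans (Matrix.adjugate_fin_two A.1)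

theorem inv00 (A : SpecialLinearGroup (Fin 2) R) : (A⁻¹).1 0 0 = A.1 1 1 := by rw [inv_val]; rfl
theorem inv01 (A : SpecialLinearGroup (Fin 2) R) : (A⁻¹).1 0 1 = -A.1 0 1 := by rw [inv_val]; rfl
theorem inv10 (A : SpecialLinearGroup (Fin 2) R) : (A⁻¹).1 1 0 = -A.1 1 0 := by rw [inv_val]; rfl
theorem inv11 (A : SpecialLinearGroup (Fin 2) R) : (A⁻¹).1 1 1 = A.1 0 0 := by rw [inv_val]; rfl
theorem one00 : (1 : SpecialLinearGroup (Fin 2) R).1 0 0 = 1 := rfl
theorem one01 : (1 : SpecialLinearGroup (Fin 2) R).1 0 1 = 0 := rfl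
theorem one10 : (1 : SpecialLinearGroup (Fin 2) R).1 1 0 = 0 := rfl
theorem one11 : (1 : SpecialLinearGroup (Fin 2) R).1 1 1 = 1 := rfl

theorem det_eq (A : SpecialLinearGroup (Fin 2) R) : A.1 0 0 * A.1 1 1 - A.1 0 1 * A.1 1 0 = 1 := by
  have := A.2
  rwa [Matrix.det_fin_two] at this

/-- upper unitriangular -/
def uu (x : R) : SpecialLinearGroup (Fin 2) R := ⟨!![1, x; 0, 1], by simp [Matrix.det_fin_two]⟩
/-- lower unitriangular -/
def vv (x : R) : SpecialLinearGroup (Fin 2) R := ⟨!![1, 0; x, 1], by simp [Matrix.det_fin_two]⟩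

@[simp] theorem uu00 (x : R) : (uu x).1 0 0 = 1 := rfl
@[simp] theorem uu01 (x : R) : (uu x).1 0 1 = x := rfl
@[simp] theorem uu10 (x : R) : (uu x).1 1 0 = 0 := rfl
@[simp] theorem uu11 (x : R) : (uu x).1 1 1 = 1 := rfl
@[simp] theorem vv00 (x : R) : (vv x).1 0 0 = 1 := rfl
@[simp] theorem vv01 (x : R) : (vv x).1 0 1 = 0 := rfl
@[simp] theorem vv10 (x : R) : (vv x).1 1 0 = x := rfl
@[simp] theorem vv11 (x : R) : (vv x).1 1 1 = 1 := rfl

theorem uu_add (x y : R) : uu (x + y) = uu x * uu y := by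
  apply ext2 <;> simp only [mul00, mul01, mul10, mul11, uu00, uu01, uu10, uu11] <;> ring
theorem vv_add (x y : R) : vv (x + y) = vv x * vv y := by
  apply ext2 <;> simp only [mul00, mul01, mul10, mul11, vv00, vv01, vv10, vv11] <;> ring
theorem uu_zero : uu (0 : R) = 1 := by
  apply ext2 <;> simp only [one00, one01, one10, one11, uu00, uu01, uu10, uu11]
theorem vv_zero : vv (0 : R) = 1 := by
  apply ext2 <;> simp only [one00, one01, one10, one11, vv00, vv01, vv10, vv11]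
theorem uu_inv (x : R) : (uu x)⁻¹ = uu (-x) := by
  apply ext2 <;> simp only [inv00, inv01, inv10, inv11, uu00, uu01, uu10, uu11] <;> ring
theorem vv_inv (x : R) : (vv x)⁻¹ = vv (-x) := by
  apply ext2 <;> simp only [inv00, inv01, inv10, inv11, vv00, vv01, vv10, vv11] <;> ring

theorem uu_inj {x y : R} (h : uu x = uu y) : x = y := by
  have := congrArg (fun A : SpecialLinearGroup (Fin 2) R => A.1 0 1) h
  simpa using this
theorem vv_inj {x y : R} (h : vv x = vv y) : x = y := by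
  have := congrArg (fun A : SpecialLinearGroup (Fin 2) R => A.1 1 0) h
  simpa using this

/-- the additive group of `x` with `uu x ∈ H` -/
def EE (H : Subgroup (SpecialLinearGroup (Fin 2) R)) : AddSubgroup R where
  carrier := {x | uu x ∈ H}
  zero_mem' := by show uu 0 ∈ H; rw [uu_zero]; exact one_mem _
  add_mem' := by intro x y hx hy; show uu (x + y) ∈ H; rw [uu_add]; exact mul_mem hx hy
  neg_mem' := by intro x hx; show uu (-x) ∈ H; rw [← uu_inv]; exact inv_mem hx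

/-- the additive group of `x` with `vv x ∈ H` -/
def FF (H : Subgroup (SpecialLinearGroup (Fin 2) R)) : AddSubgroup R where
  carrier := {x | vv x ∈ H}
  zero_mem' := by show vv 0 ∈ H; rw [vv_zero]; exact one_mem _
  add_mem' := by intro x y hx hy; show vv (x + y) ∈ H; rw [vv_add]; exact mul_mem hx hy
  neg_mem' := by intro x hx; show vv (-x) ∈ H; rw [← vv_inv]; exact inv_mem hx

theorem mem_EE {H : Subgroup (SpecialLinearGroup (Fin 2) R)} {x : R} : x ∈ EE H ↔ uu x ∈ H := Iff.rfl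
theorem mem_FF {H : Subgroup (SpecialLinearGroup (Fin 2) R)} {x : R} : x ∈ FF H ↔ vv x ∈ H := Iff.rfl

end basic

section field
variable {K : Type*} [Field K]

/-- `SL₂` of a field is generated by the unitriangular matrices -/
theorem top_of_uv {H : Subgroup (SpecialLinearGroup (Fin 2) K)} (hu : ∀ x, uu x ∈ H) (hv : ∀ x, vv x ∈ H) :
    H = ⊤ := by
  have key : ∀ A : SpecialLinearGroup (Fin 2) K, A.1 1 0 ≠ 0 → A ∈ H := by
    intro A hA
    have hd := det_eq A
    have : A = uu ((A.1 0 0 - 1) / A.1 1 0) * vv (A.1 1 0) * uu ((A.1 1 1 - 1) / A.1 1 0) := by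
      apply ext2 <;> simp only [mul00, mul01, mul10, mul11, vv00, vv01, vv10, vv11, uu00, uu01, uu10, uu11] <;>
        field_simp <;> first | ring1 | linear_combination -hd | linear_combination hd | linear_combination (2:K) * hd | skip
    rw [this]
    exact mul_mem (mul_mem (hu _) (hv _)) (hu _)
  rw [eq_top_iff]
  intro A _
  by_cases h : A.1 1 0 = 0
  · have hd := det_eq A
    have h0 : A.1 0 0 ≠ 0 := by
      intro h0
      rw [h0, h] at hd
      simp at hd
    have h1 : vv 1 * A ∈ H := by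
      apply key
      rw [mul10, vv10, vv11, h, one_mul, mul_zero, add_zero]
      exact h0
    have h2 := mul_mem (inv_mem (hv 1)) h1
    rwa [inv_mul_cancel_left] at h2
  · exact key A h

/-- the Weyl element -/
theorem ww_mem {H : Subgroup (SpecialLinearGroup (Fin 2) K)} {e : K} (he : uu e ∈ H) (hf : vv (e⁻¹) ∈ H) :
    uu e * vv (-e⁻¹) * uu e ∈ H := by
  refine mul_mem (mul_mem he ?_) he
  rw [← vv_inv]; exact inv_mem hf

theorem torus_mem {H : Subgroup (SpecialLinearGroup (Fin 2) K)} (h1 : uu 1 ∈ H)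
    (hinv : ∀ e : K, e ≠ 0 → uu e ∈ H → vv (e⁻¹) ∈ H) {e x : K} (he0 : e ≠ 0) (he : uu e ∈ H) (hx : uu x ∈ H) :
    uu (e ^ 2 * x) ∈ H := by
  have a1 := ww_mem he (hinv e he0 he)
  have a2 := ww_mem h1 (hinv 1 one_ne_zero h1)
  have a3 := mul_mem a1 (inv_mem a2)
  have a4 := mul_mem (mul_mem a3 hx) (inv_mem a3)
  convert a4 using 1
  apply ext2 <;> simp only [mul_inv_rev, mul00, mul01, mul10, mul11, vv00, vv01, vv10, vv11, uu00, uu01, uu10, uu11,
    inv00, inv01, inv10, inv11] <;> field_simp <;> ring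

theorem w_conj {H : Subgroup (SpecialLinearGroup (Fin 2) K)} (h1 : uu 1 ∈ H) (h2 : vv 1 ∈ H) {x : K} :
    uu x ∈ H ↔ vv x ∈ H := by
  have a2 : uu 1 * vv (-1) * uu 1 ∈ H := by
    refine mul_mem (mul_mem h1 ?_) h1
    rw [← vv_inv]; exact inv_mem h2
  have key : (uu 1 * vv (-1) * uu 1) * uu x * (uu 1 * vv (-1) * uu 1)⁻¹ = vv (-x) := by
    apply ext2 <;> simp only [mul_inv_rev, mul00, mul01, mul10, mul11, vv00, vv01, vv10, vv11, uu00, uu01, uu10, uu11,
      inv00, inv01, inv10, inv11] <;> ring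
  constructor
  · intro hx
    have := mul_mem (mul_mem a2 hx) (inv_mem a2)
    rw [key, ← vv_inv] at this
    exact (inv_mem_iff).1 this
  · intro hx
    have h3 : vv (-x) ∈ H := by rw [← vv_inv]; exact inv_mem hx
    rw [← key] at h3
    have := mul_mem (mul_mem (inv_mem a2) h3) a2
    have e : (uu 1 * vv (-1) * uu 1)⁻¹ * ((uu 1 * vv (-1) * uu 1) * uu x * (uu 1 * vv (-1) * uu 1)⁻¹) * (uu 1 * vv (-1) * uu 1) = uu x := by
      group
    rwa [e] at this

theorem mul_closed {H : Subgroup (SpecialLinearGroup (Fin 2) K)} (h1 : uu 1 ∈ H)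
    (hinv : ∀ e : K, e ≠ 0 → uu e ∈ H → vv (e⁻¹) ∈ H) (hhalf : ∀ x : K, uu (2 * x) ∈ H → uu x ∈ H)
    {e x : K} (he : uu e ∈ H) (hx : uu x ∈ H) : uu (e * x) ∈ H := by
  by_cases he0 : e = 0
  · rw [he0, zero_mul, uu_zero]; exact one_mem _
  by_cases he1 : e + 1 = 0
  · have : e * x = -x := by linear_combination x * he1
    rw [this, ← uu_inv]; exact inv_mem hx
  apply hhalf
  have a1 := torus_mem h1 hinv he1 (by rw [uu_add]; exact mul_mem he h1) hx
  have a2 := torus_mem h1 hinv he0 he hx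
  have a3 : uu ((e + 1) ^ 2 * x + -(e ^ 2 * x) + -x) ∈ H := by
    rw [uu_add, uu_add, ← uu_inv, ← uu_inv x]
    exact mul_mem (mul_mem a1 (inv_mem a2)) (inv_mem hx)
  convert a3 using 2
  ring

/-- the subgroup generated by `uu x`, `vv (x α)`, `x ∈ F` -/
def HS {R : Type*} [CommRing R] (F : Set R) (α : R) : Subgroup (SpecialLinearGroup (Fin 2) R) :=
  Subgroup.closure ({g | ∃ x ∈ F, g = uu x} ∪ {g | ∃ x ∈ F, g = vv (x * α)})

theorem HS_uu {R : Type*} [CommRing R] {F : Set R} {α x : R} (hx : x ∈ F) : uu x ∈ HS F α :=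
  Subgroup.subset_closure (Or.inl ⟨x, hx, rfl⟩)
theorem HS_vv {R : Type*} [CommRing R] {F : Set R} {α x : R} (hx : x ∈ F) : vv (x * α) ∈ HS F α :=
  Subgroup.subset_closure (Or.inr ⟨x, hx, rfl⟩)

theorem HS_le {R : Type*} [CommRing R] {F : Set R} {α : R} {H : Subgroup (SpecialLinearGroup (Fin 2) R)}
    (h1 : ∀ x ∈ F, uu x ∈ H) (h2 : ∀ x ∈ F, vv (x * α) ∈ H) : HS F α ≤ H := by
  unfold HS
  rw [Subgroup.closure_le]
  rintro g (⟨x, hx, rfl⟩ | ⟨x, hx, rfl⟩)
  · exact h1 x hx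
  · exact h2 x hx

end field

end Cfsg.Agent.H3.QP
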