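import Mathlib
import Cfsg.Prelude.Def_RootSubgroups

/-!
Quadratic pairs: square zero operators of minimal rank, unipotent pairs.
-/

set_option autoImplicit false

namespace Cfsg.Agent.H3.QP

variable {k : Type*} [Field k] {M : Type*} [AddCommGroup M] [Module k M]

local notation "GL" => LinearMap.GeneralLinearGroup k M
local notation "En" => (M →ₗ[k] M)

/-- the rank -/
noncomputable def rk (n : M →ₗ[k] M) : ℕ := Module.finrank k (LinearMap.range n)

theorem rk_mul_left [FiniteDimensional k M] (a b : M →ₗ[k] M) : rk (a * b) ≤ rk a :=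
  Submodule.finrank_mono (by rintro _ ⟨x, rfl⟩; exact ⟨b x, rfl⟩)

theorem rk_mul_right [FiniteDimensional k M] (a b : M →ₗ[k] M) : rk (a * b) ≤ rk b := by
  have : LinearMap.range (a * b) = (LinearMap.range b).map a := by
    ext x
    constructor
    · rintro ⟨y, rfl⟩; exact ⟨b y, ⟨y, rfl⟩, rfl⟩
    · rintro ⟨_, ⟨y, rfl⟩, rfl⟩; exact ⟨y, rfl⟩
  unfold rk
  rw [this]
  exact Submodule.finrank_map_le _ _

theorem rk_smul_le [FiniteDimensional k M] (c : k) (a : M →ₗ[k] M) : rk (c • a) ≤ rk a := by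
  have : c • a = (c • (1 : M →ₗ[k] M)) * a := by rw [smul_mul_assoc, one_mul]
  rw [this]; exact rk_mul_right _ _

/-- the square zero operators whose scalar family lies in `G` -/
def NN (G : Subgroup GL) (n : M →ₗ[k] M) : Prop :=
  n * n = 0 ∧ ∀ c : k, ∃ g : GL, g ∈ G ∧ (g : M →ₗ[k] M) = 1 + c • n

/-- the square zero operators of minimal rank -/
def N1 (G : Subgroup GL) (d : ℕ) (n : M →ₗ[k] M) : Prop := NN G n ∧ n ≠ 0 ∧ rk n ≤ d

/-- `d` is a lower bound of the ranks -/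
def MinR (G : Subgroup GL) (d : ℕ) : Prop := ∀ n, NN G n → n ≠ 0 → d ≤ rk n

variable {G : Subgroup (LinearMap.GeneralLinearGroup k M)} {d : ℕ} {n m : M →ₗ[k] M}

theorem inv_val_of {g : GL} {x : M →ₗ[k] M} (hx : x * x = 0) (hg : (g : M →ₗ[k] M) = 1 + x) :
    ((g⁻¹ : GL) : M →ₗ[k] M) = 1 - x := by
  have h1 : (g : M →ₗ[k] M) * (1 - x) = 1 := by
    rw [hg, mul_sub, mul_one, add_mul, one_mul, hx]; abel
  have h2 : ((g⁻¹ : GL) : M →ₗ[k] M) * ((g : M →ₗ[k] M) * (1 - x)) = 1 - x := by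
    rw [← mul_assoc, Units.inv_mul, one_mul]
  rw [← h2, h1, mul_one]

theorem smul_sq {c : k} (hn : n * n = 0) : (c • n) * (c • n) = 0 := by
  rw [smul_mul_smul_comm, hn, smul_zero]

theorem NN.exists_unit (h : NN G n) (c : k) : ∃ g : GL, g ∈ G ∧ (g : M →ₗ[k] M) = 1 + c • n ∧
    ((g⁻¹ : GL) : M →ₗ[k] M) = 1 - c • n := by
  obtain ⟨g, hg, hg'⟩ := h.2 c
  exact ⟨g, hg, hg', inv_val_of (smul_sq h.1) hg'⟩

theorem NN.conj (h : NN G n) {g : GL} (hg : g ∈ G) : NN G ((g : M →ₗ[k] M) * n * ((g⁻¹ : GL) : M →ₗ[k] M)) := by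
  refine ⟨?_, fun c => ?_⟩
  · have : (g : M →ₗ[k] M) * n * ((g⁻¹ : GL) : M →ₗ[k] M) * ((g : M →ₗ[k] M) * n * ((g⁻¹ : GL) : M →ₗ[k] M)) =
        (g : M →ₗ[k] M) * (n * (((g⁻¹ : GL) : M →ₗ[k] M) * (g : M →ₗ[k] M)) * n) * ((g⁻¹ : GL) : M →ₗ[k] M) := by
      simp only [mul_assoc]
    rw [this, Units.inv_mul, mul_one, h.1, mul_zero, zero_mul]
  · obtain ⟨x, hx, hx'⟩ := h.2 c
    refine ⟨g * x * g⁻¹, mul_mem (mul_mem hg hx) (inv_mem hg), ?_⟩
    rw [Units.val_mul, Units.val_mul, hx', mul_add, mul_one, add_mul, Units.mul_inv, mul_smul_comm, smul_mul_assoc]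

theorem NN.smul (h : NN G n) (c : k) : NN G (c • n) :=
  ⟨smul_sq h.1, fun c' => by
    obtain ⟨x, hx, hx'⟩ := h.2 (c' * c)
    exact ⟨x, hx, by rw [hx', smul_smul]⟩⟩

theorem NN.add (h : NN G n) (h' : NN G m) (h1 : n * m = 0) (h2 : m * n = 0) : NN G (n + m) := by
  refine ⟨by rw [mul_add, add_mul, add_mul, h.1, h'.1, h1, h2]; simp, fun c => ?_⟩
  obtain ⟨x, hx, hx'⟩ := h.2 c
  obtain ⟨y, hy, hy'⟩ := h'.2 c
  refine ⟨x * y, mul_mem hx hy, ?_⟩
  rw [Units.val_mul, hx', hy', add_mul, mul_add, mul_add, one_mul, mul_one, one_mul, smul_mul_smul_comm, h1, smul_zero,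
    add_zero, smul_add]
  abel

theorem NN.neg (h : NN G n) : NN G (-n) := by
  have := h.smul (-1)
  rwa [neg_one_smul] at this

theorem rk_conj_le [FiniteDimensional k M] (g : GL) (n : M →ₗ[k] M) :
    rk ((g : M →ₗ[k] M) * n * ((g⁻¹ : GL) : M →ₗ[k] M)) ≤ rk n :=
  (rk_mul_left _ _).trans (rk_mul_right _ _)

theorem conj_back (g : GL) (n : M →ₗ[k] M) :
    ((g⁻¹ : GL) : M →ₗ[k] M) * ((g : M →ₗ[k] M) * n * ((g⁻¹ : GL) : M →ₗ[k] M)) * (g : M →ₗ[k] M) = n := by
  have : ((g⁻¹ : GL) : M →ₗ[k] M) * ((g : M →ₗ[k] M) * n * ((g⁻¹ : GL) : M →ₗ[k] M)) * (g : M →ₗ[k] M) =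
      (((g⁻¹ : GL) : M →ₗ[k] M) * (g : M →ₗ[k] M)) * n * (((g⁻¹ : GL) : M →ₗ[k] M) * (g : M →ₗ[k] M)) := by
    simp only [mul_assoc]
  rw [this, Units.inv_mul, one_mul, mul_one]

theorem conj_ne_zero {g : GL} (hn : n ≠ 0) : (g : M →ₗ[k] M) * n * ((g⁻¹ : GL) : M →ₗ[k] M) ≠ 0 := by
  intro h
  apply hn
  rw [← conj_back g n, h, mul_zero, zero_mul]

theorem N1.conj [FiniteDimensional k M] (h : N1 G d n) {g : GL} (hg : g ∈ G) :
    N1 G d ((g : M →ₗ[k] M) * n * ((g⁻¹ : GL) : M →ₗ[k] M)) :=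
  ⟨h.1.conj hg, conj_ne_zero h.2.1, (rk_conj_le g n).trans h.2.2⟩

/-- conjugating by `1 + m` -/
theorem N1.conj1 [FiniteDimensional k M] (h : N1 G d n) (h' : NN G m) : N1 G d ((1 + m) * n * (1 - m)) := by
  obtain ⟨g, hg, h1, h2⟩ := h'.exists_unit 1
  rw [one_smul] at h1 h2
  have := h.conj hg
  rwa [h1, h2] at this

/-- the commutator of `1 + a n` and `1 + b m` -/
theorem comm_formula (hn : n * n = 0) (hm : m * m = 0) (a b : k) :
    (1 + a • n) * (1 + b • m) * (1 - a • n) * (1 - b • m) =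
      1 + (a * b) • (n * m - m * n) + (a * b ^ 2) • (m * (n * m)) - (a ^ 2 * b) • (n * (m * n)) +
        (a ^ 2 * b ^ 2) • (n * (m * (n * m))) := by
  have hn' : ∀ x, n * (n * x) = 0 := fun x => by rw [← mul_assoc, hn, zero_mul]
  have hm' : ∀ x, m * (m * x) = 0 := fun x => by rw [← mul_assoc, hm, zero_mul]
  simp only [mul_add, add_mul, mul_sub, sub_mul, mul_one, one_mul, smul_mul_assoc, mul_smul_comm, smul_smul,
    mul_assoc, hn, hm, hn', hm', mul_zero, zero_mul, smul_zero]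
  module

theorem comm_mem (h : NN G n) (h' : NN G m) (a b : k) : ∃ g : GL, g ∈ G ∧ (g : M →ₗ[k] M) =
      1 + (a * b) • (n * m - m * n) + (a * b ^ 2) • (m * (n * m)) - (a ^ 2 * b) • (n * (m * n)) +
        (a ^ 2 * b ^ 2) • (n * (m * (n * m))) := by
  obtain ⟨x, hx, hx1, hx2⟩ := h.exists_unit a
  obtain ⟨y, hy, hy1, hy2⟩ := h'.exists_unit b
  refine ⟨x * y * x⁻¹ * y⁻¹, mul_mem (mul_mem (mul_mem hx hy) (inv_mem hx)) (inv_mem hy), ?_⟩
  rw [Units.val_mul, Units.val_mul, Units.val_mul, hx1, hx2, hy1, hy2]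
  exact comm_formula h.1 h'.1 a b

/-- the class two case -/
theorem NN.comm2 (h : NN G n) (h' : NN G m) (h1 : n * (m * n) = 0) (h2 : m * (n * m) = 0) : NN G (n * m - m * n) := by
  refine ⟨?_, fun c => ?_⟩
  · have e1 : n * (m * (n * m)) = 0 := by rw [h2, mul_zero]
    have e2 : n * (m * (m * n)) = 0 := by rw [← mul_assoc m m n, h'.1, zero_mul, mul_zero]
    have e3 : m * (n * (n * m)) = 0 := by rw [← mul_assoc n n m, h.1, zero_mul, mul_zero]
    have e4 : m * (n * (m * n)) = 0 := by rw [h1, mul_zero]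
    simp only [mul_sub, sub_mul, mul_assoc, e1, e2, e3, e4, sub_zero]
  · obtain ⟨g, hg, hg'⟩ := comm_mem h h' c 1
    refine ⟨g, hg, ?_⟩
    rw [hg', h1, h2, mul_zero]
    simp

/-- base case of the unipotent pairs -/
theorem unip_base [FiniteDimensional k M] (h2k : (2 : k) ≠ 0) (hmin : MinR G d) (h : N1 G d n) (h' : N1 G d m)
    (h1 : n * (m * (n * (m * n))) = 0) (h2 : m * (n * (m * (n * m))) = 0) : n * (m * n) = 0 := by
  by_contra hne
  have hn := h.1.1
  have hm := h'.1.1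
  have hn' : ∀ x, n * (n * x) = 0 := fun x => by rw [← mul_assoc, hn, zero_mul]
  have hm' : ∀ x, m * (m * x) = 0 := fun x => by rw [← mul_assoc, hm, zero_mul]
  have h1' : ∀ x, n * (m * (n * (m * (n * x)))) = 0 := fun x => by
    have := congrArg (· * x) h1
    simpa [mul_assoc] using this
  have h2' : ∀ x, m * (n * (m * (n * (m * x)))) = 0 := fun x => by
    have := congrArg (· * x) h2
    simpa [mul_assoc] using this
  -- the elements of `G`
  have hg : ∀ a b : k, ∃ g : GL, g ∈ G ∧ (g : M →ₗ[k] M) = 1 + (-2 * (a ^ 2 * b)) • (n * (m * n)) +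
      (a ^ 2 * b ^ 2) • (n * (m * (n * m)) - m * (n * (m * n))) := by
    intro a b
    obtain ⟨x, hx, hx'⟩ := comm_mem h.1 h'.1 a b
    obtain ⟨y, hy, hy'⟩ := comm_mem h.1 h'.1 (-a) b
    refine ⟨x * y, mul_mem hx hy, ?_⟩
    rw [Units.val_mul, hx', hy']
    simp only [mul_add, add_mul, mul_sub, sub_mul, mul_one, one_mul, smul_mul_assoc, mul_smul_comm, smul_smul,
      mul_assoc, hn, hm, hn', hm', h1, h2, h1', h2', mul_zero, zero_mul, smul_zero]
    module
  -- additivity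
  let S : AddSubgroup (k × k) := {
    carrier := {p | ∃ g : GL, g ∈ G ∧ (g : M →ₗ[k] M) = 1 + p.1 • (n * (m * n)) +
      p.2 • (n * (m * (n * m)) - m * (n * (m * n)))}
    zero_mem' := ⟨1, one_mem _, by simp⟩
    add_mem' := by
      rintro ⟨a, b⟩ ⟨a', b'⟩ ⟨x, hx, hx'⟩ ⟨y, hy, hy'⟩
      refine ⟨x * y, mul_mem hx hy, ?_⟩
      rw [Units.val_mul, hx', hy']
      simp only [mul_add, add_mul, mul_sub, sub_mul, mul_one, one_mul, smul_mul_assoc, mul_smul_comm, smul_smul,
        mul_assoc, hn, hm, hn', hm', h1, h2, h1', h2', mul_zero, zero_mul, smul_zero, Prod.fst_add, Prod.snd_add]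
      module
    neg_mem' := by
      rintro ⟨a, b⟩ ⟨x, hx, hx'⟩
      refine ⟨x⁻¹, inv_mem hx, ?_⟩
      have hz : (a • (n * (m * n)) + b • (n * (m * (n * m)) - m * (n * (m * n)))) *
          (a • (n * (m * n)) + b • (n * (m * (n * m)) - m * (n * (m * n)))) = 0 := by
        simp only [mul_add, add_mul, mul_sub, sub_mul, mul_one, one_mul, smul_mul_assoc, mul_smul_comm, smul_smul,
          mul_assoc, hn, hm, hn', hm', h1, h2, h1', h2', mul_zero, zero_mul, smul_zero, sub_zero, add_zero]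
      rw [inv_val_of hz (by rw [hx', add_assoc])]
      simp only [Prod.fst_neg, Prod.snd_neg]
      module }
  have hS1 : ∀ a b : k, ((-2 * (a ^ 2 * b), a ^ 2 * b ^ 2) : k × k) ∈ S := fun a b => hg a b
  have hS2 : ∀ w : k, ((0, w) : k × k) ∈ S := by
    intro w
    have e1 := hS1 1 1
    have e2 := hS1 1 (-w / 2)
    have e3 := hS1 1 (1 + -w / 2)
    have e4 := S.sub_mem (S.add_mem e1 e2) e3
    convert e4 using 1
    ext
    · simp; ring
    · simp; field_simp; ring
  have hS3 : ∀ c : k, ((c, 0) : k × k) ∈ S := by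
    intro c
    have e1 := hS1 1 (-c / 2)
    have e4 := S.sub_mem e1 (hS2 (1 ^ 2 * (-c / 2) ^ 2))
    convert e4 using 1
    ext
    · simp; field_simp
    · simp
  have hNN : NN G (n * (m * n)) := by
    refine ⟨?_, fun c => ?_⟩
    · simp only [mul_assoc, hn', mul_zero]
    · obtain ⟨g, hg, hg'⟩ := hS3 c
      exact ⟨g, hg, by rw [hg']; simp⟩
  have hr := hmin _ hNN hne
  -- the range does not change
  have hle : LinearMap.range (n * (m * n)) ≤ LinearMap.range n := by rintro _ ⟨x, rfl⟩; exact ⟨(m * n) x, rfl⟩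
  have heq : LinearMap.range (n * (m * n)) = LinearMap.range n :=
    Submodule.eq_of_le_of_finrank_le hle (h.2.2.trans hr)
  apply h.2.1
  ext x
  have hx : n x ∈ LinearMap.range (n * (m * n)) := by rw [heq]; exact ⟨x, rfl⟩
  obtain ⟨y, hy⟩ := hx
  have hy2 : n y ∈ LinearMap.range (n * (m * n)) := by rw [heq]; exact ⟨y, rfl⟩
  obtain ⟨z, hz⟩ := hy2
  have h5 : (n * (m * (n * (m * n)))) z = n x := by
    change n (m (n (m (n z)))) = n x
    change n (m (n z)) = n y at hz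
    change n (m (n y)) = n x at hy
    rw [hz, hy]
  rw [h1] at h5
  exact h5.symm

/-- unipotent pairs -/
theorem unip_pair [FiniteDimensional k M] (h2k : (2 : k) ≠ 0) (hmin : MinR G d) (r : ℕ) :
    ∀ n m : M →ₗ[k] M, N1 G d n → N1 G d m → (n * m + m * n) ^ r = 0 → n * (m * n) = 0 := by
  induction r using Nat.strong_induction_on with
  | _ r ih =>
    have key : ∀ n m : M →ₗ[k] M, N1 G d n → N1 G d m → (n * m + m * n) ^ r = 0 → n * (m * (n * (m * n))) = 0 := by
      intro n m h h' hr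
      have hn := h.1.1
      have hm := h'.1.1
      have hn' : ∀ x, n * (n * x) = 0 := fun x => by rw [← mul_assoc, hn, zero_mul]
      have hm' : ∀ x, m * (m * x) = 0 := fun x => by rw [← mul_assoc, hm, zero_mul]
      have hz2 : (n * m + m * n) ^ 2 = n * (m * (n * m)) + m * (n * (m * n)) := by
        rw [pow_two]
        simp only [mul_add, add_mul, mul_assoc, hn', hm', mul_zero, zero_mul, add_zero, zero_add]
      rcases Nat.lt_or_ge r 3 with h3 | h3
      · have h4 : (n * m + m * n) ^ 2 = 0 := by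
          have : (n * m + m * n) ^ 2 = (n * m + m * n) ^ r * (n * m + m * n) ^ (2 - r) := by
            rw [← pow_add]; congr 1; omega
          rw [this, hr, zero_mul]
        have h5 : (n * m + m * n) ^ 2 * n = n * (m * (n * (m * n))) := by
          rw [hz2]
          simp only [mul_add, add_mul, mul_assoc, hn, mul_zero, add_zero]
        rw [← h5, h4, zero_mul]
      · -- conjugate
        have hc := h.conj1 h'.1
        have e1 : n * ((1 + m) * n * (1 - m)) + (1 + m) * n * (1 - m) * n = -((n * m + m * n) ^ 2) := by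
          rw [hz2]
          simp only [mul_add, add_mul, mul_sub, sub_mul, mul_one, one_mul, mul_assoc, hn, hm, hn', hm', mul_zero, zero_mul]
          abel
        have e2 : (n * ((1 + m) * n * (1 - m)) + (1 + m) * n * (1 - m) * n) ^ ((r + 1) / 2) = 0 := by
          rw [e1, neg_pow, ← pow_mul]
          have : (n * m + m * n) ^ (2 * ((r + 1) / 2)) = (n * m + m * n) ^ r * (n * m + m * n) ^ (2 * ((r + 1) / 2) - r) := by
            rw [← pow_add]; congr 1; omega
          rw [this, hr, zero_mul, mul_zero]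
        have e3 := ih ((r + 1) / 2) (by omega) n _ h hc e2
        have e4 : n * ((1 + m) * n * (1 - m) * n) = -(n * (m * (n * (m * n)))) := by
          simp only [mul_add, add_mul, mul_sub, sub_mul, mul_one, one_mul, mul_assoc, hn, hm, hn', hm', mul_zero, zero_mul]
          abel
        rw [e4, neg_eq_zero] at e3
        exact e3
    intro n m h h' hr
    have hr' : (m * n + n * m) ^ r = 0 := by rw [add_comm]; exact hr
    exact unip_base h2k hmin h h' (key n m h h' hr) (key m n h' h hr')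

end Cfsg.Agent.H3.QP
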