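import Mathlib
import Cfsg.Agent.H3.QPOp

/-!
Quadratic pairs: Fitting decomposition of an operator and the algebra attached to it.
-/

set_option autoImplicit false

namespace Cfsg.Agent.H3.QP

open Polynomial

universe u v

section ring
variable {R : Type*} [Ring R]

/-- `e` is the Fitting idempotent of `z` and `w` the inverse of `z` on it -/
structure Fit (z e w : R) : Prop where
  zw : z * w = e
  wz : w * z = e
  ew : e * w = w
  we : w * e = w
  nil : ∃ r : ℕ, z ^ r * (1 - e) = 0

variable {z e w x : R}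

theorem Fit.ee (h : Fit z e w) : e * e = e := by
  rw [← h.zw, mul_assoc, ← mul_assoc w z w, h.wz, h.ew]

theorem Fit.ez (h : Fit z e w) : e * z = z * e := by
  rw [← h.wz, ← mul_assoc, h.zw, h.wz]

theorem Fit.pow (h : Fit z e w) (n : ℕ) : z ^ (n + 1) * w ^ (n + 1) = e := by
  induction n with
  | zero => simpa using h.zw
  | succ n ih =>
    rw [pow_succ, pow_succ' w (n + 1), mul_assoc, ← mul_assoc z w, h.zw, pow_succ' w n, ← mul_assoc e w, h.ew,
      ← pow_succ', ih]

theorem Fit.pow' (h : Fit z e w) (n : ℕ) : w ^ (n + 1) * z ^ (n + 1) = e := by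
  induction n with
  | zero => simpa using h.wz
  | succ n ih =>
    rw [pow_succ, pow_succ' z (n + 1), mul_assoc, ← mul_assoc w z, h.wz, ← mul_assoc, pow_succ w n, mul_assoc _ w e, h.we,
      ← pow_succ, ih]

theorem Fit.comm_e (h : Fit z e w) (hx : x * z = z * x) : x * e = e * x := by
  obtain ⟨r, hr⟩ := h.nil
  have hxr : ∀ r : ℕ, x * z ^ r = z ^ r * x := by
    intro r
    induction r with
    | zero => simp
    | succ r ih => rw [pow_succ, ← mul_assoc, ih, mul_assoc, hx, mul_assoc]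
  have hez : ∀ r : ℕ, e * z ^ r = z ^ r * e := by
    intro r
    induction r with
    | zero => simp
    | succ r ih => rw [pow_succ, ← mul_assoc, ih, mul_assoc, h.ez, mul_assoc]
  have hr1 : z ^ (r + 1) * (1 - e) = 0 := by rw [pow_succ', mul_assoc, hr, mul_zero]
  have h1 : (1 - e) * (x * e) = 0 := by
    have : (1 - e) * z ^ (r + 1) = z ^ (r + 1) * (1 - e) := by rw [sub_mul, mul_sub, hez]; simp
    calc (1 - e) * (x * e) = (1 - e) * (x * (z ^ (r + 1) * w ^ (r + 1))) := by rw [h.pow]
      _ = ((1 - e) * z ^ (r + 1)) * x * w ^ (r + 1) := by rw [← mul_assoc x, hxr]; simp only [mul_assoc]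
      _ = 0 := by rw [this, hr1, zero_mul, zero_mul]
  have h2 : (e * x) * (1 - e) = 0 := by
    calc (e * x) * (1 - e) = (w ^ (r + 1) * z ^ (r + 1)) * x * (1 - e) := by rw [h.pow']
      _ = w ^ (r + 1) * (x * (z ^ (r + 1) * (1 - e))) := by rw [mul_assoc (w ^ (r + 1)), ← hxr]; simp only [mul_assoc]
      _ = 0 := by rw [hr1, mul_zero, mul_zero]
  rw [sub_mul, one_mul, sub_eq_zero] at h1
  rw [mul_sub, mul_one, sub_eq_zero, mul_assoc] at h2
  rw [h1, h2]

theorem Fit.comm_w (h : Fit z e w) (hx : x * z = z * x) : x * w = w * x := by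
  have he := h.comm_e hx
  calc x * w = e * x * w := by rw [← he, mul_assoc, h.ew]
    _ = w * (z * x) * w := by rw [← h.wz]; simp only [mul_assoc]
    _ = w * x * (z * w) := by rw [← hx]; simp only [mul_assoc]
    _ = w * x := by rw [h.zw, mul_assoc, he, ← mul_assoc, h.we]

/-- the Fitting data of `- z²` -/
theorem Fit.negsq (h : Fit z e w) : Fit (-(z ^ 2)) e (-(w ^ 2)) where
  zw := by rw [neg_mul_neg]; exact h.pow 1
  wz := by rw [neg_mul_neg]; exact h.pow' 1
  ew := by rw [mul_neg, pow_two, ← mul_assoc, h.ew]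
  we := by rw [neg_mul, pow_two, mul_assoc, h.we]
  nil := by
    obtain ⟨r, hr⟩ := h.nil
    refine ⟨r, ?_⟩
    rw [neg_pow, ← pow_mul, mul_comm 2 r, mul_two, pow_add, mul_assoc, mul_assoc, hr, mul_zero, mul_zero]

end ring

variable {k : Type u} [Field k] {M : Type v} [AddCommGroup M] [Module k M]

theorem exists_fit [FiniteDimensional k M] (z : M →ₗ[k] M) : ∃ e w, Fit z e w := by
  have hp : minpoly k z ≠ 0 := minpoly.ne_zero (Algebra.IsIntegral.isIntegral z)
  obtain ⟨g, hg, hg'⟩ := Polynomial.exists_eq_pow_rootMultiplicity_mul_and_not_dvd (minpoly k z) hp 0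
  set s := rootMultiplicity 0 (minpoly k z)
  rw [C_0, sub_zero] at hg hg'
  have hcop : IsCoprime ((X : k[X]) ^ (s + 1)) g :=
    ((Polynomial.prime_X (R := k)).irreducible.coprime_iff_not_dvd.2 hg').pow_left
  obtain ⟨a, b, hab⟩ := hcop
  have h0 : aeval z (X ^ s * g) = 0 := by rw [← hg]; exact minpoly.aeval _ _
  have ecomm : ∀ p q : k[X], aeval z p * aeval z q = aeval z q * aeval z p := by
    intro p q; rw [← map_mul, mul_comm, map_mul]
  set E := a * X ^ (s + 1) with hE
  set W := E * (a * X ^ s) with hW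
  have hEE : aeval z (E * E) = aeval z E := by
    have : E * E = E - (a * b * X) * (X ^ s * g) := by
      have h1 : b * g = 1 - E := by rw [hE]; linear_combination hab
      calc E * E = E - E * (1 - E) := by ring
        _ = E - E * (b * g) := by rw [h1]
        _ = E - (a * b * X) * (X ^ s * g) := by rw [hE]; ring
    rw [this, map_sub, map_mul (aeval z) (a * b * X) (X ^ s * g), h0, mul_zero, sub_zero]
  have hXW : X * W = E * E := by rw [hW, hE]; ring
  have hEW : aeval z (E * W) = aeval z W := by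
    have : E * W = (E * E) * (a * X ^ s) := by rw [hW]; ring
    rw [this, map_mul, hEE, ← map_mul]
  refine ⟨aeval z E, aeval z W, ?_, ?_, ?_, ?_, s, ?_⟩
  · have h2 := map_mul (aeval z) X W
    rw [aeval_X, hXW, hEE] at h2
    exact h2.symm
  · have h2 := map_mul (aeval z) W X
    rw [aeval_X, mul_comm W X, hXW, hEE] at h2
    exact h2.symm
  · rw [← map_mul, hEW]
  · rw [ecomm, ← map_mul, hEW]
  · have : (X ^ s : k[X]) * (1 - E) = b * (X ^ s * g) := by
      rw [hE]; linear_combination -(X ^ s) * hab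
    have h2 := congrArg (aeval z) this
    rw [map_mul, map_mul, h0, mul_zero, map_sub, map_one, map_pow, aeval_X] at h2
    exact h2

/-- the data of the algebra generated by the invertible part -/
structure AlgData (z e : M →ₗ[k] M) (A : Type u) [CommRing A] [Algebra k A] (φ : A →ₗ[k] (M →ₗ[k] M)) (α : A) : Prop where
  fd : FiniteDimensional k A
  mul : ∀ a b, φ (a * b) = φ a * φ b
  one : φ 1 = e
  inj : Function.Injective φ
  al : φ α = z * e
  unit : IsUnit α
  gen : Algebra.adjoin k ({α} : Set A) = ⊤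
  comm : ∀ a, ∀ x : M →ₗ[k] M, x * z = z * x → x * φ a = φ a * x

theorem isUnit_of_nzd {A : Type*} [CommRing A] [Algebra k A] [FiniteDimensional k A] {a : A}
    (h : ∀ b : A, b * a = 0 → b = 0) : IsUnit a := by
  haveI : IsArtinianRing A := IsArtinianRing.of_finite k A
  refine IsArtinianRing.isUnit_of_mem_nonZeroDivisors ?_
  rw [mem_nonZeroDivisors_iff_right]
  exact h

theorem exists_alg [FiniteDimensional k M] {z e w : M →ₗ[k] M} (h : Fit z e w) :
    ∃ (A : Type u) (_ : CommRing A) (_ : Algebra k A) (φ : A →ₗ[k] (M →ₗ[k] M)) (α : A), AlgData z e A φ α := by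
  -- the invertible part
  let V : Submodule k M := LinearMap.range e
  let ι : V →ₗ[k] M := V.subtype
  let π : M →ₗ[k] V := e.rangeRestrict
  have hιπ : ι ∘ₗ π = e := by ext x; rfl
  have hπι : π ∘ₗ ι = LinearMap.id := by
    ext ⟨x, y, rfl⟩
    change e (e y) = e y
    have := congrArg (fun f : M →ₗ[k] M => f y) h.ee
    exact this
  let zV : V →ₗ[k] V := π ∘ₗ z ∘ₗ ι
  have hzι : ι ∘ₗ zV = z ∘ₗ ι := by
    ext ⟨x, y, rfl⟩
    change e (z (e y)) = z (e y)
    have h1 : e * (z * e) = z * e := by rw [← mul_assoc, h.ez, mul_assoc, h.ee]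
    exact congrArg (fun f : M →ₗ[k] M => f y) h1
  have hpol : ∀ p : k[X], ι ∘ₗ (aeval zV p : V →ₗ[k] V) = (aeval z p : M →ₗ[k] M) ∘ₗ ι := by
    intro p
    induction p using Polynomial.induction_on' with
    | add p q hp hq => rw [map_add, map_add, LinearMap.comp_add, LinearMap.add_comp, hp, hq]
    | monomial n c =>
      rw [aeval_monomial, aeval_monomial]
      induction n with
      | zero => ext x; simp [Algebra.algebraMap_eq_smul_one]
      | succ n ih =>
        rw [pow_succ, pow_succ, ← mul_assoc, ← mul_assoc]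
        change (ι ∘ₗ (algebraMap k (Module.End k V) c * zV ^ n)) ∘ₗ zV = (algebraMap k (Module.End k M) c * z ^ n) ∘ₗ (z ∘ₗ ι)
        rw [ih, ← hzι]
        rfl
  let Ψ : k[X] →ₐ[k] Module.End k V := aeval zV
  let A := k[X] ⧸ RingHom.ker Ψ
  let K : A →ₐ[k] Module.End k V := Ideal.kerLiftAlg Ψ
  have hK : Function.Injective K := Ideal.kerLiftAlg_injective Ψ
  let φ : A →ₗ[k] (M →ₗ[k] M) := {
    toFun := fun a => ι ∘ₗ (K a : V →ₗ[k] V) ∘ₗ π
    map_add' := fun a b => by rw [map_add]; ext x; simp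
    map_smul' := fun c a => by rw [map_smul]; ext x; simp }
  have hφ : ∀ a, φ a = ι ∘ₗ (K a : V →ₗ[k] V) ∘ₗ π := fun _ => rfl
  have hφmk : ∀ p : k[X], φ (Ideal.Quotient.mk _ p) = aeval z p * e := by
    intro p
    rw [hφ]
    have : K (Ideal.Quotient.mk _ p) = Ψ p := Ideal.kerLiftAlg_mk Ψ p
    rw [this, ← LinearMap.comp_assoc]
    change (ι ∘ₗ (aeval zV p : V →ₗ[k] V)) ∘ₗ π = _
    rw [hpol, LinearMap.comp_assoc, hιπ]
    rfl
  have hinj : Function.Injective φ := by
    intro a b hab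
    apply hK
    rw [hφ, hφ] at hab
    have h1 := congrArg (fun f : M →ₗ[k] M => π ∘ₗ f ∘ₗ ι) hab
    have h2 : ∀ f : V →ₗ[k] V, π ∘ₗ (ι ∘ₗ f ∘ₗ π) ∘ₗ ι = f := by
      intro f
      calc π ∘ₗ (ι ∘ₗ f ∘ₗ π) ∘ₗ ι = (π ∘ₗ ι) ∘ₗ f ∘ₗ (π ∘ₗ ι) := rfl
        _ = f := by rw [hπι]; rfl
    simp only [h2] at h1
    exact h1
  have hmul : ∀ a b, φ (a * b) = φ a * φ b := by
    intro a b
    rw [hφ, hφ, hφ, map_mul]
    calc ι ∘ₗ ((K a : V →ₗ[k] V) ∘ₗ (K b : V →ₗ[k] V)) ∘ₗ π = ι ∘ₗ (K a : V →ₗ[k] V) ∘ₗ LinearMap.id ∘ₗ (K b : V →ₗ[k] V) ∘ₗ π := rfl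
      _ = _ := by rw [← hπι]; rfl
  have hone : φ 1 = e := by
    rw [hφ, map_one]
    exact hιπ
  have hal : φ (Ideal.Quotient.mk _ X) = z * e := by rw [hφmk, aeval_X]
  haveI hfd : FiniteDimensional k A := Module.Finite.of_injective φ hinj
  refine ⟨A, inferInstance, inferInstance, φ, Ideal.Quotient.mk _ X, hfd, hmul, hone, hinj, hal, ?_, ?_, ?_⟩
  · apply isUnit_of_nzd (k := k)
    intro b hb
    apply hinj
    rw [map_zero]
    have h1 : φ b * (z * e) = 0 := by rw [← hal, ← hmul, hb, map_zero]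
    have h2 : φ b * e = φ b := by rw [← hone, ← hmul, mul_one]
    calc φ b = φ b * (z * e) * w := by
          rw [mul_assoc, mul_assoc z e w, h.ew, h.zw, h2]
      _ = 0 := by rw [h1, zero_mul]
  · have h4 := congrArg (Subalgebra.map (Ideal.Quotient.mkₐ k (RingHom.ker Ψ))) (Polynomial.adjoin_X (R := k))
    rw [AlgHom.map_adjoin, Set.image_singleton, Algebra.map_top] at h4
    have h5 : (Ideal.Quotient.mkₐ k (RingHom.ker Ψ)).range = ⊤ :=
      (AlgHom.range_eq_top _).2 (Ideal.Quotient.mkₐ_surjective k (RingHom.ker Ψ))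
    rw [h5] at h4
    exact h4
  · intro a x hx
    obtain ⟨p, rfl⟩ := Ideal.Quotient.mk_surjective a
    rw [hφmk]
    have h1 : x * aeval z p = aeval z p * x := by
      induction p using Polynomial.induction_on' with
      | add p q hp hq => rw [map_add, mul_add, add_mul, hp, hq]
      | monomial n c =>
        rw [aeval_monomial]
        have h3 : x * z ^ n = z ^ n * x := by
          induction n with
          | zero => simp
          | succ n ih => rw [pow_succ, ← mul_assoc, ih, mul_assoc, hx, mul_assoc]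
        rw [Algebra.algebraMap_eq_smul_one, smul_mul_assoc, one_mul, mul_smul_comm, h3, smul_mul_assoc]
    rw [← mul_assoc, h1, mul_assoc, h.comm_e hx, mul_assoc]

end Cfsg.Agent.H3.QP
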