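import Mathlib
import Cfsg.Agent.H2.Dick4
import Cfsg.Agent.H3.QPBase

/-!
Quadratic pairs: Dickson's generation theorem, finite fields.
-/

set_option autoImplicit false
set_option linter.style.haveILetI false

namespace Cfsg.Agent.H3.QP

open Matrix (SpecialLinearGroup)
open Cfsg.Agent.H2 Cfsg.Agent.H4

theorem card_orbit_of_ne_three {p : ℕ} {Γ X : Type*} [Group Γ] [MulAction Γ X] [Finite Γ] [hp : Fact p.Prime]
    (h : DickHyp p Γ X) (hp2 : p ≠ 2) {a : X} (ha : h.Pa a ≠ ⊥)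
    (hn : 1 < Nat.card (MulAction.orbit Γ a)) (h3 : Nat.card (h.Pa a) ≠ 3) :
    Nat.card (MulAction.orbit Γ a) = Nat.card (h.Pa a) + 1 := by
  obtain ⟨x0, hx0, hx0c, hall⟩ := h.count_main hp2 ha hn
  have hsub := h.card_subAct a
  have hsub2 := h.subAct_card_eq (a := a)
  obtain ⟨k, hk⟩ : ∃ k, k = Nat.card (Quotient (MulAction.orbitRel (h.Pa a) (h.subAct a))) :=
    ⟨_, rfl⟩
  rw [← hk] at hsub2
  obtain ⟨t, ht⟩ := Subgroup.card_dvd_of_le (h.Pa_le_stab a)
  have hstab := h.card_stab_le ha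
  obtain ⟨q, hq⟩ : ∃ q, q = Nat.card (h.Pa a) := ⟨_, rfl⟩
  obtain ⟨n, hnn⟩ : ∃ n, n = Nat.card (MulAction.orbit Γ a) := ⟨_, rfl⟩
  rw [← hq] at hsub2 hx0c ht hstab h3
  rw [← hnn] at hsub hx0c hn
  rw [← hq, ← hnn]
  have hnk : n = 1 + k * q := by rw [← hsub, hsub2]; ring
  have hk1 : 1 ≤ k := by
    rcases Nat.eq_zero_or_pos k with h0 | h0
    · rw [h0] at hnk; omega
    · exact h0
  have hq3 : 3 ≤ q := by
    have h1 : p ∣ q := by
      haveI : Nontrivial (h.Pa a) := (Subgroup.nontrivial_iff_ne_bot _).2 ha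
      rcases (h.isPGroup_Pa a).card_eq_or_dvd with h2 | h2
      · exact absurd h2 Finite.one_lt_card.ne'
      · rw [hq]; exact h2
    have h2 : p ≤ q := Nat.le_of_dvd (by rw [hq]; exact Nat.card_pos) h1
    have h3 := hp.out.two_le
    omega
  have hq0 : 0 < q := by omega
  have htq : t ≤ q - 1 := by
    rw [ht] at hstab
    exact Nat.le_of_mul_le_mul_left hstab hq0
  have ht1 : 1 ≤ t := by
    rcases Nat.eq_zero_or_pos t with h0 | h0
    · rw [h0, mul_zero] at ht
      have : 0 < Nat.card (MulAction.stabilizer Γ a) := Nat.card_pos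
      omega
    · exact h0
  have h1 := DickHyp.card_orbit_mul (Γ := Γ) x0
  have h2 := DickHyp.card_orbit_mul (Γ := Γ) a
  rw [← hnn, ht] at h2
  rw [← h2, hx0c] at h1
  rcases dick_arith hk1 hq3 htq ht1 hnk h1 with hk' | ⟨hq', hk', ht', hu'⟩
  · rw [hk', one_mul] at hnk
    omega
  · exact absurd hq' h3

/-- the conclusion of the counting for subgroups of `SL₂` -/
theorem vv_inv_mem {K : Type*} [Field K] [Finite K] {p : ℕ} [hp : Fact p.Prime] [CharP K p] (hp2 : p ≠ 2)
    {H : Subgroup (SpecialLinearGroup (Fin 2) K)} (hcard : 3 < Nat.card (EE H)) {f : K} (hf0 : f ≠ 0)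
    (hf : vv f ∈ H) {e : K} (he0 : e ≠ 0) (he : uu e ∈ H) : vv (e⁻¹) ∈ H := by
  classical
  let Kb := AlgebraicClosure K
  let φ : SpecialLinearGroup (Fin 2) K →* SpecialLinearGroup (Fin 2) Kb :=
    Matrix.SpecialLinearGroup.map (algebraMap K Kb)
  have hφ : ∀ (A : SpecialLinearGroup (Fin 2) K) (i j : Fin 2), (φ A).1 i j = algebraMap K Kb (A.1 i j) :=
    fun A i j => rfl
  have hinj : Function.Injective (algebraMap K Kb) := (algebraMap K Kb).injective
  haveI : CharP Kb p := charP_of_injective_algebraMap hinj p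
  have hD := dickHyp (K := Kb) hp2 (H.map φ)
  haveI : Finite ↥((H.map φ).map (slPerm Kb)) := by
    have : (((H.map φ).map (slPerm Kb) : Subgroup _) : Set (Equiv.Perm (OnePoint Kb))).Finite := by
      rw [Subgroup.coe_map, Subgroup.coe_map]
      exact ((Set.toFinite (H : Set (SpecialLinearGroup (Fin 2) K))).image _).image _
    exact this
  let γ : ∀ A : SpecialLinearGroup (Fin 2) K, A ∈ H → ↥((H.map φ).map (slPerm Kb)) := fun A hA =>
    ⟨slPerm Kb (φ A), φ A, ⟨A, hA, rfl⟩, rfl⟩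
  have hγ : ∀ A hA (x : OnePoint Kb), γ A hA • x = slPerm Kb (φ A) x := fun A hA x => rfl
  have huup : ∀ (x : K) (n : ℕ), (uu x) ^ n = uu (n * x) := by
    intro x n
    induction n with
    | zero => rw [pow_zero, Nat.cast_zero, zero_mul, uu_zero]
    | succ n ih => rw [pow_succ, ih, ← uu_add]; congr 1; push_cast; ring
  have hvvp : ∀ (x : K) (n : ℕ), (vv x) ^ n = vv (n * x) := by
    intro x n
    induction n with
    | zero => rw [pow_zero, Nat.cast_zero, zero_mul, vv_zero]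
    | succ n ih => rw [pow_succ, ih, ← vv_add]; congr 1; push_cast; ring
  have hpK : ((p : ℕ) : K) = 0 := CharP.cast_eq_zero K p
  -- uu x in Pa ∞
  have hPu : ∀ x (hx : uu x ∈ H), γ (uu x) hx ∈ hD.Pa (OnePoint.infty) := by
    intro x hx
    refine ⟨?_, ?_⟩
    · apply Subtype.ext
      change (slPerm Kb (φ (uu x))) ^ p = 1
      rw [← map_pow, ← map_pow, huup, hpK, zero_mul, uu_zero, map_one, map_one]
    · rw [hγ _ hx]
      apply (fix_infty_iff _).2
      rw [hφ, uu10, map_zero]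
  have hPv : ∀ x (hx : vv x ∈ H), γ (vv x) hx ∈ hD.Pa ((0 : Kb) : OnePoint Kb) := by
    intro x hx
    refine ⟨?_, ?_⟩
    · apply Subtype.ext
      change (slPerm Kb (φ (vv x))) ^ p = 1
      rw [← map_pow, ← map_pow, hvvp, hpK, zero_mul, vv_zero, map_one, map_one]
    · rw [hγ _ hx]
      apply (fix_some_iff _ _).2
      rw [hφ, hφ, hφ, hφ, vv10, vv00, vv11, vv01, map_zero]
      ring
  have hγinj : ∀ x y (hx : uu x ∈ H) (hy : uu y ∈ H), γ (uu x) hx = γ (uu y) hy → x = y := by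
    intro x y hx hy h
    have h1 : slPerm Kb (φ (uu x)) = slPerm Kb (φ (uu y)) := congrArg Subtype.val h
    have h2 : slPerm Kb (φ (uu (x - y))) = 1 := by
      rw [sub_eq_add_neg, uu_add, ← uu_inv, map_mul, map_mul, map_inv, map_inv, h1, mul_inv_cancel]
    have h3 := ((slPerm_eq_one_iff _).1 h2).2.1
    rw [hφ, uu01] at h3
    have := hinj (h3.trans (map_zero _).symm)
    exact sub_eq_zero.1 this
  have hcardP : 3 < Nat.card (hD.Pa (OnePoint.infty)) := by
    refine lt_of_lt_of_le hcard ?_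
    apply Nat.card_le_card_of_injective (fun x : EE H => (⟨γ (uu x.1) x.2, hPu x.1 x.2⟩ : hD.Pa (OnePoint.infty)))
    intro x y hxy
    exact Subtype.ext (hγinj _ _ x.2 y.2 (congrArg Subtype.val hxy))
  have hPinf : hD.Pa (OnePoint.infty) ≠ ⊥ := by
    intro h
    rw [h, Subgroup.card_bot] at hcardP
    omega
  have hP0 : hD.Pa ((0 : Kb) : OnePoint Kb) ≠ ⊥ := by
    intro h
    have h1 := hPv f hf
    rw [h, Subgroup.mem_bot] at h1
    have h2 : slPerm Kb (φ (vv f)) = 1 := congrArg Subtype.val h1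
    have h3 := ((slPerm_eq_one_iff _).1 h2).1
    rw [hφ, vv10] at h3
    exact hf0 (hinj (h3.trans (map_zero _).symm))
  obtain ⟨g, hg⟩ := hD.exists_smul_eq hPinf hP0
  have h0ne : ((0 : Kb) : OnePoint Kb) ≠ OnePoint.infty := OnePoint.coe_ne_infty _
  have hinfmem : (OnePoint.infty : OnePoint Kb) ∈ MulAction.orbit ↥((H.map φ).map (slPerm Kb)) ((0 : Kb) : OnePoint Kb) := by
    refine ⟨g⁻¹, ?_⟩
    change g⁻¹ • ((0 : Kb) : OnePoint Kb) = _
    rw [← hg, inv_smul_smul]
  have horb : 1 < Nat.card (MulAction.orbit ↥((H.map φ).map (slPerm Kb)) ((0 : Kb) : OnePoint Kb)) := by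
    haveI : Finite (MulAction.orbit ↥((H.map φ).map (slPerm Kb)) ((0 : Kb) : OnePoint Kb)) := Finite.Set.finite_range _
    rw [Finite.one_lt_card_iff_nontrivial]
    exact ⟨⟨_, hinfmem⟩, ⟨_, MulAction.mem_orbit_self _⟩, fun h => h0ne (congrArg Subtype.val h).symm⟩
  have hcard0 : Nat.card (hD.Pa ((0 : Kb) : OnePoint Kb)) ≠ 3 := by
    rw [← hg, hD.card_Pa_smul]; omega
  have hco := card_orbit_of_ne_three hD hp2 hP0 horb hcard0
  -- the point e
  have hemem : γ (uu e) he • ((0 : Kb) : OnePoint Kb) ∈ MulAction.orbit ↥((H.map φ).map (slPerm Kb)) ((0 : Kb) : OnePoint Kb) :=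
    ⟨_, rfl⟩
  have heval : γ (uu e) he • ((0 : Kb) : OnePoint Kb) = ((algebraMap K Kb e : Kb) : OnePoint Kb) := by
    rw [hγ _ he, slPerm_some]
    rw [hφ, hφ, hφ, hφ, uu10, uu11, uu00, uu01, map_zero, map_one]
    simp
  have hene : γ (uu e) he • ((0 : Kb) : OnePoint Kb) ≠ ((0 : Kb) : OnePoint Kb) := by
    rw [heval]
    intro h
    rw [OnePoint.coe_eq_coe] at h
    exact he0 (hinj (h.trans (map_zero _).symm))
  obtain ⟨x, hx, hxe⟩ := hD.exists_smul_of_card hco hinfmem h0ne.symm hemem hene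
  obtain ⟨⟨_, _, ⟨A, hA, rfl⟩, rfl⟩, hxp⟩ : ∃ y, y = x := ⟨x, rfl⟩
  subst hxp
  have hxp : slPerm Kb (φ A) ^ p = 1 := congrArg Subtype.val hx.1
  have htr := tr_of_slPerm_pow hp2 (φ A) hxp
  have hfix : slPerm Kb (φ A) ((0 : Kb) : OnePoint Kb) = ((0 : Kb) : OnePoint Kb) := hx.2
  have h01 := (fix_some_iff _ _).1 hfix
  have h01' : A.1 0 1 = 0 := by
    rw [hφ, hφ, hφ, hφ] at h01
    apply hinj
    rw [map_zero]
    linear_combination -h01
  have htr' : (A.1 0 0 + A.1 1 1) ^ 2 = 4 := by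
    apply hinj
    rw [map_pow, map_add, ← hφ, ← hφ, htr, map_ofNat]
  have hdet := det_eq A
  rw [h01', zero_mul, sub_zero] at hdet
  have hAeq : A.1 0 0 = A.1 1 1 := by
    have : (A.1 0 0 - A.1 1 1) ^ 2 = 0 := by linear_combination htr' - 4 * hdet
    rw [sq_eq_zero_iff] at this
    exact sub_eq_zero.1 this
  have hinfe : slPerm Kb (φ A) OnePoint.infty = ((algebraMap K Kb e : Kb) : OnePoint Kb) := by
    rw [← heval]; exact hxe
  rw [slPerm_infty] at hinfe
  have h10 : A.1 1 0 ≠ 0 := by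
    intro h
    rw [hφ, h, map_zero, if_pos rfl] at hinfe
    exact OnePoint.infty_ne_coe _ hinfe
  have h10' : (φ A).1 1 0 ≠ 0 := by
    rw [hφ]
    intro h
    exact h10 (hinj (h.trans (map_zero _).symm))
  rw [if_neg h10', OnePoint.coe_eq_coe, div_eq_iff h10', hφ, hφ, ← map_mul] at hinfe
  have h5 : A.1 0 0 = e * A.1 1 0 := hinj hinfe
  set ε := A.1 0 0 with hε
  have hε2 : ε * ε = 1 := by rw [← hdet, ← hAeq]
  have hAv : A.1 1 0 = ε * e⁻¹ := by rw [h5]; field_simp
  -- powers of A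
  have hpow : ∀ n : ℕ, (A ^ n).1 0 0 = ε ^ n ∧ (A ^ n).1 0 1 = 0 ∧ (A ^ n).1 1 0 = n * (ε ^ n * e⁻¹) ∧
      (A ^ n).1 1 1 = ε ^ n := by
    intro n
    induction n with
    | zero =>
      rw [pow_zero]
      refine ⟨by rw [one00, pow_zero], by rw [one01], by rw [one10]; simp, by rw [one11, pow_zero]⟩
    | succ n ih =>
      obtain ⟨i1, i2, i3, i4⟩ := ih
      refine ⟨?_, ?_, ?_, ?_⟩
      · rw [pow_succ A, mul00, i1, i2]; ring
      · rw [pow_succ A, mul01, i1, i2, h01']; ring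
      · rw [pow_succ A, mul10, i3, i4, ← hε, hAv]; push_cast; ring
      · rw [pow_succ A, mul11, i3, i4, h01', ← hAeq]; ring
  have hodd : Even (p + 1) := by
    have := (hp.out.eq_two_or_odd').resolve_left hp2
    exact this.add_one
  obtain ⟨m, hm⟩ := hodd
  have hfin : A ^ (p + 1) = vv (e⁻¹) := by
    obtain ⟨i1, i2, i3, i4⟩ := hpow (p + 1)
    have h6 : ε ^ (p + 1) = 1 := by rw [hm, ← two_mul, pow_mul, pow_two, hε2, one_pow]
    apply ext2
    · rw [i1, h6, vv00]
    · rw [i2, vv01]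
    · rw [i3, h6, vv10]; push_cast; rw [hpK]; ring
    · rw [i4, h6, vv11]
  rw [← hfin]
  exact pow_mem hA _

theorem dick_fin {k K : Type*} [Field k] [Field K] [Algebra k K] [Finite K] (h2 : (2 : K) ≠ 0)
    (h3 : 3 < Nat.card k) {α : K} (hα0 : α ≠ 0) (hgen : Algebra.adjoin k ({α} : Set K) = ⊤) :
    HS (Set.range (algebraMap k K)) α = ⊤ := by
  obtain ⟨p, hpc⟩ := CharP.exists K
  haveI := hpc
  have hp : p.Prime := (CharP.char_is_prime_or_zero K p).resolve_right (by
    intro h0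
    subst h0
    haveI : CharZero K := CharP.charP_to_charZero K
    exact not_finite K)
  haveI : Fact p.Prime := ⟨hp⟩
  have hp2 : p ≠ 2 := by
    rintro rfl
    apply h2
    have := CharP.cast_eq_zero K 2
    exact_mod_cast this
  set H := HS (Set.range (algebraMap k K)) α with hH
  have hu : ∀ c : k, uu (algebraMap k K c) ∈ H := fun c => HS_uu ⟨c, rfl⟩
  have hv : ∀ c : k, vv (algebraMap k K c * α) ∈ H := fun c => HS_vv ⟨c, rfl⟩
  have h1 : uu (1 : K) ∈ H := by have := hu 1; rwa [map_one] at this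
  have hα : vv α ∈ H := by have := hv 1; rwa [map_one, one_mul] at this
  have hcard : 3 < Nat.card (EE H) := by
    refine lt_of_lt_of_le h3 ?_
    apply Nat.card_le_card_of_injective (fun c : k => (⟨algebraMap k K c, hu c⟩ : EE H))
    intro x y hxy
    exact (algebraMap k K).injective (congrArg Subtype.val hxy)
  have hinv : ∀ e : K, e ≠ 0 → uu e ∈ H → vv (e⁻¹) ∈ H := fun e he0 he =>
    vv_inv_mem hp2 hcard hα0 hα he0 he
  have hhalf : ∀ x : K, uu (2 * x) ∈ H → uu x ∈ H := by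
    intro x hx
    obtain ⟨m, hm⟩ := ((hp.eq_two_or_odd').resolve_left hp2).add_one
    have h4 := (EE H).nsmul_mem (n := m) (x := 2 * x) hx
    have h5 : m • (2 * x) = x := by
      rw [nsmul_eq_mul]
      have h6 : ((p + 1 : ℕ) : K) = ((m + m : ℕ) : K) := by rw [hm]
      push_cast at h6
      rw [CharP.cast_eq_zero K p] at h6
      linear_combination -x * h6
    rw [h5] at h4
    exact h4
  have hmul : ∀ e x : K, uu e ∈ H → uu x ∈ H → uu (e * x) ∈ H := fun e x he hx =>
    mul_closed h1 hinv hhalf he hx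
  have hv1 : vv (1 : K) ∈ H := by have := hinv 1 one_ne_zero h1; rwa [inv_one] at this
  have hall : ∀ x : K, uu x ∈ H := by
    intro x
    have hx : x ∈ Algebra.adjoin k ({α} : Set K) := by rw [hgen]; trivial
    induction hx using Algebra.adjoin_induction with
    | mem x hx =>
      rw [Set.mem_singleton_iff] at hx
      rw [hx, w_conj h1 hv1]; exact hα
    | algebraMap c => exact hu c
    | add x y _ _ hx hy => rw [uu_add]; exact mul_mem hx hy
    | mul x y _ _ hx hy => exact hmul x y hx hy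
  exact top_of_uv hall (fun x => (w_conj h1 hv1).1 (hall x))

end Cfsg.Agent.H3.QP
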