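import Mathlib
import Cfsg.Agent.H3.QPBase

/-!
Quadratic pairs: Dickson's generation theorem, infinite fields.
-/

set_option autoImplicit false
set_option linter.style.haveILetI false

namespace Cfsg.Agent.H3.QP

open Polynomial

variable {k K : Type*} [Field k] [Field K] [Algebra k K]

local notation "SL" => Matrix.SpecialLinearGroup (Fin 2)

/-- Hankel nondegeneracy -/
def ND (α β : K) (ℓ : K →ₗ[k] k) (j : ℕ) : Prop :=
  ∀ f : k[X], f ≠ 0 → f.degree < j → ∃ i < j, ℓ (β * aeval α f * α ^ i) ≠ 0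

def hmat (α β : K) (ℓ : K →ₗ[k] k) (j : ℕ) : Matrix (Fin j) (Fin j) k :=
  Matrix.of fun i i' : Fin j => ℓ (β * α ^ ((i : ℕ) + (i' : ℕ)))

theorem nd_iff (α β : K) (ℓ : K →ₗ[k] k) (j : ℕ) : ND α β ℓ j ↔ (hmat α β ℓ j).det ≠ 0 := by
  have key : ∀ (v : Fin j → k) (i : Fin j), (hmat α β ℓ j).mulVec v i =
      ℓ (β * aeval α (∑ i' : Fin j, C (v i') * X ^ (i' : ℕ)) * α ^ (i : ℕ)) := by
    intro v i
    rw [Matrix.mulVec, dotProduct, map_sum, Finset.mul_sum, Finset.sum_mul, map_sum]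
    refine Finset.sum_congr rfl fun i' _ => ?_
    have e1 : aeval α (C (v i') * X ^ (i' : ℕ)) = algebraMap k K (v i') * α ^ (i' : ℕ) := by simp
    rw [e1]
    change ℓ (β * α ^ ((i : ℕ) + (i' : ℕ))) * v i' = _
    have : β * (algebraMap k K (v i') * α ^ (i' : ℕ)) * α ^ (i : ℕ) = (v i') • (β * α ^ ((i : ℕ) + (i' : ℕ))) := by
      rw [Algebra.smul_def, pow_add]; ring
    rw [this, map_smul, smul_eq_mul, mul_comm]
  constructor
  · intro h hdet
    obtain ⟨v, hv, hv0⟩ := Matrix.exists_mulVec_eq_zero_iff.2 hdet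
    obtain ⟨i, hi, hi'⟩ := h (∑ i' : Fin j, C (v i') * X ^ (i' : ℕ)) (by
      intro h0
      apply hv
      funext i
      have := congrArg (fun f : k[X] => f.coeff i) h0
      simpa [Polynomial.finset_sum_coeff, Polynomial.coeff_C_mul, Polynomial.coeff_X_pow,
        Fin.val_inj, Finset.sum_ite_eq] using this) (Polynomial.degree_sum_fin_lt _)
    apply hi'
    have := congrFun hv0 ⟨i, hi⟩
    rw [key] at this
    exact this
  · intro hdet f hf hdeg
    by_contra hcon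
    push Not at hcon
    have hfs : f = ∑ i' : Fin j, C (f.coeff i') * X ^ (i' : ℕ) := by
      rw [Fin.sum_univ_eq_sum_range (fun i => C (f.coeff i) * X ^ i) j]
      conv_lhs => rw [Polynomial.as_sum_range_C_mul_X_pow' f ((Polynomial.natDegree_lt_iff_degree_lt hf).2 hdeg)]
    have hv := Matrix.eq_zero_of_mulVec_eq_zero hdet (v := fun i' : Fin j => f.coeff i') (by
      funext i
      rw [key, ← hfs]
      exact hcon i i.2)
    apply hf
    rw [hfs]
    apply Finset.sum_eq_zero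
    intro i _
    have := congrFun hv i
    simp only [Pi.zero_apply] at this
    rw [this, C_0, zero_mul]

/-- along a line the Hankel determinant is a polynomial -/
theorem poly_line {j : ℕ} (M₀ M₁ : Matrix (Fin j) (Fin j) k) :
    ∃ P : k[X], ∀ x : k, P.eval x = (M₀ + x • M₁).det := by
  refine ⟨(M₀.map C + (X : k[X]) • M₁.map C).det, fun x => ?_⟩
  have := RingHom.map_det (Polynomial.evalRingHom x) (M₀.map C + (X : k[X]) • M₁.map C)
  rw [Polynomial.coe_evalRingHom] at this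
  rw [this]
  congr 1
  ext i i'
  change Polynomial.eval x (C (M₀ i i') + X * C (M₁ i i')) = M₀ i i' + x * M₁ i i'
  rw [eval_add, eval_C, eval_mul, eval_X, eval_C]

theorem hmat_add (α β : K) (ℓ ℓ' : K →ₗ[k] k) (j : ℕ) (x : k) :
    hmat α β (ℓ + x • ℓ') j = hmat α β ℓ j + x • hmat α β ℓ' j := by
  ext i i'
  rfl

/-- choose `x` avoiding finitely many polynomials -/
theorem avoid [Infinite k] {ι : Type*} (s : Finset ι) (P : ι → k[X]) (hP : ∀ i ∈ s, P i ≠ 0) (T : Finset k) :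
    ∃ x : k, x ∉ T ∧ ∀ i ∈ s, (P i).eval x ≠ 0 := by
  classical
  obtain ⟨x, hx⟩ := Infinite.exists_notMem_finset (T ∪ (∏ i ∈ s, P i).roots.toFinset)
  rw [Finset.mem_union, not_or] at hx
  refine ⟨x, hx.1, fun i hi h0 => hx.2 ?_⟩
  rw [Multiset.mem_toFinset, Polynomial.mem_roots (Finset.prod_ne_zero_iff.2 hP), Polynomial.IsRoot,
    Polynomial.eval_prod]
  exact Finset.prod_eq_zero hi h0

/-- simultaneous nondegeneracy -/
theorem exists_good [Infinite k] (α : K) {ι : Type*} (s : Finset ι) (β : ι → K) (j : ι → ℕ)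
    (h : ∀ i ∈ s, ∃ ℓ : K →ₗ[k] k, ND α (β i) ℓ (j i)) : ∃ ℓ : K →ₗ[k] k, ∀ i ∈ s, ND α (β i) ℓ (j i) := by
  classical
  induction s using Finset.induction_on with
  | empty => exact ⟨0, fun i hi => absurd hi (Finset.notMem_empty _)⟩
  | insert a s ha ih =>
    obtain ⟨ℓ, hℓ⟩ := ih (fun i hi => h i (Finset.mem_insert_of_mem hi))
    obtain ⟨ℓ', hℓ'⟩ := h a (Finset.mem_insert_self a s)
    have hex : ∀ i : ι, ∃ P : k[X], ∀ x : k, P.eval x = (hmat α (β i) (ℓ + x • (ℓ' - ℓ)) (j i)).det := by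
      intro i
      obtain ⟨P, hP⟩ := poly_line (hmat α (β i) ℓ (j i)) (hmat α (β i) (ℓ' - ℓ) (j i))
      exact ⟨P, fun x => by rw [hP, hmat_add]⟩
    choose P hP using hex
    obtain ⟨x, -, hx⟩ := avoid (insert a s) P (by
      intro i hi h0
      rw [Finset.mem_insert] at hi
      rcases hi with rfl | hi
      · have h1 := hP i 1
        rw [h0, eval_zero, one_smul, add_sub_cancel] at h1
        exact (nd_iff _ _ _ _).1 hℓ' h1.symm
      · have h1 := hP i 0
        rw [h0, eval_zero, zero_smul, add_zero] at h1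
        exact (nd_iff _ _ _ _).1 (hℓ i hi) h1.symm) ∅
    refine ⟨ℓ + x • (ℓ' - ℓ), fun i hi => ?_⟩
    rw [nd_iff, ← hP]
    exact hx i hi

/-- the coordinate functionals -/
theorem nd_coord (pb : PowerBasis k K) {j m e : ℕ} (hj : 0 < j) (hm : m < pb.dim) (hme : j - 1 + e = m) :
    ND pb.gen (pb.gen ^ e) (pb.basis.coord ⟨m, hm⟩) j := by
  intro f hf hdeg
  have hnd : f.natDegree < j := (Polynomial.natDegree_lt_iff_degree_lt hf).2 hdeg
  refine ⟨j - 1 - f.natDegree, by omega, ?_⟩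
  have hpow : ∀ i, (hi : i < pb.dim) → pb.basis.coord ⟨m, hm⟩ (pb.gen ^ i) = if i = m then 1 else 0 := by
    intro i hi
    have h1 : pb.gen ^ i = pb.basis ⟨i, hi⟩ := by rw [pb.basis_eq_pow]
    rw [h1, Module.Basis.coord_apply, Module.Basis.repr_self, Finsupp.single_apply]
    simp only [Fin.mk.injEq]
  rw [aeval_eq_sum_range, Finset.mul_sum, Finset.sum_mul, map_sum]
  rw [Finset.sum_eq_single f.natDegree]
  · have h1 : pb.gen ^ e * f.coeff f.natDegree • pb.gen ^ f.natDegree * pb.gen ^ (j - 1 - f.natDegree) =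
        f.coeff f.natDegree • pb.gen ^ m := by
      rw [mul_smul_comm, smul_mul_assoc, ← pow_add, ← pow_add]
      congr 2
      omega
    rw [h1, map_smul, hpow m hm, if_pos rfl, smul_eq_mul, mul_one]
    exact leadingCoeff_ne_zero.2 hf
  · intro i hi hne
    rw [Finset.mem_range] at hi
    have h1 : pb.gen ^ e * f.coeff i • pb.gen ^ i * pb.gen ^ (j - 1 - f.natDegree) =
        f.coeff i • pb.gen ^ (e + i + (j - 1 - f.natDegree)) := by
      rw [mul_smul_comm, smul_mul_assoc, ← pow_add, ← pow_add]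
    rw [h1, map_smul, hpow _ (by omega), if_neg (by omega), smul_zero]
  · intro h
    exact absurd (Finset.mem_range.2 (Nat.lt_succ_self _)) h

theorem nd_full (pb : PowerBasis k K) {β : K} (hβ : β ≠ 0) {ℓ : K →ₗ[k] k} (hℓ : ℓ ≠ 0) :
    ND pb.gen β ℓ pb.dim := by
  intro f hf hdeg
  by_contra hcon
  push Not at hcon
  have hne : aeval pb.gen f ≠ 0 := by
    intro h0
    have := pb.dim_le_degree_of_root hf h0
    exact absurd hdeg (not_lt.2 this)
  apply hℓ
  have hz : ∀ y : K, ℓ (β * aeval pb.gen f * y) = 0 := by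
    intro y
    have h1 : (ℓ ∘ₗ LinearMap.mulLeft k (β * aeval pb.gen f)) = 0 := by
      apply pb.basis.ext
      intro i
      rw [pb.basis_eq_pow]
      exact hcon i i.2
    exact LinearMap.congr_fun h1 y
  ext y
  have h2 := hz ((β * aeval pb.gen f)⁻¹ * y)
  rw [← mul_assoc, mul_inv_cancel₀ (mul_ne_zero hβ hne), one_mul] at h2
  rw [h2]; rfl

/-- reachable columns -/
def Reach (k : Type*) [Field k] [Algebra k K] (H : Subgroup (SL K)) (α a b : K) : Prop :=
  ∃ g ∈ H, ∃ c c' : k, c ≠ 0 ∧ c' ≠ 0 ∧ g.1 0 0 = algebraMap k K c * a ∧ g.1 1 0 = algebraMap k K c' * (α * b)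

theorem Reach.u {H : Subgroup (SL K)} {α a b : K} (h : Reach k H α a b)
    (hu : ∀ c : k, uu (algebraMap k K c) ∈ H) (x : k) : Reach k H α (a + x • (α * b)) b := by
  obtain ⟨g, hg, c, c', hc, hc', h00, h10⟩ := h
  refine ⟨uu (algebraMap k K (x * c / c')) * g, mul_mem (hu _) hg, c, c', hc, hc', ?_, ?_⟩
  · have hcc : algebraMap k K c' ≠ 0 := (_root_.map_ne_zero _).2 hc'
    rw [mul00, uu00, uu01, h00, h10, map_div₀, map_mul, Algebra.smul_def]
    field_simp
  · rw [mul10, uu10, uu11, h10]; ring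

theorem Reach.v {H : Subgroup (SL K)} {α a b : K} (h : Reach k H α a b)
    (hv : ∀ c : k, vv (algebraMap k K c * α) ∈ H) (x : k) : Reach k H α a (b + x • a) := by
  obtain ⟨g, hg, c, c', hc, hc', h00, h10⟩ := h
  refine ⟨vv (algebraMap k K (x * c' / c) * α) * g, mul_mem (hv _) hg, c, c', hc, hc', ?_, ?_⟩
  · rw [mul00, vv00, vv01, h00]; ring
  · have hcc : algebraMap k K c ≠ 0 := (_root_.map_ne_zero _).2 hc
    rw [mul10, vv10, vv11, h00, h10, map_div₀, map_mul, Algebra.smul_def]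
    field_simp
    ring

/-- the continued fraction chain -/
theorem chain (pb : PowerBasis k K) {H : Subgroup (SL K)} (hu : ∀ c : k, uu (algebraMap k K c) ∈ H)
    (hv : ∀ c : k, vv (algebraMap k K c * pb.gen) ∈ H) {ℓ : K →ₗ[k] k}
    (hA : ∀ j, 0 < j → j ≤ pb.dim → ND pb.gen 1 ℓ j) (hB : ∀ j, 0 < j → j ≤ pb.dim → ND pb.gen pb.gen ℓ j)
    (j : ℕ) (hj : j < pb.dim) :
    ∃ p q : k[X], p ≠ 0 ∧ q ≠ 0 ∧ p.natDegree = j ∧ q.natDegree = j ∧
      (∀ i < j, ℓ (aeval pb.gen p * pb.gen ^ i) = 0) ∧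
      (∀ i < j, ℓ (pb.gen * aeval pb.gen q * pb.gen ^ i) = 0) ∧
      Reach k H pb.gen (aeval pb.gen p) (aeval pb.gen q) := by
  induction j with
  | zero =>
    refine ⟨1, 1, one_ne_zero, one_ne_zero, natDegree_one, natDegree_one, fun i hi => absurd hi (Nat.not_lt_zero _),
      fun i hi => absurd hi (Nat.not_lt_zero _), ?_⟩
    have h0 : Reach k H pb.gen (1 : K) 0 := by
      refine ⟨1, one_mem _, 1, 1, one_ne_zero, one_ne_zero, ?_, ?_⟩
      · rw [one00, map_one, one_mul]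
      · rw [one10, mul_zero, mul_zero]
    have h1 := h0.v hv 1
    rw [one_smul, zero_add] at h1
    rw [map_one]; exact h1
  | succ j ih =>
    obtain ⟨p, q, hp, hq, hpd, hqd, hpo, hqo, hr⟩ := ih (by omega)
    have hpdeg : p.degree < ((j + 1 : ℕ) : WithBot ℕ) := by
      rw [← Polynomial.natDegree_lt_iff_degree_lt hp]; omega
    have hqdeg : q.degree < ((j + 1 : ℕ) : WithBot ℕ) := by
      rw [← Polynomial.natDegree_lt_iff_degree_lt hq]; omega
    -- denominators
    have d1 : ℓ (pb.gen * aeval pb.gen q * pb.gen ^ j) ≠ 0 := by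
      obtain ⟨i, hi, hi'⟩ := hB (j + 1) (by omega) (by omega) q hq hqdeg
      rcases Nat.lt_succ_iff_lt_or_eq.1 hi with h | h
      · exact absurd (hqo i h) hi'
      · rwa [h] at hi'
    have d2 : ℓ (aeval pb.gen p * pb.gen ^ j) ≠ 0 := by
      obtain ⟨i, hi, hi'⟩ := hA (j + 1) (by omega) (by omega) p hp hpdeg
      rw [one_mul] at hi'
      rcases Nat.lt_succ_iff_lt_or_eq.1 hi with h | h
      · exact absurd (hpo i h) hi'
      · rwa [h] at hi'
    obtain ⟨x, hx⟩ : ∃ x : k, x = -(ℓ (aeval pb.gen p * pb.gen ^ j)) / ℓ (pb.gen * aeval pb.gen q * pb.gen ^ j) := ⟨_, rfl⟩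
    have hx0 : x ≠ 0 := by rw [hx]; exact div_ne_zero (neg_ne_zero.2 d2) d1
    obtain ⟨p', hp'⟩ : ∃ p' : k[X], p' = p + C x * (X * q) := ⟨_, rfl⟩
    have hXq : (C x * (X * q)).natDegree = j + 1 := by
      rw [natDegree_C_mul hx0, natDegree_X_mul hq, hqd]
    have hp'd : p'.natDegree = j + 1 := by
      rw [hp', natDegree_add_eq_right_of_natDegree_lt (by rw [hXq, hpd]; omega), hXq]
    have hp'0 : p' ≠ 0 := by
      intro h0
      rw [h0, natDegree_zero] at hp'd
      omega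
    have hap' : aeval pb.gen p' = aeval pb.gen p + x • (pb.gen * aeval pb.gen q) := by
      rw [hp', map_add, map_mul, map_mul, aeval_C, aeval_X, Algebra.smul_def]
    have hp'o : ∀ i < j + 1, ℓ (aeval pb.gen p' * pb.gen ^ i) = 0 := by
      intro i hi
      rw [hap', add_mul, smul_mul_assoc, map_add, map_smul, smul_eq_mul]
      rcases Nat.lt_succ_iff_lt_or_eq.1 hi with h | h
      · rw [hpo i h, hqo i h, mul_zero, add_zero]
      · rw [h, hx, div_mul_cancel₀ _ d1, add_neg_cancel]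
    have hp'deg : p'.degree < ((j + 2 : ℕ) : WithBot ℕ) := by
      rw [← Polynomial.natDegree_lt_iff_degree_lt hp'0]; omega
    have d3 : ℓ (aeval pb.gen p' * pb.gen ^ (j + 1)) ≠ 0 := by
      obtain ⟨i, hi, hi'⟩ := hA (j + 2) (by omega) (by omega) p' hp'0 hp'deg
      rw [one_mul] at hi'
      rcases Nat.lt_succ_iff_lt_or_eq.1 hi with h | h
      · exact absurd (hp'o i h) hi'
      · rwa [h] at hi'
    obtain ⟨y, hy⟩ : ∃ y : k, y = -(ℓ (pb.gen * aeval pb.gen q * pb.gen ^ j)) / ℓ (aeval pb.gen p' * pb.gen ^ (j + 1)) := ⟨_, rfl⟩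
    have hy0 : y ≠ 0 := by rw [hy]; exact div_ne_zero (neg_ne_zero.2 d1) d3
    obtain ⟨q', hq'⟩ : ∃ q' : k[X], q' = q + C y * p' := ⟨_, rfl⟩
    have hyp : (C y * p').natDegree = j + 1 := by rw [natDegree_C_mul hy0, hp'd]
    have hq'd : q'.natDegree = j + 1 := by
      rw [hq', natDegree_add_eq_right_of_natDegree_lt (by rw [hyp, hqd]; omega), hyp]
    have hq'0 : q' ≠ 0 := by
      intro h0
      rw [h0, natDegree_zero] at hq'd
      omega
    have haq' : aeval pb.gen q' = aeval pb.gen q + y • aeval pb.gen p' := by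
      rw [hq', map_add, map_mul, aeval_C, Algebra.smul_def]
    have hq'o : ∀ i < j + 1, ℓ (pb.gen * aeval pb.gen q' * pb.gen ^ i) = 0 := by
      intro i hi
      have e : pb.gen * aeval pb.gen q' * pb.gen ^ i =
          pb.gen * aeval pb.gen q * pb.gen ^ i + y • (aeval pb.gen p' * pb.gen ^ (i + 1)) := by
        rw [haq', Algebra.smul_def, Algebra.smul_def, pow_succ]; ring
      rw [e, map_add, map_smul, smul_eq_mul]
      rcases Nat.lt_succ_iff_lt_or_eq.1 hi with h | h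
      · rw [hqo i h, hp'o (i + 1) (by omega), mul_zero, add_zero]
      · rw [h, hy, div_mul_cancel₀ _ d3, add_neg_cancel]
    refine ⟨p', q', hp'0, hq'0, hp'd, hq'd, hp'o, hq'o, ?_⟩
    have h1 := hr.u hu x
    rw [← hap'] at h1
    have h2 := h1.v hv y
    rwa [← haq'] at h2

/-- the end of the chain -/
theorem chain_end (pb : PowerBasis k K) {H : Subgroup (SL K)} (hu : ∀ c : k, uu (algebraMap k K c) ∈ H)
    (hv : ∀ c : k, vv (algebraMap k K c * pb.gen) ∈ H) {ℓ : K →ₗ[k] k} (hℓ : ℓ ≠ 0)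
    (hA : ∀ j, 0 < j → j ≤ pb.dim → ND pb.gen 1 ℓ j) (hB : ∀ j, 0 < j → j ≤ pb.dim → ND pb.gen pb.gen ℓ j) :
    ∃ Q : K, Q ≠ 0 ∧ Reach k H pb.gen 0 Q ∧ ∀ i < pb.dim - 1, ℓ (pb.gen * Q * pb.gen ^ i) = 0 := by
  have hdim : 0 < pb.dim := pb.dim_pos
  obtain ⟨p, q, hp, hq, hpd, hqd, hpo, hqo, hr⟩ := chain pb hu hv hA hB (pb.dim - 1) (by omega)
  have hqdeg : q.degree < ((pb.dim : ℕ) : WithBot ℕ) := by
    rw [← Polynomial.natDegree_lt_iff_degree_lt hq]; omega
  have d1 : ℓ (pb.gen * aeval pb.gen q * pb.gen ^ (pb.dim - 1)) ≠ 0 := by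
    obtain ⟨i, hi, hi'⟩ := hB pb.dim hdim le_rfl q hq hqdeg
    by_cases h : i = pb.dim - 1
    · rwa [h] at hi'
    · exact absurd (hqo i (by omega)) hi'
  obtain ⟨x, hx⟩ : ∃ x : k, x = -(ℓ (aeval pb.gen p * pb.gen ^ (pb.dim - 1))) / ℓ (pb.gen * aeval pb.gen q * pb.gen ^ (pb.dim - 1)) := ⟨_, rfl⟩
  have h1 := hr.u hu x
  have hz : ∀ i < pb.dim, ℓ ((aeval pb.gen p + x • (pb.gen * aeval pb.gen q)) * pb.gen ^ i) = 0 := by
    intro i hi
    rw [add_mul, smul_mul_assoc, map_add, map_smul, smul_eq_mul]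
    by_cases h : i = pb.dim - 1
    · rw [h, hx, div_mul_cancel₀ _ d1, add_neg_cancel]
    · rw [hpo i (by omega), hqo i (by omega), mul_zero, add_zero]
  have hz0 : aeval pb.gen p + x • (pb.gen * aeval pb.gen q) = 0 := by
    by_contra hne
    apply hℓ
    set w := aeval pb.gen p + x • (pb.gen * aeval pb.gen q) with hw
    have hz' : ∀ y : K, ℓ (w * y) = 0 := by
      intro y
      have h1 : (ℓ ∘ₗ LinearMap.mulLeft k w) = 0 := by
        apply pb.basis.ext
        intro i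
        rw [pb.basis_eq_pow]
        exact hz i i.2
      exact LinearMap.congr_fun h1 y
    ext y
    have h2 := hz' (w⁻¹ * y)
    rw [← mul_assoc, mul_inv_cancel₀ hne, one_mul] at h2
    rw [h2]; rfl
  rw [hz0] at h1
  refine ⟨aeval pb.gen q, ?_, h1, fun i hi => hqo i hi⟩
  intro h0
  exact d1 (by rw [h0, mul_zero, zero_mul, map_zero])

end Cfsg.Agent.H3.QP
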