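import Mathlib
import Cfsg.Agent.H3.QPDickI

/-!
Quadratic pairs: Dickson's generation theorem, infinite fields, conclusion.
-/

set_option autoImplicit false
set_option linter.style.haveILetI false

namespace Cfsg.Agent.H3.QP

open Polynomial

local notation "SL" => Matrix.SpecialLinearGroup (Fin 2)

section
variable {R : Type*} [CommRing R]

/-- a matrix of determinant one -/
def mk2 (a b c d : R) (h : a * d - b * c = 1) : SL R :=
  ⟨!![a, b; c, d], by rw [Matrix.det_fin_two_of]; exact h⟩

@[simp] theorem mk2_00 (a b c d : R) (h : a * d - b * c = 1) : (mk2 a b c d h).1 0 0 = a := rfl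
@[simp] theorem mk2_01 (a b c d : R) (h : a * d - b * c = 1) : (mk2 a b c d h).1 0 1 = b := rfl
@[simp] theorem mk2_10 (a b c d : R) (h : a * d - b * c = 1) : (mk2 a b c d h).1 1 0 = c := rfl
@[simp] theorem mk2_11 (a b c d : R) (h : a * d - b * c = 1) : (mk2 a b c d h).1 1 1 = d := rfl

/-- conjugation by `diag(c, 1)`, where `c * c' = 1` -/
def dd (c c' : R) (h : c * c' = 1) : SL R →* SL R where
  toFun g := mk2 (g.1 0 0) (c * g.1 0 1) (c' * g.1 1 0) (g.1 1 1) (by
    linear_combination det_eq g - g.1 0 1 * g.1 1 0 * h)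
  map_one' := by
    apply ext2 <;> simp only [mk2_00, mk2_01, mk2_10, mk2_11, one00, one01, one10, one11, mul_zero]
  map_mul' a b := by
    apply ext2 <;> simp only [mk2_00, mk2_01, mk2_10, mk2_11, mul00, mul01, mul10, mul11]
    · linear_combination -a.1 0 1 * b.1 1 0 * h
    · ring
    · ring
    · linear_combination -a.1 1 0 * b.1 0 1 * h

theorem dd_uu (c c' : R) (h : c * c' = 1) (x : R) : dd c c' h (uu x) = uu (c * x) := by
  apply ext2 <;> simp [dd]
theorem dd_vv (c c' : R) (h : c * c' = 1) (x : R) : dd c c' h (vv x) = vv (c' * x) := by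
  apply ext2 <;> simp [dd]

/-- the swap -/
def sw (c c' : R) (h : c * c' = 1) : SL R →* SL R where
  toFun g := mk2 (g.1 1 1) (c' * g.1 1 0) (c * g.1 0 1) (g.1 0 0) (by
    linear_combination det_eq g - g.1 0 1 * g.1 1 0 * h)
  map_one' := by
    apply ext2 <;> simp only [mk2_00, mk2_01, mk2_10, mk2_11, one00, one01, one10, one11, mul_zero]
  map_mul' a b := by
    apply ext2 <;> simp only [mk2_00, mk2_01, mk2_10, mk2_11, mul00, mul01, mul10, mul11]
    · linear_combination -a.1 1 0 * b.1 0 1 * h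
    · ring
    · ring
    · linear_combination -a.1 0 1 * b.1 1 0 * h

theorem sw_uu (c c' : R) (h : c * c' = 1) (x : R) : sw c c' h (uu x) = vv (c * x) := by
  apply ext2 <;> simp [sw]
theorem sw_vv (c c' : R) (h : c * c' = 1) (x : R) : sw c c' h (vv x) = uu (c' * x) := by
  apply ext2 <;> simp [sw]

theorem HS_dd {F : Set R} {α : R} {c c' : R} (h : c * c' = 1) (h1 : ∀ x ∈ F, c * x ∈ F) (h2 : ∀ x ∈ F, c' * x ∈ F)
    {g : SL R} (hg : g ∈ HS F α) : dd c c' h g ∈ HS F α := by
  have : HS F α ≤ (HS F α).comap (dd c c' h) := by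
    apply HS_le
    · intro x hx
      rw [Subgroup.mem_comap, dd_uu]
      exact HS_uu (h1 x hx)
    · intro x hx
      rw [Subgroup.mem_comap, dd_vv, ← mul_assoc]
      exact HS_vv (h2 x hx)
  exact this hg

theorem HS_sw {F : Set R} {α α' : R} (h : α * α' = 1) {g : SL R} (hg : g ∈ HS F α) : sw α α' h g ∈ HS F α := by
  have : HS F α ≤ (HS F α).comap (sw α α' h) := by
    apply HS_le
    · intro x hx
      rw [Subgroup.mem_comap, sw_uu, mul_comm]
      exact HS_vv hx
    · intro x hx
      rw [Subgroup.mem_comap, sw_vv]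
      have : α' * (x * α) = x := by linear_combination x * h
      rw [this]
      exact HS_uu hx
  exact this hg

end

variable {k K : Type*} [Field k] [Field K] [Algebra k K]

theorem range_mul {c : k} : ∀ x ∈ Set.range (algebraMap k K), algebraMap k K c * x ∈ Set.range (algebraMap k K) := by
  rintro _ ⟨y, rfl⟩
  exact ⟨c * y, map_mul _ _ _⟩

theorem HS_smul {α : K} {c : k} (hc : c ≠ 0) {x : K} (hx : uu x ∈ HS (Set.range (algebraMap k K)) α) :
    uu (c • x) ∈ HS (Set.range (algebraMap k K)) α := by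
  have h : algebraMap k K c * algebraMap k K c⁻¹ = 1 := by
    rw [← map_mul, mul_inv_cancel₀ hc, map_one]
  have := HS_dd h range_mul range_mul hx
  rw [dd_uu] at this
  rwa [Algebra.smul_def]

theorem stable_of_reach {α Q : K} (hα : α ≠ 0) (hQ : Q ≠ 0)
    (h : Reach k (HS (Set.range (algebraMap k K)) α) α 0 Q) {x : K}
    (hx : uu x ∈ HS (Set.range (algebraMap k K)) α) : uu (α * Q ^ 2 * x) ∈ HS (Set.range (algebraMap k K)) α := by
  obtain ⟨g, hg, c, c', hc, hc', h00, h10⟩ := h
  rw [mul_zero] at h00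
  have hαα : α * α⁻¹ = 1 := mul_inv_cancel₀ hα
  have h1 := mul_mem (mul_mem hg hx) (inv_mem hg)
  have h2 := HS_sw hαα h1
  have hdet := det_eq g
  rw [h00, zero_mul, zero_sub] at hdet
  have e : sw α α⁻¹ hαα (g * uu x * g⁻¹) = uu ((-c' ^ 2) • (α * Q ^ 2 * x)) := by
    apply ext2
    · simp only [sw, MonoidHom.coe_mk, OneHom.coe_mk, mk2_00, mul11, mul10, inv01, inv11, uu00, uu01, uu10, uu11, h00]
      linear_combination hdet
    · simp only [sw, MonoidHom.coe_mk, OneHom.coe_mk, mk2_01, mul11, mul10, inv00, inv10, uu00, uu01, uu10, uu11, h00, h10,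
        Algebra.smul_def, map_neg, map_pow]
      field_simp
      ring
    · simp only [sw, MonoidHom.coe_mk, OneHom.coe_mk, mk2_10, mul00, mul01, inv01, inv11, uu00, uu01, uu10, uu11, h00]
      ring
    · simp only [sw, MonoidHom.coe_mk, OneHom.coe_mk, mk2_11, mul00, mul01, inv00, inv10, uu00, uu01, uu10, uu11, h00]
      linear_combination hdet
  rw [e] at h2
  have h3 := HS_smul (c := -(c' ^ 2)⁻¹) (neg_ne_zero.2 (inv_ne_zero (pow_ne_zero 2 hc'))) h2
  rw [smul_smul] at h3
  have e2 : -(c' ^ 2)⁻¹ * -c' ^ 2 = 1 := by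
    rw [neg_mul_neg, inv_mul_cancel₀ (pow_ne_zero 2 hc')]
  rwa [e2, one_smul] at h3

theorem unique_up (pb : PowerBasis k K) {ℓ : K →ₗ[k] k} (hℓ : ℓ ≠ 0) {a b : K} (ha0 : a ≠ 0) (hb0 : b ≠ 0)
    (ha : ∀ i < pb.dim - 1, ℓ (a * pb.gen ^ i) = 0) (hb : ∀ i < pb.dim - 1, ℓ (b * pb.gen ^ i) = 0) :
    ∃ c : k, c ≠ 0 ∧ b = c • a := by
  have key : ∀ w : K, (∀ i < pb.dim, ℓ (w * pb.gen ^ i) = 0) → w = 0 := by
    intro w hz
    by_contra hne
    apply hℓ
    have hz' : ∀ y : K, ℓ (w * y) = 0 := by
      intro y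
      have h1 : (ℓ ∘ₗ LinearMap.mulLeft k w) = 0 := by
        apply pb.basis.ext
        intro i
        rw [pb.basis_eq_pow]
        exact hz i i.2
      exact LinearMap.congr_fun h1 y
    ext y
    have h2 := hz' (w⁻¹ * y)
    rw [← mul_assoc, mul_inv_cancel₀ hne, one_mul] at h2
    rw [h2]; rfl
  have hane : ℓ (a * pb.gen ^ (pb.dim - 1)) ≠ 0 := by
    intro h0
    apply ha0
    apply key
    intro i hi
    by_cases h : i = pb.dim - 1
    · rw [h, h0]
    · exact ha i (by omega)
  have hbne : ℓ (b * pb.gen ^ (pb.dim - 1)) ≠ 0 := by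
    intro h0
    apply hb0
    apply key
    intro i hi
    by_cases h : i = pb.dim - 1
    · rw [h, h0]
    · exact hb i (by omega)
  refine ⟨ℓ (b * pb.gen ^ (pb.dim - 1)) / ℓ (a * pb.gen ^ (pb.dim - 1)), div_ne_zero hbne hane, ?_⟩
  rw [← sub_eq_zero]
  apply key
  intro i hi
  rw [sub_mul, smul_mul_assoc, map_sub, map_smul, smul_eq_mul]
  by_cases h : i = pb.dim - 1
  · rw [h, div_mul_cancel₀ _ hane, sub_self]
  · rw [ha i (by omega), hb i (by omega), mul_zero, sub_zero]

theorem exists_delta [Infinite k] (pb : PowerBasis k K) (h2 : (2 : k) ≠ 0) (hn : 2 ≤ pb.dim) (hα : pb.gen ≠ 0) :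
    ∃ δ : K, δ ∉ Set.range (algebraMap k K) ∧ ∀ x, uu x ∈ HS (Set.range (algebraMap k K)) pb.gen →
      uu (δ * x) ∈ HS (Set.range (algebraMap k K)) pb.gen := by
  classical
  set α := pb.gen with hαdef
  have hαk : α ∉ Set.range (algebraMap k K) := by
    rintro ⟨c, hc⟩
    have h1 : (X - C c : k[X]) ≠ 0 := X_sub_C_ne_zero c
    have h3 := pb.dim_le_natDegree_of_root h1 (by rw [map_sub, aeval_X, aeval_C, hc, ← hαdef, sub_self])
    rw [natDegree_X_sub_C] at h3
    omega
  -- the index set
  let s : Finset (Bool × ℕ) := (Finset.univ : Finset Bool) ×ˢ (Finset.Ico 1 pb.dim)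
  let β : Bool × ℕ → K := fun i => if i.1 then α else 1
  have hs : ∀ i ∈ s, 0 < i.2 ∧ i.2 < pb.dim := by
    intro i hi
    have := (Finset.mem_Ico.1 (Finset.mem_product.1 hi).2)
    omega
  obtain ⟨ℓ, hℓ⟩ := exists_good (k := k) α s β (fun i => i.2) (by
    rintro ⟨b, j⟩ hi
    obtain ⟨hj, hjn⟩ := hs _ hi
    cases b
    · have := nd_coord pb (j := j) (m := j - 1) (e := 0) hj (by omega) (by omega)
      rw [pow_zero] at this
      exact ⟨_, this⟩
    · have := nd_coord pb (j := j) (m := j) (e := 1) hj hjn (by have : 0 < j := hj; omega)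
      rw [pow_one] at this
      exact ⟨_, this⟩)
  have hgood : ∀ ℓ : K →ₗ[k] k, (∀ i ∈ s, ND α (β i) ℓ i.2) →
      ∃ Q : K, Q ≠ 0 ∧ ℓ ≠ 0 ∧ Reach k (HS (Set.range (algebraMap k K)) α) α 0 Q ∧
        ∀ i < pb.dim - 1, ℓ (α * Q * α ^ i) = 0 := by
    intro ℓ hℓ
    have hmem : ∀ b j, 0 < j → j < pb.dim → ((b, j) : Bool × ℕ) ∈ s := by
      intro b j h1 h2
      rw [Finset.mem_product]
      exact ⟨Finset.mem_univ _, Finset.mem_Ico.2 ⟨h1, h2⟩⟩
    have hℓ0 : ℓ ≠ 0 := by
      rintro rfl
      obtain ⟨i, -, hi⟩ := hℓ (false, 1) (hmem _ _ one_pos (by omega)) 1 one_ne_zero (by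
        rw [degree_one]; exact_mod_cast one_pos)
      exact hi rfl
    have hA : ∀ j, 0 < j → j ≤ pb.dim → ND α 1 ℓ j := by
      intro j h1 h2
      rcases Nat.lt_or_ge j pb.dim with h | h
      · exact hℓ (false, j) (hmem _ _ h1 h)
      · rw [le_antisymm h2 h]; exact nd_full pb one_ne_zero hℓ0
    have hB : ∀ j, 0 < j → j ≤ pb.dim → ND α α ℓ j := by
      intro j h1 h2
      rcases Nat.lt_or_ge j pb.dim with h | h
      · exact hℓ (true, j) (hmem _ _ h1 h)
      · rw [le_antisymm h2 h]; exact nd_full pb hα hℓ0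
    obtain ⟨Q, hQ, hr, ho⟩ := chain_end pb (H := HS (Set.range (algebraMap k K)) α)
      (fun c => HS_uu ⟨c, rfl⟩) (fun c => HS_vv ⟨c, rfl⟩) hℓ0 hA hB
    exact ⟨Q, hQ, hℓ0, hr, ho⟩
  obtain ⟨Q, hQ, hℓ0, hr, ho⟩ := hgood ℓ hℓ
  -- the polynomials for the shifted functional
  let ℓ' : K →ₗ[k] k := ℓ ∘ₗ LinearMap.mulLeft k α
  have hex : ∀ i : Bool × ℕ, ∃ P : k[X], ∀ x : k, P.eval x = (hmat α (β i) (ℓ + x • ℓ') i.2).det := by
    intro i
    obtain ⟨P, hP⟩ := poly_line (hmat α (β i) ℓ i.2) (hmat α (β i) ℓ' i.2)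
    exact ⟨P, fun x => by rw [hP, hmat_add]⟩
  choose P hP using hex
  have hP0 : ∀ i ∈ s, P i ≠ 0 := by
    intro i hi h0
    have h1 := hP i 0
    rw [h0, eval_zero, zero_smul, add_zero] at h1
    exact (nd_iff _ _ _ _).1 (hℓ i hi) h1.symm
  have hval : ∀ (x : k) (y : K), (ℓ + x • ℓ') y = ℓ ((1 + x • α) * y) := by
    intro x y
    rw [LinearMap.add_apply, LinearMap.smul_apply, add_mul, one_mul, map_add, smul_mul_assoc, map_smul]
    rfl
  obtain ⟨x₁, hx₁, hx₁P⟩ := avoid s P hP0 {0}
  obtain ⟨x₂, hx₂, hx₂P⟩ := avoid s P hP0 {0, x₁}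
  rw [Finset.mem_singleton] at hx₁
  rw [Finset.mem_insert, Finset.mem_singleton, not_or] at hx₂
  -- one of the two squares is not in `k`
  have hsq : ∃ x : k, x ≠ 0 ∧ (∀ i ∈ s, (P i).eval x ≠ 0) ∧ (1 + x • α) ^ 2 ∉ Set.range (algebraMap k K) := by
    by_contra hcon
    push Not at hcon
    obtain ⟨c₁, hc₁⟩ := hcon x₁ hx₁ hx₁P
    obtain ⟨c₂, hc₂⟩ := hcon x₂ hx₂.1 hx₂P
    apply hαk
    have hx₁' : algebraMap k K x₁ ≠ 0 := (_root_.map_ne_zero _).2 hx₁
    have hx₂' : algebraMap k K x₂ ≠ 0 := (_root_.map_ne_zero _).2 hx₂.1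
    rw [Algebra.smul_def] at hc₁ hc₂
    have h2K : (2 : K) ≠ 0 := by
      have : (algebraMap k K 2) ≠ 0 := (_root_.map_ne_zero _).2 h2
      rwa [map_ofNat] at this
    have hd : x₂ - x₁ ≠ 0 := sub_ne_zero.2 hx₂.2
    have hd' : algebraMap k K (x₂ - x₁) ≠ 0 := (_root_.map_ne_zero _).2 hd
    rw [map_sub] at hd'
    refine ⟨(x₂ ^ 2 * (c₁ - 1) - x₁ ^ 2 * (c₂ - 1)) / (2 * x₁ * x₂ * (x₂ - x₁)), ?_⟩
    rw [map_div₀, map_sub, map_mul, map_mul, map_mul, map_mul, map_mul, map_sub, map_sub, map_sub, map_pow, map_pow, map_one,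
      map_ofNat, hc₁, hc₂]
    rw [div_eq_iff (mul_ne_zero (mul_ne_zero (mul_ne_zero h2K hx₁') hx₂') hd')]
    ring
  obtain ⟨x, hx0, hxP, hxsq⟩ := hsq
  obtain ⟨Q', hQ', hℓ'0, hr', ho'⟩ := hgood (ℓ + x • ℓ') (fun i hi => by
    rw [nd_iff, ← hP]; exact hxP i hi)
  have hg0 : (1 + x • α) ≠ 0 := by
    intro h0
    apply hxsq
    exact ⟨0, by rw [h0, map_zero]; ring⟩
  obtain ⟨c, hc, hcQ⟩ := unique_up pb hℓ0 (a := α * Q) (b := (1 + x • α) * (α * Q')) (mul_ne_zero hα hQ)
    (mul_ne_zero hg0 (mul_ne_zero hα hQ')) ho (by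
      intro i hi
      have := ho' i hi
      rw [hval] at this
      rw [mul_assoc (1 + x • α)]
      exact this)
  by_cases hδ : α * Q ^ 2 ∈ Set.range (algebraMap k K)
  · refine ⟨α * Q' ^ 2, ?_, fun y hy => stable_of_reach hα hQ' hr' hy⟩
    rintro ⟨s', hs'⟩
    obtain ⟨t, ht⟩ := hδ
    apply hxsq
    have hs0 : algebraMap k K s' ≠ 0 := by
      rw [hs']; exact mul_ne_zero hα (pow_ne_zero 2 hQ')
    refine ⟨c ^ 2 * t / s', ?_⟩
    rw [map_div₀, map_mul, map_pow, div_eq_iff hs0, hs', ht]
    have h5 : (1 + x • α) * Q' = algebraMap k K c * Q := by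
      apply mul_left_cancel₀ hα
      simp only [Algebra.smul_def] at hcQ ⊢
      linear_combination hcQ
    have h6 : ((1 + x • α) * Q') ^ 2 = (algebraMap k K c * Q) ^ 2 := by rw [h5]
    linear_combination -α * h6
  · exact ⟨α * Q ^ 2, hδ, fun y hy => stable_of_reach hα hQ hr hy⟩

/-- the infinite case, over subfields of `K` -/
theorem dick_inf_aux {K : Type*} [Field K] (h2 : (2 : K) ≠ 0) {α : K} (hα : α ≠ 0) (n : ℕ) :
    ∀ (F : Subfield K), Infinite F → FiniteDimensional F K → Module.finrank F K ≤ n →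
      Algebra.adjoin F ({α} : Set K) = ⊤ → HS (Set.range (algebraMap F K)) α = ⊤ := by
  induction n with
  | zero =>
    intro F _ _ hfr _
    have := Module.finrank_pos (R := F) (M := K)
    omega
  | succ n ih =>
    intro F hFi hFd hfr hgen
    have hint : IsIntegral F α := Algebra.IsIntegral.isIntegral α
    let pb : PowerBasis F K := PowerBasis.ofAdjoinEqTop' hint hgen
    have hgenα : pb.gen = α := PowerBasis.ofAdjoinEqTop'_gen hint hgen
    have hdim : pb.dim = Module.finrank F K := pb.finrank.symm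
    set H := HS (Set.range (algebraMap F K)) α with hH
    have hswap : ∀ x : K, uu x ∈ H → vv (α * x) ∈ H := by
      intro x hx
      have := HS_sw (mul_inv_cancel₀ hα) hx
      rwa [sw_uu] at this
    by_cases hn1 : Module.finrank F K = 1
    · -- then `F = K`
      have hall : ∀ x : K, x ∈ Set.range (algebraMap F K) := by
        intro x
        have h1 := (finrank_eq_one_iff_of_nonzero' (K := F) (1 : K) one_ne_zero).1 hn1 x
        obtain ⟨c, hc⟩ := h1
        exact ⟨c, by rw [← hc, Algebra.smul_def, mul_one]⟩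
      refine top_of_uv (fun x => HS_uu (hall x)) (fun x => ?_)
      have := HS_vv (α := α) (hall (x * α⁻¹))
      rwa [inv_mul_cancel_right₀ hα] at this
    · have hpos := Module.finrank_pos (R := F) (M := K)
      obtain ⟨δ, hδ, hst⟩ := exists_delta pb (by
        intro h
        apply h2
        have := congrArg (algebraMap F K) h
        rwa [map_ofNat, map_zero] at this) (by omega) (by rw [hgenα]; exact hα)
      rw [hgenα, ← hH] at hst
      -- `L = F(δ)`
      let L : IntermediateField F K := IntermediateField.adjoin F {δ}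
      have hLE : ∀ x ∈ L, uu x ∈ H := by
        intro x hx
        have h1 : x ∈ (IntermediateField.adjoin F {δ}).toSubalgebra := hx
        rw [IntermediateField.adjoin_simple_toSubalgebra_of_isAlgebraic (Algebra.IsAlgebraic.isAlgebraic δ),
          Algebra.adjoin_singleton_eq_range_aeval] at h1
        obtain ⟨f, rfl⟩ := h1
        have key : ∀ (f : F[X]) (y : K), uu y ∈ H → uu (aeval δ f * y) ∈ H := by
          intro f
          induction f using Polynomial.induction_on' with
          | add p q hp hq =>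
            intro y hy
            rw [map_add, add_mul, uu_add]
            exact mul_mem (hp y hy) (hq y hy)
          | monomial m c =>
            intro y hy
            rw [aeval_monomial, ← Algebra.smul_def, smul_mul_assoc]
            have h3 : ∀ (m : ℕ), uu (δ ^ m * y) ∈ H := by
              intro m
              induction m with
              | zero => rwa [pow_zero, one_mul]
              | succ m ihm => rw [pow_succ', mul_assoc]; exact hst _ ihm
            by_cases hc : c = 0
            · rw [hc, zero_smul, uu_zero]; exact one_mem _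
            · exact HS_smul hc (h3 m)
        have h4 := key f 1 (by
          have := HS_uu (α := α) (F := Set.range (algebraMap F K)) ⟨1, rfl⟩
          rwa [map_one] at this)
        rwa [mul_one] at h4
      have hle : HS (Set.range (algebraMap L.toSubfield K)) α ≤ H := by
        apply HS_le
        · rintro _ ⟨x, rfl⟩
          exact hLE x.1 x.2
        · rintro _ ⟨x, rfl⟩
          rw [mul_comm]
          exact hswap _ (hLE x.1 x.2)
      haveI : FiniteDimensional L.toSubfield K := inferInstanceAs (FiniteDimensional L K)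
      have htower := Module.finrank_mul_finrank F L K
      have hLF : 2 ≤ Module.finrank F L := by
        by_contra hlt
        have h5 : Module.finrank F L = 1 := by
          have := Module.finrank_pos (R := F) (M := L)
          omega
        apply hδ
        have h6 : L = ⊥ := IntermediateField.finrank_eq_one_iff.1 h5
        have h7 : δ ∈ L := IntermediateField.mem_adjoin_simple_self F δ
        rw [h6, IntermediateField.mem_bot] at h7
        exact h7
      have hfrL : Module.finrank L.toSubfield K ≤ n := by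
        change Module.finrank L K ≤ n
        have := Module.finrank_pos (R := L) (M := K)
        nlinarith
      have hFL : ∀ x : F, (x : K) ∈ L.toSubfield := fun x => L.algebraMap_mem x
      have hLi : Infinite L.toSubfield := by
        apply Infinite.of_injective (fun x : F => (⟨(x : K), hFL x⟩ : L.toSubfield))
        intro x y hxy
        exact Subtype.ext (congrArg (fun z : L.toSubfield => (z : K)) hxy)
      have hgenL : Algebra.adjoin L.toSubfield ({α} : Set K) = ⊤ := by
        rw [eq_top_iff]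
        intro x _
        have hx : x ∈ Algebra.adjoin F ({α} : Set K) := by rw [hgen]; trivial
        induction hx using Algebra.adjoin_induction with
        | mem x hx => exact Algebra.subset_adjoin hx
        | algebraMap c => exact (Algebra.adjoin L.toSubfield ({α} : Set K)).algebraMap_mem ⟨(c : K), hFL c⟩
        | add x y _ _ hx hy => exact add_mem (hx trivial) (hy trivial)
        | mul x y _ _ hx hy => exact mul_mem (hx trivial) (hy trivial)
      have := ih L.toSubfield hLi inferInstance hfrL hgenL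
      rw [eq_top_iff, ← this]
      exact hle

theorem dick_inf {k K : Type*} [Field k] [Field K] [Algebra k K] [Infinite k] [FiniteDimensional k K]
    (h2 : (2 : K) ≠ 0) {α : K} (hα0 : α ≠ 0) (hgen : Algebra.adjoin k ({α} : Set K) = ⊤) :
    HS (Set.range (algebraMap k K)) α = ⊤ := by
  let F : Subfield K := (algebraMap k K).fieldRange
  have e : Set.range (algebraMap F K) = Set.range (algebraMap k K) := by
    ext x
    constructor
    · rintro ⟨y, rfl⟩; exact y.2
    · rintro ⟨y, rfl⟩; exact ⟨⟨algebraMap k K y, y, rfl⟩, rfl⟩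
  rw [← e]
  have hFi : Infinite F := by
    apply Infinite.of_injective (fun x : k => (⟨algebraMap k K x, x, rfl⟩ : F))
    intro x y hxy
    exact (algebraMap k K).injective (congrArg (fun z : F => (z : K)) hxy)
  have hFd : FiniteDimensional F K := by
    obtain ⟨s, hs⟩ := (Module.finite_def (R := k) (M := K)).1 inferInstance
    refine ⟨s, ?_⟩
    rw [eq_top_iff]
    intro x _
    have hx : x ∈ Submodule.span k (s : Set K) := by rw [hs]; trivial
    induction hx using Submodule.span_induction with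
    | mem x hx => exact Submodule.subset_span hx
    | zero => exact zero_mem _
    | add x y _ _ hx hy => exact add_mem (hx trivial) (hy trivial)
    | smul c x _ hx =>
      have := Submodule.smul_mem (Submodule.span F (s : Set K)) (⟨algebraMap k K c, c, rfl⟩ : F) (hx trivial)
      rwa [Algebra.smul_def] at this ⊢
  refine dick_inf_aux h2 hα0 _ F hFi hFd le_rfl ?_
  rw [eq_top_iff]
  intro x _
  have hx : x ∈ Algebra.adjoin k ({α} : Set K) := by rw [hgen]; trivial
  induction hx using Algebra.adjoin_induction with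
  | mem x hx => exact Algebra.subset_adjoin hx
  | algebraMap c => exact (Algebra.adjoin F ({α} : Set K)).algebraMap_mem ⟨algebraMap k K c, c, rfl⟩
  | add x y _ _ hx hy => exact add_mem (hx trivial) (hy trivial)
  | mul x y _ _ hx hy => exact mul_mem (hx trivial) (hy trivial)

end Cfsg.Agent.H3.QP
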