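import Mathlib
import Cfsg.Agent.H3.QPDickF
import Cfsg.Agent.H3.QPDickJ

/-!
Quadratic pairs: Dickson's generation theorem.
-/

set_option autoImplicit false
set_option linter.style.haveILetI false

namespace Cfsg.Agent.H3.QP

local notation "SL" => Matrix.SpecialLinearGroup (Fin 2)

theorem card_gt {k : Type*} [Field k] [Finite k] (h2 : (2 : k) ≠ 0) (h3 : Nat.card k ≠ 3) : 3 < Nat.card k := by
  haveI : Fintype k := Fintype.ofFinite k
  have h1 : 1 < Nat.card k := Finite.one_lt_card
  have h4 : Nat.card k ≠ 2 := by
    intro h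
    apply h2
    have := FiniteField.cast_card_eq_zero k
    rw [← Nat.card_eq_fintype_card, h] at this
    exact_mod_cast this
  omega

theorem dick {k K : Type*} [Field k] [Field K] [Algebra k K] [FiniteDimensional k K]
    (h2 : (2 : K) ≠ 0) (h3 : Nat.card k ≠ 3) {α : K} (hα0 : α ≠ 0) (hgen : Algebra.adjoin k ({α} : Set K) = ⊤) :
    HS (Set.range (algebraMap k K)) α = ⊤ := by
  rcases finite_or_infinite k with hf | hi
  · haveI : Finite K := Module.finite_of_finite k
    refine dick_fin h2 (card_gt ?_ h3) hα0 hgen
    intro h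
    apply h2
    have := congrArg (algebraMap k K) h
    rwa [map_ofNat, map_zero] at this
  · exact dick_inf h2 hα0 hgen

end Cfsg.Agent.H3.QP
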