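import Mathlib
import Cfsg.Agent.H3.QPDick

/-!
Quadratic pairs: the algebra generated is a field.
-/

set_option autoImplicit false
set_option linter.style.haveILetI false

namespace Cfsg.Agent.H3.QP

open scoped commutatorElement

local notation "SL" => Matrix.SpecialLinearGroup (Fin 2)

theorem exists_sq_ne {k : Type*} [Field k] (h2 : (2 : k) ≠ 0) (h3 : Nat.card k ≠ 3) : ∃ c : k, c ≠ 0 ∧ c ^ 2 ≠ 1 := by
  classical
  have key : ∃ c : k, c ∉ ({0, 1, -1} : Finset k) := by
    rcases finite_or_infinite k with hf | hi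
    · haveI : Fintype k := Fintype.ofFinite k
      have h := card_gt h2 h3
      rw [Nat.card_eq_fintype_card] at h
      by_contra hcon
      push Not at hcon
      have h5 : (Finset.univ : Finset k) ⊆ ({0, 1, -1} : Finset k) := fun x _ => hcon x
      have h6 := Finset.card_le_card h5
      have h7 : ({0, 1, -1} : Finset k).card ≤ 3 := Finset.card_le_three
      rw [Finset.card_univ] at h6
      omega
    · exact Infinite.exists_notMem_finset _
  obtain ⟨c, hc⟩ := key
  simp only [Finset.mem_insert, Finset.mem_singleton, not_or] at hc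
  refine ⟨c, hc.1, fun h => ?_⟩
  have : (c - 1) * (c + 1) = 0 := by linear_combination h
  rcases mul_eq_zero.1 this with h' | h'
  · exact hc.2.1 (sub_eq_zero.1 h')
  · exact hc.2.2 (eq_neg_of_add_eq_zero_left h')

theorem uu_mem_comm {R : Type*} [CommRing R] {H : Subgroup (SL R)} {c c' x d : R} (hc : c * c' = 1)
    (hd : (c ^ 2 - 1) * d = 1) (ht : mk2 c 0 0 c' (by linear_combination hc) ∈ H) (hx : uu (d * x) ∈ H) :
    uu x ∈ ⁅H, H⁆ := by
  have h1 := Subgroup.commutator_mem_commutator ht hx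
  convert h1 using 1
  rw [commutatorElement_def]
  apply ext2 <;> simp only [mul00, mul01, mul10, mul11, inv00, inv01, inv10, inv11, uu00, uu01, uu10, uu11,
    mk2_00, mk2_01, mk2_10, mk2_11]
  · linear_combination -hc
  · linear_combination (d * x) * hc - x * hd
  · ring
  · linear_combination -hc

theorem vv_mem_comm {R : Type*} [CommRing R] {H : Subgroup (SL R)} {c c' x d : R} (hc : c * c' = 1)
    (hd : (c ^ 2 - 1) * d = 1) (ht : mk2 c' 0 0 c (by linear_combination hc) ∈ H) (hx : vv (d * x) ∈ H) :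
    vv x ∈ ⁅H, H⁆ := by
  have h1 := Subgroup.commutator_mem_commutator ht hx
  convert h1 using 1
  rw [commutatorElement_def]
  apply ext2 <;> simp only [mul00, mul01, mul10, mul11, inv00, inv01, inv10, inv11, vv00, vv01, vv10, vv11,
    mk2_00, mk2_01, mk2_10, mk2_11]
  · linear_combination -hc
  · ring
  · linear_combination (d * x) * hc - x * hd
  · linear_combination -hc

/-- `SL₂` of a field with more than three elements is perfect -/
theorem perfect_top {K : Type*} [Field K] {c : K} (hc : c ≠ 0) (hc2 : c ^ 2 ≠ 1) :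
    ⁅(⊤ : Subgroup (SL K)), (⊤ : Subgroup (SL K))⁆ = ⊤ := by
  have hd : (c ^ 2 - 1) * (c ^ 2 - 1)⁻¹ = 1 := mul_inv_cancel₀ (sub_ne_zero.2 hc2)
  refine top_of_uv (fun x => uu_mem_comm (mul_inv_cancel₀ hc) hd trivial trivial)
    (fun x => vv_mem_comm (mul_inv_cancel₀ hc) hd trivial trivial)

section ring
variable {R : Type*} [CommRing R]

theorem torus_mem' {H : Subgroup (SL R)} (h1 : uu 1 ∈ H) (hv : vv (-1) ∈ H) {e f x : R} (hef : e * f = -1)
    (he : uu e ∈ H) (hf : vv f ∈ H) (hx : uu x ∈ H) : uu (e ^ 2 * x) ∈ H := by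
  have a1 : uu e * vv f * uu e ∈ H := mul_mem (mul_mem he hf) he
  have a2 : uu 1 * vv (-1) * uu 1 ∈ H := mul_mem (mul_mem h1 hv) h1
  have a3 := mul_mem a1 (inv_mem a2)
  have a4 := mul_mem (mul_mem a3 hx) (inv_mem a3)
  have e1 : uu e * vv f * uu e * (uu 1 * vv (-1) * uu 1)⁻¹ = mk2 e 0 0 (-f) (by linear_combination -hef) := by
    apply ext2 <;> simp only [mul_inv_rev, mul00, mul01, mul10, mul11, vv00, vv01, vv10, vv11, uu00, uu01, uu10, uu11,
      inv00, inv01, inv10, inv11, mk2_00, mk2_01, mk2_10, mk2_11] <;>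
    first | ring1 | linear_combination hef | linear_combination -hef | linear_combination e * hef | linear_combination -e * hef
  rw [e1] at a4
  convert a4 using 1
  apply ext2 <;> simp only [mul00, mul01, mul10, mul11, inv00, inv01, inv10, inv11, uu00, uu01, uu10, uu11,
    mk2_00, mk2_01, mk2_10, mk2_11] <;>
    first | ring1 | linear_combination hef | linear_combination -hef

theorem mul_closed' {H : Subgroup (SL R)} (h1 : uu 1 ∈ H) (hv : vv (-1) ∈ H)
    (hinv : ∀ e : R, e ≠ 0 → uu e ∈ H → ∃ f, e * f = -1 ∧ vv f ∈ H) (hhalf : ∀ x : R, uu (2 * x) ∈ H → uu x ∈ H)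
    {e x : R} (he : uu e ∈ H) (hx : uu x ∈ H) : uu (e * x) ∈ H := by
  by_cases he0 : e = 0
  · rw [he0, zero_mul, uu_zero]; exact one_mem _
  by_cases he1 : e + 1 = 0
  · have : e * x = -x := by linear_combination x * he1
    rw [this, ← uu_inv]; exact inv_mem hx
  apply hhalf
  have he' : uu (e + 1) ∈ H := by rw [uu_add]; exact mul_mem he h1
  obtain ⟨f, hf, hf'⟩ := hinv e he0 he
  obtain ⟨f₁, hf₁, hf₁'⟩ := hinv _ he1 he'
  have a1 := torus_mem' h1 hv hf₁ he' hf₁' hx
  have a2 := torus_mem' h1 hv hf he hf' hx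
  have a3 : uu ((e + 1) ^ 2 * x + -(e ^ 2 * x) + -x) ∈ H := by
    rw [uu_add, uu_add, ← uu_inv, ← uu_inv x]
    exact mul_mem (mul_mem a1 (inv_mem a2)) (inv_mem hx)
  convert a3 using 2
  ring

theorem w_conj' {H : Subgroup (SL R)} (h1 : uu 1 ∈ H) (h2 : vv (-1) ∈ H) {x : R} :
    uu x ∈ H ↔ vv x ∈ H := by
  have a2 : uu 1 * vv (-1) * uu 1 ∈ H := mul_mem (mul_mem h1 h2) h1
  have key : (uu 1 * vv (-1) * uu 1) * uu x * (uu 1 * vv (-1) * uu 1)⁻¹ = vv (-x) := by
    apply ext2 <;> simp only [mul_inv_rev, mul00, mul01, mul10, mul11, vv00, vv01, vv10, vv11, uu00, uu01, uu10, uu11,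
      inv00, inv01, inv10, inv11] <;> ring
  constructor
  · intro hx
    have := mul_mem (mul_mem a2 hx) (inv_mem a2)
    rw [key, ← vv_inv] at this
    exact (inv_mem_iff).1 this
  · intro hx
    have h3 : vv (-x) ∈ H := by rw [← vv_inv]; exact inv_mem hx
    rw [← key] at h3
    have := mul_mem (mul_mem (inv_mem a2) h3) a2
    have e : (uu 1 * vv (-1) * uu 1)⁻¹ * ((uu 1 * vv (-1) * uu 1) * uu x * (uu 1 * vv (-1) * uu 1)⁻¹) * (uu 1 * vv (-1) * uu 1) = uu x := by
      group
    rwa [e] at this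

end ring

theorem comm_le_of_map {G : Type*} [Group G] {H : Subgroup G} {f : G →* G} (hf : ∀ x ∈ H, f x ∈ H) {x : G}
    (hx : x ∈ ⁅H, H⁆) : f x ∈ ⁅H, H⁆ := by
  have h1 : H.map f ≤ H := by rintro _ ⟨y, hy, rfl⟩; exact hf y hy
  have h2 : (⁅H, H⁆).map f ≤ ⁅H, H⁆ := by
    rw [Subgroup.map_commutator]
    exact Subgroup.commutator_mono h1 h1
  exact h2 ⟨x, hx, rfl⟩

theorem sb {k A : Type*} [Field k] [CommRing A] [Nontrivial A] [Algebra k A] [FiniteDimensional k A]
    (h2 : (2 : k) ≠ 0) (h3 : Nat.card k ≠ 3) {α : A} (hα : IsUnit α) (hgen : Algebra.adjoin k ({α} : Set A) = ⊤)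
    (R1 : ∀ h ∈ ⁅HS (Set.range (algebraMap k A)) α, HS (Set.range (algebraMap k A)) α⁆, h.1 1 0 = 0 ∨ IsUnit (h.1 1 0))
    (R2 : ∀ h ∈ ⁅HS (Set.range (algebraMap k A)) α, HS (Set.range (algebraMap k A)) α⁆, h.1 0 1 = 0 ∨ IsUnit (h.1 0 1)) :
    (∀ x : A, x = 0 ∨ IsUnit x) ∧
      (∀ x : A, uu x ∈ ⁅HS (Set.range (algebraMap k A)) α, HS (Set.range (algebraMap k A)) α⁆) ∧
      (∀ x : A, vv x ∈ ⁅HS (Set.range (algebraMap k A)) α, HS (Set.range (algebraMap k A)) α⁆) := by
  set H := HS (Set.range (algebraMap k A)) α with hH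
  set D := ⁅H, H⁆ with hD
  have hDH : D ≤ H := Subgroup.commutator_le_self H
  obtain ⟨α', hαα'⟩ := hα.exists_right_inv
  -- invariance
  have Dsc : ∀ (c : k), c ≠ 0 → ∀ x : A, uu x ∈ D → uu (algebraMap k A c * x) ∈ D := by
    intro c hc x hx
    have h : algebraMap k A c * algebraMap k A c⁻¹ = 1 := by
      rw [← map_mul, mul_inv_cancel₀ hc, map_one]
    have hr : ∀ c : k, ∀ x ∈ Set.range (algebraMap k A), algebraMap k A c * x ∈ Set.range (algebraMap k A) := by
      rintro c _ ⟨y, rfl⟩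
      exact ⟨c * y, map_mul _ _ _⟩
    have := comm_le_of_map (f := dd _ _ h) (fun g hg => HS_dd h (hr _) (hr _) hg) hx
    rwa [dd_uu] at this
  have Dsw : ∀ x : A, uu x ∈ D → vv (α * x) ∈ D := by
    intro x hx
    have := comm_le_of_map (f := sw _ _ hαα') (fun g hg => HS_sw hαα' hg) hx
    rwa [sw_uu] at this
  have h2A : IsUnit (2 : A) := by
    have : IsUnit (algebraMap k A 2) := (IsUnit.mk0 2 h2).map _
    rwa [map_ofNat] at this
  -- residue field
  obtain ⟨m, hm⟩ := Ideal.exists_maximal A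
  letI : Field (A ⧸ m) := Ideal.Quotient.field m
  let π : A →+* A ⧸ m := Ideal.Quotient.mk m
  have hπ : Function.Surjective π := Ideal.Quotient.mk_surjective
  haveI : FiniteDimensional k (A ⧸ m) :=
    Module.Finite.of_surjective (Ideal.Quotient.mkₐ k m).toLinearMap (Ideal.Quotient.mkₐ_surjective k m)
  have hnu : ∀ x : A, π x = 0 → ¬ IsUnit x := by
    intro x hx hu
    exact (hu.map π).ne_zero hx
  have h2K : (2 : A ⧸ m) ≠ 0 := by
    have := (h2A.map π).ne_zero
    rwa [map_ofNat] at this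
  have hαK : π α ≠ 0 := (hα.map π).ne_zero
  have hgenK : Algebra.adjoin k ({π α} : Set (A ⧸ m)) = ⊤ := by
    have h4 := congrArg (Subalgebra.map (Ideal.Quotient.mkₐ k m)) hgen
    rw [AlgHom.map_adjoin, Set.image_singleton, Algebra.map_top] at h4
    have h5 : (Ideal.Quotient.mkₐ k m).range = ⊤ := (AlgHom.range_eq_top _).2 (Ideal.Quotient.mkₐ_surjective k m)
    rw [h5] at h4
    exact h4
  have hdick := dick h2K h3 hαK hgenK
  let πs : SL A →* SL (A ⧸ m) := Matrix.SpecialLinearGroup.map π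
  have hπs : ∀ (g : SL A) (i j : Fin 2), (πs g).1 i j = π (g.1 i j) := fun g i j => rfl
  have hπu : ∀ x : A, πs (uu x) = uu (π x) := by
    intro x
    apply ext2 <;> simp only [hπs, uu00, uu01, uu10, uu11, map_one, map_zero]
  have hπv : ∀ x : A, πs (vv x) = vv (π x) := by
    intro x
    apply ext2 <;> simp only [hπs, vv00, vv01, vv10, vv11, map_one, map_zero]
  have hHmap : H.map πs = ⊤ := by
    rw [eq_top_iff, ← hdick]
    apply HS_le
    · rintro _ ⟨c, rfl⟩
      exact ⟨uu (algebraMap k A c), HS_uu ⟨c, rfl⟩, hπu _⟩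
    · rintro _ ⟨c, rfl⟩
      refine ⟨vv (algebraMap k A c * α), HS_vv ⟨c, rfl⟩, ?_⟩
      rw [hπv, map_mul]
      rfl
  obtain ⟨c, hc, hc2⟩ := exists_sq_ne h2 h3
  have hDmap : D.map πs = ⊤ := by
    rw [hD, Subgroup.map_commutator, hHmap]
    have hinj : Function.Injective (algebraMap k (A ⧸ m)) := (algebraMap k (A ⧸ m)).injective
    apply perfect_top (c := algebraMap k (A ⧸ m) c)
    · intro h; exact hc (hinj (h.trans (map_zero _).symm))
    · intro h
      apply hc2
      apply hinj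
      rw [map_pow, h, map_one]
  have hsurj : ∀ g : SL (A ⧸ m), ∃ h ∈ D, πs h = g := by
    intro g
    have : g ∈ D.map πs := by rw [hDmap]; trivial
    obtain ⟨h, hh, rfl⟩ := this
    exact ⟨h, hh, rfl⟩
  have hu1 : uu (1 : A) ∈ H := HS_uu ⟨1, map_one _⟩
  have hvα : vv α ∈ H := by
    have := HS_vv (α := α) (F := Set.range (algebraMap k A)) ⟨1, rfl⟩
    rwa [map_one, one_mul] at this
  have Dhalf : ∀ x : A, uu (2 * x) ∈ D → uu x ∈ D := by
    intro x hx
    have := Dsc 2⁻¹ (inv_ne_zero h2) _ hx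
    have e : algebraMap k A 2⁻¹ * (2 * x) = x := by
      have h6 : algebraMap k A 2⁻¹ * 2 = 1 := by
        rw [← map_ofNat (algebraMap k A) 2, ← map_mul, inv_mul_cancel₀ h2, map_one]
      rw [← mul_assoc, h6, one_mul]
    rwa [e] at this
  -- surjectivity of `E → K`
  have hE : ∀ x : A ⧸ m, ∃ y : A, uu y ∈ D ∧ π y = x := by
    intro x
    obtain ⟨h, hh, hhx⟩ := hsurj (uu x)
    have e10 : π (h.1 1 0) = 0 := by rw [← hπs, hhx, uu10]
    have e00 : π (h.1 0 0) = 1 := by rw [← hπs, hhx, uu00]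
    have e11 : π (h.1 1 1) = 1 := by rw [← hπs, hhx, uu11]
    have e01 : π (h.1 0 1) = x := by rw [← hπs, hhx, uu01]
    have r10 : h.1 1 0 = 0 := (R1 h hh).resolve_right (hnu _ e10)
    have hdet := det_eq h
    rw [r10, mul_zero, sub_zero] at hdet
    have hcomm : ⁅h, uu (1 : A)⁆ = uu (h.1 0 0 ^ 2 - 1) := by
      rw [commutatorElement_def]
      apply ext2 <;> simp only [mul00, mul01, mul10, mul11, inv00, inv01, inv10, inv11, uu00, uu01, uu10, uu11, r10]
      · linear_combination hdet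
      · linear_combination -hdet
      · ring
      · linear_combination hdet
    have hmem : uu (h.1 0 0 ^ 2 - 1) ∈ D := by
      rw [← hcomm]
      exact Subgroup.commutator_mem_commutator (hDH hh) hu1
    have hlam : h.1 0 0 ^ 2 - 1 = 0 := by
      rcases R2 _ hmem with h' | h'
      · rwa [uu01] at h'
      · rw [uu01] at h'
        exact absurd h' (hnu _ (by rw [map_sub, map_pow, e00, map_one]; ring))
    have hlam' : h.1 1 1 = h.1 0 0 := by linear_combination h.1 0 0 * hdet - h.1 1 1 * hlam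
    refine ⟨h.1 0 0 * h.1 0 1, ?_, by rw [map_mul, e00, e01, one_mul]⟩
    apply Dhalf
    have hsq : h * h = uu (2 * (h.1 0 0 * h.1 0 1)) := by
      apply ext2 <;> simp only [mul00, mul01, mul10, mul11, uu00, uu01, uu10, uu11, r10, hlam']
      · linear_combination hlam
      · ring
      · ring
      · linear_combination hlam
    rw [← hsq]
    exact mul_mem hh hh
  have hF : ∀ x : A ⧸ m, ∃ y : A, vv y ∈ D ∧ π y = x := by
    intro x
    obtain ⟨y, hy, hyx⟩ := hE (x / π α)
    exact ⟨α * y, Dsw y hy, by rw [map_mul, hyx, mul_div_cancel₀ _ hαK]⟩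
  -- inverses
  have hinv : ∀ e : A, e ≠ 0 → uu e ∈ D → ∃ f, e * f = -1 ∧ vv f ∈ D := by
    intro e he0 he
    have heu : IsUnit e := by
      have := R2 _ he
      rw [uu01] at this
      exact this.resolve_left he0
    have hπe : π e ≠ 0 := (heu.map π).ne_zero
    obtain ⟨f, hf, hfe⟩ := hF (-(π e)⁻¹)
    refine ⟨f, ?_, hf⟩
    have hπf : π f ≠ 0 := by rw [hfe]; exact neg_ne_zero.2 (inv_ne_zero hπe)
    have hfu : IsUnit f := by
      have := R1 _ hf
      rw [vv10] at this
      exact this.resolve_left (fun h => hπf (by rw [h, map_zero]))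
    have hh : uu e * vv f * uu e ∈ D := mul_mem (mul_mem he hf) he
    have hh2 := mul_mem hh hh
    have e10 : ((uu e * vv f * uu e) * (uu e * vv f * uu e)).1 1 0 = 2 * f * (1 + e * f) := by
      simp only [mul00, mul01, mul10, mul11, vv00, vv01, vv10, vv11, uu00, uu01, uu10, uu11]
      ring
    have h7 := R1 _ hh2
    rw [e10] at h7
    have h8 : 2 * f * (1 + e * f) = 0 := by
      refine h7.resolve_right (hnu _ ?_)
      have e5 : π (1 + e * f) = 0 := by
        rw [map_add, map_one, map_mul, hfe, mul_neg, mul_inv_cancel₀ hπe, add_neg_cancel]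
      rw [map_mul, e5, mul_zero]
    have h9 : 1 + e * f = 0 := (h2A.mul hfu).mul_right_eq_zero.1 h8
    linear_combination h9
  have hu1D : uu (1 : A) ∈ D := by
    obtain ⟨e, he, he1⟩ := hE 1
    obtain ⟨f, hf, hf1⟩ := hF 1
    have hfu : IsUnit f := by
      have := R1 _ hf
      rw [vv10] at this
      exact this.resolve_left (fun h => by rw [h, map_zero] at hf1; exact zero_ne_one hf1)
    have hy : uu (1 - e) ∈ H := by
      rw [sub_eq_add_neg, uu_add, ← uu_inv]
      exact mul_mem hu1 (inv_mem (hDH he))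
    have h4 : ⁅vv f, uu (1 - e)⁆ ∈ D := Subgroup.commutator_mem_commutator (hDH hf) hy
    have e10 : (⁅vv f, uu (1 - e)⁆ : SL A).1 1 0 = -(f ^ 2) * (1 - e) := by
      rw [commutatorElement_def]
      simp only [mul00, mul01, mul10, mul11, inv00, inv01, inv10, inv11, vv00, vv01, vv10, vv11, uu00, uu01, uu10, uu11]
      ring
    have h7 := R1 _ h4
    rw [e10] at h7
    have h8 : -(f ^ 2) * (1 - e) = 0 := by
      refine h7.resolve_right (hnu _ ?_)
      rw [map_mul, map_sub, map_one, he1, sub_self, mul_zero]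
    have h9 : 1 - e = 0 := ((hfu.pow 2).neg).mul_right_eq_zero.1 h8
    have : e = 1 := by linear_combination -h9
    rwa [this] at he
  have hv1D : vv (-1 : A) ∈ D := by
    obtain ⟨f, hf, hf'⟩ := hinv 1 one_ne_zero hu1D
    rw [one_mul] at hf
    rwa [hf] at hf'
  have hαD : uu α ∈ D := by
    rw [w_conj' hu1D hv1D]
    obtain ⟨f, hf, hf1⟩ := hF (π α)
    have hy : vv (α - f) ∈ H := by
      rw [sub_eq_add_neg, vv_add, ← vv_inv]
      exact mul_mem hvα (inv_mem (hDH hf))
    have h4 : ⁅uu (1 : A), vv (α - f)⁆ ∈ D := Subgroup.commutator_mem_commutator hu1 hy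
    have e01 : (⁅uu (1 : A), vv (α - f)⁆ : SL A).1 0 1 = -(α - f) := by
      rw [commutatorElement_def]
      simp only [mul00, mul01, mul10, mul11, inv00, inv01, inv10, inv11, vv00, vv01, vv10, vv11, uu00, uu01, uu10, uu11]
      ring
    have h7 := R2 _ h4
    rw [e01] at h7
    have h8 : -(α - f) = 0 := by
      refine h7.resolve_right (hnu _ ?_)
      rw [map_neg, map_sub, hf1, sub_self, neg_zero]
    have : f = α := by linear_combination h8
    rwa [this] at hf
  have hall : ∀ x : A, uu x ∈ D := by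
    intro x
    have hx : x ∈ Algebra.adjoin k ({α} : Set A) := by rw [hgen]; trivial
    induction hx using Algebra.adjoin_induction with
    | mem x hx =>
      rw [Set.mem_singleton_iff] at hx
      rw [hx]; exact hαD
    | algebraMap c =>
      by_cases hc : c = 0
      · rw [hc, map_zero, uu_zero]; exact one_mem _
      · have := Dsc c hc 1 hu1D
        rwa [mul_one] at this
    | add x y _ _ hx hy => rw [uu_add]; exact mul_mem hx hy
    | mul x y _ _ hx hy => exact mul_closed' hu1D hv1D hinv Dhalf hx hy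
  refine ⟨fun x => ?_, hall, fun x => (w_conj' hu1D hv1D).1 (hall x)⟩
  have := R2 _ (hall x)
  rwa [uu01] at this

end Cfsg.Agent.H3.QP
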