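import Mathlib
import Cfsg.Agent.H3.QPFit
import Cfsg.Agent.H3.QPSB

/-!
Quadratic pairs: the representation of `SL₂(A)` attached to a pair of square zero operators.
-/

set_option autoImplicit false

namespace Cfsg.Agent.H3.QP

open scoped commutatorElement

local notation "SL" => Matrix.SpecialLinearGroup (Fin 2)

universe u v

section abs
variable {A R : Type*} [CommRing A] [Ring R]

/-- matrix units -/
structure MU (φ : A →+ R) (f : Fin 2 → Fin 2 → R) (e : R) : Prop where
  mul : ∀ i j k l, f i j * f k l = if j = k then f i l else 0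
  sum : f 0 0 + f 1 1 = e
  comm : ∀ a i j, f i j * φ a = φ a * f i j
  fmul : ∀ a b, φ (a * b) = φ a * φ b
  one : φ 1 = e
  inj : Function.Injective φ

variable {φ : A →+ R} {f : Fin 2 → Fin 2 → R} {e : R}

/-- the representation of the matrix ring -/
def RR (φ : A →+ R) (f : Fin 2 → Fin 2 → R) (X : Matrix (Fin 2) (Fin 2) A) : R :=
  φ (X 0 0) * f 0 0 + φ (X 0 1) * f 0 1 + φ (X 1 0) * f 1 0 + φ (X 1 1) * f 1 1

theorem MU.term (h : MU φ f e) (a b : A) (i j k l : Fin 2) :
    (φ a * f i j) * (φ b * f k l) = φ (a * b) * (if j = k then f i l else 0) := by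
  rw [← h.mul, h.fmul]
  calc (φ a * f i j) * (φ b * f k l) = φ a * (f i j * φ b) * f k l := by simp only [mul_assoc]
    _ = _ := by rw [h.comm]; simp only [mul_assoc]

theorem MU.RR_mul (h : MU φ f e) (X Y : Matrix (Fin 2) (Fin 2) A) : RR φ f (X * Y) = RR φ f X * RR φ f Y := by
  have e00 : (X * Y) 0 0 = X 0 0 * Y 0 0 + X 0 1 * Y 1 0 := by rw [Matrix.mul_apply, Fin.sum_univ_two]
  have e01 : (X * Y) 0 1 = X 0 0 * Y 0 1 + X 0 1 * Y 1 1 := by rw [Matrix.mul_apply, Fin.sum_univ_two]
  have e10 : (X * Y) 1 0 = X 1 0 * Y 0 0 + X 1 1 * Y 1 0 := by rw [Matrix.mul_apply, Fin.sum_univ_two]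
  have e11 : (X * Y) 1 1 = X 1 0 * Y 0 1 + X 1 1 * Y 1 1 := by rw [Matrix.mul_apply, Fin.sum_univ_two]
  unfold RR
  simp only [mul_add, add_mul, h.term, e00, e01, e10, e11, map_add, if_true, if_neg (show ¬ (0 : Fin 2) = 1 by decide),
    if_neg (show ¬ (1 : Fin 2) = 0 by decide), mul_zero]
  abel

theorem MU.ee (h : MU φ f e) : e * e = e := by
  rw [← h.one, ← h.fmul, mul_one]

theorem MU.RR_one (h : MU φ f e) : RR φ f 1 = e := by
  unfold RR
  simp only [Matrix.one_apply_eq, Matrix.one_apply_ne (show (0 : Fin 2) ≠ 1 by decide),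
    Matrix.one_apply_ne (show (1 : Fin 2) ≠ 0 by decide), map_zero, zero_mul, add_zero]
  rw [← mul_add, h.sum, h.one, h.ee]

theorem MU.e_RR (h : MU φ f e) (X : Matrix (Fin 2) (Fin 2) A) : e * RR φ f X = RR φ f X := by
  rw [← h.RR_one, ← h.RR_mul, one_mul]

theorem MU.RR_e (h : MU φ f e) (X : Matrix (Fin 2) (Fin 2) A) : RR φ f X * e = RR φ f X := by
  rw [← h.RR_one, ← h.RR_mul, mul_one]

theorem RR_add (X Y : Matrix (Fin 2) (Fin 2) A) : RR φ f (X + Y) = RR φ f X + RR φ f Y := by
  unfold RR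
  simp only [Matrix.add_apply, map_add, add_mul]
  abel

theorem RR_sub (X Y : Matrix (Fin 2) (Fin 2) A) : RR φ f (X - Y) = RR φ f X - RR φ f Y := by
  unfold RR
  simp only [Matrix.sub_apply, map_sub, sub_mul]
  abel

theorem MU.phi_e (h : MU φ f e) (a : A) : φ a * e = φ a := by rw [← h.one, ← h.fmul, mul_one]
theorem MU.e_phi (h : MU φ f e) (a : A) : e * φ a = φ a := by rw [← h.one, ← h.fmul, one_mul]

theorem MU.entry (h : MU φ f e) (X : Matrix (Fin 2) (Fin 2) A) (i j : Fin 2) :
    f 0 i * RR φ f X * f j 0 + f 1 i * RR φ f X * f j 1 = φ (X i j) := by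
  have key : ∀ l : Fin 2, f l i * RR φ f X * f j l = φ (X i j) * f l l := by
    intro l
    have t : ∀ (a : A) (p q : Fin 2), f l i * (φ a * f p q) * f j l = φ a * (if i = p ∧ q = j then f l l else 0) := by
      intro a p q
      calc f l i * (φ a * f p q) * f j l = (f l i * φ a) * (f p q * f j l) := by simp only [mul_assoc]
        _ = φ a * (f l i * (f p q * f j l)) := by rw [h.comm]; simp only [mul_assoc]
        _ = _ := by
          rw [h.mul p q j l]
          by_cases h1 : q = j
          · rw [if_pos h1, h.mul]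
            by_cases h2 : i = p
            · rw [if_pos h2, if_pos ⟨h2, h1⟩]
            · rw [if_neg h2, if_neg (fun h3 => h2 h3.1)]
          · rw [if_neg h1, mul_zero, if_neg (fun h3 => h1 h3.2)]
    unfold RR
    rw [mul_add, mul_add, mul_add, add_mul, add_mul, add_mul, t, t, t, t]
    fin_cases i <;> fin_cases j <;> simp
  rw [key, key, ← mul_add, h.sum, h.phi_e]

theorem MU.RR_inj (h : MU φ f e) {X Y : Matrix (Fin 2) (Fin 2) A} (hXY : RR φ f X = RR φ f Y) : X = Y := by
  ext i j
  apply h.inj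
  rw [← h.entry X, ← h.entry Y, hXY]

/-- the representation of `SL₂(A)` -/
def rho (h : MU φ f e) : SL A →* R where
  toFun g := (1 - e) + RR φ f g.1
  map_one' := by
    have : RR φ f (1 : SL A).1 = e := h.RR_one
    rw [this]; abel
  map_mul' g g' := by
    have h1 : RR φ f (g * g').1 = RR φ f g.1 * RR φ f g'.1 := h.RR_mul _ _
    rw [h1]
    have h2 := h.e_RR g'.1
    have h3 := h.RR_e g.1
    have h4 := h.ee
    calc (1 - e) + RR φ f g.1 * RR φ f g'.1
        = (1 - e - (e - e * e)) + (RR φ f g'.1 - e * RR φ f g'.1) + (RR φ f g.1 - RR φ f g.1 * e) +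
          RR φ f g.1 * RR φ f g'.1 := by rw [h2, h3, h4]; abel
      _ = _ := by noncomm_ring

theorem rho_apply (h : MU φ f e) (g : SL A) : rho h g = (1 - e) + RR φ f g.1 := rfl

theorem rho_inj (h : MU φ f e) : Function.Injective (rho h) := by
  intro g g' hg
  rw [rho_apply, rho_apply] at hg
  exact Subtype.ext (h.RR_inj (add_left_cancel hg))

theorem rho_mul_compl (h : MU φ f e) (g : SL A) : rho h g * (1 - e) = 1 - e := by
  rw [rho_apply, add_mul, mul_sub (RR φ f g.1), h.RR_e, mul_one, sub_self, add_zero, sub_mul, one_mul, mul_sub, mul_one, h.ee,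
    sub_self, sub_zero]

theorem compl_mul_rho (h : MU φ f e) (g : SL A) : (1 - e) * rho h g = 1 - e := by
  rw [rho_apply, mul_add, sub_mul (1 : R) e (RR φ f g.1), h.e_RR, one_mul, sub_self, add_zero, sub_mul, one_mul, mul_sub, mul_one,
    h.ee, sub_self, sub_zero]

theorem rho_uu (h : MU φ f e) (x : A) : rho h (uu x) = 1 + φ x * f 0 1 := by
  rw [rho_apply]
  unfold RR
  simp only [uu00, uu01, uu10, uu11, map_zero, zero_mul, add_zero, h.one]
  have h1 : e * f 0 0 + e * f 1 1 = e := by rw [← mul_add, h.sum, h.ee]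
  calc (1 - e) + (e * f 0 0 + φ x * f 0 1 + e * f 1 1) = (1 - e) + (e * f 0 0 + e * f 1 1) + φ x * f 0 1 := by abel
    _ = _ := by rw [h1]; abel

theorem rho_vv (h : MU φ f e) (x : A) : rho h (vv x) = 1 + φ x * f 1 0 := by
  rw [rho_apply]
  unfold RR
  simp only [vv00, vv01, vv10, vv11, map_zero, zero_mul, add_zero, h.one]
  have h1 : e * f 0 0 + e * f 1 1 = e := by rw [← mul_add, h.sum, h.ee]
  calc (1 - e) + (e * f 0 0 + φ x * f 1 0 + e * f 1 1) = (1 - e) + (e * f 0 0 + e * f 1 1) + φ x * f 1 0 := by abel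
    _ = _ := by rw [h1]; abel

/-- the combined homomorphism -/
def Th {V : Type*} [AddCommGroup V] (h : MU φ f e) (N : V →+ R) (hc : ∀ p, N p * e = e * N p)
    (hN : ∀ p q, N p * N q * (1 - e) = 0) : SL A × Multiplicative V →* R where
  toFun g := rho h g.1 + N (Multiplicative.toAdd g.2) * (1 - e)
  map_one' := by simp
  map_mul' g g' := by
    set p := Multiplicative.toAdd g.2
    set q := Multiplicative.toAdd g'.2
    have e1 : Multiplicative.toAdd (g * g').2 = p + q := rfl
    have e2 : (g * g').1 = g.1 * g'.1 := rfl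
    rw [e1, e2, map_mul, map_add]
    have hc' : ∀ p, N p * (1 - e) = (1 - e) * N p := fun p => by rw [mul_sub, sub_mul, hc, mul_one, one_mul]
    have h1 : rho h g.1 * (N q * (1 - e)) = N q * (1 - e) := by
      rw [hc', ← mul_assoc, rho_mul_compl]
    have h2 : (N p * (1 - e)) * rho h g'.1 = N p * (1 - e) := by
      rw [mul_assoc, compl_mul_rho]
    have h3 : (N p * (1 - e)) * (N q * (1 - e)) = 0 := by
      rw [mul_assoc, ← mul_assoc (1 - e), ← hc', mul_assoc, ← mul_assoc, ← mul_assoc, hN, zero_mul]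
    have e3 : (rho h g.1 + N p * (1 - e)) * (rho h g'.1 + N q * (1 - e)) =
        rho h g.1 * rho h g'.1 + rho h g.1 * (N q * (1 - e)) + (N p * (1 - e)) * rho h g'.1 +
          (N p * (1 - e)) * (N q * (1 - e)) := by
      rw [add_mul (rho h g.1), mul_add (rho h g.1), mul_add (N p * (1 - e))]; abel
    rw [e3, h1, h2, h3, add_mul (N p) (N q) (1 - e), add_zero]
    abel

end abs

theorem comm_fst {P V : Type*} [Group P] [CommGroup V] (T : Subgroup (P × V)) (H : Subgroup P)
    (hH : H ≤ T.map (MonoidHom.fst P V)) : ∀ h ∈ ⁅H, H⁆, ((h, 1) : P × V) ∈ T := by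
  have h1 : ⁅H, H⁆ ≤ (⁅T, T⁆).map (MonoidHom.fst P V) := by
    rw [Subgroup.map_commutator]; exact Subgroup.commutator_mono hH hH
  have h2 : ⁅T, T⁆ ≤ (MonoidHom.snd P V).ker := by
    rw [Subgroup.commutator_le]
    intro x _ y _
    rw [MonoidHom.mem_ker, map_commutatorElement, commutatorElement_eq_one_iff_commute]
    exact Commute.all _ _
  intro h hh
  obtain ⟨⟨a, b⟩, hab, hab'⟩ := h1 hh
  have h3 : b = 1 := h2 hab
  have h4 : a = h := hab'
  rw [h3, h4] at hab
  exact Subgroup.commutator_le_self T hab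

variable {k : Type u} [Field k] {M : Type v} [AddCommGroup M] [Module k M]

local notation "GL" => LinearMap.GeneralLinearGroup k M

/-- the matrix units of a pair -/
def ff (n m e w : M →ₗ[k] M) : Fin 2 → Fin 2 → (M →ₗ[k] M) :=
  ![![w * n * m, n * e], ![w * m, w * m * n]]

variable {n m e w : M →ₗ[k] M} {A : Type u} [CommRing A] [Algebra k A] {φ : A →ₗ[k] (M →ₗ[k] M)} {α : A} {G : Subgroup (LinearMap.GeneralLinearGroup k M)}

theorem n_comm_z {R : Type*} [Ring R] {n m : R} (hn : n * n = 0) : n * (n * m + m * n) = (n * m + m * n) * n := by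
  rw [mul_add, add_mul, ← mul_assoc n n m, hn, zero_mul, mul_assoc m n n, hn, mul_zero, zero_add, add_zero, mul_assoc]

theorem m_comm_z {R : Type*} [Ring R] {n m : R} (hm : m * m = 0) : m * (n * m + m * n) = (n * m + m * n) * m := by
  have := n_comm_z (n := m) (m := n) hm
  rwa [add_comm (m * n)] at this

theorem muOf (hn : n * n = 0) (hm : m * m = 0) (hF : Fit (n * m + m * n) e w)
    (hA : AlgData (n * m + m * n) e A φ α) : MU (φ : A →+ (M →ₗ[k] M)) (ff n m e w) e := by
  have nz := n_comm_z (n := n) (m := m) hn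
  have mz := m_comm_z (n := n) (m := m) hm
  have ne := hF.comm_e nz
  have me := hF.comm_e mz
  have nw := hF.comm_w nz
  have mw := hF.comm_w mz
  have nmn : n * (m * n) = (n * m + m * n) * n := by rw [add_mul, mul_assoc m, hn, mul_zero, add_zero, mul_assoc]
  have mnm : m * (n * m) = (n * m + m * n) * m := by rw [add_mul, mul_assoc n, hm, mul_zero, zero_add, mul_assoc]
  have hee := hF.ee
  -- basic products
  have hn' : ∀ x, n * (n * x) = 0 := fun x => by rw [← mul_assoc, hn, zero_mul]
  have hm' : ∀ x, m * (m * x) = 0 := fun x => by rw [← mul_assoc, hm, zero_mul]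
  have nw' : ∀ x, n * (w * x) = w * (n * x) := fun x => by rw [← mul_assoc, nw, mul_assoc]
  have mw' : ∀ x, m * (w * x) = w * (m * x) := fun x => by rw [← mul_assoc, mw, mul_assoc]
  have ne' : ∀ x, n * (e * x) = e * (n * x) := fun x => by rw [← mul_assoc, ne, mul_assoc]
  have me' : ∀ x, m * (e * x) = e * (m * x) := fun x => by rw [← mul_assoc, me, mul_assoc]
  have wew : w * e = w := hF.we
  have ew' : ∀ x, e * (w * x) = w * x := fun x => by rw [← mul_assoc, hF.ew]
  have we' : ∀ x, w * (e * x) = w * x := fun x => by rw [← mul_assoc, hF.we]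
  have ee' : ∀ x, e * (e * x) = e * x := fun x => by rw [← mul_assoc, hee]
  have wnmn : w * (n * (m * n)) = e * n := by rw [nmn, ← mul_assoc, hF.wz]
  have wnmn' : ∀ x, w * (n * (m * (n * x))) = e * (n * x) := fun x => by
    have := congrArg (· * x) wnmn
    simpa [mul_assoc] using this
  have wmnm : w * (m * (n * m)) = e * m := by rw [mnm, ← mul_assoc, hF.wz]
  have wmnm' : ∀ x, w * (m * (n * (m * x))) = e * (m * x) := fun x => by
    have := congrArg (· * x) wmnm
    simpa [mul_assoc] using this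
  have f00 : ff n m e w 0 0 = w * (n * m) := by rw [← mul_assoc]; rfl
  have f01 : ff n m e w 0 1 = e * n := by rw [← ne]; rfl
  have f10 : ff n m e w 1 0 = w * m := rfl
  have f11 : ff n m e w 1 1 = w * (m * n) := by rw [← mul_assoc]; rfl
  have cn : ∀ a, n * φ a = φ a * n := fun a => hA.comm a n nz
  have cm : ∀ a, m * φ a = φ a * m := fun a => hA.comm a m mz
  have cw : ∀ a, w * φ a = φ a * w := fun a => hA.comm a w (by rw [hF.wz, hF.zw])
  have ce : ∀ a, e * φ a = φ a * e := fun a => by rw [← hA.one, ← hA.mul, ← hA.mul, mul_comm]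
  refine ⟨?_, ?_, ?_, hA.mul, hA.one, hA.inj⟩
  · intro i j p q
    fin_cases i <;> fin_cases j <;> fin_cases p <;> fin_cases q <;>
      simp only [Fin.zero_eta, Fin.mk_one, Fin.isValue, f00, f01, f10, f11, if_true, zero_ne_one, one_ne_zero, if_false,
        mul_assoc, hn, hm, hn', hm', nw', mw', ne', me', ew', we', ee', wnmn, wnmn', wmnm, wmnm', mul_zero, wew, hee]
  · rw [f00, f11, ← mul_add, hF.wz]
  · intro a i j
    change ff n m e w i j * φ a = φ a * ff n m e w i j
    fin_cases i <;> fin_cases j <;> simp only [Fin.zero_eta, Fin.mk_one, Fin.isValue, f00, f01, f10, f11]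
    · rw [mul_assoc, mul_assoc n m, cm, ← mul_assoc n, cn, mul_assoc (φ a), ← mul_assoc w, cw, mul_assoc]
    · rw [mul_assoc, cn, ← mul_assoc, ce, mul_assoc]
    · rw [mul_assoc, cm, ← mul_assoc, cw, mul_assoc]
    · rw [mul_assoc, mul_assoc m n, cn, ← mul_assoc m, cm, mul_assoc (φ a), ← mul_assoc w, cw, mul_assoc]

theorem rhoU_val (h : MU (φ : A →+ (M →ₗ[k] M)) (ff n m e w) e) (g : SL A) :
    (((rho h).toHomUnits g : GL) : M →ₗ[k] M) = rho h g := rfl

theorem rhoU_inv_val (h : MU (φ : A →+ (M →ₗ[k] M)) (ff n m e w) e) (g : SL A) :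
    ((((rho h).toHomUnits g)⁻¹ : GL) : M →ₗ[k] M) = rho h g⁻¹ := by
  rw [← map_inv]; rfl

/-- the derived group of the upstairs group acts through `G` -/
theorem D_mem (hn : NN G n) (hm : NN G m) (hF : Fit (n * m + m * n) e w) (hA : AlgData (n * m + m * n) e A φ α)
    (h1 : n * m * (1 - e) = 0) (h2 : m * n * (1 - e) = 0) {g : SL A}
    (hg : g ∈ ⁅HS (Set.range (algebraMap k A)) α, HS (Set.range (algebraMap k A)) α⁆) :
    (rho (muOf hn.1 hm.1 hF hA)).toHomUnits g ∈ G := by
  set mu := muOf hn.1 hm.1 hF hA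
  have nz := n_comm_z (n := n) (m := m) hn.1
  have mz := m_comm_z (n := n) (m := m) hm.1
  have ne := hF.comm_e nz
  have me := hF.comm_e mz
  let N : (k × k) →+ (M →ₗ[k] M) := {
    toFun := fun p => p.1 • n + p.2 • m
    map_zero' := by simp
    map_add' := fun p q => by simp only [Prod.fst_add, Prod.snd_add, add_smul]; abel }
  have hN : ∀ p, N p = p.1 • n + p.2 • m := fun _ => rfl
  have hc : ∀ p, N p * e = e * N p := fun p => by
    rw [hN, add_mul, mul_add, smul_mul_assoc, smul_mul_assoc, mul_smul_comm, mul_smul_comm, ne, me]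
  have hNN : ∀ p q, N p * N q * (1 - e) = 0 := fun p q => by
    rw [hN, hN, add_mul, mul_add, mul_add, add_mul, add_mul, add_mul]
    simp only [smul_mul_assoc, mul_smul_comm, hn.1, hm.1, h1, h2, smul_zero, zero_mul, add_zero]
  let Θ := Th mu N hc hNN
  have hΘ : ∀ g p, (((Θ.toHomUnits (g, Multiplicative.ofAdd p)) : GL) : M →ₗ[k] M) = rho mu g + N p * (1 - e) := fun _ _ => rfl
  let T : Subgroup (SL A × Multiplicative (k × k)) := G.comap Θ.toHomUnits
  have hφc : ∀ c : k, φ (algebraMap k A c) = c • e := fun c => by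
    rw [Algebra.algebraMap_eq_smul_one, map_smul, hA.one]
  have hle : HS (Set.range (algebraMap k A)) α ≤ T.map (MonoidHom.fst _ _) := by
    apply HS_le
    · rintro _ ⟨c, rfl⟩
      refine ⟨(uu (algebraMap k A c), Multiplicative.ofAdd (c, 0)), ?_, rfl⟩
      rw [SetLike.mem_coe, Subgroup.mem_comap]
      obtain ⟨x, hx, hx'⟩ := hn.2 c
      have : Θ.toHomUnits (uu (algebraMap k A c), Multiplicative.ofAdd (c, 0)) = x := by
        apply Units.ext
        rw [hΘ, hx', rho_uu, hN]
        change 1 + φ (algebraMap k A c) * (n * e) + (c • n + (0 : k) • m) * (1 - e) = _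
        rw [hφc, zero_smul, add_zero, smul_mul_assoc, ← mul_assoc, ← ne, mul_assoc, hF.ee, smul_mul_assoc, mul_sub, mul_one,
          smul_sub]
        abel
      rw [this]; exact hx
    · rintro _ ⟨c, rfl⟩
      refine ⟨(vv (algebraMap k A c * α), Multiplicative.ofAdd (0, c)), ?_, rfl⟩
      rw [SetLike.mem_coe, Subgroup.mem_comap]
      obtain ⟨x, hx, hx'⟩ := hm.2 c
      have : Θ.toHomUnits (vv (algebraMap k A c * α), Multiplicative.ofAdd (0, c)) = x := by
        apply Units.ext
        rw [hΘ, hx', rho_vv, hN]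
        change 1 + φ (algebraMap k A c * α) * (w * m) + ((0 : k) • n + c • m) * (1 - e) = _
        have e1 : φ (algebraMap k A c * α) * (w * m) = c • (m * e) := by
          rw [hA.mul, hφc, hA.al, smul_mul_assoc, smul_mul_assoc]
          congr 1
          calc e * ((n * m + m * n) * e) * (w * m) = e * (n * m + m * n) * (e * w) * m := by simp only [mul_assoc]
            _ = e * ((n * m + m * n) * w) * m := by rw [hF.ew]; simp only [mul_assoc]
            _ = m * e := by rw [hF.zw, hF.ee, me]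
        rw [e1, zero_smul, zero_add, smul_mul_assoc, mul_sub, mul_one, smul_sub]
        abel
      rw [this]; exact hx
  have := comm_fst T _ hle g hg
  have h5 : Θ.toHomUnits (g, 1) ∈ G := this
  have h6 : Θ.toHomUnits (g, 1) = (rho mu).toHomUnits g := by
    apply Units.ext
    have := hΘ g 0
    rw [hN] at this
    simp only [Prod.fst_zero, Prod.snd_zero, zero_smul, add_zero, zero_mul] at this
    exact this
  rw [← h6]; exact h5

end Cfsg.Agent.H3.QP
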