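import Mathlib
import Cfsg.Agent.H3.QPRep

/-!
Quadratic pairs: two operators of minimal rank which do not generate a unipotent group.
-/

set_option autoImplicit false
set_option linter.style.haveILetI false

namespace Cfsg.Agent.H3.QP

open scoped commutatorElement

local notation "SL" => Matrix.SpecialLinearGroup (Fin 2)

universe u v

section abs
variable {A R : Type*} [CommRing A] [Ring R] {φ : A →+ R} {f : Fin 2 → Fin 2 → R} {e : R}

theorem rho_conj_RR (h : MU φ f e) (g : SL A) (X : Matrix (Fin 2) (Fin 2) A) :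
    rho h g * RR φ f X * rho h g⁻¹ = RR φ f (g.1 * X * (g⁻¹).1) := by
  have h1 : ∀ (g : SL A) (X : Matrix (Fin 2) (Fin 2) A), rho h g * RR φ f X = RR φ f (g.1 * X) := by
    intro g X
    rw [rho_apply, add_mul, sub_mul, one_mul, h.e_RR, sub_self, zero_add, h.RR_mul]
  have h2 : ∀ (g : SL A) (X : Matrix (Fin 2) (Fin 2) A), RR φ f X * rho h g = RR φ f (X * g.1) := by
    intro g X
    rw [rho_apply, mul_add, mul_sub, mul_one, h.RR_e, sub_self, zero_add, h.RR_mul]
  rw [h1, h2]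

theorem rho_conj_compl (h : MU φ f e) (g : SL A) {y : R} (hy : y * e = e * y) :
    rho h g * (y * (1 - e)) * rho h g⁻¹ = y * (1 - e) := by
  have h1 : y * (1 - e) = (1 - e) * y := by rw [mul_sub, sub_mul, hy, mul_one, one_mul]
  rw [h1, ← mul_assoc, rho_mul_compl, ← h1, mul_assoc, compl_mul_rho]

theorem sum_mul_sum (h : MU φ f e) {a b : R} (hab : a * b = 0) (ha : a * e = 0) (hb : e * b = 0)
    (X Y : Matrix (Fin 2) (Fin 2) A) : (a + RR φ f X) * (b + RR φ f Y) = RR φ f (X * Y) := by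
  have h1 : a * RR φ f Y = 0 := by rw [← h.e_RR, ← mul_assoc, ha, zero_mul]
  have h2 : RR φ f X * b = 0 := by rw [← h.RR_e, mul_assoc, hb, mul_zero]
  rw [add_mul, mul_add, mul_add, hab, h1, h2, h.RR_mul, zero_add, zero_add, zero_add]

end abs

variable {k : Type u} [Field k] {M : Type v} [AddCommGroup M] [Module k M]

local notation "GL" => LinearMap.GeneralLinearGroup k M

variable {G : Subgroup (LinearMap.GeneralLinearGroup k M)} {d : ℕ} {n m e w : M →ₗ[k] M}

theorem range_eq_of_rk [FiniteDimensional k M] {a b : M →ₗ[k] M} (h : LinearMap.range a ≤ LinearMap.range b) (h' : rk b ≤ rk a) :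
    LinearMap.range a = LinearMap.range b := Submodule.eq_of_le_of_finrank_le h h'

theorem Rkey [FiniteDimensional k M] (h2k : (2 : k) ≠ 0) (hmin : MinR G d) {z e w x y x' : M →ₗ[k] M}
    {A : Type u} [CommRing A] [Algebra k A] {φ : A →ₗ[k] (M →ₗ[k] M)} {α : A}
    (hF : Fit z e w) (hA : AlgData z e A φ α) (hx : N1 G d x) (hx' : N1 G d x') (hxy : x * y + y * x = z)
    (cx : ∀ a, x * φ a = φ a * x) (cy : ∀ a, y * φ a = φ a * y) {a b : A} (h1 : x * x' + x' * x = φ a)
    (h2 : a = 0 → x * x' - x' * x = φ b * x) (hb : a = 0 → b * b = 0)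
    (IH : ∀ n1 m1 e1 w1 : M →ₗ[k] M, N1 G d n1 → N1 G d m1 → Fit (n1 * m1 + m1 * n1) e1 w1 → e1 ≠ 0 → rk e1 < rk e →
      n1 * (1 - e1) = 0) : IsUnit a ∨ (a = 0 ∧ b = 0) := by
  haveI := hA.fd
  have φe : ∀ c, φ c * e = φ c := fun c => by rw [← hA.one, ← hA.mul, mul_one]
  have eφ : ∀ c, e * φ c = φ c := fun c => by rw [← hA.one, ← hA.mul, one_mul]
  have key : ∀ c, φ c * x = 0 → c = 0 := by
    intro c hc
    apply hA.inj
    rw [map_zero, ← φe, ← hF.zw, ← mul_assoc, ← hxy, mul_add, ← mul_assoc, hc, zero_mul, ← mul_assoc, ← cy, mul_assoc, hc,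
      mul_zero, add_zero, zero_mul]
  obtain ⟨e', w', hF'⟩ := exists_fit (x * x' + x' * x)
  by_cases he' : e' = 0
  · right
    obtain ⟨r, hr⟩ := hF'.nil
    rw [he', sub_zero, mul_one] at hr
    have u1 := unip_pair h2k hmin r x x' hx hx' hr
    have u2 := unip_pair h2k hmin r x' x hx' hx (by rw [add_comm]; exact hr)
    have ha : a = 0 := by
      apply key
      rw [← h1, add_mul, mul_assoc, u1, mul_assoc, hx.1.1, mul_zero, add_zero]
    refine ⟨ha, ?_⟩
    have ht := hx.1.comm2 hx'.1 u1 u2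
    rw [h2 ha] at ht
    apply key
    by_contra hne
    have h3 := hmin _ ht hne
    have hle : LinearMap.range (φ b * x) ≤ LinearMap.range x := by
      rw [← cx]; rintro _ ⟨v, rfl⟩; exact ⟨φ b v, rfl⟩
    have heq := range_eq_of_rk hle (hx.2.2.trans h3)
    apply hx.2.1
    ext v
    have hv : x v ∈ LinearMap.range (φ b * x) := by rw [heq]; exact ⟨v, rfl⟩
    obtain ⟨u, hu⟩ := hv
    have hu2 : x u ∈ LinearMap.range (φ b * x) := by rw [heq]; exact ⟨u, rfl⟩
    obtain ⟨u', hu'⟩ := hu2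
    change φ b (x u') = x u at hu'
    change φ b (x u) = x v at hu
    rw [← hu, ← hu']
    have : φ b * (φ b * x) = 0 := by rw [← mul_assoc, ← hA.mul, hb ha, map_zero, zero_mul]
    exact congrArg (fun f : M →ₗ[k] M => f u') this
  · have ee : e' * e = e' := by rw [← hF'.wz, mul_assoc, h1, φe]
    have ec : e * e' = e' * e := hF'.comm_e (by rw [h1, eφ, φe])
    by_cases hee : e' = e
    · left
      apply isUnit_of_nzd (k := k)
      intro c hc
      apply hA.inj
      rw [map_zero, ← φe, ← hee, ← hF'.zw, h1, ← mul_assoc, ← hA.mul, hc, map_zero, zero_mul]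
    · exfalso
      have hlt : rk e' < rk e := by
        by_contra hge
        push Not at hge
        have hle : LinearMap.range e' ≤ LinearMap.range e := by
          rintro _ ⟨v, rfl⟩
          exact ⟨e' v, congrArg (fun f : M →ₗ[k] M => f v) (ec.trans ee)⟩
        have heq := range_eq_of_rk hle hge
        apply hee
        rw [← ee]
        ext v
        have hv : e v ∈ LinearMap.range e' := by rw [heq]; exact ⟨v, rfl⟩
        obtain ⟨u, hu⟩ := hv
        change e' (e v) = e v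
        rw [← hu]
        exact congrArg (fun f : M →ₗ[k] M => f u) hF'.ee
      have h4 := IH x x' e' w' hx hx' hF' he' hlt
      have ye : y * e' = e' * y := hF'.comm_e (by rw [h1, cy])
      have h5 : z * (1 - e') = 0 := by
        have : x * y * (1 - e') = x * (1 - e') * y := by
          rw [mul_sub, mul_sub, sub_mul, mul_assoc x y e', ye]; simp only [mul_one, mul_assoc]
        rw [← hxy, add_mul, this, h4, zero_mul, mul_assoc, h4, mul_zero, zero_add]
      have h6 : e * (1 - e') = 0 := by rw [← hF.wz, mul_assoc, h5, mul_zero]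
      rw [mul_sub, mul_one, sub_eq_zero] at h6
      exact hee (by rw [← ee, ← ec, ← h6])

variable {A : Type u} [CommRing A] [Algebra k A] {φ : A →ₗ[k] (M →ₗ[k] M)} {α : A}

theorem stepB [FiniteDimensional k M] (h2k : (2 : k) ≠ 0) (h3k : Nat.card k ≠ 3) (hmin : MinR G d)
    (hn : N1 G d n) (hm : N1 G d m) (hF : Fit (n * m + m * n) e w) (he : e ≠ 0)
    (h1 : n * m * (1 - e) = 0) (h2 : m * n * (1 - e) = 0) (hA : AlgData (n * m + m * n) e A φ α)
    (IH : ∀ n1 m1 e1 w1 : M →ₗ[k] M, N1 G d n1 → N1 G d m1 → Fit (n1 * m1 + m1 * n1) e1 w1 → e1 ≠ 0 → rk e1 < rk e →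
      n1 * (1 - e1) = 0) :
    (∀ x : A, x = 0 ∨ IsUnit x) ∧
      (∀ x : A, uu x ∈ ⁅HS (Set.range (algebraMap k A)) α, HS (Set.range (algebraMap k A)) α⁆) ∧
      (∀ x : A, vv x ∈ ⁅HS (Set.range (algebraMap k A)) α, HS (Set.range (algebraMap k A)) α⁆) := by
  haveI := hA.fd
  haveI : Nontrivial A := by
    refine ⟨⟨1, 0, fun h => he ?_⟩⟩
    rw [← hA.one, h, map_zero]
  have h2A : IsUnit (2 : A) := by
    have : IsUnit (algebraMap k A 2) := (IsUnit.mk0 2 h2k).map _
    rwa [map_ofNat] at this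
  set mu := muOf hn.1.1 hm.1.1 hF hA with hmu
  have nz := n_comm_z (n := n) (m := m) hn.1.1
  have mz := m_comm_z (n := n) (m := m) hm.1.1
  have ne := hF.comm_e nz
  have me := hF.comm_e mz
  have cn : ∀ a, n * φ a = φ a * n := fun a => hA.comm a n nz
  have cm : ∀ a, m * φ a = φ a * m := fun a => hA.comm a m mz
  have φe : ∀ c, φ c * e = φ c := fun c => by rw [← hA.one, ← hA.mul, mul_one]
  have φn : ∀ a, φ a * (n * e) = φ a * n := fun a => by rw [← cn, ← mul_assoc, ← cn, mul_assoc, φe] 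
  have h1e : (1 - e) * e = 0 := by rw [sub_mul, one_mul, hF.ee, sub_self]
  have h1e' : e * (1 - e) = 0 := by rw [mul_sub, mul_one, hF.ee, sub_self]
  have hRR : ∀ X : Matrix (Fin 2) (Fin 2) A, RR (φ : A →+ (M →ₗ[k] M)) (ff n m e w) X =
      φ (X 0 0) * (w * n * m) + φ (X 0 1) * (n * e) + φ (X 1 0) * (w * m) + φ (X 1 1) * (w * m * n) := fun X => rfl
  have hsum : w * n * m + w * m * n = e := by rw [mul_assoc, mul_assoc, ← mul_add, hF.wz]
  have hαm : φ α * (w * m) = m * e := by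
    rw [hA.al]
    calc (n * m + m * n) * e * (w * m) = (n * m + m * n) * (e * w) * m := by simp only [mul_assoc]
      _ = m * e := by rw [hF.ew, hF.zw, me]
  have an2 : (n * (1 - e)) * (n * (1 - e)) = 0 := by
    have : (1 - e) * n = n * (1 - e) := by rw [mul_sub, sub_mul, ne, mul_one, one_mul]
    rw [mul_assoc, ← mul_assoc (1 - e), this, mul_assoc n, ← mul_assoc n n, hn.1.1, zero_mul]
  have am2 : (m * (1 - e)) * (m * (1 - e)) = 0 := by
    have : (1 - e) * m = m * (1 - e) := by rw [mul_sub, sub_mul, me, mul_one, one_mul]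
    rw [mul_assoc, ← mul_assoc (1 - e), this, mul_assoc m, ← mul_assoc m m, hm.1.1, zero_mul]
  have ane : (n * (1 - e)) * e = 0 := by rw [mul_assoc, h1e, mul_zero]
  have ame : (m * (1 - e)) * e = 0 := by rw [mul_assoc, h1e, mul_zero]
  have ean : e * (n * (1 - e)) = 0 := by rw [← mul_assoc, ← ne, mul_assoc, h1e', mul_zero]
  have eam : e * (m * (1 - e)) = 0 := by rw [← mul_assoc, ← me, mul_assoc, h1e', mul_zero]
  have nsum : n = n * (1 - e) + RR (φ : A →+ (M →ₗ[k] M)) (ff n m e w) !![0, 1; 0, 0] := by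
    rw [hRR]
    simp only [Matrix.of_apply, Matrix.cons_val', Matrix.cons_val_zero, Matrix.cons_val_one, Matrix.cons_val_fin_one, map_zero,
      zero_mul, zero_add, add_zero]
    rw [φn, hA.one, ← ne, ← mul_add, sub_add_cancel, mul_one]
  have msum : m = m * (1 - e) + RR (φ : A →+ (M →ₗ[k] M)) (ff n m e w) !![0, 0; α, 0] := by
    rw [hRR]
    simp only [Matrix.of_apply, Matrix.cons_val', Matrix.cons_val_zero, Matrix.cons_val_one, Matrix.cons_val_fin_one, map_zero,
      zero_mul, zero_add, add_zero]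
    rw [hαm, ← mul_add, sub_add_cancel, mul_one]
  refine sb h2k h3k hA.unit hA.gen ?_ ?_
  · intro h hh
    have hg := D_mem hn.1 hm.1 hF hA h1 h2 hh
    have hx' := hn.conj hg
    rw [rhoU_inv_val] at hx'
    change N1 G d (rho mu h * n * rho mu h⁻¹) at hx'
    have e1 : rho mu h * n * rho mu h⁻¹ = n * (1 - e) + RR (φ : A →+ (M →ₗ[k] M)) (ff n m e w) (h.1 * !![0, 1; 0, 0] * (h⁻¹).1) := by
      have e0 : rho mu h * n * rho mu h⁻¹ = rho mu h * (n * (1 - e) + RR (φ : A →+ (M →ₗ[k] M)) (ff n m e w) !![0, 1; 0, 0]) *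
          rho mu h⁻¹ := by rw [← nsum]
      rw [e0, mul_add, add_mul, rho_conj_compl mu h ne, rho_conj_RR]
    rw [e1] at hx'
    set Y := h.1 * !![0, 1; 0, 0] * (h⁻¹).1 with hY
    have hdet := det_eq h
    have Y00 : Y 0 0 = -(h.1 0 0 * h.1 1 0) := by
      rw [hY, Matrix.mul_apply, Fin.sum_univ_two, Matrix.mul_apply, Matrix.mul_apply, Fin.sum_univ_two, Fin.sum_univ_two, inv00, inv10]
      simp
    have Y01 : Y 0 1 = h.1 0 0 * h.1 0 0 := by
      rw [hY, Matrix.mul_apply, Fin.sum_univ_two, Matrix.mul_apply, Matrix.mul_apply, Fin.sum_univ_two, Fin.sum_univ_two, inv01, inv11]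
      simp
    have Y10 : Y 1 0 = -(h.1 1 0 * h.1 1 0) := by
      rw [hY, Matrix.mul_apply, Fin.sum_univ_two, Matrix.mul_apply, Matrix.mul_apply, Fin.sum_univ_two, Fin.sum_univ_two, inv00, inv10]
      simp
    have Y11 : Y 1 1 = h.1 1 0 * h.1 0 0 := by
      rw [hY, Matrix.mul_apply, Fin.sum_univ_two, Matrix.mul_apply, Matrix.mul_apply, Fin.sum_univ_two, Fin.sum_univ_two, inv01, inv11]
      simp
    have p1 : n * (n * (1 - e) + RR (φ : A →+ (M →ₗ[k] M)) (ff n m e w) Y) =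
        RR (φ : A →+ (M →ₗ[k] M)) (ff n m e w) (!![0, 1; 0, 0] * Y) := by
      have e0 : n * (n * (1 - e) + RR (φ : A →+ (M →ₗ[k] M)) (ff n m e w) Y) =
          (n * (1 - e) + RR (φ : A →+ (M →ₗ[k] M)) (ff n m e w) !![0, 1; 0, 0]) *
            (n * (1 - e) + RR (φ : A →+ (M →ₗ[k] M)) (ff n m e w) Y) := by rw [← nsum]
      rw [e0]
      exact sum_mul_sum mu an2 ane ean _ _
    have p2 : (n * (1 - e) + RR (φ : A →+ (M →ₗ[k] M)) (ff n m e w) Y) * n =
        RR (φ : A →+ (M →ₗ[k] M)) (ff n m e w) (Y * !![0, 1; 0, 0]) := by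
      have e0 : (n * (1 - e) + RR (φ : A →+ (M →ₗ[k] M)) (ff n m e w) Y) * n =
          (n * (1 - e) + RR (φ : A →+ (M →ₗ[k] M)) (ff n m e w) Y) *
            (n * (1 - e) + RR (φ : A →+ (M →ₗ[k] M)) (ff n m e w) !![0, 1; 0, 0]) := by rw [← nsum]
      rw [e0]
      exact sum_mul_sum mu an2 ane ean _ _
    have q1 : n * (n * (1 - e) + RR (φ : A →+ (M →ₗ[k] M)) (ff n m e w) Y) +
        (n * (1 - e) + RR (φ : A →+ (M →ₗ[k] M)) (ff n m e w) Y) * n = φ (-(h.1 1 0 * h.1 1 0)) := by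
      rw [p1, p2, ← RR_add, hRR]
      simp only [Matrix.add_apply, Matrix.mul_apply, Fin.sum_univ_two, Matrix.of_apply, Matrix.cons_val', Matrix.cons_val_zero,
        Matrix.cons_val_one, Matrix.cons_val_fin_one, zero_mul, mul_zero, one_mul, mul_one, zero_add, add_zero, Y00, Y01, Y10, Y11,
        map_zero]
      have : h.1 1 0 * h.1 0 0 + -(h.1 0 0 * h.1 1 0) = 0 := by ring
      rw [this, map_zero, zero_mul, add_zero, ← mul_add, hsum, φe]
    have q2 : -(h.1 1 0 * h.1 1 0) = 0 → n * (n * (1 - e) + RR (φ : A →+ (M →ₗ[k] M)) (ff n m e w) Y) -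
        (n * (1 - e) + RR (φ : A →+ (M →ₗ[k] M)) (ff n m e w) Y) * n = φ (2 * (h.1 0 0 * h.1 1 0)) * n := by
      intro h0
      rw [p1, p2, ← RR_sub, hRR]
      have : h.1 1 0 * h.1 0 0 - -(h.1 0 0 * h.1 1 0) = 2 * (h.1 0 0 * h.1 1 0) := by ring
      simp only [Matrix.sub_apply, Matrix.mul_apply, Fin.sum_univ_two, Matrix.of_apply, Matrix.cons_val', Matrix.cons_val_zero,
        Matrix.cons_val_one, Matrix.cons_val_fin_one, zero_mul, mul_zero, one_mul, mul_one, zero_add, add_zero, Y00, Y01, Y10, Y11,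
        map_zero, sub_zero, zero_sub, h0, neg_zero, this]
      rw [φn]
    have q3 : -(h.1 1 0 * h.1 1 0) = 0 → 2 * (h.1 0 0 * h.1 1 0) * (2 * (h.1 0 0 * h.1 1 0)) = 0 := by
      intro h0
      linear_combination -(4 * h.1 0 0 ^ 2) * h0
    rcases Rkey h2k hmin hF hA hn hx' rfl cn cm q1 q2 q3 IH with h5 | ⟨h5, h6⟩
    · right
      rw [IsUnit.neg_iff] at h5
      exact isUnit_of_mul_isUnit_left h5
    · left
      have h7 : h.1 0 0 * h.1 1 0 = 0 := (h2A.mul_right_eq_zero).1 h6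
      linear_combination (-(h.1 1 0)) * hdet + h.1 1 1 * h7 + h.1 0 1 * h5
  · intro h hh
    have hg := D_mem hn.1 hm.1 hF hA h1 h2 hh
    have hx' := hm.conj hg
    rw [rhoU_inv_val] at hx'
    change N1 G d (rho mu h * m * rho mu h⁻¹) at hx'
    have e1 : rho mu h * m * rho mu h⁻¹ = m * (1 - e) + RR (φ : A →+ (M →ₗ[k] M)) (ff n m e w) (h.1 * !![0, 0; α, 0] * (h⁻¹).1) := by
      have e0 : rho mu h * m * rho mu h⁻¹ = rho mu h * (m * (1 - e) + RR (φ : A →+ (M →ₗ[k] M)) (ff n m e w) !![0, 0; α, 0]) *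
          rho mu h⁻¹ := by rw [← msum]
      rw [e0, mul_add, add_mul, rho_conj_compl mu h me, rho_conj_RR]
    rw [e1] at hx'
    set Y := h.1 * !![0, 0; α, 0] * (h⁻¹).1 with hY
    have hdet := det_eq h
    have Y00 : Y 0 0 = h.1 0 1 * α * h.1 1 1 := by
      rw [hY, Matrix.mul_apply, Fin.sum_univ_two, Matrix.mul_apply, Matrix.mul_apply, Fin.sum_univ_two, Fin.sum_univ_two, inv00, inv10]
      simp
    have Y01 : Y 0 1 = -(h.1 0 1 * α * h.1 0 1) := by
      rw [hY, Matrix.mul_apply, Fin.sum_univ_two, Matrix.mul_apply, Matrix.mul_apply, Fin.sum_univ_two, Fin.sum_univ_two, inv01, inv11]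
      simp
    have Y10 : Y 1 0 = h.1 1 1 * α * h.1 1 1 := by
      rw [hY, Matrix.mul_apply, Fin.sum_univ_two, Matrix.mul_apply, Matrix.mul_apply, Fin.sum_univ_two, Fin.sum_univ_two, inv00, inv10]
      simp
    have Y11 : Y 1 1 = -(h.1 1 1 * α * h.1 0 1) := by
      rw [hY, Matrix.mul_apply, Fin.sum_univ_two, Matrix.mul_apply, Matrix.mul_apply, Fin.sum_univ_two, Fin.sum_univ_two, inv01, inv11]
      simp
    have p1 : m * (m * (1 - e) + RR (φ : A →+ (M →ₗ[k] M)) (ff n m e w) Y) =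
        RR (φ : A →+ (M →ₗ[k] M)) (ff n m e w) (!![0, 0; α, 0] * Y) := by
      have e0 : m * (m * (1 - e) + RR (φ : A →+ (M →ₗ[k] M)) (ff n m e w) Y) =
          (m * (1 - e) + RR (φ : A →+ (M →ₗ[k] M)) (ff n m e w) !![0, 0; α, 0]) *
            (m * (1 - e) + RR (φ : A →+ (M →ₗ[k] M)) (ff n m e w) Y) := by rw [← msum]
      rw [e0]
      exact sum_mul_sum mu am2 ame eam _ _
    have p2 : (m * (1 - e) + RR (φ : A →+ (M →ₗ[k] M)) (ff n m e w) Y) * m =
        RR (φ : A →+ (M →ₗ[k] M)) (ff n m e w) (Y * !![0, 0; α, 0]) := by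
      have e0 : (m * (1 - e) + RR (φ : A →+ (M →ₗ[k] M)) (ff n m e w) Y) * m =
          (m * (1 - e) + RR (φ : A →+ (M →ₗ[k] M)) (ff n m e w) Y) *
            (m * (1 - e) + RR (φ : A →+ (M →ₗ[k] M)) (ff n m e w) !![0, 0; α, 0]) := by rw [← msum]
      rw [e0]
      exact sum_mul_sum mu am2 ame eam _ _
    have q1 : m * (m * (1 - e) + RR (φ : A →+ (M →ₗ[k] M)) (ff n m e w) Y) +
        (m * (1 - e) + RR (φ : A →+ (M →ₗ[k] M)) (ff n m e w) Y) * m = φ (-(α ^ 2 * h.1 0 1 ^ 2)) := by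
      rw [p1, p2, ← RR_add, hRR]
      have i1 : -(h.1 0 1 * α * h.1 0 1) * α = -(α ^ 2 * h.1 0 1 ^ 2) := by ring
      have i2 : α * -(h.1 0 1 * α * h.1 0 1) = -(α ^ 2 * h.1 0 1 ^ 2) := by ring
      have i3 : α * (h.1 0 1 * α * h.1 1 1) + -(h.1 1 1 * α * h.1 0 1) * α = 0 := by ring
      simp only [Matrix.add_apply, Matrix.mul_apply, Fin.sum_univ_two, Matrix.of_apply, Matrix.cons_val', Matrix.cons_val_zero,
        Matrix.cons_val_one, Matrix.cons_val_fin_one, zero_mul, mul_zero, zero_add, add_zero, Y00, Y01, Y10, Y11,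
        map_zero, i1, i2, i3]
      rw [← mul_add, hsum, φe]
    have q2 : -(α ^ 2 * h.1 0 1 ^ 2) = 0 → m * (m * (1 - e) + RR (φ : A →+ (M →ₗ[k] M)) (ff n m e w) Y) -
        (m * (1 - e) + RR (φ : A →+ (M →ₗ[k] M)) (ff n m e w) Y) * m = φ (2 * (α * h.1 0 1 * h.1 1 1)) * m := by
      intro h0
      rw [p1, p2, ← RR_sub, hRR]
      have i1 : -(h.1 0 1 * α * h.1 0 1) * α = 0 := by linear_combination h0
      have i2 : α * -(h.1 0 1 * α * h.1 0 1) = 0 := by linear_combination h0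
      have i3 : α * (h.1 0 1 * α * h.1 1 1) - -(h.1 1 1 * α * h.1 0 1) * α = 2 * (α * h.1 0 1 * h.1 1 1) * α := by ring
      simp only [Matrix.sub_apply, Matrix.mul_apply, Fin.sum_univ_two, Matrix.of_apply, Matrix.cons_val', Matrix.cons_val_zero,
        Matrix.cons_val_one, Matrix.cons_val_fin_one, zero_mul, mul_zero, zero_add, add_zero, Y00, Y01, Y10, Y11,
        map_zero, sub_zero, i1, i2, i3]
      rw [hA.mul, mul_assoc, hαm, me, ← mul_assoc, φe]
    have q3 : -(α ^ 2 * h.1 0 1 ^ 2) = 0 → 2 * (α * h.1 0 1 * h.1 1 1) * (2 * (α * h.1 0 1 * h.1 1 1)) = 0 := by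
      intro h0
      linear_combination -(4 * h.1 1 1 ^ 2) * h0
    rcases Rkey h2k hmin hF hA hm hx' (add_comm _ _) cm cn q1 q2 q3 IH with h5 | ⟨h5, h6⟩
    · right
      rw [IsUnit.neg_iff] at h5
      have := isUnit_of_mul_isUnit_right h5
      rw [pow_two] at this
      exact isUnit_of_mul_isUnit_left this
    · left
      have h7 : α * (h.1 0 1 * h.1 1 1) = 0 := by
        rw [← mul_assoc]; exact (h2A.mul_right_eq_zero).1 h6
      have h8 : h.1 0 1 * h.1 1 1 = 0 := (hA.unit.mul_right_eq_zero).1 h7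
      have h9 : h.1 0 1 ^ 2 = 0 := by
        rw [neg_eq_zero] at h5
        exact ((hA.unit.pow 2).mul_right_eq_zero).1 h5
      linear_combination (-(h.1 0 1)) * hdet + h.1 0 0 * h8 - h.1 1 0 * h9

end Cfsg.Agent.H3.QP
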