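import Mathlib
import Cfsg.Agent.H3.QPClaim

/-!
Quadratic pairs: two operators of minimal rank which do not generate a unipotent group, conclusion.
-/

set_option autoImplicit false
set_option linter.style.haveILetI false

namespace Cfsg.Agent.H3.QP

open scoped commutatorElement

local notation "SL" => Matrix.SpecialLinearGroup (Fin 2)

universe u v

variable {k : Type u} [Field k] {M : Type v} [AddCommGroup M] [Module k M]

local notation "GL" => LinearMap.GeneralLinearGroup k M

variable {G : Subgroup (LinearMap.GeneralLinearGroup k M)} {d : ℕ} {n m e w : M →ₗ[k] M}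

theorem conj_z {R : Type*} [Ring R] {n m : R} (hn : n * n = 0) (hm : m * m = 0) :
    n * ((1 + m) * n * (1 - m)) + (1 + m) * n * (1 - m) * n = -((n * m + m * n) ^ 2) := by
  have hn' : ∀ x, n * (n * x) = 0 := fun x => by rw [← mul_assoc, hn, zero_mul]
  have hm' : ∀ x, m * (m * x) = 0 := fun x => by rw [← mul_assoc, hm, zero_mul]
  rw [pow_two]
  simp only [mul_add, add_mul, mul_sub, sub_mul, mul_one, one_mul, mul_assoc, hn, hm, hn', hm', mul_zero, zero_mul]
  abel

theorem claimB [FiniteDimensional k M] (h2k : (2 : k) ≠ 0) (h3k : Nat.card k ≠ 3) (hmin : MinR G d)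
    (hn : N1 G d n) (hm : N1 G d m) (hF : Fit (n * m + m * n) e w) (he : e ≠ 0)
    (h1 : n * m * (1 - e) = 0) (h2 : m * n * (1 - e) = 0)
    (IH : ∀ n1 m1 e1 w1 : M →ₗ[k] M, N1 G d n1 → N1 G d m1 → Fit (n1 * m1 + m1 * n1) e1 w1 → e1 ≠ 0 → rk e1 < rk e →
      n1 * (1 - e1) = 0) : n * (1 - e) = 0 := by
  obtain ⟨A, _, _, φ, α, hA⟩ := exists_alg hF
  obtain ⟨-, hu, -⟩ := stepB h2k h3k hmin hn hm hF he h1 h2 hA IH
  have nz := n_comm_z (n := n) (m := m) hn.1.1
  have ne := hF.comm_e nz
  have hNN : NN G (n * e) := by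
    refine ⟨by rw [mul_assoc, ← mul_assoc e, ← ne, mul_assoc n e e, hF.ee, ← mul_assoc, hn.1.1, zero_mul], fun c => ?_⟩
    refine ⟨_, D_mem hn.1 hm.1 hF hA h1 h2 (hu (algebraMap k A c)), ?_⟩
    rw [rhoU_val, rho_uu]
    change 1 + φ (algebraMap k A c) * (n * e) = _
    rw [Algebra.algebraMap_eq_smul_one, map_smul, hA.one, smul_mul_assoc, ← mul_assoc, ← ne, mul_assoc, hF.ee]
  have hne0 : n * e ≠ 0 := by
    intro h0
    apply he
    have h5 : (n * m + m * n) * e = 0 := by
      have me := hF.comm_e (m_comm_z (n := n) (m := m) hm.1.1)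
      rw [add_mul, mul_assoc, me, ← mul_assoc, h0, zero_mul, mul_assoc, h0, mul_zero, add_zero]
    rw [← hF.zw, ← hF.ew, ← mul_assoc, h5, zero_mul]
  have hle : LinearMap.range (n * e) ≤ LinearMap.range n := by rintro _ ⟨v, rfl⟩; exact ⟨e v, rfl⟩
  have heq := range_eq_of_rk hle (hn.2.2.trans (hmin _ hNN hne0))
  have h6 : e * n = n := by
    ext v
    have hv : n v ∈ LinearMap.range (n * e) := by rw [heq]; exact ⟨v, rfl⟩
    obtain ⟨x, hx⟩ := hv
    change e (n v) = n v
    rw [← hx]
    have : e * (n * e) = n * e := by rw [← mul_assoc, ← ne, mul_assoc, hF.ee]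
    exact congrArg (fun f : M →ₗ[k] M => f x) this
  rw [mul_sub, mul_one, ne, h6, sub_self]

theorem claim [FiniteDimensional k M] (h2k : (2 : k) ≠ 0) (h3k : Nat.card k ≠ 3) (hmin : MinR G d) (N : ℕ) :
    ∀ n m e w : M →ₗ[k] M, N1 G d n → N1 G d m → Fit (n * m + m * n) e w → e ≠ 0 → rk e = N → n * (1 - e) = 0 := by
  induction N using Nat.strong_induction_on with
  | _ N IH0 =>
    intro n m e w hn hm hF he hN
    have IH : ∀ n1 m1 e1 w1 : M →ₗ[k] M, N1 G d n1 → N1 G d m1 → Fit (n1 * m1 + m1 * n1) e1 w1 → e1 ≠ 0 → rk e1 < rk e →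
        n1 * (1 - e1) = 0 := by
      intro n1 m1 e1 w1 h1 h2 h3 h4 h5
      exact IH0 (rk e1) (by omega) n1 m1 e1 w1 h1 h2 h3 h4 rfl
    have inner : ∀ r : ℕ, ∀ m w : M →ₗ[k] M, N1 G d m → Fit (n * m + m * n) e w → (n * m + m * n) ^ r * (1 - e) = 0 →
        n * (1 - e) = 0 := by
      intro r
      induction r using Nat.strong_induction_on with
      | _ r ihr =>
        intro m w hm hF hr
        have hc := hn.conj1 hm.1
        have hz := conj_z hn.1.1 hm.1.1
        have hF' := hF.negsq
        rw [← hz] at hF'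
        rcases Nat.lt_or_ge r 2 with h | h
        · have hr' : (n * m + m * n) * (1 - e) = 0 := by
            interval_cases r
            · rw [pow_zero, one_mul] at hr; rw [hr, mul_zero]
            · rwa [pow_one] at hr
          have hn' : ∀ x, n * (n * x) = 0 := fun x => by rw [← mul_assoc, hn.1.1, zero_mul]
          have hm' : ∀ x, m * (m * x) = 0 := fun x => by rw [← mul_assoc, hm.1.1, zero_mul]
          have nz := n_comm_z (n := n) (m := m) hn.1.1
          have mz := m_comm_z (n := n) (m := m) hm.1.1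
          have ne := hF.comm_e nz
          have me := hF.comm_e mz
          have ze := hF.ez
          have nmn : n * (m * n) = (n * m + m * n) * n := by
            rw [add_mul, mul_assoc m, hn.1.1, mul_zero, add_zero, mul_assoc]
          have cn : n * (1 - e) = (1 - e) * n := by rw [mul_sub, sub_mul, ne, mul_one, one_mul]
          have cm : m * (1 - e) = (1 - e) * m := by rw [mul_sub, sub_mul, me, mul_one, one_mul]
          have h5 : n * (m * (n * (1 - e))) = 0 := by
            calc n * (m * (n * (1 - e))) = (n * (m * n)) * (1 - e) := by simp only [mul_assoc]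
              _ = ((n * m + m * n) * (1 - e)) * n := by rw [nmn, mul_assoc, cn, mul_assoc]
              _ = 0 := by rw [hr', zero_mul]
          have h6 : n * (m * (n * (m * (1 - e)))) = 0 := by
            rw [cm, ← mul_assoc n (1 - e), ← mul_assoc m, ← mul_assoc n, h5, zero_mul]
          apply claimB h2k h3k hmin hn hc hF' he ?_ ?_ IH
          · have : n * ((1 + m) * n * (1 - m)) * (1 - e) =
                n * (m * (n * (1 - e))) - n * (m * (n * (m * (1 - e)))) + n * (n * (1 - e)) - n * (n * (m * (1 - e))) := by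
              noncomm_ring
            rw [this, h5, h6, hn', hn']; simp
          · have : (1 + m) * n * (1 - m) * n * (1 - e) = (1 + m) * (n * (n * (1 - e))) - (n * (m * (n * (1 - e)))) -
                m * (n * (m * (n * (1 - e)))) := by noncomm_ring
            rw [this, h5, hn']; simp
        · refine ihr ((r + 1) / 2) (by omega) _ _ hc hF' ?_
          rw [hz, neg_pow, ← pow_mul]
          have : (n * m + m * n) ^ (2 * ((r + 1) / 2)) = (n * m + m * n) ^ (2 * ((r + 1) / 2) - r) * (n * m + m * n) ^ r := by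
            rw [← pow_add]; congr 1; omega
          rw [this, mul_assoc, mul_assoc, hr, mul_zero, mul_zero]
    obtain ⟨r, hr⟩ := hF.nil
    exact inner r m w hm hF hr

theorem opp_main [FiniteDimensional k M] (h2k : (2 : k) ≠ 0) (h3k : Nat.card k ≠ 3) (hmin : MinR G d)
    (hn : N1 G d n) (hm : N1 G d m) (hnm : ¬ (n * (m * n) = 0 ∧ m * (n * m) = 0)) :
    ∃ (e w : M →ₗ[k] M) (hF : Fit (n * m + m * n) e w) (K : Type u) (_ : Field K) (_ : Algebra k K)
      (φ : K →ₗ[k] (M →ₗ[k] M)) (α : K) (hA : AlgData (n * m + m * n) e K φ α),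
      n * e = n ∧ m * e = m ∧ HS (Set.range (algebraMap k K)) α = ⊤ ∧
      ∀ g : SL K, (rho (muOf hn.1.1 hm.1.1 hF hA)).toHomUnits g ∈ G := by
  obtain ⟨e, w, hF⟩ := exists_fit (n * m + m * n)
  have he : e ≠ 0 := by
    rintro rfl
    apply hnm
    obtain ⟨r, hr⟩ := hF.nil
    rw [sub_zero, mul_one] at hr
    exact ⟨unip_pair h2k hmin r n m hn hm hr, unip_pair h2k hmin r m n hm hn (by rw [add_comm]; exact hr)⟩
  have hF' : Fit (m * n + n * m) e w := by rw [add_comm]; exact hF
  have h1 := claim h2k h3k hmin _ n m e w hn hm hF he rfl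
  have h2 := claim h2k h3k hmin _ m n e w hm hn hF' he rfl
  obtain ⟨A, _, _, φ, α, hA⟩ := exists_alg hF
  haveI : Nontrivial A := by
    refine ⟨⟨1, 0, fun h => he ?_⟩⟩
    rw [← hA.one, h, map_zero]
  obtain ⟨hf, hu, hv⟩ := stepB h2k h3k hmin hn hm hF he (by rw [mul_assoc, h2, mul_zero]) (by rw [mul_assoc, h1, mul_zero]) hA
    (fun n1 m1 e1 w1 h1 h2 h3 h4 _ => claim h2k h3k hmin _ n1 m1 e1 w1 h1 h2 h3 h4 rfl)
  have hfield : IsField A := {
    exists_pair_ne := exists_pair_ne A
    mul_comm := mul_comm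
    mul_inv_cancel := fun {a} ha => ((hf a).resolve_left ha).exists_right_inv }
  letI : Field A := hfield.toField
  have hD : ⁅HS (Set.range (algebraMap k A)) α, HS (Set.range (algebraMap k A)) α⁆ = ⊤ := top_of_uv hu hv
  have hH : HS (Set.range (algebraMap k A)) α = ⊤ := by
    rw [eq_top_iff, ← hD]; exact Subgroup.commutator_le_self _
  refine ⟨e, w, hF, A, inferInstance, inferInstance, φ, α, hA, ?_, ?_, hH, fun g => ?_⟩
  · rw [mul_sub, mul_one, sub_eq_zero] at h1; exact h1.symm
  · rw [mul_sub, mul_one, sub_eq_zero] at h2; exact h2.symm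
  · exact D_mem hn.1 hm.1 hF hA (by rw [mul_assoc, h2, mul_zero]) (by rw [mul_assoc, h1, mul_zero]) (by rw [hD]; trivial)

end Cfsg.Agent.H3.QP
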