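import Mathlib
import Cfsg.Prelude.Def_RootSubgroups
import Cfsg.Agent.H3.QPOpp

/-!
Quadratic pairs: the dictionary between group elements and operators.
-/

set_option autoImplicit false

namespace Cfsg.Agent.H3.QP

open scoped commutatorElement

universe u v

variable {k : Type u} [Field k] {M : Type v} [AddCommGroup M] [Module k M]

local notation "GL" => LinearMap.GeneralLinearGroup k M

variable {G : Subgroup (LinearMap.GeneralLinearGroup k M)} {d : ℕ} {n m e w : M →ₗ[k] M}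

theorem two_ne (hk2 : ringChar k ≠ 2) : (2 : k) ≠ 0 := Ring.two_ne_zero hk2

theorem nn_of_mem {σ : GL} (h : σ ∈ quadraticElements G) : NN G ((σ : M →ₗ[k] M) - 1) := by
  refine ⟨h.2.1.1, fun c => ?_⟩
  have hsq : (c • ((σ : M →ₗ[k] M) - 1)) * (c • ((σ : M →ₗ[k] M) - 1)) = 0 := smul_sq h.2.1.1
  let g : GL := {
    val := 1 + c • ((σ : M →ₗ[k] M) - 1)
    inv := 1 - c • ((σ : M →ₗ[k] M) - 1)
    val_inv := by rw [mul_sub, mul_one, add_mul, one_mul, hsq]; abel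
    inv_val := by rw [mul_add, mul_one, sub_mul, one_mul, hsq]; abel }
  exact ⟨g, h.2.2 ⟨c, rfl⟩, rfl⟩

theorem mem_of_nn (h : NN G n) (h0 : n ≠ 0) : ∃ σ : GL, σ ∈ quadraticElements G ∧ (σ : M →ₗ[k] M) = 1 + n := by
  obtain ⟨g, hg, hg'⟩ := h.2 1
  rw [one_smul] at hg'
  have h1 : (g : M →ₗ[k] M) - 1 = n := by rw [hg']; abel
  refine ⟨g, ⟨hg, ⟨by rw [h1]; exact h.1, by rw [h1]; exact h0⟩, ?_⟩, hg'⟩
  rintro τ ⟨c, hc⟩
  obtain ⟨x, hx, hx'⟩ := h.2 c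
  have : τ = x := Units.ext (by rw [hc, hx', h1])
  rw [this]; exact hx

/-- the minimal rank -/
structure QD (G : Subgroup GL) (d : ℕ) : Prop where
  min : MinR G d
  ex : ∃ n, N1 G d n

theorem QD.of {σ : GL} (h : σ ∈ minimalQuadraticElements G) : QD G (commutatorRank σ) where
  min := by
    intro n hn h0
    obtain ⟨τ, hτ, hτ'⟩ := mem_of_nn hn h0
    have := h.2 τ hτ
    have h1 : (τ : M →ₗ[k] M) - 1 = n := by rw [hτ']; abel
    unfold commutatorRank at this ⊢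
    rw [h1] at this
    exact this
  ex := ⟨_, nn_of_mem h.1, h.1.2.1.2, le_refl _⟩

theorem QD.n1 (hd : QD G d) {σ : GL} (h : σ ∈ minimalQuadraticElements G) : N1 G d ((σ : M →ₗ[k] M) - 1) := by
  refine ⟨nn_of_mem h.1, h.1.2.1.2, ?_⟩
  obtain ⟨n, hn, h0, hr⟩ := hd.ex
  obtain ⟨τ, hτ, hτ'⟩ := mem_of_nn hn h0
  have := h.2 τ hτ
  have h1 : (τ : M →ₗ[k] M) - 1 = n := by rw [hτ']; abel
  unfold commutatorRank at this
  rw [h1] at this
  exact this.trans hr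

theorem QD.mem_min (hd : QD G d) {σ : GL} (h : N1 G d ((σ : M →ₗ[k] M) - 1)) : σ ∈ minimalQuadraticElements G := by
  obtain ⟨τ, hτ, hτ'⟩ := mem_of_nn h.1 h.2.1
  have h1 : σ = τ := Units.ext (by rw [hτ']; abel)
  rw [← h1] at hτ
  refine ⟨hτ, fun τ' hτ'' => ?_⟩
  exact h.2.2.trans (hd.min _ (nn_of_mem hτ'') hτ''.2.1.2)

theorem QD.exists_min (hd : QD G d) (h : N1 G d n) : ∃ σ : GL, σ ∈ minimalQuadraticElements G ∧ (σ : M →ₗ[k] M) - 1 = n := by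
  obtain ⟨τ, hτ, hτ'⟩ := mem_of_nn h.1 h.2.1
  have h1 : (τ : M →ₗ[k] M) - 1 = n := by rw [hτ']; abel
  exact ⟨τ, hd.mem_min (by rw [h1]; exact h), h1⟩

/-- the space of operators with the same kernel and range -/
def AA (G : Subgroup GL) (n : M →ₗ[k] M) : Set (M →ₗ[k] M) :=
  {x | NN G x ∧ LinearMap.range x ≤ LinearMap.range n ∧ LinearMap.ker n ≤ LinearMap.ker x}

theorem AA.self (h : NN G n) : n ∈ AA G n := ⟨h, le_refl _, le_refl _⟩

theorem AA.mul_eq {x y : M →ₗ[k] M} (h : n * n = 0) (hx : x ∈ AA G n) (hy : y ∈ AA G n) : x * y = 0 := by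
  ext v
  have h1 : y v ∈ LinearMap.range n := hy.2.1 ⟨v, rfl⟩
  obtain ⟨u, hu⟩ := h1
  have h2 : y v ∈ LinearMap.ker n := by
    rw [← hu]; exact congrArg (fun f : M →ₗ[k] M => f u) h
  exact hx.2.2 h2

theorem AA.zero (h : NN G n) : (0 : M →ₗ[k] M) ∈ AA G n := by
  refine ⟨?_, ?_, ?_⟩
  · have := h.smul 0
    rwa [zero_smul] at this
  · rintro _ ⟨v, rfl⟩; exact zero_mem _
  · intro v _; rfl

theorem AA.add {x y : M →ₗ[k] M} (h : n * n = 0) (hx : x ∈ AA G n) (hy : y ∈ AA G n) : x + y ∈ AA G n := by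
  refine ⟨hx.1.add hy.1 (AA.mul_eq h hx hy) (AA.mul_eq h hy hx), ?_, ?_⟩
  · rintro _ ⟨v, rfl⟩; exact add_mem (hx.2.1 ⟨v, rfl⟩) (hy.2.1 ⟨v, rfl⟩)
  · intro v hv
    have h1 : x v = 0 := hx.2.2 hv
    have h2 : y v = 0 := hy.2.2 hv
    rw [LinearMap.mem_ker, LinearMap.add_apply, h1, h2, add_zero]

theorem AA.smul {x : M →ₗ[k] M} (hx : x ∈ AA G n) (c : k) : c • x ∈ AA G n := by
  refine ⟨hx.1.smul c, ?_, ?_⟩
  · rintro _ ⟨v, rfl⟩; exact Submodule.smul_mem _ _ (hx.2.1 ⟨v, rfl⟩)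
  · intro v hv
    have h1 : x v = 0 := hx.2.2 hv
    rw [LinearMap.mem_ker, LinearMap.smul_apply, h1, smul_zero]

theorem AA.neg {x : M →ₗ[k] M} (hx : x ∈ AA G n) : -x ∈ AA G n := by
  have := AA.smul hx (-1)
  rwa [neg_one_smul] at this

theorem ker_eq_of [FiniteDimensional k M] {a b : M →ₗ[k] M} (h : LinearMap.ker a ≤ LinearMap.ker b)
    (h' : LinearMap.range b = LinearMap.range a) : LinearMap.ker a = LinearMap.ker b := by
  refine Submodule.eq_of_le_of_finrank_le h ?_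
  have h1 := LinearMap.finrank_range_add_finrank_ker a
  have h2 := LinearMap.finrank_range_add_finrank_ker b
  rw [h'] at h2
  omega

theorem AA.eq [FiniteDimensional k M] (hd : MinR G d) (hn : N1 G d n) {x : M →ₗ[k] M} (hx : x ∈ AA G n) (h0 : x ≠ 0) :
    LinearMap.range x = LinearMap.range n ∧ LinearMap.ker x = LinearMap.ker n := by
  have h1 := range_eq_of_rk hx.2.1 (hn.2.2.trans (hd _ hx.1 h0))
  exact ⟨h1, (ker_eq_of hx.2.2 h1).symm⟩

theorem AA.n1 [FiniteDimensional k M] (hn : N1 G d n) {x : M →ₗ[k] M} (hx : x ∈ AA G n) (h0 : x ≠ 0) :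
    N1 G d x := ⟨hx.1, h0, (Submodule.finrank_mono hx.2.1).trans hn.2.2⟩

theorem AA.congr {x : M →ₗ[k] M} (h1 : LinearMap.range x = LinearMap.range n) (h2 : LinearMap.ker x = LinearMap.ker n) :
    AA G x = AA G n := by
  unfold AA; rw [h1, h2]

theorem mem_E [FiniteDimensional k M] (hd : QD G d) {σ : GL} (hσ : σ ∈ minimalQuadraticElements G) (g : GL) :
    g ∈ sameActionSubgroup G σ ↔ (g : M →ₗ[k] M) - 1 ∈ AA G ((σ : M →ₗ[k] M) - 1) := by
  have hn := hd.n1 hσ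
  constructor
  · intro hg
    unfold sameActionSubgroup at hg
    induction hg using Subgroup.closure_induction with
    | mem x hx => exact ⟨nn_of_mem hx.1.1, hx.2.2.le, hx.2.1.ge⟩
    | one => rw [Units.val_one, sub_self]; exact AA.zero hn.1
    | mul x y _ _ hx hy =>
      have h0 := AA.mul_eq hn.1.1 hx hy
      have : ((x * y : GL) : M →ₗ[k] M) - 1 = ((x : M →ₗ[k] M) - 1) + ((y : M →ₗ[k] M) - 1) := by
        have h1 : (x : M →ₗ[k] M) * (y : M →ₗ[k] M) = ((x : M →ₗ[k] M) - 1) * ((y : M →ₗ[k] M) - 1) + x + y - 1 := by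
          rw [sub_mul, mul_sub, mul_one, one_mul]; abel
        rw [Units.val_mul, h1, h0]; abel
      rw [this]; exact AA.add hn.1.1 hx hy
    | inv x _ hx =>
      have h1 : ((x⁻¹ : GL) : M →ₗ[k] M) = 1 - ((x : M →ₗ[k] M) - 1) := inv_val_of hx.1.1 (by abel)
      have h2 : ((x⁻¹ : GL) : M →ₗ[k] M) - 1 = -((x : M →ₗ[k] M) - 1) := by rw [h1]; abel
      rw [h2]
      exact AA.neg hx
  · intro hg
    by_cases h0 : (g : M →ₗ[k] M) - 1 = 0
    · have : g = 1 := Units.ext (sub_eq_zero.1 h0)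
      rw [this]; exact one_mem _
    · obtain ⟨h1, h2⟩ := AA.eq hd.min hn hg h0
      exact Subgroup.subset_closure ⟨hd.mem_min (AA.n1 hn hg h0), h2, h1⟩

/-- operators compatible with a flag -/
def JJ (V₁ V₂ : Submodule k M) : Submodule k (M →ₗ[k] M) where
  carrier := {x | (∀ v, x v ∈ V₂) ∧ (∀ v ∈ V₂, x v ∈ V₁) ∧ ∀ v ∈ V₁, x v = 0}
  zero_mem' := ⟨fun _ => zero_mem _, fun _ _ => zero_mem _, fun _ _ => rfl⟩
  add_mem' := fun {x y} hx hy => ⟨fun v => add_mem (hx.1 v) (hy.1 v), fun v hv => add_mem (hx.2.1 v hv) (hy.2.1 v hv),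
    fun v hv => by rw [LinearMap.add_apply, hx.2.2 v hv, hy.2.2 v hv, add_zero]⟩
  smul_mem' := fun c x hx => ⟨fun v => Submodule.smul_mem _ _ (hx.1 v), fun v hv => Submodule.smul_mem _ _ (hx.2.1 v hv),
    fun v hv => by rw [LinearMap.smul_apply, hx.2.2 v hv, smul_zero]⟩

theorem JJ.mul {V₁ V₂ : Submodule k M} {x y : M →ₗ[k] M} (h : V₁ ≤ V₂) (hx : x ∈ JJ V₁ V₂) (hy : y ∈ JJ V₁ V₂) :
    x * y ∈ JJ V₁ V₂ :=
  ⟨fun _ => hx.1 _, fun v hv => hx.2.1 _ (h (hy.2.1 v hv)), fun v hv => by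
    change x (y v) = 0
    rw [hy.2.2 v hv, map_zero]⟩

theorem JJ.three {V₁ V₂ : Submodule k M} {x y z : M →ₗ[k] M} (hx : x ∈ JJ V₁ V₂) (hy : y ∈ JJ V₁ V₂)
    (hz : z ∈ JJ V₁ V₂) : x * (y * z) = 0 := by
  ext v; exact hx.2.2 _ (hy.2.1 _ (hz.1 v))

theorem JJ.closure {V₁ V₂ : Submodule k M} (h : V₁ ≤ V₂) {S : Set GL} (hS : ∀ g ∈ S, (g : M →ₗ[k] M) - 1 ∈ JJ V₁ V₂) :
    ∀ g ∈ Subgroup.closure S, (g : M →ₗ[k] M) - 1 ∈ JJ V₁ V₂ := by
  intro g hg
  induction hg using Subgroup.closure_induction with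
  | mem x hx => exact hS x hx
  | one => rw [Units.val_one, sub_self]; exact zero_mem _
  | mul x y _ _ hx hy =>
    have : ((x * y : GL) : M →ₗ[k] M) - 1 = ((x : M →ₗ[k] M) - 1) * ((y : M →ₗ[k] M) - 1) + ((x : M →ₗ[k] M) - 1) + ((y : M →ₗ[k] M) - 1) := by
      rw [Units.val_mul, sub_mul, mul_sub, mul_one, one_mul]; abel
    rw [this]; exact add_mem (add_mem (JJ.mul h hx hy) hx) hy
  | inv x _ hx =>
    have h3 := JJ.three hx hx hx
    set t := (x : M →ₗ[k] M) - 1 with ht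
    have hx1 : (x : M →ₗ[k] M) = 1 + t := by rw [ht]; abel
    have h4 : (x : M →ₗ[k] M) * (1 - t + t * t) = 1 := by
      rw [hx1]
      have : (1 + t) * (1 - t + t * t) = 1 + t * (t * t) := by noncomm_ring
      rw [this, h3, add_zero]
    have h5 : ((x⁻¹ : GL) : M →ₗ[k] M) = 1 - t + t * t := by
      have h6 : ((x⁻¹ : GL) : M →ₗ[k] M) * ((x : M →ₗ[k] M) * (1 - t + t * t)) = 1 - t + t * t := by
        rw [← mul_assoc, Units.inv_mul, one_mul]
      rw [← h6, h4, mul_one]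
    have h7 : ((x⁻¹ : GL) : M →ₗ[k] M) - 1 = -t + t * t := by rw [h5]; abel
    rw [h7]
    exact add_mem (neg_mem hx) (JJ.mul h hx hx)

theorem JJ.unip {V₁ V₂ : Submodule k M} {H : Subgroup GL} (hH : ∀ g ∈ H, (g : M →ₗ[k] M) - 1 ∈ JJ V₁ V₂) :
    IsUnipotentOn H := by
  refine ⟨3, fun l hl hlen => ?_⟩
  obtain ⟨a, b, c, rfl⟩ := List.length_eq_three.1 hlen
  have e : (List.map (fun g : GL => (g : M →ₗ[k] M) - 1) [a, b, c]).prod =
      ((a : M →ₗ[k] M) - 1) * (((b : M →ₗ[k] M) - 1) * ((c : M →ₗ[k] M) - 1)) := by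
    simp [List.prod_cons]
  refine e.trans ?_
  exact JJ.three (hH a (hl a (by simp))) (hH b (hl b (by simp))) (hH c (hl c (by simp)))

/-- the flag of a pair -/
def F1 (n m : M →ₗ[k] M) : Submodule k M :=
  (LinearMap.range n ⊓ LinearMap.ker m) ⊔ (LinearMap.range m ⊓ LinearMap.ker n)
def F2 (n m : M →ₗ[k] M) : Submodule k M := LinearMap.range n ⊔ LinearMap.range m

theorem F1_le_F2 (n m : M →ₗ[k] M) : F1 n m ≤ F2 n m := sup_le_sup inf_le_left inf_le_left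

theorem apply_eq_zero_of_mul {a b : M →ₗ[k] M} (h : a * b = 0) (v : M) : a (b v) = 0 :=
  congrArg (fun f : M →ₗ[k] M => f v) h

theorem mem_JJ {x : M →ₗ[k] M} (hn : n * n = 0) (hm : m * m = 0)
    (hx : LinearMap.range x ≤ LinearMap.range n ∧ LinearMap.ker n ≤ LinearMap.ker x) (hmx : ∀ v, m (x (m v)) = 0) :
    x ∈ JJ (F1 n m) (F2 n m) := by
  refine ⟨fun v => Submodule.mem_sup_left (hx.1 ⟨v, rfl⟩), ?_, ?_⟩
  · intro v hv
    obtain ⟨a, ⟨a', ha⟩, b, ⟨b', hb⟩, rfl⟩ := Submodule.mem_sup.1 hv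
    have h1 : x a = 0 := hx.2 (by rw [← ha]; exact apply_eq_zero_of_mul hn a')
    rw [map_add, h1, zero_add]
    refine Submodule.mem_sup_left ⟨hx.1 ⟨_, rfl⟩, ?_⟩
    rw [← hb]
    exact hmx b'
  · intro v hv
    obtain ⟨a, ⟨⟨a', ha⟩, -⟩, b, ⟨-, hb⟩, rfl⟩ := Submodule.mem_sup.1 hv
    have h1 : x a = 0 := hx.2 (by rw [← ha]; exact apply_eq_zero_of_mul hn a')
    have h2 : x b = 0 := hx.2 hb
    rw [map_add, h1, h2, add_zero]

theorem F1_comm (n m : M →ₗ[k] M) : F1 n m = F1 m n := sup_comm _ _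
theorem F2_comm (n m : M →ₗ[k] M) : F2 n m = F2 m n := sup_comm _ _

/-- the condition for an opposite pair -/
def Op (n m : M →ₗ[k] M) : Prop := ¬ (n * (m * n) = 0 ∧ m * (n * m) = 0)

theorem Op.symm (h : Op n m) : Op m n := fun h' => h ⟨h'.2, h'.1⟩

end Cfsg.Agent.H3.QP
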