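import Mathlib
import Cfsg.Agent.H3.QPDict

/-!
Quadratic pairs: opposite root subgroups generate a special rank one group.
-/

set_option autoImplicit false

namespace Cfsg.Agent.H3.QP

open scoped commutatorElement

universe u v

variable {k : Type u} [Field k] {M : Type v} [AddCommGroup M] [Module k M]
variable {G : Subgroup (LinearMap.GeneralLinearGroup k M)} {d : ℕ} {n m e w : M →ₗ[k] M}

theorem ap {a b : M →ₗ[k] M} (h : a = b) (v : M) : a v = b v := by rw [h]

theorem range_le_ker_of_sq (h : n * n = 0) : LinearMap.range n ≤ LinearMap.ker n := by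
  rintro _ ⟨v, rfl⟩; exact ap h v

theorem op_spaces [FiniteDimensional k M] (h2k : (2 : k) ≠ 0) (h3k : Nat.card k ≠ 3) (hmin : MinR G d)
    (hn : N1 G d n) (hm : N1 G d m) (h : Op n m) :
    LinearMap.range n ⊓ LinearMap.ker m = ⊥ ∧ LinearMap.range m ⊓ LinearMap.ker n = ⊥ := by
  obtain ⟨e, w, hF, -, -, -, -, -, -, hne, hme, -, -⟩ := opp_main h2k h3k hmin hn hm h
  have key : ∀ v, e v = 0 → (∃ u, n u = v ∨ m u = v) → v = 0 := by
    intro v hv hu
    rcases hu with ⟨u, hu | hu⟩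
    · have h1 : e (n u) = n u := ap ((hF.comm_e (n_comm_z hn.1.1)).symm.trans hne) u
      rw [← hu, ← h1, hu, hv]
    · have h1 : e (m u) = m u := ap ((hF.comm_e (m_comm_z hm.1.1)).symm.trans hme) u
      rw [← hu, ← h1, hu, hv]
  constructor
  · rw [eq_bot_iff]
    rintro v ⟨⟨u, hu⟩, hv⟩
    rw [Submodule.mem_bot]
    refine key v ?_ ⟨u, Or.inl hu⟩
    have h1 : (n * m + m * n) v = 0 := by
      rw [LinearMap.add_apply]
      change n (m v) + m (n v) = 0
      rw [LinearMap.mem_ker.1 hv, map_zero, ← hu, ap hn.1.1 u |> fun h => (h : n (n u) = 0), map_zero, add_zero]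
    rw [← hF.wz]
    change w ((n * m + m * n) v) = 0
    rw [h1, map_zero]
  · rw [eq_bot_iff]
    rintro v ⟨⟨u, hu⟩, hv⟩
    rw [Submodule.mem_bot]
    refine key v ?_ ⟨u, Or.inr hu⟩
    have h1 : (n * m + m * n) v = 0 := by
      rw [LinearMap.add_apply]
      change n (m v) + m (n v) = 0
      rw [LinearMap.mem_ker.1 hv, map_zero, ← hu, ap hm.1.1 u |> fun h => (h : m (m u) = 0), map_zero, add_zero]
    rw [← hF.wz]
    change w ((n * m + m * n) v) = 0
    rw [h1, map_zero]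

theorem op_of_spaces (h0 : n ≠ 0) (h1 : LinearMap.range n ⊓ LinearMap.ker m = ⊥)
    (h2 : LinearMap.range m ⊓ LinearMap.ker n = ⊥) : Op n m := by
  intro h
  apply h0
  ext v
  have h3 : n v ∈ LinearMap.range n ⊓ LinearMap.ker m := by
    refine ⟨⟨v, rfl⟩, ?_⟩
    have h4 : m (n v) ∈ LinearMap.range m ⊓ LinearMap.ker n := ⟨⟨n v, rfl⟩, ap h.1 v⟩
    rw [h2] at h4
    exact h4
  rw [h1] at h3
  exact h3

theorem op_congr [FiniteDimensional k M] (h2k : (2 : k) ≠ 0) (h3k : Nat.card k ≠ 3) (hmin : MinR G d)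
    (hn : N1 G d n) (hm : N1 G d m) {x y : M →ₗ[k] M} (hx : x ∈ AA G n) (hy : y ∈ AA G m) (hx0 : x ≠ 0) (hy0 : y ≠ 0)
    (h : Op n m) : Op x y := by
  obtain ⟨h1, h2⟩ := op_spaces h2k h3k hmin hn hm h
  obtain ⟨a1, a2⟩ := AA.eq hmin hn hx hx0
  obtain ⟨b1, b2⟩ := AA.eq hmin hm hy hy0
  apply op_of_spaces hx0
  · rw [a1, b2, h1]
  · rw [b1, a2, h2]

theorem op_congr' [FiniteDimensional k M] (h2k : (2 : k) ≠ 0) (h3k : Nat.card k ≠ 3) (hmin : MinR G d)
    (hn : N1 G d n) (hm : N1 G d m) {x y : M →ₗ[k] M} (hx : x ∈ AA G n) (hy : y ∈ AA G m) (hx0 : x ≠ 0) (hy0 : y ≠ 0)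
    (h : Op x y) : Op n m := by
  obtain ⟨h1, h2⟩ := op_spaces h2k h3k hmin (AA.n1 hn hx hx0) (AA.n1 hm hy hy0) h
  obtain ⟨a1, a2⟩ := AA.eq hmin hn hx hx0
  obtain ⟨b1, b2⟩ := AA.eq hmin hm hy hy0
  apply op_of_spaces hn.2.1
  · rw [← a1, ← b2, h1]
  · rw [← b1, ← a2, h2]

theorem op_bar [FiniteDimensional k M] (h2k : (2 : k) ≠ 0) (h3k : Nat.card k ≠ 3) (hmin : MinR G d)
    (hn : N1 G d n) (hm : N1 G d m) (h : Op n m) : ∃ b ∈ AA G m, n * (b * n) = n ∧ b * (n * b) = b := by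
  obtain ⟨e, w, hF, K, _, _, φ, α, hA, hne, hme, -, hG⟩ := opp_main h2k h3k hmin hn hm h
  have nw := hF.comm_w (n_comm_z (n := n) (m := m) hn.1.1)
  have mw := hF.comm_w (m_comm_z (n := n) (m := m) hm.1.1)
  have ne := hF.comm_e (n_comm_z (n := n) (m := m) hn.1.1)
  have me := hF.comm_e (m_comm_z (n := n) (m := m) hm.1.1)
  have nmn : n * (m * n) = (n * m + m * n) * n := by rw [add_mul, mul_assoc m, hn.1.1, mul_zero, add_zero, mul_assoc]
  have mnm : m * (n * m) = (n * m + m * n) * m := by rw [add_mul, mul_assoc n, hm.1.1, mul_zero, zero_add, mul_assoc]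
  refine ⟨w * m, ⟨⟨?_, fun c => ⟨_, hG (vv (algebraMap k K c)), ?_⟩⟩, ?_, ?_⟩, ?_, ?_⟩
  · rw [← mw, mul_assoc, ← mul_assoc w m w, ← mw, mul_assoc, ← mul_assoc m m, hm.1.1, zero_mul]
  · rw [rhoU_val, rho_vv]
    change 1 + φ (algebraMap k K c) * (w * m) = _
    rw [Algebra.algebraMap_eq_smul_one, map_smul, hA.one, smul_mul_assoc, ← mul_assoc, hF.ew]
  · rw [← mw]; rintro _ ⟨v, rfl⟩; exact ⟨w v, rfl⟩
  · intro v hv
    rw [LinearMap.mem_ker] at hv ⊢
    change w (m v) = 0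
    rw [hv, map_zero]
  · rw [mul_assoc w, ← mul_assoc n w, nw, mul_assoc w, nmn, ← mul_assoc w, hF.wz, ← ne, hne]
  · rw [← mul_assoc n, nw, mul_assoc w n m, mul_assoc w m, ← mul_assoc m w, mw, mul_assoc w m, mnm, ← mul_assoc w (n * m + m * n),
      hF.wz, ← me, hme]

/-- the data of an opposite pair with inverse operators -/
structure Bar (n b : M →ₗ[k] M) : Prop where
  nn : n * n = 0
  bb : b * b = 0
  nbn : n * (b * n) = n
  bnb : b * (n * b) = b

variable {b : M →ₗ[k] M}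

theorem Bar.symm (h : Bar n b) : Bar b n := ⟨h.bb, h.nn, h.bnb, h.nbn⟩

theorem Bar.ne (h : Bar n b) : n * (n * b + b * n) = n := by
  rw [mul_add, ← mul_assoc, h.nn, zero_mul, zero_add, h.nbn]
theorem Bar.en (h : Bar n b) : (n * b + b * n) * n = n := by
  rw [add_mul, mul_assoc b, h.nn, mul_zero, add_zero, mul_assoc, h.nbn]
theorem Bar.be (h : Bar n b) : b * (n * b + b * n) = b := by
  rw [mul_add, ← mul_assoc b b, h.bb, zero_mul, add_zero, h.bnb]
theorem Bar.eb (h : Bar n b) : (n * b + b * n) * b = b := by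
  rw [add_mul, mul_assoc n, h.bb, mul_zero, zero_add, mul_assoc, h.bnb]
theorem Bar.ee (h : Bar n b) : (n * b + b * n) * (n * b + b * n) = n * b + b * n := by
  rw [mul_add, ← mul_assoc, ← mul_assoc, h.en, h.eb]

theorem Bar.xe {x : M →ₗ[k] M} (h : Bar n b) (hx : LinearMap.ker n ≤ LinearMap.ker x) : x * (n * b + b * n) = x := by
  have h1 : x * (1 - (n * b + b * n)) = 0 := by
    ext v
    apply hx
    have h2 : n * (1 - (n * b + b * n)) = 0 := by rw [mul_sub, h.ne, mul_one, sub_self]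
    exact ap h2 v
  rw [mul_sub, mul_one, sub_eq_zero] at h1
  exact h1.symm

theorem Bar.ex {x : M →ₗ[k] M} (h : Bar n b) (hx : LinearMap.range x ≤ LinearMap.range n) : (n * b + b * n) * x = x := by
  ext v
  obtain ⟨u, hu⟩ := hx ⟨v, rfl⟩
  change (n * b + b * n) (x v) = x v
  rw [← hu]
  exact ap h.en u

theorem Bar.w_val (h : Bar n b) : (1 + n) * (1 - b) * (1 + n) = 1 - (n * b + b * n) + n - b := by
  have : (1 + n) * (1 - b) * (1 + n) = 1 + n + n - b - b * n - n * b + n * n - n * (b * n) := by noncomm_ring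
  rw [this, h.nn, h.nbn]; abel

theorem Bar.w_inv (h : Bar n b) : (1 - n) * (1 + b) * (1 - n) = 1 - (n * b + b * n) - n + b := by
  have : (1 - n) * (1 + b) * (1 - n) = 1 - n - n + b - b * n - n * b + n * n + n * (b * n) := by noncomm_ring
  rw [this, h.nn, h.nbn]; abel

/-- conjugation of `𝒜` by `w` -/
theorem Bar.w_conj {x : M →ₗ[k] M} (h : Bar n b) (h1 : LinearMap.ker n ≤ LinearMap.ker x)
    (h2 : LinearMap.range x ≤ LinearMap.range n) :
    ((1 + n) * (1 - b) * (1 + n)) * x * ((1 - n) * (1 + b) * (1 - n)) = -(b * (x * b)) := by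
  have nx : n * x = 0 := by
    ext v
    obtain ⟨u, hu⟩ := h2 ⟨v, rfl⟩
    change n (x v) = 0
    rw [← hu]; exact ap h.nn u
  have xn : x * n = 0 := by ext v; exact h1 (ap h.nn v)
  have e1 : (1 - (n * b + b * n) + n - b) * x = -(b * x) := by
    have : (1 - (n * b + b * n) + n - b) * x = x - (n * b + b * n) * x + n * x - b * x := by noncomm_ring
    rw [this, h.ex h2, nx]; abel
  have e2 : x * (1 - (n * b + b * n) - n + b) = x * b := by
    have : x * (1 - (n * b + b * n) - n + b) = x - x * (n * b + b * n) - x * n + x * b := by noncomm_ring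
    rw [this, h.xe h1, xn]; abel
  rw [h.w_val, h.w_inv, e1, neg_mul, mul_assoc, e2]

theorem Bar.w_conj' {y : M →ₗ[k] M} (h : Bar n b) (h1 : LinearMap.ker b ≤ LinearMap.ker y)
    (h2 : LinearMap.range y ≤ LinearMap.range b) :
    ((1 - n) * (1 + b) * (1 - n)) * y * ((1 + n) * (1 - b) * (1 + n)) = -(n * (y * n)) := by
  have yx : b * y = 0 := by
    ext v
    obtain ⟨u, hu⟩ := h2 ⟨v, rfl⟩
    change b (y v) = 0
    rw [← hu]; exact ap h.bb u
  have xy : y * b = 0 := by ext v; exact h1 (ap h.bb v)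
  have e1 : (1 - (n * b + b * n) - n + b) * y = -(n * y) := by
    have : (1 - (n * b + b * n) - n + b) * y = y - (b * n + n * b) * y - n * y + b * y := by noncomm_ring
    rw [this, h.symm.ex h2, yx]; abel
  have e2 : y * (1 - (n * b + b * n) + n - b) = y * n := by
    have : y * (1 - (n * b + b * n) + n - b) = y - y * (b * n + n * b) + y * n - y * b := by noncomm_ring
    rw [this, h.symm.xe h1, xy]; abel
  rw [h.w_val, h.w_inv, e1, neg_mul, mul_assoc, e2]

theorem Bar.w_sq (h : Bar n b) : ((1 + n) * (1 - b) * (1 + n)) * ((1 + n) * (1 - b) * (1 + n)) =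
    1 - (2 : k) • (n * b + b * n) := by
  rw [h.w_val]
  set e := n * b + b * n with he
  have : (1 - e + n - b) * (1 - e + n - b) = 1 - e - e + e * e + n - e * n + n - n * e - b + e * b - b + b * e + n * n + b * b -
      (n * b + b * n) := by noncomm_ring
  rw [this, h.ee, h.en, h.ne, h.eb, h.be, h.nn, h.bb, ← he, two_smul]
  abel

end Cfsg.Agent.H3.QP
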