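import Mathlib
import Cfsg.Agent.H3.QPRank
import Cfsg.Agent.H28.RankOne

/-!
Quadratic pairs: the root subgroups, opposite pairs are special rank one pairs.
-/

set_option autoImplicit false

namespace Cfsg.Agent.H3.QP

open scoped commutatorElement
open Cfsg.Agent.H28

universe u v

variable {k : Type u} [Field k] {M : Type v} [AddCommGroup M] [Module k M]
variable {G : Subgroup (LinearMap.GeneralLinearGroup k M)} {d : ℕ} {n m e w : M →ₗ[k] M}
variable {A B : Subgroup (LinearMap.GeneralLinearGroup k M)}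

/-- `A` is the root subgroup of the operator `n` -/
def IsE (G : Subgroup (LinearMap.GeneralLinearGroup k M)) (n : M →ₗ[k] M)
    (A : Subgroup (LinearMap.GeneralLinearGroup k M)) : Prop :=
  ∀ g : LinearMap.GeneralLinearGroup k M, g ∈ A ↔ (g : M →ₗ[k] M) - 1 ∈ AA G n

theorem IsE.exists (hA : IsE G n A) {x : M →ₗ[k] M} (hx : x ∈ AA G n) :
    ∃ g : LinearMap.GeneralLinearGroup k M, g ∈ A ∧ (g : M →ₗ[k] M) = 1 + x ∧
      ((g⁻¹ : LinearMap.GeneralLinearGroup k M) : M →ₗ[k] M) = 1 - x := by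
  obtain ⟨g, hg, h1, h2⟩ := hx.1.exists_unit 1
  rw [one_smul] at h1 h2
  refine ⟨g, (hA g).2 ?_, h1, h2⟩
  have : (g : M →ₗ[k] M) - 1 = x := by rw [h1]; abel
  rw [this]; exact hx

theorem IsE.val (hA : IsE G n A) {g : LinearMap.GeneralLinearGroup k M} (hg : g ∈ A) :
    ∃ x ∈ AA G n, (g : M →ₗ[k] M) = 1 + x ∧ ((g⁻¹ : LinearMap.GeneralLinearGroup k M) : M →ₗ[k] M) = 1 - x := by
  have h := (hA g).1 hg
  have h1 : (g : M →ₗ[k] M) = 1 + ((g : M →ₗ[k] M) - 1) := by abel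
  exact ⟨_, h, h1, inv_val_of h.1.1 h1⟩

theorem IsE.le (hA : IsE G n A) : A ≤ G := by
  intro g hg
  obtain ⟨x, hx, h1, -⟩ := hA.val hg
  obtain ⟨g', hg', h2⟩ := hx.1.2 1
  rw [one_smul] at h2
  have : g = g' := Units.ext (h1.trans h2.symm)
  rw [this]; exact hg'

theorem IsE.congr {x : M →ₗ[k] M} (hA : IsE G n A) (h1 : LinearMap.range x = LinearMap.range n)
    (h2 : LinearMap.ker x = LinearMap.ker n) : IsE G x A := by
  intro g; rw [hA g, AA.congr h1 h2]

theorem IsE.ext (hA : IsE G n A) (hB : IsE G n B) : A = B := by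
  ext g; rw [hA g, hB g]

theorem val_ne_one {g : LinearMap.GeneralLinearGroup k M} {x : M →ₗ[k] M} (h : (g : M →ₗ[k] M) = 1 + x) :
    g ≠ 1 ↔ x ≠ 0 := by
  refine not_congr ⟨?_, ?_⟩
  · rintro rfl
    rw [Units.val_one] at h
    exact (left_eq_add.1 h)
  · rintro rfl
    exact Units.ext (by rw [h, add_zero, Units.val_one])

/-- elements of the same root subgroup commute -/
theorem IsE.comm (hn : N1 G d n) (hA : IsE G n A) : ∀ a ∈ A, ∀ b ∈ A, a * b = b * a := by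
  intro a ha b hb
  obtain ⟨x, hx, hx1, -⟩ := hA.val ha
  obtain ⟨y, hy, hy1, -⟩ := hA.val hb
  apply Units.ext
  rw [Units.val_mul, Units.val_mul, hx1, hy1]
  have : (1 + x) * (1 + y) = 1 + x + y + x * y := by noncomm_ring
  rw [this, AA.mul_eq hn.1.1 hx hy]
  have : (1 + y) * (1 + x) = 1 + x + y + y * x := by noncomm_ring
  rw [this, AA.mul_eq hn.1.1 hy hx]

theorem IsE.mulComm (hn : N1 G d n) (hA : IsE G n A) : IsMulCommutative A :=
  ⟨⟨fun a b => Subtype.ext (hA.comm hn a a.2 b b.2)⟩⟩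

theorem IsE.ne_bot (hn : N1 G d n) (hA : IsE G n A) : A ≠ ⊥ := by
  obtain ⟨g, hg, h1, -⟩ := hA.exists (AA.self hn.1)
  intro h
  rw [h, Subgroup.mem_bot] at hg
  exact (val_ne_one h1).2 hn.2.1 hg

theorem nil_of_comm {G : Type*} [Group G] (A : Subgroup G) (h : IsMulCommutative A) : Group.IsNilpotent A := by
  letI : CommGroup A := { (inferInstance : Group A) with mul_comm := h.is_comm.comm }
  exact CommGroup.isNilpotent

/-- the conjugate of a root subgroup -/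
theorem IsE.conj (hA : IsE G n A) {g : LinearMap.GeneralLinearGroup k M} (hg : g ∈ G) :
    IsE G ((g : M →ₗ[k] M) * n * ((g⁻¹ : LinearMap.GeneralLinearGroup k M) : M →ₗ[k] M)) (conjBy A g) := by
  intro x
  have hrange : ∀ (g : LinearMap.GeneralLinearGroup k M) (a b : M →ₗ[k] M), LinearMap.range a ≤ LinearMap.range b →
      LinearMap.range ((g : M →ₗ[k] M) * a * ((g⁻¹ : LinearMap.GeneralLinearGroup k M) : M →ₗ[k] M)) ≤
        LinearMap.range ((g : M →ₗ[k] M) * b * ((g⁻¹ : LinearMap.GeneralLinearGroup k M) : M →ₗ[k] M)) := by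
    rintro g a b h _ ⟨v, rfl⟩
    obtain ⟨u, hu⟩ := h ⟨((g⁻¹ : LinearMap.GeneralLinearGroup k M) : M →ₗ[k] M) v, rfl⟩
    refine ⟨(g : M →ₗ[k] M) u, ?_⟩
    change (g : M →ₗ[k] M) (b (((g⁻¹ : LinearMap.GeneralLinearGroup k M) : M →ₗ[k] M) ((g : M →ₗ[k] M) u))) =
      (g : M →ₗ[k] M) (a (((g⁻¹ : LinearMap.GeneralLinearGroup k M) : M →ₗ[k] M) v))
    have : ((g⁻¹ : LinearMap.GeneralLinearGroup k M) : M →ₗ[k] M) ((g : M →ₗ[k] M) u) = u := ap (Units.inv_mul g) u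
    rw [this, hu]
  have hker : ∀ (g : LinearMap.GeneralLinearGroup k M) (a b : M →ₗ[k] M), LinearMap.ker a ≤ LinearMap.ker b →
      LinearMap.ker ((g : M →ₗ[k] M) * a * ((g⁻¹ : LinearMap.GeneralLinearGroup k M) : M →ₗ[k] M)) ≤
        LinearMap.ker ((g : M →ₗ[k] M) * b * ((g⁻¹ : LinearMap.GeneralLinearGroup k M) : M →ₗ[k] M)) := by
    intro g a b h v hv
    rw [LinearMap.mem_ker] at hv ⊢
    change (g : M →ₗ[k] M) (a (((g⁻¹ : LinearMap.GeneralLinearGroup k M) : M →ₗ[k] M) v)) = 0 at hv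
    change (g : M →ₗ[k] M) (b (((g⁻¹ : LinearMap.GeneralLinearGroup k M) : M →ₗ[k] M) v)) = 0
    have h1 : a (((g⁻¹ : LinearMap.GeneralLinearGroup k M) : M →ₗ[k] M) v) = 0 := by
      have := congrArg ((g⁻¹ : LinearMap.GeneralLinearGroup k M) : M →ₗ[k] M) hv
      rw [map_zero] at this
      rw [← this]
      exact (ap (Units.inv_mul g) _).symm
    rw [h h1, map_zero]
  have hAA : ∀ (g : LinearMap.GeneralLinearGroup k M), g ∈ G → ∀ a b : M →ₗ[k] M, a ∈ AA G b →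
      (g : M →ₗ[k] M) * a * ((g⁻¹ : LinearMap.GeneralLinearGroup k M) : M →ₗ[k] M) ∈
        AA G ((g : M →ₗ[k] M) * b * ((g⁻¹ : LinearMap.GeneralLinearGroup k M) : M →ₗ[k] M)) := by
    intro g hg a b hab
    exact ⟨hab.1.conj hg, hrange g a b hab.2.1, hker g b a hab.2.2⟩
  have hval : ∀ g y : LinearMap.GeneralLinearGroup k M, (((g * y * g⁻¹ : LinearMap.GeneralLinearGroup k M)) : M →ₗ[k] M) - 1 =
      (g : M →ₗ[k] M) * ((y : M →ₗ[k] M) - 1) * ((g⁻¹ : LinearMap.GeneralLinearGroup k M) : M →ₗ[k] M) := by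
    intro g y
    rw [mul_sub, sub_mul, mul_one, Units.mul_inv, Units.val_mul, Units.val_mul]
  have hback := conj_back g n
  rw [mem_conjBy, hA]
  constructor
  · intro h
    have h1 := hAA g hg _ _ h
    rw [← hval] at h1
    have : g * (g⁻¹ * x * g) * g⁻¹ = x := by group
    rwa [this] at h1
  · intro h
    have h1 := hAA g⁻¹ (inv_mem hg) _ _ h
    rw [← hval, inv_inv, hback] at h1
    exact h1

variable [FiniteDimensional k M]

theorem mem_JJ_of (h2k : (2 : k) ≠ 0) (h3k : Nat.card k ≠ 3) (hmin : MinR G d)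
    (hn : N1 G d n) (hm : N1 G d m) (h : ¬ Op n m) {x : M →ₗ[k] M} (hx : x ∈ AA G n) : x ∈ JJ (F1 n m) (F2 n m) := by
  by_cases hx0 : x = 0
  · rw [hx0]; exact zero_mem _
  refine mem_JJ hn.1.1 hm.1.1 hx.2 (fun v => ?_)
  have h1 : ¬ Op x m := fun h' => h (op_congr' h2k h3k hmin hn hm hx (AA.self hm.1) hx0 hm.2.1 h')
  unfold Op at h1
  rw [not_not] at h1
  exact ap h1.2 v

theorem nonop_JJ (h2k : (2 : k) ≠ 0) (h3k : Nat.card k ≠ 3) (hmin : MinR G d)
    (hn : N1 G d n) (hm : N1 G d m) (hA : IsE G n A) (hB : IsE G m B) (h : ¬ Op n m) :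
    ∀ g ∈ A ⊔ B, (g : M →ₗ[k] M) - 1 ∈ JJ (F1 n m) (F2 n m) := by
  rw [Subgroup.sup_eq_closure]
  apply JJ.closure (F1_le_F2 n m)
  rintro g (hg | hg)
  · exact mem_JJ_of h2k h3k hmin hn hm h ((hA g).1 hg)
  · rw [F1_comm, F2_comm]
    exact mem_JJ_of h2k h3k hmin hm hn (fun h' => h h'.symm) ((hB g).1 hg)

theorem nonop_unip (h2k : (2 : k) ≠ 0) (h3k : Nat.card k ≠ 3) (hmin : MinR G d)
    (hn : N1 G d n) (hm : N1 G d m) (hA : IsE G n A) (hB : IsE G m B) (h : ¬ Op n m) : IsUnipotentOn (A ⊔ B) :=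
  JJ.unip (nonop_JJ h2k h3k hmin hn hm hA hB h)

theorem bar_of (hn : N1 G d n) (hm : N1 G d m) {b : M →ₗ[k] M} (hb : b ∈ AA G m) (h1 : n * (b * n) = n) (h2 : b * (n * b) = b) :
    Bar n b := ⟨hn.1.1, hb.1.1, h1, h2⟩

/-- the element `w` conjugates `A` to `B` -/
theorem conj_w (h2k : (2 : k) ≠ 0) (hmin : MinR G d) (hn : N1 G d n) (hm : N1 G d m) (hA : IsE G n A) (hB : IsE G m B)
    {b : M →ₗ[k] M} (hb : b ∈ AA G m) (hnb : Bar n b) {g h : LinearMap.GeneralLinearGroup k M} (hg : g ∈ A) (hh : h ∈ B)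
    (hg1 : (g : M →ₗ[k] M) = 1 + n) (hh1 : (h : M →ₗ[k] M) = 1 + b) :
    conjBy A (g * h⁻¹ * g) = B := by
  have hb0 : b ≠ 0 := by
    rintro rfl
    apply hn.2.1
    rw [← hnb.nbn]; simp
  obtain ⟨hbr, hbk⟩ := AA.eq hmin hm hb hb0
  have hg2 : ((g⁻¹ : LinearMap.GeneralLinearGroup k M) : M →ₗ[k] M) = 1 - n := inv_val_of hnb.nn hg1
  have hh2 : ((h⁻¹ : LinearMap.GeneralLinearGroup k M) : M →ₗ[k] M) = 1 - b := inv_val_of hnb.bb hh1
  have hw : ((g * h⁻¹ * g : LinearMap.GeneralLinearGroup k M) : M →ₗ[k] M) = (1 + n) * (1 - b) * (1 + n) := by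
    rw [Units.val_mul, Units.val_mul, hg1, hh2]
  have hw' : (((g * h⁻¹ * g)⁻¹ : LinearMap.GeneralLinearGroup k M) : M →ₗ[k] M) = (1 - n) * (1 + b) * (1 - n) := by
    rw [mul_inv_rev, mul_inv_rev, inv_inv, Units.val_mul, Units.val_mul, hg2, hh1, mul_assoc]
  have hwG : g * h⁻¹ * g ∈ G := mul_mem (mul_mem (hA.le hg) (inv_mem (hB.le hh))) (hA.le hg)
  have h1 := hA.conj hwG
  rw [hw, hw', hnb.w_conj le_rfl le_rfl] at h1
  have h2 : -(b * (n * b)) = -b := by rw [hnb.bnb]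
  rw [h2] at h1
  refine IsE.ext (h1.congr (x := m) ?_ ?_) hB
  · rw [LinearMap.range_neg, hbr]
  · rw [LinearMap.ker_neg, hbk]

theorem cond_left (h2k : (2 : k) ≠ 0) (h3k : Nat.card k ≠ 3) (hmin : MinR G d)
    (hn : N1 G d n) (hm : N1 G d m) (hA : IsE G n A) (hB : IsE G m B) (h : Op n m) : RankOneCondition A B := by
  intro a ha ha1
  obtain ⟨x, hx, hx1, hx2⟩ := hA.val ha
  have hx0 := (val_ne_one hx1).1 ha1
  have hx' := AA.n1 hn hx hx0
  obtain ⟨hxr, hxk⟩ := AA.eq hmin hn hx hx0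
  have hop := op_congr h2k h3k hmin hn hm hx (AA.self hm.1) hx0 hm.2.1 h
  obtain ⟨b, hb, h1, h2⟩ := op_bar h2k h3k hmin hx' hm hop
  have hbar : Bar x b := bar_of hx' hm hb h1 h2
  obtain ⟨y, hy, hy1, hy2⟩ := hB.exists hb
  have hb0 : b ≠ 0 := by
    rintro rfl
    apply hx0
    rw [← h1]; simp
  refine ⟨y, hy, (val_ne_one hy1).2 hb0, ?_⟩
  have hc := conj_w h2k hmin hx' hm (hA.congr hxr hxk) hB hb hbar ha hy hx1 hy1
  rw [← hc, conjBy_conjBy]
  have e1 : a⁻¹ * (a * y⁻¹ * a) = y⁻¹ * a := by group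
  rw [e1, ← conjBy_conjBy, conjBy_mem_self ha]

omit [FiniteDimensional k M] in
theorem op_ne (hn : N1 G d n) (hm : NN G m) (hA : IsE G n A) (hB : IsE G m B)
    (hr : LinearMap.range n ⊓ LinearMap.ker m = ⊥) : A ≠ B := by
  rintro rfl
  have h1 : m ∈ AA G n := by
    obtain ⟨g, hg, h1, -⟩ := hB.exists (AA.self hm)
    have := (hA g).1 hg
    have e1 : (g : M →ₗ[k] M) - 1 = m := by rw [h1]; abel
    rwa [e1] at this
  apply hn.2.1
  have h2 : LinearMap.range n ≤ LinearMap.range n ⊓ LinearMap.ker m :=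
    le_inf le_rfl ((range_le_ker_of_sq hn.1.1).trans h1.2.2)
  rw [hr] at h2
  ext v
  exact h2 ⟨v, rfl⟩

theorem rankOne (h2k : (2 : k) ≠ 0) (h3k : Nat.card k ≠ 3) (hmin : MinR G d)
    (hn : N1 G d n) (hm : N1 G d m) (hA : IsE G n A) (hB : IsE G m B) (h : Op n m) : IsRankOnePair A B where
  ne := op_ne hn hm.1 hA hB (op_spaces h2k h3k hmin hn hm h).1
  nilpotent_left := nil_of_comm A (hA.mulComm hn)
  nilpotent_right := nil_of_comm B (hB.mulComm hm)
  cond_left := cond_left h2k h3k hmin hn hm hA hB h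
  cond_right := cond_left h2k h3k hmin hm hn hB hA h.symm

theorem special (h2k : (2 : k) ≠ 0) (h3k : Nat.card k ≠ 3) (hmin : MinR G d)
    (hn : N1 G d n) (hm : N1 G d m) (hA : IsE G n A) (hB : IsE G m B) (h : Op n m) : IsSpecialRankOnePair A B := by
  refine ⟨rankOne h2k h3k hmin hn hm hA hB h, ?_⟩
  intro a ha ha1 b hb hb1 hc
  obtain ⟨x, hx, hx1, hx2⟩ := hA.val ha
  have hx0 := (val_ne_one hx1).1 ha1
  have hx' := AA.n1 hn hx hx0
  obtain ⟨hxr, hxk⟩ := AA.eq hmin hn hx hx0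
  obtain ⟨y, hy, hy1, hy2⟩ := hB.val hb
  have hy0 := (val_ne_one hy1).1 hb1
  have hy' := AA.n1 hm hy hy0
  obtain ⟨hyr, hyk⟩ := AA.eq hmin hm hy hy0
  have hop := op_congr h2k h3k hmin hn hm hx hy hx0 hy0 h
  obtain ⟨hs1, hs2⟩ := op_spaces h2k h3k hmin hx' hy' hop
  -- `g = a b⁻¹ a` conjugates `A` to `B`
  have hcon : conjBy A (a * b⁻¹ * a) = B := by
    have e1 : a * b⁻¹ * a = a * (b⁻¹ * a) := by group
    rw [e1, ← conjBy_conjBy, ← conjBy_conjBy, conjBy_mem_self ha, hc, conjBy_conjBy, mul_inv_cancel, conjBy_one]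
  have haa : (a * b⁻¹ * a) * a * (a * b⁻¹ * a)⁻¹ ∈ B := by
    rw [← hcon]; exact ⟨a, ha, rfl⟩
  obtain ⟨z, hz, hz1, -⟩ := hB.val haa
  have hg1 : ((a * b⁻¹ * a : LinearMap.GeneralLinearGroup k M) : M →ₗ[k] M) = (1 + x) * (1 - y) * (1 + x) := by
    rw [Units.val_mul, Units.val_mul, hx1, hy2]
  have hz2 : (1 + x) * (1 - y) * (1 + x) * x = z * ((1 + x) * (1 - y) * (1 + x)) := by
    have h5 : ((a * b⁻¹ * a) * a * (a * b⁻¹ * a)⁻¹) * (a * b⁻¹ * a) = (a * b⁻¹ * a) * a := by group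
    have h6 : (((a * b⁻¹ * a) * a * (a * b⁻¹ * a)⁻¹ : LinearMap.GeneralLinearGroup k M) : M →ₗ[k] M) *
        ((a * b⁻¹ * a : LinearMap.GeneralLinearGroup k M) : M →ₗ[k] M) =
        ((a * b⁻¹ * a : LinearMap.GeneralLinearGroup k M) : M →ₗ[k] M) * (a : M →ₗ[k] M) := by
      rw [← Units.val_mul, ← Units.val_mul, h5]
    rw [hz1, hg1, hx1] at h6
    have h7 : (1 + z) * ((1 + x) * (1 - y) * (1 + x)) = (1 + x) * (1 - y) * (1 + x) + z * ((1 + x) * (1 - y) * (1 + x)) := by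
      rw [add_mul, one_mul]
    have h8 : (1 + x) * (1 - y) * (1 + x) * (1 + x) = (1 + x) * (1 - y) * (1 + x) + (1 + x) * (1 - y) * (1 + x) * x := by
      rw [mul_add, mul_one]
    rw [h7, h8] at h6
    exact (add_left_cancel h6).symm
  have hxx : x * x = 0 := hx.1.1
  have hyy : y * y = 0 := hy.1.1
  have h9 : (1 + x) * (1 - y) * (1 + x) * x = x - y * x - x * (y * x) := by
    have : (1 + x) * (1 - y) * (1 + x) * x = x - y * x - x * (y * x) + (x * x + x * x + x * (x * x) - y * (x * x) - x * (y * (x * x))) := by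
      noncomm_ring
    rw [this, hxx]; simp
  have hxyx : x * (y * x) = x := by
    ext v
    have h10 : (x - x * (y * x)) v ∈ LinearMap.range x ⊓ LinearMap.range y := by
      constructor
      · exact ⟨v - (y * x) v, by rw [map_sub]; rfl⟩
      · have h11 : (x - y * x - x * (y * x)) v ∈ LinearMap.range y := by
          rw [← h9, hz2, hyr]
          exact hz.2.1 ⟨_, rfl⟩
        have h12 : (x - x * (y * x)) v = (x - y * x - x * (y * x)) v + (y * x) v := by
          simp only [LinearMap.sub_apply]; abel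
        rw [h12]
        exact add_mem h11 ⟨x v, rfl⟩
    have h13 : (x - x * (y * x)) v ∈ LinearMap.range x ⊓ LinearMap.ker y :=
      ⟨h10.1, range_le_ker_of_sq hyy h10.2⟩
    rw [hs1, Submodule.mem_bot, LinearMap.sub_apply, sub_eq_zero] at h13
    exact h13.symm
  have hyxy : y * (x * y) = y := by
    ext v
    have h10 : (y * (x * y) - y) v ∈ LinearMap.range y ⊓ LinearMap.ker x := by
      constructor
      · exact ⟨(x * y) v - v, by rw [map_sub]; rfl⟩
      · change x ((y * (x * y) - y) v) = 0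
        rw [LinearMap.sub_apply, map_sub, sub_eq_zero]
        exact ap hxyx (y v)
    rw [hs2, Submodule.mem_bot, LinearMap.sub_apply, sub_eq_zero] at h10
    exact h10
  apply Units.ext
  rw [Units.val_mul, Units.val_mul, Units.val_mul, Units.val_mul, hx1, hx2, hy1, hy2]
  have e1 : (1 - y) * (1 + x) * (1 + y) = 1 + x + x * y - y * x - y * (x * y) - y * y := by noncomm_ring
  have e2 : (1 - x) * (1 - y) * (1 + x) = 1 - y - y * x + x * y + x * (y * x) - x * x := by noncomm_ring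
  rw [e1, e2, hxyx, hyxy, hxx, hyy]
  abel

/-- operators supported on the range of an idempotent -/
theorem sup_fix {e : M →ₗ[k] M} (hA : ∀ g ∈ A, (g : M →ₗ[k] M) * (1 - e) = 1 - e ∧ (1 - e) * (g : M →ₗ[k] M) = 1 - e)
    (hB : ∀ g ∈ B, (g : M →ₗ[k] M) * (1 - e) = 1 - e ∧ (1 - e) * (g : M →ₗ[k] M) = 1 - e) :
    ∀ g ∈ A ⊔ B, (g : M →ₗ[k] M) * (1 - e) = 1 - e ∧ (1 - e) * (g : M →ₗ[k] M) = 1 - e := by
  intro g hg
  rw [Subgroup.sup_eq_closure] at hg
  induction hg using Subgroup.closure_induction with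
  | mem x hx => rcases hx with hx | hx; exacts [hA x hx, hB x hx]
  | one => simp
  | mul x y _ _ hx hy =>
    rw [Units.val_mul]
    exact ⟨by rw [mul_assoc, hy.1, hx.1], by rw [← mul_assoc, hx.2, hy.2]⟩
  | inv x _ hx =>
    constructor
    · conv_lhs => rw [← hx.1]
      rw [← mul_assoc, Units.inv_mul, one_mul]
    · conv_lhs => rw [← hx.2]
      rw [mul_assoc, Units.mul_inv, mul_one]

omit [FiniteDimensional k M] in
theorem Bar.fix_left {b x : M →ₗ[k] M} (h : Bar n b) (hx : x ∈ AA G n) {g : LinearMap.GeneralLinearGroup k M}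
    (hg : (g : M →ₗ[k] M) = 1 + x) : (g : M →ₗ[k] M) * (1 - (n * b + b * n)) = 1 - (n * b + b * n) ∧
      (1 - (n * b + b * n)) * (g : M →ₗ[k] M) = 1 - (n * b + b * n) := by
  have h1 := h.ex hx.2.1
  have h2 := h.xe hx.2.2
  rw [hg]
  constructor
  · rw [add_mul, one_mul, mul_sub, mul_one, h2, sub_self, add_zero]
  · rw [mul_add, mul_one, sub_mul, one_mul, h1, sub_self, add_zero]

omit [FiniteDimensional k M] in
theorem AA.of_eq {b : M →ₗ[k] M} {x : M →ₗ[k] M} (hx : x ∈ AA G m) (h1 : LinearMap.range b = LinearMap.range m)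
    (h2 : LinearMap.ker b = LinearMap.ker m) : x ∈ AA G b := by rwa [AA.congr h1 h2]

/-- the decomposition and the involution -/
theorem invol (h2k : (2 : k) ≠ 0) (h3k : Nat.card k ≠ 3) (hmin : MinR G d)
    (hn : N1 G d n) (hm : N1 G d m) (hA : IsE G n A) (hB : IsE G m B) (h : Op n m) :
    ∃ b ∈ AA G m, Bar n b ∧ fixedSubmodule (A ⊔ B) = LinearMap.ker (n * b + b * n) ∧
      commutatorSubmodule (A ⊔ B) = LinearMap.range (n * b + b * n) ∧
      (∀ g ∈ A ⊔ B, (g : M →ₗ[k] M) * (1 - (n * b + b * n)) = 1 - (n * b + b * n) ∧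
        (1 - (n * b + b * n)) * (g : M →ₗ[k] M) = 1 - (n * b + b * n)) ∧
      ∃ i : LinearMap.GeneralLinearGroup k M, i ∈ A ⊔ B ∧ (i : M →ₗ[k] M) = 1 - (2 : k) • (n * b + b * n) := by
  obtain ⟨b, hb, h1, h2⟩ := op_bar h2k h3k hmin hn hm h
  have hbar : Bar n b := bar_of hn hm hb h1 h2
  have hb0 : b ≠ 0 := by
    rintro rfl
    apply hn.2.1
    rw [← h1]; simp
  obtain ⟨hbr, hbk⟩ := AA.eq hmin hm hb hb0
  have hAB : ∀ g ∈ A ⊔ B, (g : M →ₗ[k] M) * (1 - (n * b + b * n)) = 1 - (n * b + b * n) ∧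
        (1 - (n * b + b * n)) * (g : M →ₗ[k] M) = 1 - (n * b + b * n) := by
    apply sup_fix
    · intro g hg
      obtain ⟨x, hx, hx1, -⟩ := hA.val hg
      exact hbar.fix_left hx hx1
    · intro g hg
      obtain ⟨x, hx, hx1, -⟩ := hB.val hg
      have := hbar.symm.fix_left (AA.of_eq hx hbr hbk) hx1
      rwa [add_comm] at this
  obtain ⟨g, hg, hg1, hg2⟩ := hA.exists (AA.self hn.1)
  obtain ⟨g', hg', hg1', hg2'⟩ := hB.exists hb
  have hgs : g ∈ A ⊔ B := Subgroup.mem_sup_left hg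
  have hgs' : g' ∈ A ⊔ B := Subgroup.mem_sup_right hg'
  have en1 : (g : M →ₗ[k] M) - 1 = n := by rw [hg1]; abel
  have eb1 : (g' : M →ₗ[k] M) - 1 = b := by rw [hg1']; abel
  refine ⟨b, hb, hbar, ?_, ?_, hAB, ?_⟩
  · apply le_antisymm
    · intro v hv
      simp only [fixedSubmodule, Submodule.mem_iInf] at hv
      have hv1 := hv g hgs
      have hv2 := hv g' hgs'
      rw [en1, LinearMap.mem_ker] at hv1
      rw [eb1, LinearMap.mem_ker] at hv2
      rw [LinearMap.mem_ker]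
      change n (b v) + b (n v) = 0
      rw [hv1, hv2, map_zero, map_zero, add_zero]
    · intro v hv
      rw [LinearMap.mem_ker] at hv
      simp only [fixedSubmodule, Submodule.mem_iInf]
      intro x hx
      have h5 := ap (hAB x hx).1 v
      change (x : M →ₗ[k] M) (v - (n * b + b * n) v) = v - (n * b + b * n) v at h5
      rw [hv, sub_zero] at h5
      rw [LinearMap.mem_ker, LinearMap.sub_apply, h5]
      exact sub_self v
  · apply le_antisymm
    · rw [commutatorSubmodule, iSup₂_le_iff]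
      rintro x hx _ ⟨v, rfl⟩
      have h5 := ap (hAB x hx).2 v
      change (x : M →ₗ[k] M) v - (n * b + b * n) ((x : M →ₗ[k] M) v) = v - (n * b + b * n) v at h5
      refine ⟨(x : M →ₗ[k] M) v - v, ?_⟩
      rw [map_sub, LinearMap.sub_apply]
      change _ = (x : M →ₗ[k] M) v - v
      have h6 : (x : M →ₗ[k] M) v = v - (n * b + b * n) v + (n * b + b * n) ((x : M →ₗ[k] M) v) := by rw [← h5]; abel
      conv_rhs => rw [h6]
      abel
    · rintro _ ⟨v, rfl⟩
      rw [commutatorSubmodule]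
      change n (b v) + b (n v) ∈ _
      refine add_mem ?_ ?_
      · exact Submodule.mem_iSup_of_mem g (Submodule.mem_iSup_of_mem hgs ⟨b v, by rw [en1]⟩)
      · exact Submodule.mem_iSup_of_mem g' (Submodule.mem_iSup_of_mem hgs' ⟨n v, by rw [eb1]⟩)
  · refine ⟨(g * g'⁻¹ * g) * (g * g'⁻¹ * g), ?_, ?_⟩
    · have : g * g'⁻¹ * g ∈ A ⊔ B := mul_mem (mul_mem hgs (inv_mem hgs')) hgs
      exact mul_mem this this
    · rw [Units.val_mul, Units.val_mul, Units.val_mul, hg1, hg2']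
      exact hbar.w_sq

end Cfsg.Agent.H3.QP
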