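import Mathlib
import Cfsg.Agent.H3.QPSet

/-!
Quadratic pairs: commutators of two root subgroups, dimension count.
-/

set_option autoImplicit false

namespace Cfsg.Agent.H3.QP

open scoped commutatorElement
open Cfsg.Agent.H28

universe u v

variable {k : Type u} [Field k] {M : Type v} [AddCommGroup M] [Module k M] [FiniteDimensional k M]
variable {G : Subgroup (LinearMap.GeneralLinearGroup k M)} {d : ℕ} {n m e w : M →ₗ[k] M}
variable {A B : Subgroup (LinearMap.GeneralLinearGroup k M)}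

open LinearMap (range ker)

theorem rk_mul_add (x y : M →ₗ[k] M) :
    rk (x * y) + Module.finrank k (range y ⊓ ker x : Submodule k M) = rk y := by
  have h := LinearMap.finrank_range_add_finrank_ker (x.domRestrict (range y))
  have h1 : LinearMap.range (x.domRestrict (range y)) = range (x * y) := by
    rw [LinearMap.range_domRestrict]
    ext v
    constructor
    · rintro ⟨_, ⟨u, rfl⟩, rfl⟩; exact ⟨u, rfl⟩
    · rintro ⟨u, rfl⟩; exact ⟨y u, ⟨u, rfl⟩, rfl⟩
  have h2 : Module.finrank k (LinearMap.ker (x.domRestrict (range y))) = Module.finrank k (range y ⊓ ker x : Submodule k M) := by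
    rw [LinearMap.ker_domRestrict, ← Submodule.finrank_map_subtype_eq (range y), Submodule.map_comap_subtype]
  unfold rk
  rw [← h1, ← h2]
  exact h

theorem rk_eq (hmin : MinR G d) (hn : N1 G d n) : rk n = d := le_antisymm hn.2.2 (hmin _ hn.1 hn.2.1)

theorem d_pos (hmin : MinR G d) (hn : N1 G d n) : 0 < d := by
  rw [← rk_eq hmin hn]
  unfold rk
  rw [Module.finrank_pos_iff_exists_ne_zero]
  by_contra hcon
  push Not at hcon
  apply hn.2.1
  ext v
  exact congrArg Subtype.val (hcon ⟨n v, v, rfl⟩)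

/-- the data of a noncommuting unipotent pair of spaces -/
structure CS (n m : M →ₗ[k] M) (d : ℕ) : Prop where
  sum : Module.finrank k (range n ⊓ ker m : Submodule k M) + Module.finrank k (range m ⊓ ker n : Submodule k M) = d
  disj : (range n ⊓ ker m) ⊓ (range m ⊓ ker n) = ⊥

theorem CS.symm (h : CS n m d) : CS m n d := ⟨by rw [add_comm]; exact h.sum, by rw [inf_comm]; exact h.disj⟩

theorem rk_add_le (x y : M →ₗ[k] M) : range (x - y) ≤ range x ⊔ range y := by
  rintro _ ⟨v, rfl⟩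
  rw [LinearMap.sub_apply]
  exact sub_mem (Submodule.mem_sup_left ⟨v, rfl⟩) (Submodule.mem_sup_right ⟨v, rfl⟩)

/-- the spaces of a noncommuting pair -/
theorem CS.of (hmin : MinR G d) (hn : N1 G d n) (hm : N1 G d m) (h1 : n * (m * n) = 0) (h2 : m * (n * m) = 0)
    (hne : n * m - m * n ≠ 0) : CS n m d := by
  have ht := hmin _ (hn.1.comm2 hm.1 h1 h2) hne
  have a1 := rk_mul_add n m
  have a2 := rk_mul_add m n
  rw [rk_eq hmin hn] at a2
  rw [rk_eq hmin hm] at a1
  have b1 : range (n * m) ≤ range n ⊓ ker m := by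
    rintro _ ⟨v, rfl⟩
    exact ⟨⟨m v, rfl⟩, ap h2 v⟩
  have b2 : range (m * n) ≤ range m ⊓ ker n := by
    rintro _ ⟨v, rfl⟩
    exact ⟨⟨n v, rfl⟩, ap h1 v⟩
  have c1 : rk (n * m) ≤ _ := Submodule.finrank_mono b1
  have c2 : rk (m * n) ≤ _ := Submodule.finrank_mono b2
  have c3 : rk (n * m - m * n) ≤ Module.finrank k (range (n * m) ⊔ range (m * n) : Submodule k M) :=
    Submodule.finrank_mono (rk_add_le _ _)
  have c4 : Module.finrank k (range (n * m) ⊔ range (m * n) : Submodule k M) +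
      Module.finrank k (range (n * m) ⊓ range (m * n) : Submodule k M) = rk (n * m) + rk (m * n) :=
    Submodule.finrank_sup_add_finrank_inf_eq _ _
  have e1 : range (n * m) = range n ⊓ ker m := Submodule.eq_of_le_of_finrank_le b1 (by change _ ≤ rk (n * m); omega)
  have e2 : range (m * n) = range m ⊓ ker n := Submodule.eq_of_le_of_finrank_le b2 (by change _ ≤ rk (m * n); omega)
  refine ⟨by omega, ?_⟩
  rw [← e1, ← e2]
  exact Submodule.finrank_eq_zero.1 (by omega)

theorem CS.congr (h : CS n m d) {x y : M →ₗ[k] M} (h1 : range x = range n) (h2 : ker x = ker n) (h3 : range y = range m)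
    (h4 : ker y = ker m) : CS x y d := by
  refine ⟨?_, ?_⟩
  · rw [h1, h2, h3, h4]; exact h.sum
  · rw [h1, h2, h3, h4]; exact h.disj

/-- consequences -/
theorem CS.rangeL (h : CS n m d) (hn : rk n = d) (hm : rk m = d) (h2 : m * (n * m) = 0) : range (n * m) = range n ⊓ ker m := by
  have b1 : range (n * m) ≤ range n ⊓ ker m := by
    rintro _ ⟨v, rfl⟩
    exact ⟨⟨m v, rfl⟩, ap h2 v⟩
  have a1 := rk_mul_add n m
  have := h.sum
  exact Submodule.eq_of_le_of_finrank_le b1 (by change _ ≤ rk (n * m); omega)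

theorem CS.rangeR (h : CS n m d) (hn : rk n = d) (hm : rk m = d) (h1 : n * (m * n) = 0) : range (m * n) = range m ⊓ ker n :=
  h.symm.rangeL hm hn h1

theorem CS.range_t (h : CS n m d) (hn : rk n = d) (hm : rk m = d)
    (h1 : n * (m * n) = 0) (h2 : m * (n * m) = 0) (ht : d ≤ rk (n * m - m * n)) :
    range (n * m - m * n) = (range n ⊓ ker m) ⊔ (range m ⊓ ker n) ∧
      ker (n * m - m * n) = (range n ⊔ ker m) ⊓ (range m ⊔ ker n) := by
  have e1 := h.rangeL hn hm h2
  have e2 := h.rangeR hn hm h1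
  have k1 : ker (n * m) = range n ⊔ ker m := by
    apply le_antisymm
    · intro v hv
      have hv' : m v ∈ range m ⊓ ker n := ⟨⟨v, rfl⟩, hv⟩
      rw [← e2] at hv'
      obtain ⟨u, hu⟩ := hv'
      rw [Submodule.mem_sup]
      refine ⟨n u, ⟨u, rfl⟩, v - n u, ?_, by abel⟩
      rw [LinearMap.mem_ker, map_sub, sub_eq_zero]
      exact hu.symm
    · rw [sup_le_iff]
      constructor
      · rintro _ ⟨u, rfl⟩; exact ap h1 u
      · intro v hv
        change n (m v) = 0
        rw [LinearMap.mem_ker.1 hv, map_zero]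
  have k2 : ker (m * n) = range m ⊔ ker n := by
    apply le_antisymm
    · intro v hv
      have hv' : n v ∈ range n ⊓ ker m := ⟨⟨v, rfl⟩, hv⟩
      rw [← e1] at hv'
      obtain ⟨u, hu⟩ := hv'
      rw [Submodule.mem_sup]
      refine ⟨m u, ⟨u, rfl⟩, v - m u, ?_, by abel⟩
      rw [LinearMap.mem_ker, map_sub, sub_eq_zero]
      exact hu.symm
    · rw [sup_le_iff]
      constructor
      · rintro _ ⟨u, rfl⟩; exact ap h2 u
      · intro v hv
        change m (n v) = 0
        rw [LinearMap.mem_ker.1 hv, map_zero]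
  have kt : ker (n * m - m * n) = ker (n * m) ⊓ ker (m * n) := by
    apply le_antisymm
    · intro v hv
      rw [LinearMap.mem_ker, LinearMap.sub_apply, sub_eq_zero] at hv
      have h3 : (n * m) v ∈ (range n ⊓ ker m) ⊓ (range m ⊓ ker n) := by
        rw [← e1, ← e2]
        exact ⟨⟨v, rfl⟩, ⟨v, hv.symm⟩⟩
      rw [h.disj] at h3
      have h4 : (n * m) v = 0 := h3
      exact ⟨h4, by rw [SetLike.mem_coe, LinearMap.mem_ker, ← hv, h4]⟩
    · rintro v ⟨hv1, hv2⟩
      rw [LinearMap.mem_ker, LinearMap.sub_apply, LinearMap.mem_ker.1 hv1, LinearMap.mem_ker.1 hv2, sub_zero]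
  refine ⟨?_, by rw [kt, k1, k2]⟩
  apply le_antisymm
  · rw [← e1, ← e2]; exact rk_add_le _ _
  · have hsup : range (n * m - m * n) = range (n * m) ⊔ range (m * n) := by
      refine Submodule.eq_of_le_of_finrank_le (rk_add_le _ _) ?_
      have c4 : Module.finrank k (range (n * m) ⊔ range (m * n) : Submodule k M) +
          Module.finrank k (range (n * m) ⊓ range (m * n) : Submodule k M) = rk (n * m) + rk (m * n) :=
        Submodule.finrank_sup_add_finrank_inf_eq _ _
      have c5 := h.sum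
      rw [← e1, ← e2] at c5
      change rk (n * m) + rk (m * n) = d at c5
      change _ ≤ rk (n * m - m * n)
      omega
    rw [hsup, e1, e2]

theorem CS.ne (h : CS n m d) (hd : 0 < d) (hn : rk n = d) (hm : rk m = d) (h1 : n * (m * n) = 0) (h2 : m * (n * m) = 0) :
    n * m - m * n ≠ 0 := by
  intro h0
  rw [sub_eq_zero] at h0
  have e1 := h.rangeL hn hm h2
  have e2 := h.rangeR hn hm h1
  have h3 := h.disj
  rw [← e1, ← e2, h0, inf_idem] at h3
  have h4 := h.sum
  rw [← e1, ← e2, h0, h3] at h4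
  simp at h4
  omega

theorem nonop_zero {x y : M →ₗ[k] M} (h : ¬ Op x y) : x * (y * x) = 0 ∧ y * (x * y) = 0 := by
  unfold Op at h; exact not_not.1 h

/-- if one pair commutes then all do -/
theorem comm_all (h2k : (2 : k) ≠ 0) (h3k : Nat.card k ≠ 3) (hmin : MinR G d) (hn : N1 G d n) (hm : N1 G d m)
    (hnm : n * m = m * n) {x y : M →ₗ[k] M} (hx : x ∈ AA G n) (hy : y ∈ AA G m) : x * y = y * x := by
  by_contra hne
  have hx0 : x ≠ 0 := by rintro rfl; exact hne (by simp)
  have hy0 : y ≠ 0 := by rintro rfl; exact hne (by simp)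
  obtain ⟨a1, a2⟩ := AA.eq hmin hn hx hx0
  obtain ⟨b1, b2⟩ := AA.eq hmin hm hy hy0
  have h1 : n * (m * n) = 0 := by rw [← hnm, ← mul_assoc, hn.1.1, zero_mul]
  have h2 : m * (n * m) = 0 := by rw [hnm, ← mul_assoc, hm.1.1, zero_mul]
  have hop : ¬ Op n m := fun h => h ⟨h1, h2⟩
  have hop' : ¬ Op x y := fun h => hop (op_congr' h2k h3k hmin hn hm hx hy hx0 hy0 h)
  obtain ⟨h3, h4⟩ := nonop_zero hop'
  have hx' := AA.n1 hn hx hx0
  have hy' := AA.n1 hm hy hy0
  have hcs := CS.of hmin hx' hy' h3 h4 (fun h => hne (sub_eq_zero.1 h))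
  have hcs' := hcs.congr a1.symm a2.symm b1.symm b2.symm
  exact hcs'.ne (d_pos hmin hn) (rk_eq hmin hn) (rk_eq hmin hm) h1 h2 (sub_eq_zero.2 hnm)

theorem comm_bot {G : Type*} [Group G] {A B : Subgroup G} (h : ∀ a ∈ A, ∀ b ∈ B, a * b = b * a) : ⁅A, B⁆ = ⊥ := by
  rw [eq_bot_iff, Subgroup.commutator_le]
  intro a ha b hb
  rw [Subgroup.mem_bot, commutatorElement_eq_one_iff_mul_comm]
  exact h a ha b hb

theorem comm_of_one {a b : LinearMap.GeneralLinearGroup k M} {x y : M →ₗ[k] M} (ha : (a : M →ₗ[k] M) = 1 + x)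
    (hb : (b : M →ₗ[k] M) = 1 + y) : a * b = b * a ↔ x * y = y * x := by
  rw [Units.ext_iff, Units.val_mul, Units.val_mul, ha, hb]
  have e1 : (1 + x) * (1 + y) = (1 + x + y) + x * y := by noncomm_ring
  have e2 : (1 + y) * (1 + x) = (1 + x + y) + y * x := by noncomm_ring
  rw [e1, e2]
  exact add_right_inj _

/-- two root subgroups commute as soon as two nontrivial elements do -/
theorem comm_bot_of (h2k : (2 : k) ≠ 0) (h3k : Nat.card k ≠ 3) (hmin : MinR G d) (hn : N1 G d n) (hm : N1 G d m)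
    (hA : IsE G n A) (hB : IsE G m B) {a b : LinearMap.GeneralLinearGroup k M} (ha : a ∈ A) (hb : b ∈ B) (ha1 : a ≠ 1)
    (hb1 : b ≠ 1) (hab : a * b = b * a) : ⁅A, B⁆ = ⊥ := by
  obtain ⟨x, hx, hx1, -⟩ := hA.val ha
  obtain ⟨y, hy, hy1, -⟩ := hB.val hb
  have hx0 := (val_ne_one hx1).1 ha1
  have hy0 := (val_ne_one hy1).1 hb1
  obtain ⟨a1, a2⟩ := AA.eq hmin hn hx hx0
  obtain ⟨b1, b2⟩ := AA.eq hmin hm hy hy0
  have hxy := (comm_of_one hx1 hy1).1 hab
  apply comm_bot
  intro a' ha' b' hb'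
  obtain ⟨x', hx', hx1', -⟩ := hA.val ha'
  obtain ⟨y', hy', hy1', -⟩ := hB.val hb'
  rw [comm_of_one hx1' hy1']
  exact comm_all h2k h3k hmin (AA.n1 hn hx hx0) (AA.n1 hm hy hy0) hxy (by rw [AA.congr a1 a2]; exact hx') (by rw [AA.congr b1 b2]; exact hy')

theorem comm_bot_of_norm (h2k : (2 : k) ≠ 0) (h3k : Nat.card k ≠ 3) (hmin : MinR G d) (hn : N1 G d n) (hm : N1 G d m)
    (hA : IsE G n A) (hB : IsE G m B) (h : A ⊓ Subgroup.normalizer (B : Set (LinearMap.GeneralLinearGroup k M)) ≠ ⊥) :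
    ⁅A, B⁆ = ⊥ := by
  obtain ⟨⟨a, ha⟩, ha1'⟩ := (Subgroup.ne_bot_iff_exists_ne_one).1 h
  have ha1 : a ≠ 1 := fun h => ha1' (Subtype.ext h)
  obtain ⟨x, hx, hx1, hx2⟩ := hA.val ha.1
  have hx0 := (val_ne_one hx1).1 ha1
  have hop : ¬ Op n m := by
    intro hop
    have := rankOne_inf_normalizer (rankOne h2k h3k hmin hn hm hA hB hop)
    exact h this
  obtain ⟨b, hb, hb1, hb2⟩ := hB.exists (AA.self hm.1)
  have hbn1 : b ≠ 1 := (val_ne_one hb1).2 hm.2.1
  have hop' : ¬ Op x m := fun h => hop (op_congr' h2k h3k hmin hn hm hx (AA.self hm.1) hx0 hm.2.1 h)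
  obtain ⟨h3, h4⟩ := nonop_zero hop'
  -- the commutator lies in `B`
  have hmem : a * b * a⁻¹ ∈ B := (Subgroup.mem_normalizer_iff.1 ha.2 b).1 hb
  have hval : ((a * b * a⁻¹ : LinearMap.GeneralLinearGroup k M) : M →ₗ[k] M) - 1 = m + (x * m - m * x) := by
    rw [Units.val_mul, Units.val_mul, hx1, hb1, hx2]
    have : (1 + x) * (1 + m) * (1 - x) - 1 = m + (x * m - m * x) - x * x - x * (m * x) := by noncomm_ring
    rw [this, hx.1.1, h3]; abel
  have h5 := (hB _).1 hmem
  rw [hval] at h5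
  have h6 : x * m - m * x ∈ AA G m := by
    have := AA.add hm.1.1 h5 (AA.neg (AA.self hm.1))
    have e1 : m + (x * m - m * x) + -m = x * m - m * x := by abel
    rwa [e1] at this
  by_cases h7 : x * m - m * x = 0
  · exact comm_bot_of h2k h3k hmin hn hm hA hB ha.1 hb ha1 hbn1 ((comm_of_one hx1 hb1).2 (sub_eq_zero.1 h7))
  · obtain ⟨g, hg, hg1, -⟩ := hB.exists h6
    refine comm_bot_of h2k h3k hmin hn hm hA hB ha.1 hg ha1 ((val_ne_one hg1).2 h7) ((comm_of_one hx1 hg1).2 ?_)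
    rw [mul_sub, sub_mul, ← mul_assoc x x m, hx.1.1, h3, mul_assoc m x x, hx.1.1, mul_assoc x m x, h3]; simp

end Cfsg.Agent.H3.QP
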