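import Mathlib
import Cfsg.Agent.H3.QPComm
import Cfsg.Agent.H3.QPBS3

/-!
Quadratic pairs: every root subgroup has an opposite conjugate.
-/

set_option autoImplicit false

namespace Cfsg.Agent.H3.QP

open scoped commutatorElement
open Cfsg.Agent.H28

universe u v

variable {k : Type u} [Field k] {M : Type v} [AddCommGroup M] [Module k M] [FiniteDimensional k M]
variable {G : Subgroup (LinearMap.GeneralLinearGroup k M)} {d : ℕ} {n m e w : M →ₗ[k] M}
variable {A B : Subgroup (LinearMap.GeneralLinearGroup k M)}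

open LinearMap (range ker)

theorem irr_nil (hG : IsIrreducibleFor G) {J : Submodule k (M →ₗ[k] M)} (hJ : Nil J)
    (hinv : ∀ g ∈ G, ∀ x ∈ J, (g : M →ₗ[k] M) * x * ((g⁻¹ : LinearMap.GeneralLinearGroup k M) : M →ₗ[k] M) ∈ J) : J = ⊥ := by
  obtain ⟨⟨m₀, hm₀⟩, hirr⟩ := hG
  let V : Submodule k M := {
    carrier := {v | ∀ x ∈ J, x v = 0}
    zero_mem' := fun x _ => map_zero x
    add_mem' := fun {a b} ha hb x hx => by rw [map_add, ha x hx, hb x hx, add_zero]
    smul_mem' := fun c a ha x hx => by rw [map_smul, ha x hx, smul_zero] }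
  have hV : ∀ g ∈ G, ∀ v ∈ V, (g : M →ₗ[k] M) v ∈ V := by
    intro g hg v hv x hx
    have h1 := hinv g⁻¹ (inv_mem hg) x hx
    rw [inv_inv] at h1
    have h2 := hv _ h1
    change ((g⁻¹ : LinearMap.GeneralLinearGroup k M) : M →ₗ[k] M) (x ((g : M →ₗ[k] M) v)) = 0 at h2
    have h3 := congrArg (g : M →ₗ[k] M) h2
    rw [map_zero] at h3
    rw [← h3]
    exact (ap (Units.mul_inv g) _).symm
  rcases hirr V hV with h | h
  · exfalso
    -- a nonzero fixed vector
    classical
    have hex : ∃ r : ℕ, J ^ r = ⊥ := hJ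
    have h0 := Nat.find_spec hex
    have hpos : Nat.find hex ≠ 0 := by
      intro h1
      rw [h1, pow_zero] at h0
      have h2 : (1 : M →ₗ[k] M) ∈ (1 : Submodule k (M →ₗ[k] M)) := Submodule.one_le.1 le_rfl
      rw [h0, Submodule.mem_bot] at h2
      exact hm₀ (ap h2 m₀)
    obtain ⟨r, hr⟩ := Nat.exists_eq_succ_of_ne_zero hpos
    have h1 : J ^ r ≠ ⊥ := Nat.find_min hex (by omega)
    rw [hr, Nat.succ_eq_add_one, pow_succ'] at h0
    obtain ⟨y, hy, hy0⟩ := Submodule.exists_mem_ne_zero_of_ne_bot h1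
    apply hy0
    ext v
    have h2 : y v ∈ V := by
      intro x hx
      have h3 : x * y ∈ J * J ^ r := Submodule.mul_mem_mul hx hy
      rw [h0, Submodule.mem_bot] at h3
      exact ap h3 v
    rw [h] at h2
    exact h2
  · rw [eq_bot_iff]
    intro x hx
    rw [Submodule.mem_bot]
    ext v
    have : v ∈ V := by rw [h]; trivial
    exact this x hx

/-- an opposite conjugate -/
theorem exists_opp (hG : IsIrreducibleFor G) (h2k : (2 : k) ≠ 0) (h3k : Nat.card k ≠ 3) (hd : QD G d)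
    (hn : N1 G d n) : ∃ g ∈ G, Op n ((g : M →ₗ[k] M) * n * ((g⁻¹ : LinearMap.GeneralLinearGroup k M) : M →ₗ[k] M)) := by
  by_contra hcon
  push Not at hcon
  obtain ⟨σ, hσ, hσn⟩ := hd.exists_min hn
  have hA : IsE G n (sameActionSubgroup G σ) := by
    intro g
    have := mem_E hd hσ g
    rw [hσn] at this
    exact this
  set A := sameActionSubgroup G σ
  let W : Set (Subgroup (LinearMap.GeneralLinearGroup k M)) := {B | ∃ g ∈ G, B = conjBy A g}
  have hWG : ∀ B ∈ W, B ≤ G := by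
    rintro _ ⟨g, hg, rfl⟩
    exact (hA.conj hg).le
  have hWW : ∀ B ∈ W, ∀ C ∈ W, IsUnipotentOn (B ⊔ C) := by
    rintro _ ⟨g, hg, rfl⟩ _ ⟨h, hh, rfl⟩
    refine nonop_unip h2k h3k hd.min (hn.conj hg) (hn.conj hh) (hA.conj hg) (hA.conj hh) ?_
    intro hop
    apply hcon (g⁻¹ * h) (mul_mem (inv_mem hg) hh)
    intro hz
    apply hop
    have c1 : ∀ x : M →ₗ[k] M, ∀ g : LinearMap.GeneralLinearGroup k M,
        (g : M →ₗ[k] M) * (((g⁻¹ : LinearMap.GeneralLinearGroup k M) : M →ₗ[k] M) * x) = x := by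
      intro x g; rw [← mul_assoc, Units.mul_inv, one_mul]
    have c2 : ∀ x : M →ₗ[k] M, ∀ g : LinearMap.GeneralLinearGroup k M,
        ((g⁻¹ : LinearMap.GeneralLinearGroup k M) : M →ₗ[k] M) * ((g : M →ₗ[k] M) * x) = x := by
      intro x g; rw [← mul_assoc, Units.inv_mul, one_mul]
    simp only [mul_inv_rev, inv_inv, Units.val_mul, mul_assoc, c1, c2] at hz ⊢
    constructor
    · have h1 := congrArg (fun t => (g : M →ₗ[k] M) * t * ((g⁻¹ : LinearMap.GeneralLinearGroup k M) : M →ₗ[k] M)) hz.1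
      simp only [mul_assoc, c1, c2, mul_zero, zero_mul] at h1
      exact h1
    · have h1 := congrArg (fun t => (g : M →ₗ[k] M) * t * ((g⁻¹ : LinearMap.GeneralLinearGroup k M) : M →ₗ[k] M)) hz.2
      simp only [mul_assoc, c1, c2, mul_zero, zero_mul, Units.mul_inv, mul_one] at h1
      exact h1
  have hconj : ∀ B ∈ W, ∀ g ∈ G, conjBy B g ∈ W := by
    rintro _ ⟨g, hg, rfl⟩ h hh
    exact ⟨h * g, mul_mem hh hg, conjBy_conjBy _ _ _⟩
  have hUF := baer_suzuki hWG hWW hconj
  have hbot := irr_nil hG hUF.jsp (by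
    intro g hg x hx
    unfold Jsp at hx
    induction hx using Submodule.span_induction with
    | mem x hx =>
      obtain ⟨h, hh, rfl⟩ := hx
      have h1 : g * h * g⁻¹ ∈ (⨆ B ∈ W, B) := by
        have hle : (⨆ B ∈ W, B) ≤ (⨆ B ∈ W, B).comap (MulAut.conj g).toMonoidHom := by
          refine iSup₂_le (fun B hB => ?_)
          rw [← Subgroup.map_le_iff_le_comap]
          exact le_iSup₂_of_le (f := fun (A : Subgroup (LinearMap.GeneralLinearGroup k M)) (_ : A ∈ W) => A) _ (hconj B hB g hg) le_rfl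
        exact hle hh
      have h2 := mem_Jsp h1
      rw [Units.val_mul, Units.val_mul] at h2
      rw [mul_sub, sub_mul, mul_one, Units.mul_inv]
      exact h2
    | zero => rw [mul_zero, zero_mul]; exact zero_mem _
    | add x y _ _ hx hy => rw [mul_add, add_mul]; exact add_mem hx hy
    | smul c x _ hx => rw [mul_smul_comm, smul_mul_assoc]; exact Submodule.smul_mem _ _ hx)
  obtain ⟨g, hg, hg1, -⟩ := hA.exists (AA.self hn.1)
  have hAW : A ∈ W := ⟨1, one_mem _, (conjBy_one A).symm⟩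
  have h1 : (g : M →ₗ[k] M) - 1 ∈ Jsp (⨆ B ∈ W, B) := jsp_mem hAW hg
  rw [hbot, hg1, Submodule.mem_bot] at h1
  apply hn.2.1
  rw [← h1]; abel

end Cfsg.Agent.H3.QP
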