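import Mathlib
import Cfsg.Agent.H3.QPIrr

/-!
Quadratic pairs: commutators of two root subgroups.
-/

set_option autoImplicit false

namespace Cfsg.Agent.H3.QP

open scoped commutatorElement
open Cfsg.Agent.H28

universe u v

variable {k : Type u} [Field k] {M : Type v} [AddCommGroup M] [Module k M] 
variable {G : Subgroup (LinearMap.GeneralLinearGroup k M)} {d : ℕ} {n m e w t b : M →ₗ[k] M}
variable {A B : Subgroup (LinearMap.GeneralLinearGroup k M)}

open LinearMap (range ker)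

theorem AA.mul_zero {a b x z : M →ₗ[k] M} (h : a * b = 0) (hx : x ∈ AA G a) (hz : z ∈ AA G b) : x * z = 0 := by
  ext v
  obtain ⟨u, hu⟩ := hz.2.1 ⟨v, rfl⟩
  change x (z v) = 0
  rw [← hu]
  exact hx.2.2 (ap h u)

theorem AA.conj {x a : M →ₗ[k] M} (hx : x ∈ AA G a) {g : LinearMap.GeneralLinearGroup k M} (hg : g ∈ G) :
    (g : M →ₗ[k] M) * x * ((g⁻¹ : LinearMap.GeneralLinearGroup k M) : M →ₗ[k] M) ∈
      AA G ((g : M →ₗ[k] M) * a * ((g⁻¹ : LinearMap.GeneralLinearGroup k M) : M →ₗ[k] M)) := by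
  have c1 : ∀ v : M, (g : M →ₗ[k] M) (((g⁻¹ : LinearMap.GeneralLinearGroup k M) : M →ₗ[k] M) v) = v := fun v => ap (Units.mul_inv g) v
  have c2 : ∀ v : M, ((g⁻¹ : LinearMap.GeneralLinearGroup k M) : M →ₗ[k] M) ((g : M →ₗ[k] M) v) = v := fun v => ap (Units.inv_mul g) v
  refine ⟨hx.1.conj hg, ?_, ?_⟩
  · rintro _ ⟨v, rfl⟩
    obtain ⟨u, hu⟩ := hx.2.1 ⟨((g⁻¹ : LinearMap.GeneralLinearGroup k M) : M →ₗ[k] M) v, rfl⟩
    refine ⟨(g : M →ₗ[k] M) u, ?_⟩
    change (g : M →ₗ[k] M) (a (((g⁻¹ : LinearMap.GeneralLinearGroup k M) : M →ₗ[k] M) ((g : M →ₗ[k] M) u))) =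
      (g : M →ₗ[k] M) (x (((g⁻¹ : LinearMap.GeneralLinearGroup k M) : M →ₗ[k] M) v))
    rw [c2, hu]
  · intro v hv
    change (g : M →ₗ[k] M) (a (((g⁻¹ : LinearMap.GeneralLinearGroup k M) : M →ₗ[k] M) v)) = 0 at hv
    change (g : M →ₗ[k] M) (x (((g⁻¹ : LinearMap.GeneralLinearGroup k M) : M →ₗ[k] M) v)) = 0
    have h1 : a (((g⁻¹ : LinearMap.GeneralLinearGroup k M) : M →ₗ[k] M) v) = 0 := by
      rw [← c2 (a (((g⁻¹ : LinearMap.GeneralLinearGroup k M) : M →ₗ[k] M) v)), hv, map_zero]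
    have h2 : x (((g⁻¹ : LinearMap.GeneralLinearGroup k M) : M →ₗ[k] M) v) = 0 := hx.2.2 h1
    rw [h2, map_zero]

theorem t_ann (hn : n * n = 0) (hm : m * m = 0) (h1 : n * (m * n) = 0) (h2 : m * (n * m) = 0) :
    n * (n * m - m * n) = 0 ∧ (n * m - m * n) * n = 0 ∧ m * (n * m - m * n) = 0 ∧ (n * m - m * n) * m = 0 := by
  refine ⟨?_, ?_, ?_, ?_⟩
  · rw [mul_sub, ← mul_assoc, hn, zero_mul, h1, sub_zero]
  · rw [sub_mul, mul_assoc, h1, mul_assoc, hn, mul_zero, sub_zero]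
  · rw [mul_sub, h2, ← mul_assoc, hm, zero_mul, sub_zero]
  · rw [sub_mul, mul_assoc, hm, mul_zero, mul_assoc, h2, sub_zero]

section fd
variable [FiniteDimensional k M]

theorem t_N1 (hmin : MinR G d) (hn : N1 G d n) (hm : N1 G d m) (hop : ¬ Op n m)
    (hne : n * m - m * n ≠ 0) : N1 G d (n * m - m * n) := by
  obtain ⟨h1, h2⟩ := nonop_zero hop
  have hNN := hn.1.comm2 hm.1 h1 h2
  have cs := CS.of hmin hn hm h1 h2 hne
  refine ⟨hNN, hne, ?_⟩
  have hr := (cs.range_t (rk_eq hmin hn) (rk_eq hmin hm) h1 h2 (hmin _ hNN hne)).1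
  unfold rk
  rw [hr]
  have h3 := Submodule.finrank_sup_add_finrank_inf_eq (range n ⊓ ker m) (range m ⊓ ker n)
  have h4 := cs.sum
  omega

theorem comm_AA (h2k : (2 : k) ≠ 0) (h3k : Nat.card k ≠ 3) (hmin : MinR G d) (hn : N1 G d n) (hm : N1 G d m) (hop : ¬ Op n m)
    (hne : n * m - m * n ≠ 0) {x y : M →ₗ[k] M} (hx : x ∈ AA G n) (hy : y ∈ AA G m) (hx0 : x ≠ 0) (hy0 : y ≠ 0) :
    x * y - y * x ∈ AA G (n * m - m * n) ∧ x * y - y * x ≠ 0 := by
  obtain ⟨h1, h2⟩ := nonop_zero hop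
  have hop' : ¬ Op x y := fun h => hop (op_congr' h2k h3k hmin hn hm hx hy hx0 hy0 h)
  obtain ⟨h3, h4⟩ := nonop_zero hop'
  obtain ⟨a1, a2⟩ := AA.eq hmin hn hx hx0
  obtain ⟨b1, b2⟩ := AA.eq hmin hm hy hy0
  have hx' := AA.n1 hn hx hx0
  have hy' := AA.n1 hm hy hy0
  have cs := CS.of hmin hn hm h1 h2 hne
  have cs' := cs.congr a1 a2 b1 b2
  have hne' := cs'.ne (d_pos hmin hn) (rk_eq hmin hx') (rk_eq hmin hy') h3 h4
  have hNN := hx'.1.comm2 hy'.1 h3 h4
  obtain ⟨r1, r2⟩ := cs.range_t (rk_eq hmin hn) (rk_eq hmin hm) h1 h2 (hmin _ (hn.1.comm2 hm.1 h1 h2) hne)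
  obtain ⟨r3, r4⟩ := cs'.range_t (rk_eq hmin hx') (rk_eq hmin hy') h3 h4 (hmin _ hNN hne')
  refine ⟨⟨hNN, ?_, ?_⟩, hne'⟩
  · rw [r1, r3, a1, a2, b1, b2]
  · rw [r2, r4, a1, a2, b1, b2]

theorem comm_AA' (h2k : (2 : k) ≠ 0) (h3k : Nat.card k ≠ 3) (hmin : MinR G d) (hn : N1 G d n) (hm : N1 G d m) (hop : ¬ Op n m)
    (hne : n * m - m * n ≠ 0) {x y : M →ₗ[k] M} (hx : x ∈ AA G n) (hy : y ∈ AA G m) :
    x * y - y * x ∈ AA G (n * m - m * n) := by
  have hz := AA.zero (t_N1 hmin hn hm hop hne).1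
  by_cases hx0 : x = 0
  · rw [hx0, zero_mul, MulZeroClass.mul_zero, sub_zero]; exact hz
  by_cases hy0 : y = 0
  · rw [hy0, zero_mul, MulZeroClass.mul_zero, sub_zero]; exact hz
  exact (comm_AA h2k h3k hmin hn hm hop hne hx hy hx0 hy0).1

theorem nonop_xyx (h2k : (2 : k) ≠ 0) (h3k : Nat.card k ≠ 3) (hmin : MinR G d) (hn : N1 G d n) (hm : N1 G d m) (hop : ¬ Op n m)
    {x y : M →ₗ[k] M} (hx : x ∈ AA G n) (hy : y ∈ AA G m) : x * (y * x) = 0 ∧ y * (x * y) = 0 := by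
  by_cases hx0 : x = 0
  · subst hx0; simp
  by_cases hy0 : y = 0
  · subst hy0; simp
  exact nonop_zero (fun h => hop (op_congr' h2k h3k hmin hn hm hx hy hx0 hy0 h))

/-- the flag of the commutator -/
theorem mem_JJt (h2k : (2 : k) ≠ 0) (h3k : Nat.card k ≠ 3) (hmin : MinR G d) (hn : N1 G d n) (hm : N1 G d m) (hop : ¬ Op n m)
    (hne : n * m - m * n ≠ 0) {x : M →ₗ[k] M} (hx : x ∈ AA G n) : x ∈ JJ (range (n * m - m * n)) (ker (n * m - m * n)) := by
  obtain ⟨h1, h2⟩ := nonop_zero hop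
  obtain ⟨a1, a2, a3, a4⟩ := t_ann hn.1.1 hm.1.1 h1 h2
  have ht := t_N1 hmin hn hm hop hne
  have cs := CS.of hmin hn hm h1 h2 hne
  obtain ⟨r1, r2⟩ := cs.range_t (rk_eq hmin hn) (rk_eq hmin hm) h1 h2 (hmin _ (hn.1.comm2 hm.1 h1 h2) hne)
  refine ⟨fun v => ?_, fun v hv => ?_, ?_⟩
  · exact ap (AA.mul_zero a2 (AA.self ht.1) hx) v
  · rw [r2] at hv
    rw [r1]
    obtain ⟨_, ⟨u, rfl⟩, c, hc, rfl⟩ := Submodule.mem_sup.1 hv.2
    have h3 : x c = 0 := hx.2.2 hc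
    rw [map_add, h3, add_zero]
    apply Submodule.mem_sup_left
    exact ⟨hx.2.1 ⟨_, rfl⟩, ap (nonop_xyx h2k h3k hmin hn hm hop hx (AA.self hm.1)).2 u⟩
  · rintro _ ⟨u, rfl⟩
    exact ap (AA.mul_zero a1 hx (AA.self ht.1)) u

end fd

/-- the conjugating elements -/
theorem Bar.w_mem (h : Bar n b) (hn : NN G n) (hb : NN G b) : ∃ g : LinearMap.GeneralLinearGroup k M, g ∈ G ∧
    (g : M →ₗ[k] M) = (1 + n) * (1 - b) * (1 + n) ∧
    ((g⁻¹ : LinearMap.GeneralLinearGroup k M) : M →ₗ[k] M) = (1 - n) * (1 + b) * (1 - n) := by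
  obtain ⟨g, hg, g1, g2⟩ := hn.exists_unit 1
  obtain ⟨f, hf, f1, f2⟩ := hb.exists_unit 1
  rw [one_smul] at g1 g2 f1 f2
  refine ⟨g * f⁻¹ * g, mul_mem (mul_mem hg (inv_mem hf)) hg, ?_, ?_⟩
  · rw [Units.val_mul, Units.val_mul, g1, f2]
  · rw [mul_inv_rev, mul_inv_rev, inv_inv, Units.val_mul, Units.val_mul, g2, f1, mul_assoc]

/-- `n` is subordinate to `t` -/
structure Subd (n t : M →ₗ[k] M) : Prop where
  nt : n * t = 0
  tn : t * n = 0
  mp : ∀ v ∈ ker t, n v ∈ range t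

/-- odd elements with respect to `e` -/
structure Odd' (n t e : M →ₗ[k] M) : Prop where
  nn : n * n = 0
  nt : n * t = 0
  tn : t * n = 0
  odd : e * n + n * e = n

theorem Odd'.ene (h : Odd' n t e) (he : e * e = e) : e * (n * e) = 0 := by
  have h1 := congrArg (fun x => e * x) h.odd
  simp only [mul_add] at h1
  rw [← mul_assoc, he] at h1
  exact add_eq_left.1 h1

theorem Odd'.cnc (h : Odd' n t e) (he : e * e = e) : (1 - e) * (n * (1 - e)) = 0 := by
  have h1 := h.ene he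
  have h2 : (1 - e) * (n * (1 - e)) = n - (e * n + n * e) + e * (n * e) := by noncomm_ring
  rw [h2, h.odd, h1, sub_self, add_zero]

theorem subd_cnc (hb : Bar t b) (hs : Subd n t) : (1 - (t * b + b * t)) * (n * (1 - (t * b + b * t))) = 0 := by
  ext v
  have h1 : t * (1 - (t * b + b * t)) = 0 := by rw [mul_sub, hb.ne, mul_one, sub_self]
  have h2 : (1 - (t * b + b * t)) * t = 0 := by rw [sub_mul, hb.en, one_mul, sub_self]
  obtain ⟨u, hu⟩ := hs.mp ((1 - (t * b + b * t)) v) (ap h1 v)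
  change (1 - (t * b + b * t)) (n ((1 - (t * b + b * t)) v)) = 0
  rw [← hu]
  exact ap h2 u

theorem rk_split [FiniteDimensional k M] (hc : (1 - e) * (n * (1 - e)) = 0) : rk ((1 - e) * n) + rk (n * (1 - e)) ≤ rk n := by
  rw [← rk_mul_add (1 - e) n]
  apply Nat.add_le_add_left
  apply Submodule.finrank_mono
  rintro _ ⟨v, rfl⟩
  exact ⟨⟨(1 - e) v, rfl⟩, ap hc v⟩

/-- the pure part -/
theorem pure_part [FiniteDimensional k M] (h2k : (2 : k) ≠ 0) (hn : NN G n) (ht : NN G t) (hbn : NN G b) (hb : Bar t b) (hs : Subd n t) :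
    (t * b + b * t) * (n * (t * b + b * t)) ∈ AA G t ∧ NN G (n - (t * b + b * t) * (n * (t * b + b * t))) ∧
    Odd' (n - (t * b + b * t) * (n * (t * b + b * t))) t (t * b + b * t) ∧
    rk (n - (t * b + b * t) * (n * (t * b + b * t))) ≤ rk n := by
  set e := t * b + b * t with he
  have hee : e * e = e := hb.ee
  have hcnc := subd_cnc hb hs
  rw [← he] at hcnc
  have hsum : n = e * n + n * e - e * (n * e) := by
    have h2 : (1 - e) * (n * (1 - e)) = n - (e * n + n * e - e * (n * e)) := by noncomm_ring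
    rw [h2, sub_eq_zero] at hcnc
    exact hcnc
  have h4 : e * n + n * e = n + e * (n * e) := sub_eq_iff_eq_add.1 hsum.symm
  obtain ⟨g, hg, g1, g2⟩ := hb.w_mem ht hbn
  have hs1 : ((g * g : LinearMap.GeneralLinearGroup k M) : M →ₗ[k] M) = 1 - (2 : k) • e := by
    rw [Units.val_mul, g1, hb.w_sq]
  have hs2 : (((g * g)⁻¹ : LinearMap.GeneralLinearGroup k M) : M →ₗ[k] M) = 1 - (2 : k) • e := by
    have h3 : (1 - (2 : k) • e) * (1 - (2 : k) • e) = 1 := by
      rw [mul_sub, mul_one, sub_mul, one_mul, smul_mul_smul_comm, hee]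
      have : ((2 : k) * 2) • e = (2 : k) • e + (2 : k) • e := by rw [← add_smul]; norm_num
      rw [this]; abel
    have h5 : (((g * g)⁻¹ : LinearMap.GeneralLinearGroup k M) : M →ₗ[k] M) *
        (((g * g : LinearMap.GeneralLinearGroup k M) : M →ₗ[k] M) * (1 - (2 : k) • e)) = 1 - (2 : k) • e := by
      rw [← mul_assoc, Units.inv_mul, one_mul]
    rw [← h5, hs1, h3, mul_one]
  have hc := hn.conj (mul_mem hg hg)
  rw [hs1, hs2] at hc
  have hnen : n * (e * n) = 0 := by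
    rw [he]
    have : n * ((t * b + b * t) * n) = (n * t) * (b * n) + n * b * (t * n) := by noncomm_ring
    rw [this, hs.nt, hs.tn]; simp
  have hsns : (1 - (2 : k) • e) * n * (1 - (2 : k) • e) = (2 : k) • (e * (n * e)) - n := by
    have h3 : (1 - (2 : k) • e) * n * (1 - (2 : k) • e) = n - (2 : k) • (e * n + n * e) + (4 : k) • (e * (n * e)) := by
      simp only [mul_sub, sub_mul, one_mul, mul_one, smul_mul_assoc, mul_smul_comm, mul_assoc]
      module
    rw [h3]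
    rw [h4]
    module
  rw [hsns] at hc
  have hnc : n * ((2 : k) • (e * (n * e)) - n) = 0 := by
    rw [mul_sub, mul_smul_comm, hn.1, ← mul_assoc e, ← mul_assoc n, hnen, zero_mul, smul_zero, sub_zero]
  have hcn : ((2 : k) • (e * (n * e)) - n) * n = 0 := by
    rw [sub_mul, smul_mul_assoc, hn.1, mul_assoc, mul_assoc, hnen, MulZeroClass.mul_zero, smul_zero, sub_zero]
  have e2 : (2 : k)⁻¹ * 2 = 1 := inv_mul_cancel₀ h2k
  have hn2 : NN G (e * (n * e)) := by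
    have := (hn.add hc hnc hcn).smul (2 : k)⁻¹
    have e1 : n + ((2 : k) • (e * (n * e)) - n) = (2 : k) • (e * (n * e)) := by abel
    rw [e1, smul_smul, e2, one_smul] at this
    exact this
  have hn1 : NN G (n - e * (n * e)) := by
    have hc' := hc.neg
    have := (hn.add hc' (by rw [mul_neg, hnc, neg_zero]) (by rw [neg_mul, hcn, neg_zero])).smul (2 : k)⁻¹
    have e1 : n + -((2 : k) • (e * (n * e)) - n) = (2 : k) • (n - e * (n * e)) := by
      rw [smul_sub, two_smul k n]; abel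
    rw [e1, smul_smul, e2, one_smul] at this
    exact this
  have hte : t * e = t := hb.ne
  have het : e * t = t := hb.en
  refine ⟨⟨hn2, ?_, ?_⟩, hn1, ⟨hn1.1, ?_, ?_, ?_⟩, ?_⟩
  · rintro _ ⟨v, rfl⟩
    refine ⟨b (n (e v)), ?_⟩
    change t (b (n (e v))) = e (n (e v))
    rw [he]
    change t (b (n (e v))) = t (b (n (e v))) + b (t (n (e v)))
    have : t (n (e v)) = 0 := ap hs.tn (e v)
    rw [this, map_zero, add_zero]
  · intro v hv
    change e (n (e v)) = 0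
    have h3 : n (e v) = 0 := by
      rw [he]
      change n (t (b v) + b (t v)) = 0
      rw [LinearMap.mem_ker.1 hv, map_zero, add_zero]
      exact ap hs.nt (b v)
    rw [h3, map_zero]
  · rw [sub_mul, hs.nt, mul_assoc, mul_assoc, het, hs.nt, MulZeroClass.mul_zero, sub_zero]
  · rw [mul_sub, hs.tn, ← mul_assoc, hte, ← mul_assoc, hs.tn, zero_mul, sub_zero]
  · have : e * (n - e * (n * e)) + (n - e * (n * e)) * e = e * n + n * e - (e * e) * (n * e) - e * (n * (e * e)) := by noncomm_ring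
    rw [this, hee, h4]
    abel
  · have h5 : n - e * (n * e) = (1 - e) * n - -(n * (1 - e)) := by
      have : (1 - e) * n - -(n * (1 - e)) = n + n - (e * n + n * e) := by noncomm_ring
      rw [this, h4]; abel
    have h6 := rk_split hcnc
    have h7 : rk (n - e * (n * e)) ≤ Module.finrank k (range ((1 - e) * n) ⊔ range (n * (1 - e)) : Submodule k M) := by
      rw [h5]
      refine Submodule.finrank_mono ((rk_add_le _ _).trans ?_)
      rw [LinearMap.range_neg]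
    have h8 := Submodule.finrank_sup_add_finrank_inf_eq (range ((1 - e) * n)) (range (n * (1 - e)))
    unfold rk at *
    omega

end Cfsg.Agent.H3.QP
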