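import Mathlib
import Cfsg.Agent.H3.QPPure

/-!
Quadratic pairs: commutators of two root subgroups, surjectivity.
-/

set_option autoImplicit false

namespace Cfsg.Agent.H3.QP

open scoped commutatorElement
open Cfsg.Agent.H28

universe u v

variable {k : Type u} [Field k] {M : Type v} [AddCommGroup M] [Module k M] 
variable {G : Subgroup (LinearMap.GeneralLinearGroup k M)} {d : ℕ} {n m e w t b : M →ₗ[k] M}
variable {A B : Subgroup (LinearMap.GeneralLinearGroup k M)}

open LinearMap (range ker)

theorem Bar.nn_ne (h : Bar t b) (ht : t ≠ 0) : b ≠ 0 := by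
  rintro rfl
  apply ht
  rw [← h.nbn]; simp

theorem Odd'.exe (h : Odd' n t e) (he : e * e = e) {x : M →ₗ[k] M} (h1 : x * e = x) (h2 : e * x = x) :
    e * (n * x) = 0 ∧ x * (n * e) = 0 ∧ x * (n * x) = 0 := by
  have h0 := h.ene he
  have a1 : e * (n * x) = 0 := by rw [← h2, ← mul_assoc n, ← mul_assoc, h0, zero_mul]
  refine ⟨a1, ?_, ?_⟩
  · rw [← h1, mul_assoc, h0, mul_zero]
  · rw [← h1, mul_assoc x e, h1, a1, mul_zero]

/-- the operator `m̂` -/
theorem hat_of (h : Odd' n t (t * b + b * t)) (hb : Bar t b) {x y : M →ₗ[k] M} (hyx : Bar y x)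
    (hexy : y * x + x * y = t * b + b * t) (hny : n * y = 0) (hyn : y * n = 0) :
    ((1 + y) * (1 - x) * (1 + y)) * n * ((1 - y) * (1 + x) * (1 - y)) = n * x - x * n := by
  set e := t * b + b * t with he
  have hee : e * e = e := hb.ee
  have hxe : x * e = x := by rw [← hexy]; exact hyx.be
  have hex : e * x = x := by rw [← hexy]; exact hyx.eb
  obtain ⟨a1, a2, a3⟩ := h.exe hee hxe hex
  have a4 := h.cnc hee
  rw [hyx.w_val, hyx.w_inv, hexy]
  have e1 : (1 - e + y - x) * n = (1 - e) * n - x * n := by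
    have : (1 - e + y - x) * n = (1 - e) * n - x * n + y * n := by noncomm_ring
    rw [this, hyn, add_zero]
  rw [e1]
  have e2 : ((1 - e) * n - x * n) * (1 - e - y + x) =
      (1 - e) * (n * (1 - e)) - (1 - e) * (n * y) + (n * x - e * (n * x)) - (x * n - x * (n * e)) + x * (n * y) - x * (n * x) := by
    noncomm_ring
  rw [e2, a4, hny, a1, a2, a3]
  simp

variable [FiniteDimensional k M]

/-- the key vanishing -/
theorem club (h2k : (2 : k) ≠ 0) (h3k : Nat.card k ≠ 3) (hmin : MinR G d) (hn : N1 G d n)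
    (ht : N1 G d t) (hbn : NN G b) (hb : Bar t b) (h : Odd' n t (t * b + b * t)) (hbN : N1 G d b) {x : M →ₗ[k] M}
    (hx : x ∈ AA G b) : n * (x * n) = 0 := by
  by_cases hx0 : x = 0
  · rw [hx0]; simp
  have hx' := AA.n1 hbN hx hx0
  have hopbt : Op t b := fun h' => ht.2.1 (by rw [← hb.nbn]; exact h'.1)
  have hop : Op x t := op_congr h2k h3k hmin hbN ht hx (AA.self ht.1) hx0 ht.2.1 hopbt.symm
  obtain ⟨y, hy, h1, h2⟩ := op_bar h2k h3k hmin hx' ht hop
  have hyx : Bar y x := ⟨hy.1.1, hx.1.1, h2, h1⟩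
  have hy0 : y ≠ 0 := by rintro rfl; apply hx0; rw [← h1]; simp
  have hexy : y * x + x * y = t * b + b * t := by
    have c1 := hb.ex hy.2.1
    have c2 := hb.xe hy.2.2
    have c3 : (t * b + b * t) * x = x := by have := hb.symm.ex hx.2.1; rwa [add_comm] at this
    have c4 : x * (t * b + b * t) = x := by have := hb.symm.xe hx.2.2; rwa [add_comm] at this
    obtain ⟨r1, r2⟩ := AA.eq hmin ht hy hy0
    obtain ⟨r3, r4⟩ := AA.eq hmin hbN hx hx0
    have c5 : (y * x + x * y) * t = t := hyx.ex r1.ge
    have c7 : (y * x + x * y) * b = b := by have := hyx.symm.ex r3.ge; rwa [add_comm] at this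
    have c9 : (y * x + x * y) * (t * b + b * t) = y * x + x * y := by
      rw [add_mul, mul_assoc y, c4, mul_assoc x, c2]
    rw [← c9, mul_add, ← mul_assoc, ← mul_assoc, c5, c7]
  have hny : n * y = 0 := by
    ext v
    obtain ⟨u, hu⟩ := hy.2.1 ⟨v, rfl⟩
    change n (y v) = 0
    rw [← hu]; exact ap h.nt u
  have hyn : y * n = 0 := by
    ext v
    exact hy.2.2 (ap h.tn v)
  have hhat := hat_of h hb hyx hexy hny hyn
  obtain ⟨g, hg, g1, g2⟩ := hyx.w_mem hy.1 hx.1
  have hm := hn.conj hg
  rw [g1, g2, hhat] at hm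
  have hee : (t * b + b * t) * (t * b + b * t) = t * b + b * t := hb.ee
  have hxe : x * (t * b + b * t) = x := by rw [← hexy]; exact hyx.be
  have hex : (t * b + b * t) * x = x := by rw [← hexy]; exact hyx.eb
  obtain ⟨a1, a2, a3⟩ := h.exe hee hxe hex
  have hnn := h.nn
  have n1 : ∀ z, n * (n * z) = 0 := fun z => by rw [← mul_assoc, hnn, zero_mul]
  have x1 : ∀ z, x * (n * (x * z)) = 0 := fun z => by
    have : x * (n * (x * z)) = (x * (n * x)) * z := by simp only [mul_assoc]
    rw [this, a3, zero_mul]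
  have p1 : n * ((n * x - x * n) * n) = 0 := by
    simp only [mul_sub, sub_mul, mul_assoc, n1, hnn, mul_zero, sub_zero]
  have p2 : (n * x - x * n) * (n * (n * x - x * n)) = 0 := by
    simp only [mul_sub, sub_mul, mul_assoc, n1, hnn, x1, mul_zero, sub_zero]
  have hc := hn.1.comm2 hm.1 p1 p2
  have e1 : n * (n * x - x * n) - (n * x - x * n) * n = (-2 : k) • (n * (x * n)) := by
    simp only [mul_sub, sub_mul, mul_assoc, n1, hnn, mul_zero, sub_zero, zero_sub]
    rw [neg_smul, two_smul]; abel
  rw [e1] at hc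
  have hc2 : NN G (n * (x * n)) := by
    have := hc.smul (-2 : k)⁻¹
    rw [smul_smul, inv_mul_cancel₀ (neg_ne_zero.2 h2k), one_smul] at this
    exact this
  by_contra hne
  have r0 := hmin _ hc2 hne
  have r1 : rk (n * (x * n)) ≤ rk ((1 - (t * b + b * t)) * n) := by
    have : n * (x * n) = ((1 - (t * b + b * t)) * n) * (x * n) := by
      have e3 : (1 - (t * b + b * t)) * n * (x * n) = n * (x * n) - ((t * b + b * t) * (n * x)) * n := by noncomm_ring
      rw [e3, a1, zero_mul, sub_zero]
    rw [this]; exact rk_mul_left _ _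
  have r2 : rk (n * (x * n)) ≤ rk (n * (1 - (t * b + b * t))) := by
    have : n * (x * n) = (n * x) * (n * (1 - (t * b + b * t))) := by
      have e3 : (n * x) * (n * (1 - (t * b + b * t))) = n * (x * n) - n * (x * (n * (t * b + b * t))) := by noncomm_ring
      rw [e3, a2, mul_zero, sub_zero]
    rw [this]; exact rk_mul_right _ _
  have r3 := rk_split (h.cnc hee)
  have r4 := hn.2.2
  have r5 := d_pos hmin hn
  omega

/-- surjectivity for pure pairs -/
theorem pure_surj (h2k : (2 : k) ≠ 0) (h3k : Nat.card k ≠ 3) (hmin : MinR G d) (hn : N1 G d n) (hm : N1 G d m)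
    (ht : N1 G d t) (hb : Bar t b) (h : Odd' n t (t * b + b * t)) (h' : Odd' m t (t * b + b * t)) (hbN : N1 G d b)
    (hnm : n * m - m * n = t) {t' : M →ₗ[k] M} (ht' : t' ∈ AA G t) : ∃ y ∈ AA G m, n * y - y * n = t' := by
  set e := t * b + b * t with he
  have hee : e * e = e := hb.ee
  -- `m̂`
  have hmt := h'.nt
  have htm := h'.tn
  have hbe : b * e = b := hb.be
  have heb : e * b = b := hb.eb
  have hte : t * e = t := hb.ne
  have het : e * t = t := hb.en
  have hhat := hat_of h' hb hb rfl hmt htm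
  obtain ⟨g, hg, g1, g2⟩ := hb.w_mem ht.1 hbN.1
  have hmh := hm.conj hg
  rw [g1, g2, hhat] at hmh
  have c1 := club h2k h3k hmin hm ht hbN.1 hb h' hbN (AA.self hbN.1)
  have hme : m * e = m * b * t := by rw [he, mul_add, ← mul_assoc, hmt, zero_mul, zero_add, mul_assoc]
  have hem : e * m = t * b * m := by rw [he, add_mul, mul_assoc b, htm, mul_zero, add_zero]
  have hmht : (m * b - b * m) * t - t * (m * b - b * m) = m := by
    have : (m * b - b * m) * t - t * (m * b - b * m) = m * b * t - b * (m * t) - (t * m) * b + t * b * m := by noncomm_ring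
    rw [this, hmt, htm, ← hme, ← hem]
    simp only [mul_zero, zero_mul, sub_zero]
    have := h'.odd
    rwa [add_comm] at this
  have q1 : (m * b - b * m) * (t * (m * b - b * m)) = 0 := by
    have : (m * b - b * m) * (t * (m * b - b * m)) = m * b * (t * m) * b - b * m * (t * m) * b - m * (b * (t * b)) * m + b * (m * t) * b * m := by
      noncomm_ring
    rw [this, htm, hmt, hb.bnb]
    simp only [mul_zero, zero_mul, sub_zero, zero_sub, add_zero]
    rw [mul_assoc, c1, neg_zero]
  have q2 : t * ((m * b - b * m) * t) = 0 := by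
    have : t * ((m * b - b * m) * t) = (t * m) * b * t - t * b * (m * t) := by noncomm_ring
    rw [this, htm, hmt]; simp
  have hopmt : ¬ Op (m * b - b * m) t := fun hop => hop ⟨q1, q2⟩
  have hmem := comm_AA' h2k h3k hmin hmh ht hopmt (by rw [hmht]; exact hm.2.1) (AA.self hmh.1) ht'
  rw [hmht] at hmem
  -- annihilation by `t'`
  have hmt' : m * t' = 0 := by
    ext v
    obtain ⟨u, hu⟩ := ht'.2.1 ⟨v, rfl⟩
    change m (t' v) = 0
    rw [← hu]; exact ap hmt u
  have ht'm : t' * m = 0 := by ext v; exact ht'.2.2 (ap htm v)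
  have hnt' : n * t' = 0 := by
    ext v
    obtain ⟨u, hu⟩ := ht'.2.1 ⟨v, rfl⟩
    change n (t' v) = 0
    rw [← hu]; exact ap h.nt u
  have ht'n : t' * n = 0 := by ext v; exact ht'.2.2 (ap h.tn v)
  have htt' : t * t' = 0 := AA.mul_eq ht.1.1 (AA.self ht.1) ht'
  have ht't : t' * t = 0 := AA.mul_eq ht.1.1 ht' (AA.self ht.1)
  have het' : e * t' = t' := hb.ex ht'.2.1
  have ht'e : t' * e = t' := hb.xe ht'.2.2
  have hval : (m * b - b * m) * t' - t' * (m * b - b * m) = m * b * t' + t' * b * m := by
    have : (m * b - b * m) * t' - t' * (m * b - b * m) = m * b * t' - b * (m * t') - (t' * m) * b + t' * b * m := by noncomm_ring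
    rw [this, hmt', ht'm]; simp
  rw [hval] at hmem
  refine ⟨_, hmem, ?_⟩
  -- the operator `x`
  have hxAA : b * (t' * b) ∈ AA G b := by
    have h3 := ht'.1.conj hg
    rw [g1, g2, hb.w_conj ht'.2.2 ht'.2.1] at h3
    have h4 := h3.neg
    rw [neg_neg] at h4
    refine ⟨h4, ?_, ?_⟩
    · rintro _ ⟨v, rfl⟩; exact ⟨(t' * b) v, rfl⟩
    · intro v hv
      change b (t' (b v)) = 0
      rw [LinearMap.mem_ker.1 hv, map_zero, map_zero]
  have cn := club h2k h3k hmin hn ht hbN.1 hb h hbN hxAA
  have cm := club h2k h3k hmin hm ht hbN.1 hb h' hbN hxAA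
  set x := b * (t' * b) with hx
  have htxt : t * (x * t) = t' := by
    have e1 : t * (x * t) = (t * b) * t' * (b * t) := by rw [hx]; simp only [mul_assoc]
    have e2 : (t * b) * t' = t' := by
      have : e * t' = t * b * t' + b * (t * t') := by rw [he]; noncomm_ring
      rw [htt', mul_zero, add_zero] at this
      rw [← this, het']
    have e3 : t' * (b * t) = t' := by
      have : t' * e = (t' * t) * b + t' * (b * t) := by rw [he]; noncomm_ring
      rw [ht't, zero_mul, zero_add] at this
      rw [← this, ht'e]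
    rw [e1, e2, e3]
  have hc1 := h'.cnc hee
  have hc2 := h.cnc hee
  have hnem : n * (e * m) = 0 := by
    have : n * (e * m) = (n * t) * (b * m) + n * b * (t * m) := by rw [he]; noncomm_ring
    rw [this, h.nt, htm]; simp
  have hXe : n * m * (b * t) = n * m := by
    have e1 : n * m * e = n * m * (b * t) := by rw [mul_assoc, hme, mul_assoc, ← mul_assoc]
    have e2 : n * (m * (1 - e)) = n * (e * m) * (1 - e) + n * ((1 - e) * (m * (1 - e))) := by noncomm_ring
    rw [hnem, hc1, zero_mul, mul_zero, add_zero, mul_sub, mul_one, mul_sub, sub_eq_zero, ← mul_assoc] at e2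
    rw [← e1, ← e2]
  have heX : t * b * (n * m) = n * m := by
    have e1 : e * (n * m) = t * b * (n * m) := by
      have : e * (n * m) = t * b * (n * m) + b * ((t * n) * m) := by rw [he]; noncomm_ring
      rw [this, h.tn]; simp
    have e2 : (1 - e) * (n * m) = (1 - e) * (n * (e * m)) + ((1 - e) * (n * (1 - e))) * m := by noncomm_ring
    rw [hnem, hc2, zero_mul, mul_zero, add_zero, sub_mul, one_mul, sub_eq_zero] at e2
    rw [← e1, ← e2]
  -- the computation
  have f1 : n * (m * b * t' + t' * b * m) - (m * b * t' + t' * b * m) * n = n * m * b * t' - t' * b * (m * n) := by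
    have : n * (m * b * t' + t' * b * m) - (m * b * t' + t' * b * m) * n =
        n * m * b * t' + (n * t') * b * m - m * b * (t' * n) - t' * b * (m * n) := by noncomm_ring
    rw [this, hnt', ht'n]; simp
  have hY : m * n = n * m - t := by rw [← hnm]; abel
  have f2 : n * m * b * t' = n * m * (x * t) := by
    rw [← htxt]
    have : n * m * b * (t * (x * t)) = (n * m * (b * t)) * (x * t) := by simp only [mul_assoc]
    rw [this, hXe]
  have f3 : t' * b * (n * m) = t * (x * (n * m)) := by
    conv_lhs => rw [← htxt]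
    have : t * (x * t) * b * (n * m) = t * (x * (t * b * (n * m))) := by simp only [mul_assoc]
    rw [this, heX]
  have f4 : n * m * (x * t) = t * (x * (n * m)) := by
    have g3 : n * m * (x * t) = n * m * x * n * m - n * (m * (x * m)) * n := by
      rw [← hnm]; noncomm_ring
    have g4 : t * (x * (n * m)) = n * m * x * n * m - m * (n * (x * n)) * m := by
      rw [← hnm]; noncomm_ring
    rw [g3, g4, cn, cm]; simp
  have f5 : t' * b * t = t' := by
    have : t' * e = (t' * t) * b + t' * b * t := by rw [he]; noncomm_ring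
    rw [ht't, zero_mul, zero_add] at this
    rw [← this, ht'e]
  rw [f1, hY, mul_sub, f2, f3, f4, f5]
  abel

end Cfsg.Agent.H3.QP
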