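import Mathlib
import Cfsg.Agent.H3.QPSurj

/-!
Quadratic pairs: the commutator of two root subgroups is a root subgroup.
-/

set_option autoImplicit false

namespace Cfsg.Agent.H3.QP

open scoped commutatorElement
open Cfsg.Agent.H28

universe u v

variable {k : Type u} [Field k] {M : Type v} [AddCommGroup M] [Module k M] 
variable {G : Subgroup (LinearMap.GeneralLinearGroup k M)} {d : ℕ} {n m e w t b : M →ₗ[k] M}
variable {A B : Subgroup (LinearMap.GeneralLinearGroup k M)}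

open LinearMap (range ker)

theorem Bar.neg (h : Bar t b) : Bar (-t) (-b) where
  nn := by rw [neg_mul_neg, h.nn]
  bb := by rw [neg_mul_neg, h.bb]
  nbn := by rw [neg_mul_neg, neg_mul, h.nbn]
  bnb := by rw [neg_mul_neg, neg_mul, h.bnb]

theorem neg_e (t b : M →ₗ[k] M) : (-t) * (-b) + (-b) * (-t) = t * b + b * t := by rw [neg_mul_neg, neg_mul_neg]

theorem Odd'.neg (h : Odd' n t e) : Odd' n (-t) e where
  nn := h.nn
  nt := by rw [mul_neg, h.nt, neg_zero]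
  tn := by rw [neg_mul, h.tn, neg_zero]
  odd := h.odd

theorem AA_neg (t : M →ₗ[k] M) : AA G (-t) = AA G t := AA.congr (LinearMap.range_neg _) (LinearMap.ker_neg _)

variable [FiniteDimensional k M]

theorem N1.neg (h : N1 G d n) : N1 G d (-n) :=
  ⟨h.1.neg, neg_ne_zero.2 h.2.1, by unfold rk; rw [LinearMap.range_neg]; exact h.2.2⟩

theorem pure_surj' (h2k : (2 : k) ≠ 0) (h3k : Nat.card k ≠ 3) (hmin : MinR G d) (hn : N1 G d n) (hm : N1 G d m)
    (ht : N1 G d t) (hb : Bar t b) (h : Odd' n t (t * b + b * t)) (h' : Odd' m t (t * b + b * t)) (hbN : N1 G d b)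
    (hnm : n * m - m * n = t) {t' : M →ₗ[k] M} (ht' : t' ∈ AA G t) : ∃ x ∈ AA G n, x * m - m * x = t' := by
  obtain ⟨x, hx, hx'⟩ := pure_surj h2k h3k hmin hm hn ht.neg hb.neg (by rw [neg_e]; exact h'.neg) (by rw [neg_e]; exact h.neg)
    hbN.neg (by rw [← hnm]; abel) (t' := -t') (by rw [AA_neg]; exact AA.neg ht')
  refine ⟨x, hx, ?_⟩
  have h1 : x * m - m * x = -(m * x - x * m) := by abel
  rw [h1, hx', neg_neg]

theorem surj (hG : IsIrreducibleFor G) (h2k : (2 : k) ≠ 0) (h3k : Nat.card k ≠ 3) (hd : QD G d) (hn : N1 G d n) (hm : N1 G d m)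
    (hop : ¬ Op n m) (hne : n * m - m * n ≠ 0) {t' : M →ₗ[k] M} (ht' : t' ∈ AA G (n * m - m * n)) :
    ∃ y ∈ AA G m, n * y - y * n = t' := by
  have hmin := hd.min
  have ht := t_N1 hmin hn hm hop hne
  obtain ⟨z1, z2⟩ := nonop_zero hop
  obtain ⟨a1, a2, a3, a4⟩ := t_ann hn.1.1 hm.1.1 z1 z2
  have mpn := (mem_JJt h2k h3k hmin hn hm hop hne (AA.self hn.1)).2.1
  have hne' : m * n - n * m ≠ 0 := fun h => hne (by rw [← neg_sub, h, neg_zero])
  have mpm := (mem_JJt h2k h3k hmin hm hn (fun h => hop h.symm) hne' (AA.self hm.1)).2.1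
  have e0 : m * n - n * m = -(n * m - m * n) := by abel
  rw [e0, LinearMap.range_neg, LinearMap.ker_neg] at mpm
  set t := n * m - m * n with htdef
  obtain ⟨g, hg, hopt⟩ := exists_opp hG h2k h3k hd ht
  obtain ⟨b, hb, b1, b2⟩ := op_bar h2k h3k hmin ht (ht.conj hg) hopt
  have hbar : Bar t b := ⟨ht.1.1, hb.1.1, b1, b2⟩
  have hbN : N1 G d b := AA.n1 (ht.conj hg) hb (hbar.nn_ne ht.2.1)
  obtain ⟨n2, nn1, on1, rn1⟩ := pure_part h2k hn.1 ht.1 hbN.1 hbar ⟨a1, a2, mpn⟩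
  obtain ⟨m2, nm1, om1, rm1⟩ := pure_part h2k hm.1 ht.1 hbN.1 hbar ⟨a3, a4, mpm⟩
  set n₂ := (t * b + b * t) * (n * (t * b + b * t)) with hn₂
  set m₂ := (t * b + b * t) * (m * (t * b + b * t)) with hm₂
  set n₁ := n - n₂ with hn₁
  set m₁ := m - m₂ with hm₁
  have hnsum : n = n₁ + n₂ := by rw [hn₁]; abel
  have hmsum : m = m₁ + m₂ := by rw [hm₁]; abel
  have x1 : n * m₂ = 0 := AA.mul_zero a1 (AA.self hn.1) m2
  have x2 : n₂ * m = 0 := AA.mul_zero a4 n2 (AA.self hm.1)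
  have x3 : m * n₂ = 0 := AA.mul_zero a3 (AA.self hm.1) n2
  have x4 : m₂ * n = 0 := AA.mul_zero a2 m2 (AA.self hn.1)
  have x5 : n₂ * m₂ = 0 := AA.mul_eq ht.1.1 n2 m2
  have x6 : m₂ * n₂ = 0 := AA.mul_eq ht.1.1 m2 n2
  have hc1 : n₁ * m₁ - m₁ * n₁ = t := by
    have : n₁ * m₁ - m₁ * n₁ = (n * m - m * n) - n * m₂ - n₂ * m + n₂ * m₂ + m * n₂ + m₂ * n - m₂ * n₂ := by
      rw [hn₁, hm₁]; noncomm_ring
    rw [this, x1, x2, x3, x4, x5, x6, ← htdef]; simp
  have hn1 : N1 G d n₁ := ⟨nn1, fun h => ht.2.1 (by rw [← hc1, h]; simp), rn1.trans hn.2.2⟩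
  have hm1 : N1 G d m₁ := ⟨nm1, fun h => ht.2.1 (by rw [← hc1, h]; simp), rm1.trans hm.2.2⟩
  obtain ⟨x, hx, hxm⟩ := pure_surj' h2k h3k hmin hn1 hm1 ht hbar on1 om1 hbN hc1 m2
  obtain ⟨y, hy, hyn⟩ := pure_surj h2k h3k hmin hn1 hm1 ht hbar on1 om1 hbN hc1 ht'
  have hop1 : ¬ Op n₁ m₁ := by
    intro h
    apply h
    constructor
    · have h1 : (n₁ * m₁ - m₁ * n₁) * n₁ = 0 := by rw [hc1]; exact on1.tn
      rw [sub_mul, mul_assoc m₁, on1.nn, mul_zero, sub_zero, mul_assoc] at h1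
      exact h1
    · have h1 : m₁ * (n₁ * m₁ - m₁ * n₁) = 0 := by rw [hc1]; exact om1.nt
      rw [mul_sub, ← mul_assoc m₁ m₁, om1.nn, zero_mul, sub_zero] at h1
      exact h1
  have y1 := (nonop_xyx h2k h3k hmin hn1 hm1 hop1 hx (AA.self hm1.1)).1
  have y2 := (nonop_xyx h2k h3k hmin hn1 hm1 hop1 hx hy).1
  have hz := comm_AA' h2k h3k hmin hn1 hm1 hop1 (by rw [hc1]; exact ht.2.1) hx hy
  rw [hc1] at hz
  set z := x * y - y * x with hzdef
  obtain ⟨f, hf, f1, f2⟩ := hx.1.exists_unit 1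
  rw [one_smul] at f1 f2
  have hconj := AA.conj hy hf
  rw [f1, f2] at hconj
  have e1 : (1 + x) * m₁ * (1 - x) = m := by
    have : (1 + x) * m₁ * (1 - x) = m₁ + (x * m₁ - m₁ * x) - x * (m₁ * x) := by noncomm_ring
    rw [this, hxm, y1, sub_zero, hmsum]
  have e2 : (1 + x) * y * (1 - x) = y + z := by
    have : (1 + x) * y * (1 - x) = y + (x * y - y * x) - x * (y * x) := by noncomm_ring
    rw [this, y2, sub_zero]
  rw [e1, e2] at hconj
  refine ⟨y + z, hconj, ?_⟩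
  have w1 : n₁ * z = 0 := AA.mul_zero on1.nt (AA.self hn1.1) hz
  have w2 : z * n₁ = 0 := AA.mul_zero on1.tn hz (AA.self hn1.1)
  have w3 : n₂ * y = 0 := AA.mul_zero om1.tn n2 hy
  have w4 : y * n₂ = 0 := AA.mul_zero om1.nt hy n2
  have w5 : n₂ * z = 0 := AA.mul_eq ht.1.1 n2 hz
  have w6 : z * n₂ = 0 := AA.mul_eq ht.1.1 hz n2
  have : n * (y + z) - (y + z) * n = (n₁ * y - y * n₁) + n₁ * z - z * n₁ + n₂ * y - y * n₂ + n₂ * z - z * n₂ := by
    rw [hnsum]; noncomm_ring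
  rw [this, w1, w2, w3, w4, w5, w6, hyn]; simp

/-- commutator of group elements -/
theorem comm_val {g h : LinearMap.GeneralLinearGroup k M} {x y : M →ₗ[k] M} (hx : x * x = 0) (hy : y * y = 0)
    (h1 : x * (y * x) = 0) (h2 : y * (x * y) = 0) (hg : (g : M →ₗ[k] M) = 1 + x) (hh : (h : M →ₗ[k] M) = 1 + y) :
    ((g * h * g⁻¹ * h⁻¹ : LinearMap.GeneralLinearGroup k M) : M →ₗ[k] M) = 1 + (x * y - y * x) := by
  rw [Units.val_mul, Units.val_mul, Units.val_mul, hg, hh, inv_val_of hx hg, inv_val_of hy hh]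
  have : (1 + x) * (1 + y) * (1 - x) * (1 - y) = 1 + (x * y - y * x) - x * x - y * y - x * (y * x) + y * (x * y) + x * x * y +
      x * (y * (x * y)) - x * (y * y) := by noncomm_ring
  rw [this, hx, hy, h1, h2]; simp

/-- the root subgroup of an operator -/
theorem exists_E (hd : QD G d) (ht : N1 G d t) : ∃ L ∈ quadraticRootSubgroups G, IsE G t L := by
  obtain ⟨σ, hσ, hσt⟩ := hd.exists_min ht
  refine ⟨sameActionSubgroup G σ, ⟨σ, hσ, rfl⟩, fun g => ?_⟩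
  have := mem_E hd hσ g
  rwa [hσt] at this

theorem comm_mem_L (h2k : (2 : k) ≠ 0) (h3k : Nat.card k ≠ 3) (hd : QD G d) (hn : N1 G d n)
    (hm : N1 G d m) (hop : ¬ Op n m) (hne : n * m - m * n ≠ 0) (hA : IsE G n A) (hB : IsE G m B)
    {L : Subgroup (LinearMap.GeneralLinearGroup k M)} (hL : IsE G (n * m - m * n) L) {f g : LinearMap.GeneralLinearGroup k M}
    (hf : f ∈ A) (hg : g ∈ B) : f * g * f⁻¹ * g⁻¹ ∈ L := by
  obtain ⟨x, hx, hx1, -⟩ := hA.val hf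
  obtain ⟨y, hy, hy1, -⟩ := hB.val hg
  obtain ⟨h1, h2⟩ := nonop_xyx h2k h3k hd.min hn hm hop hx hy
  rw [hL, comm_val hx.1.1 hy.1.1 h1 h2 hx1 hy1]
  have e : 1 + (x * y - y * x) - 1 = x * y - y * x := by abel
  rw [e]
  exact comm_AA' h2k h3k hd.min hn hm hop hne hx hy

theorem comm_gen (hG : IsIrreducibleFor G) (h2k : (2 : k) ≠ 0) (h3k : Nat.card k ≠ 3) (hd : QD G d) (hn : N1 G d n)
    (hm : N1 G d m) (hop : ¬ Op n m) (hne : n * m - m * n ≠ 0) (hA : IsE G n A) (hB : IsE G m B)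
    {L : Subgroup (LinearMap.GeneralLinearGroup k M)} (hL : IsE G (n * m - m * n) L) {f : LinearMap.GeneralLinearGroup k M}
    (hf : f ∈ A) (hf1 : f ≠ 1) {l : LinearMap.GeneralLinearGroup k M} (hl : l ∈ L) : ∃ g ∈ B, f * g * f⁻¹ * g⁻¹ = l := by
  obtain ⟨x, hx, hx1, -⟩ := hA.val hf
  have hx0 := (val_ne_one hx1).1 hf1
  obtain ⟨z, hz, hz1, -⟩ := hL.val hl
  have hx' := AA.n1 hn hx hx0
  have hop' : ¬ Op x m := fun h => hop (op_congr' h2k h3k hd.min hn hm hx (AA.self hm.1) hx0 hm.2.1 h)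
  obtain ⟨c1, c2⟩ := comm_AA h2k h3k hd.min hn hm hop hne hx (AA.self hm.1) hx0 hm.2.1
  obtain ⟨r1, r2⟩ := AA.eq hd.min (t_N1 hd.min hn hm hop hne) c1 c2
  obtain ⟨y, hy, hy1⟩ := surj hG h2k h3k hd hx' hm hop' c2 (t' := z) (by rw [AA.congr r1 r2]; exact hz)
  obtain ⟨g, hg, hg1, -⟩ := hB.exists hy
  refine ⟨g, hg, ?_⟩
  obtain ⟨h1, h2⟩ := nonop_xyx h2k h3k hd.min hn hm hop hx hy
  apply Units.ext
  rw [comm_val hx.1.1 hy.1.1 h1 h2 hx1 hg1, hy1, hz1]

theorem comm_eq (hG : IsIrreducibleFor G) (h2k : (2 : k) ≠ 0) (h3k : Nat.card k ≠ 3) (hd : QD G d) (hn : N1 G d n)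
    (hm : N1 G d m) (hop : ¬ Op n m) (hne : n * m - m * n ≠ 0) (hA : IsE G n A) (hB : IsE G m B)
    {L : Subgroup (LinearMap.GeneralLinearGroup k M)} (hL : IsE G (n * m - m * n) L) :
    ⁅A, B⁆ = L ∧
    (∀ e ∈ A, e ≠ 1 → Subgroup.closure ((fun f : LinearMap.GeneralLinearGroup k M => e * f * e⁻¹ * f⁻¹) ''
      (B : Set (LinearMap.GeneralLinearGroup k M))) = ⁅A, B⁆) ∧
    (∀ f ∈ B, f ≠ 1 → Subgroup.closure ((fun e : LinearMap.GeneralLinearGroup k M => e * f * e⁻¹ * f⁻¹) ''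
      (A : Set (LinearMap.GeneralLinearGroup k M))) = ⁅A, B⁆) := by
  have hAB : ⁅A, B⁆ = L := by
    apply le_antisymm
    · rw [Subgroup.commutator_le]
      intro f hf g hg
      exact comm_mem_L h2k h3k hd hn hm hop hne hA hB hL hf hg
    · intro l hl
      obtain ⟨f, hf, hf1, -⟩ := hA.exists (AA.self hn.1)
      obtain ⟨g, hg, hgl⟩ := comm_gen hG h2k h3k hd hn hm hop hne hA hB hL hf ((val_ne_one hf1).2 hn.2.1) hl
      rw [← hgl]
      exact Subgroup.commutator_mem_commutator hf hg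
  refine ⟨hAB, fun f hf hf1 => ?_, fun g hg hg1 => ?_⟩
  · rw [hAB]
    apply le_antisymm
    · rw [Subgroup.closure_le]
      rintro _ ⟨g, hg, rfl⟩
      exact comm_mem_L h2k h3k hd hn hm hop hne hA hB hL hf hg
    · intro l hl
      obtain ⟨g, hg, hgl⟩ := comm_gen hG h2k h3k hd hn hm hop hne hA hB hL hf hf1 hl
      exact Subgroup.subset_closure ⟨g, hg, hgl⟩
  · rw [hAB]
    apply le_antisymm
    · rw [Subgroup.closure_le]
      rintro _ ⟨f, hf, rfl⟩
      exact comm_mem_L h2k h3k hd hn hm hop hne hA hB hL hf hg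
    · intro l hl
      have hL' : IsE G (m * n - n * m) L := by
        intro x
        rw [hL x]
        have : m * n - n * m = -(n * m - m * n) := by abel
        rw [this, AA_neg]
      have hne' : m * n - n * m ≠ 0 := fun h => hne (by rw [← neg_sub, h, neg_zero])
      obtain ⟨f, hf, hfl⟩ := comm_gen hG h2k h3k hd hm hn (fun h => hop h.symm) hne' hB hA hL' hg hg1 (inv_mem hl)
      apply Subgroup.subset_closure
      refine ⟨f, hf, ?_⟩
      have : f * g * f⁻¹ * g⁻¹ = (g * f * g⁻¹ * f⁻¹)⁻¹ := by group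
      change f * g * f⁻¹ * g⁻¹ = l
      rw [this, hfl, inv_inv]

theorem sup_JJt (h2k : (2 : k) ≠ 0) (h3k : Nat.card k ≠ 3) (hmin : MinR G d) (hn : N1 G d n) (hm : N1 G d m) (hop : ¬ Op n m)
    (hne : n * m - m * n ≠ 0) (hA : IsE G n A) (hB : IsE G m B) :
    ∀ g ∈ A ⊔ B, (g : M →ₗ[k] M) - 1 ∈ JJ (range (n * m - m * n)) (ker (n * m - m * n)) := by
  have ht := t_N1 hmin hn hm hop hne
  rw [Subgroup.sup_eq_closure]
  apply JJ.closure (range_le_ker_of_sq ht.1.1)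
  rintro g (hg | hg)
  · exact mem_JJt h2k h3k hmin hn hm hop hne ((hA g).1 hg)
  · have hne' : m * n - n * m ≠ 0 := fun h => hne (by rw [← neg_sub, h, neg_zero])
    have := mem_JJt h2k h3k hmin hm hn (fun h => hop h.symm) hne' ((hB g).1 hg)
    have e0 : m * n - n * m = -(n * m - m * n) := by abel
    rwa [e0, LinearMap.range_neg, LinearMap.ker_neg] at this

theorem core (h2k : (2 : k) ≠ 0) (h3k : Nat.card k ≠ 3) (hmin : MinR G d) (hn : N1 G d n) (hm : N1 G d m) (hop : ¬ Op n m)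
    (hne : n * m - m * n ≠ 0) (hA : IsE G n A) (hB : IsE G m B)
    {L : Subgroup (LinearMap.GeneralLinearGroup k M)} (hL : IsE G (n * m - m * n) L) :
    ((A ⊔ B : Subgroup (LinearMap.GeneralLinearGroup k M)) : Set (LinearMap.GeneralLinearGroup k M)) ⊆ quadraticUnipotentCore G L := by
  have ht := t_N1 hmin hn hm hop hne
  intro g hg
  have hJ := sup_JJt h2k h3k hmin hn hm hop hne hA hB g hg
  have hcomm : ∀ l ∈ L, g * l = l * g := by
    intro l hl
    obtain ⟨z, hz, hz1, -⟩ := hL.val hl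
    apply Units.ext
    rw [Units.val_mul, Units.val_mul, hz1, mul_add, add_mul, mul_one, one_mul]
    congr 1
    have h1 : ((g : M →ₗ[k] M) - 1) * z = 0 := by
      ext v; exact hJ.2.2 _ (hz.2.1 ⟨v, rfl⟩)
    have h2 : z * ((g : M →ₗ[k] M) - 1) = 0 := by
      ext v; exact hz.2.2 (hJ.1 v)
    rw [sub_mul, one_mul, sub_eq_zero] at h1
    rw [mul_sub, mul_one, sub_eq_zero] at h2
    rw [h1, h2]
  have hfix : fixedSubmodule L = ker (n * m - m * n) := by
    apply le_antisymm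
    · intro v hv
      simp only [fixedSubmodule, Submodule.mem_iInf] at hv
      obtain ⟨l, hl, hl1, -⟩ := hL.exists (AA.self ht.1)
      have := hv l hl
      have e : (l : M →ₗ[k] M) - 1 = n * m - m * n := by rw [hl1]; abel
      rwa [e] at this
    · intro v hv
      simp only [fixedSubmodule, Submodule.mem_iInf]
      intro l hl
      exact ((hL l).1 hl).2.2 hv
  have hcom : commutatorSubmodule L = range (n * m - m * n) := by
    apply le_antisymm
    · rw [commutatorSubmodule, iSup₂_le_iff]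
      intro l hl
      exact ((hL l).1 hl).2.1
    · obtain ⟨l, hl, hl1, -⟩ := hL.exists (AA.self ht.1)
      have e : (l : M →ₗ[k] M) - 1 = n * m - m * n := by rw [hl1]; abel
      rw [← e]
      exact le_iSup₂_of_le (f := fun (g : LinearMap.GeneralLinearGroup k M) (_ : g ∈ L) => range ((g : M →ₗ[k] M) - 1)) l hl le_rfl
  refine ⟨?_, ?_, ?_, ?_, ?_⟩
  · exact (sup_le hA.le hB.le) hg
  · rw [Subgroup.mem_normalizer_iff]
    intro l
    constructor
    · intro hl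
      rw [hcomm l hl, mul_inv_cancel_right]
      exact hl
    · intro hl
      have h1 := hcomm _ hl
      have h2 : g * l * g⁻¹ = l := by
        have h3 : g * (g * l * g⁻¹) = g * l := by rw [h1]; group
        exact mul_left_cancel h3
      rwa [h2] at hl
  · intro v; rw [hfix]; exact hJ.1 v
  · intro v hv; rw [hfix] at hv; rw [hcom]; exact hJ.2.1 v hv
  · intro v hv; rw [hcom] at hv
    exact sub_eq_zero.1 (hJ.2.2 v hv)

omit [FiniteDimensional k M] in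
theorem class_two {V₁ V₂ : Submodule k M} (hV : V₁ ≤ V₂) {X : Subgroup (LinearMap.GeneralLinearGroup k M)}
    (hX : ∀ g ∈ X, (g : M →ₗ[k] M) - 1 ∈ JJ V₁ V₂) : ⁅⁅X, X⁆, X⁆ = ⊥ := by
  rw [Subgroup.commutator_eq_bot_iff_le_centralizer, Subgroup.commutator_le]
  intro g hg h hh
  rw [Subgroup.mem_centralizer_iff]
  intro f hf
  have hg' := hX g hg
  have hh' := hX h hh
  have hf' := hX f hf
  have hu' := hX (g⁻¹ * h⁻¹) (mul_mem (inv_mem hg) (inv_mem hh))
  have e1 : ((⁅g, h⁆ : LinearMap.GeneralLinearGroup k M) : M →ₗ[k] M) - 1 =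
      (((g : M →ₗ[k] M) - 1) * ((h : M →ₗ[k] M) - 1) - ((h : M →ₗ[k] M) - 1) * ((g : M →ₗ[k] M) - 1)) *
        (((g⁻¹ * h⁻¹ : LinearMap.GeneralLinearGroup k M)) : M →ₗ[k] M) := by
    have h1 : (((g : M →ₗ[k] M) - 1) * ((h : M →ₗ[k] M) - 1) - ((h : M →ₗ[k] M) - 1) * ((g : M →ₗ[k] M) - 1)) =
      ((g * h : LinearMap.GeneralLinearGroup k M) : M →ₗ[k] M) - ((h * g : LinearMap.GeneralLinearGroup k M) : M →ₗ[k] M) := by
      rw [Units.val_mul, Units.val_mul]; noncomm_ring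
    rw [h1, sub_mul, ← Units.val_mul, ← Units.val_mul, commutatorElement_def]
    have e3 : g * h * g⁻¹ * h⁻¹ = g * h * (g⁻¹ * h⁻¹) := by group
    have e4 : h * g * (g⁻¹ * h⁻¹) = 1 := by group
    rw [e3, e4, Units.val_one]
  have e2 : ((⁅g, h⁆ : LinearMap.GeneralLinearGroup k M) : M →ₗ[k] M) - 1 =
      ((g : M →ₗ[k] M) - 1) * ((h : M →ₗ[k] M) - 1) - ((h : M →ₗ[k] M) - 1) * ((g : M →ₗ[k] M) - 1) := by
    rw [e1]
    set u := (((g⁻¹ * h⁻¹ : LinearMap.GeneralLinearGroup k M)) : M →ₗ[k] M) with hu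
    have h3 : u = 1 + (u - 1) := by abel
    rw [h3]
    generalize (u - 1) = u' at hu' ⊢
    generalize (g : M →ₗ[k] M) - 1 = g' at *
    generalize (h : M →ₗ[k] M) - 1 = h' at *
    rw [mul_add, mul_one, sub_mul, mul_assoc, mul_assoc, JJ.three hg' hh' hu', JJ.three hh' hg' hu']
    simp
  have h3 : ((f : M →ₗ[k] M) - 1) * (((⁅g, h⁆ : LinearMap.GeneralLinearGroup k M) : M →ₗ[k] M) - 1) = 0 := by
    rw [e2, mul_sub, JJ.three hf' hg' hh', JJ.three hf' hh' hg', sub_zero]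
  have h4 : (((⁅g, h⁆ : LinearMap.GeneralLinearGroup k M) : M →ₗ[k] M) - 1) * ((f : M →ₗ[k] M) - 1) = 0 := by
    rw [e2, sub_mul, mul_assoc, mul_assoc, JJ.three hg' hh' hf', JJ.three hh' hg' hf', sub_zero]
  apply Units.ext
  rw [Units.val_mul, Units.val_mul]
  have h5 : (f : M →ₗ[k] M) * ((⁅g, h⁆ : LinearMap.GeneralLinearGroup k M) : M →ₗ[k] M) =
      ((f : M →ₗ[k] M) - 1) * (((⁅g, h⁆ : LinearMap.GeneralLinearGroup k M) : M →ₗ[k] M) - 1) + f +
        ((⁅g, h⁆ : LinearMap.GeneralLinearGroup k M) : M →ₗ[k] M) - 1 := by noncomm_ring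
  have h6 : ((⁅g, h⁆ : LinearMap.GeneralLinearGroup k M) : M →ₗ[k] M) * (f : M →ₗ[k] M) =
      (((⁅g, h⁆ : LinearMap.GeneralLinearGroup k M) : M →ₗ[k] M) - 1) * ((f : M →ₗ[k] M) - 1) + f +
        ((⁅g, h⁆ : LinearMap.GeneralLinearGroup k M) : M →ₗ[k] M) - 1 := by noncomm_ring
  rw [h5, h6, h3, h4]

end Cfsg.Agent.H3.QP
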