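import Mathlib
import Cfsg.Agent.H3.QPMain
import Cfsg.Agent.H3.RankB

/-!
Quadratic pairs: unipotent pairs of root subgroups.
-/

set_option autoImplicit false

namespace Cfsg.Agent.H3.QP

open scoped commutatorElement
open Cfsg.Agent.H28

universe u v

variable {k : Type u} [Field k] {M : Type v} [AddCommGroup M] [Module k M] 
variable {G : Subgroup (LinearMap.GeneralLinearGroup k M)} {d : ℕ} {n m e w t b : M →ₗ[k] M}
variable {A B : Subgroup (LinearMap.GeneralLinearGroup k M)}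

open LinearMap (range ker)

variable [FiniteDimensional k M]

theorem not_op_of_unip (h2k : (2 : k) ≠ 0) (h3k : Nat.card k ≠ 3) (hmin : MinR G d) (hn : N1 G d n) (hm : N1 G d m)
    (hA : IsE G n A) (hB : IsE G m B) (hu : IsUnipotentOn (A ⊔ B)) : ¬ Op n m := by
  intro hop
  obtain ⟨b, hb, h1, h2⟩ := op_bar h2k h3k hmin hn hm hop
  obtain ⟨g, hg, hg1, -⟩ := hA.exists (AA.self hn.1)
  obtain ⟨f, hf, hf1, -⟩ := hB.exists hb
  have hJ := Jsp_alg (A ⊔ B)
  have hnJ : n ∈ Jsp (A ⊔ B) := by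
    have := mem_Jsp (H := A ⊔ B) (Subgroup.mem_sup_left hg)
    rw [hg1] at this
    have e : 1 + n - 1 = n := by abel
    rwa [e] at this
  have hbJ : b ∈ Jsp (A ⊔ B) := by
    have := mem_Jsp (H := A ⊔ B) (Subgroup.mem_sup_right hf)
    rw [hf1] at this
    have e : 1 + b - 1 = b := by abel
    rwa [e] at this
  have key : ∀ j : ℕ, n ∈ Jsp (A ⊔ B) ^ (j + 1) := by
    intro j
    induction j with
    | zero => rw [zero_add, pow_one]; exact hnJ
    | succ j ih =>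
      apply hJ.pow_le (j + 1)
      rw [← h1, pow_succ' _ (j + 2), pow_succ' _ (j + 1)]
      exact Submodule.mul_mem_mul hnJ (Submodule.mul_mem_mul hbJ ih)
  obtain ⟨N, hN⟩ := nil_of_unip hu
  have h3 := key N
  rw [pow_succ, hN, Submodule.bot_mul, Submodule.mem_bot] at h3
  exact hn.2.1 h3

theorem main68 (hG : IsIrreducibleFor G) (h2k : (2 : k) ≠ 0) (h3k : Nat.card k ≠ 3) (hd : QD G d) (hn : N1 G d n)
    (hm : N1 G d m) (hop : ¬ Op n m) (hA : IsE G n A) (hB : IsE G m B) (hcomm : ⁅A, B⁆ ≠ ⊥) :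
    ⁅A, B⁆ ∈ quadraticRootSubgroups G ∧
      (∀ e ∈ A, e ≠ 1 → Subgroup.closure ((fun f : LinearMap.GeneralLinearGroup k M => e * f * e⁻¹ * f⁻¹) ''
        (B : Set (LinearMap.GeneralLinearGroup k M))) = ⁅A, B⁆) ∧
      (∀ f ∈ B, f ≠ 1 → Subgroup.closure ((fun e : LinearMap.GeneralLinearGroup k M => e * f * e⁻¹ * f⁻¹) ''
        (A : Set (LinearMap.GeneralLinearGroup k M))) = ⁅A, B⁆) ∧
      ⁅A ⊔ B, A ⊔ B⁆ ≠ ⊥ ∧ ⁅⁅A ⊔ B, A ⊔ B⁆, A ⊔ B⁆ = ⊥ ∧
      ((A ⊔ B : Subgroup (LinearMap.GeneralLinearGroup k M)) : Set (LinearMap.GeneralLinearGroup k M)) ⊆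
        quadraticUnipotentCore G ⁅A, B⁆ := by
  have hne : n * m - m * n ≠ 0 := by
    intro h
    apply hcomm
    apply comm_bot
    intro f hf g hg
    obtain ⟨x, hx, hx1, -⟩ := hA.val hf
    obtain ⟨y, hy, hy1, -⟩ := hB.val hg
    rw [comm_of_one hx1 hy1]
    exact comm_all h2k h3k hd.min hn hm (sub_eq_zero.1 h) hx hy
  obtain ⟨L, hLS, hL⟩ := exists_E hd (t_N1 hd.min hn hm hop hne)
  obtain ⟨c1, c2, c3⟩ := comm_eq hG h2k h3k hd hn hm hop hne hA hB hL
  refine ⟨by rw [c1]; exact hLS, c2, c3, ?_, ?_, ?_⟩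
  · intro h
    apply hcomm
    rw [eq_bot_iff, ← h]
    exact Subgroup.commutator_mono le_sup_left le_sup_right
  · exact class_two (F1_le_F2 n m) (nonop_JJ h2k h3k hd.min hn hm hA hB hop)
  · rw [c1]
    exact core h2k h3k hd.min hn hm hop hne hA hB hL

end Cfsg.Agent.H3.QP
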