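import Mathlib
import Cfsg.Prelude.Def_RootSubgroups
import Cfsg.Agent.H3.RankB
import Cfsg.Agent.H3.RankSL2
import Cfsg.Agent.H3.QPFin

/-!
Quadratic pairs: transfer of the root subgroup axioms, the subgroups `SL₂(k)`.
-/

set_option autoImplicit false

namespace Cfsg.Agent.H3.QP

open scoped commutatorElement
open Cfsg.Agent.H28

universe u v

section transfer
variable {Γ : Type*} [Group Γ]

theorem comm_map_sub {X A B : Subgroup Γ} (hA : A ≤ X) (hB : B ≤ X) :
    (⁅A.subgroupOf X, B.subgroupOf X⁆).map X.subtype = ⁅A, B⁆ := by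
  rw [Subgroup.map_commutator, subgroupOf_map_subtype_eq hA, subgroupOf_map_subtype_eq hB]

theorem comm_le_of {X A B : Subgroup Γ} (hA : A ≤ X) (hB : B ≤ X) : ⁅A, B⁆ ≤ X :=
  (Subgroup.commutator_mono hA hB).trans (Subgroup.commutator_le_self X)

theorem comm_sub {X A B : Subgroup Γ} (hA : A ≤ X) (hB : B ≤ X) :
    ⁅A.subgroupOf X, B.subgroupOf X⁆ = ⁅A, B⁆.subgroupOf X := by
  apply Subgroup.map_injective X.subtype_injective
  rw [comm_map_sub hA hB, subgroupOf_map_subtype_eq (comm_le_of hA hB)]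

theorem conjBy_sub {X A : Subgroup Γ} (g : X) :
    conjBy (A.subgroupOf X) g = (conjBy A (g : Γ)).subgroupOf X := by
  ext x
  rw [mem_conjBy, Subgroup.mem_subgroupOf, Subgroup.mem_subgroupOf, mem_conjBy]
  rfl

theorem rcc_sub {S : Set (Subgroup Γ)} {X : Subgroup Γ} {A B : Subgroup Γ}
    (hA : A ≤ X) (hB : B ≤ X) (h : RootCommutatorCase S A B) :
    RootCommutatorCase ((fun A : Subgroup Γ => A.subgroupOf X) '' S) (A.subgroupOf X) (B.subgroupOf X) := by
  obtain ⟨h1, h2, h3, h4⟩ := h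
  refine ⟨⟨⁅A, B⁆, h1, (comm_sub hA hB).symm⟩, ?_, ?_, ?_⟩
  · rw [comm_sub hA hB]
    intro c hc x hx
    apply Subtype.ext
    apply h2 c hc
    have : (A.subgroupOf X ⊔ B.subgroupOf X).map X.subtype = A ⊔ B := by
      rw [Subgroup.map_sup, subgroupOf_map_subtype_eq hA, subgroupOf_map_subtype_eq hB]
    rw [← this]
    exact ⟨x, hx, rfl⟩
  · intro a ha ha1
    apply Subgroup.map_injective X.subtype_injective
    rw [comm_map_sub hA hB, ← h3 a ha (fun h => ha1 (Subtype.ext h)), MonoidHom.map_closure, ← Set.image_comp]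
    congr 1
    ext y
    constructor
    · rintro ⟨b, hb, rfl⟩
      exact ⟨b, hb, rfl⟩
    · rintro ⟨b, hb, rfl⟩
      exact ⟨⟨b, hB hb⟩, hb, rfl⟩
  · intro b hb hb1
    apply Subgroup.map_injective X.subtype_injective
    rw [comm_map_sub hA hB, ← h4 b hb (fun h => hb1 (Subtype.ext h)), MonoidHom.map_closure, ← Set.image_comp]
    congr 1
    ext y
    constructor
    · rintro ⟨a, ha, rfl⟩
      exact ⟨a, ha, rfl⟩
    · rintro ⟨a, ha, rfl⟩
      exact ⟨⟨a, hA ha⟩, ha, rfl⟩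

theorem iSup_sub_top (S : Set (Subgroup Γ)) :
    (⨆ A ∈ ((fun A : Subgroup Γ => A.subgroupOf (⨆ B ∈ S, B)) '' S), A) = ⊤ := by
  set X := (⨆ B ∈ S, B) with hX
  have hle : ∀ A ∈ S, A ≤ X := fun A hA => le_iSup₂_of_le (f := fun (A : Subgroup Γ) (_ : A ∈ S) => A) A hA le_rfl
  apply Subgroup.map_injective X.subtype_injective
  rw [← MonoidHom.range_eq_map, Subgroup.range_subtype, iSup_image, Subgroup.map_iSup]
  conv_rhs => rw [hX]
  apply iSup_congr
  intro A
  rw [Subgroup.map_iSup]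
  apply iSup_congr
  intro hA
  exact subgroupOf_map_subtype_eq (hle A hA)

theorem rootSet_transfer {S : Set (Subgroup Γ)} (h1 : ∀ A ∈ S, IsMulCommutative A) (h2 : ∀ A ∈ S, A ≠ ⊥)
    (h4 : ∀ A ∈ S, ∀ g ∈ (⨆ B ∈ S, B), conjBy A g ∈ S)
    (h5 : ∀ A ∈ S, ∀ B ∈ S, ⁅A, B⁆ = ⊥ ∨ IsRankOnePair A B ∨ RootCommutatorCase S A B) :
    IsRootSubgroupSet ((fun A : Subgroup Γ => A.subgroupOf (⨆ B ∈ S, B)) '' S) := by
  set X := (⨆ B ∈ S, B) with hX
  have hle : ∀ A ∈ S, A ≤ X := fun A hA => le_iSup₂_of_le (f := fun (A : Subgroup Γ) (_ : A ∈ S) => A) A hA le_rfl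
  refine ⟨?_, ?_, iSup_sub_top S, ?_, ?_⟩
  · rintro _ ⟨A, hA, rfl⟩
    have h := (h1 A hA).is_comm.comm
    refine ⟨⟨fun a b => ?_⟩⟩
    apply Subtype.ext
    apply Subtype.ext
    have h3 := congrArg (Subtype.val : A → Γ) (h ⟨a.1.1, Subgroup.mem_subgroupOf.1 a.2⟩ ⟨b.1.1, Subgroup.mem_subgroupOf.1 b.2⟩)
    exact h3
  · rintro _ ⟨A, hA, rfl⟩ h
    apply h2 A hA
    have h' : A.subgroupOf X = ⊥ := h
    rw [← subgroupOf_map_subtype_eq (hle A hA), h', Subgroup.map_bot]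
  · rintro _ ⟨A, hA, rfl⟩ g
    exact ⟨conjBy A g, h4 A hA g g.2, (conjBy_sub g).symm⟩
  · rintro _ ⟨A, hA, rfl⟩ _ ⟨B, hB, rfl⟩
    change ⁅A.subgroupOf X, B.subgroupOf X⁆ = ⊥ ∨ IsRankOnePair (A.subgroupOf X) (B.subgroupOf X) ∨ _
    rcases h5 A hA B hB with h | h | h
    · left
      rw [comm_sub (hle A hA) (hle B hB), h]
      simp
    · right; left
      exact (ro_subgroupOf (hle A hA) (hle B hB)).2 h
    · right; right
      exact rcc_sub (hle A hA) (hle B hB) h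

end transfer

variable {k : Type u} [Field k] {M : Type v} [AddCommGroup M] [Module k M]
variable {G : Subgroup (LinearMap.GeneralLinearGroup k M)} {d : ℕ} {n m e w t b : M →ₗ[k] M}
variable {A B : Subgroup (LinearMap.GeneralLinearGroup k M)}

/-- the scalar embedding -/
def phik (e : M →ₗ[k] M) : k →+ (M →ₗ[k] M) where
  toFun c := c • e
  map_zero' := zero_smul _ _
  map_add' := fun a b => add_smul _ _ _

theorem muk (h : Bar n b) (hn0 : n ≠ 0) :
    MU (phik (n * b + b * n)) (![![n * b, n], ![b, b * n]] : Fin 2 → Fin 2 → (M →ₗ[k] M)) (n * b + b * n) where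
  mul := by
    have hn' : ∀ x, n * (n * x) = 0 := fun x => by rw [← mul_assoc, h.nn, zero_mul]
    have hb' : ∀ x, b * (b * x) = 0 := fun x => by rw [← mul_assoc, h.bb, zero_mul]
    have hnbn' : ∀ x, n * (b * (n * x)) = n * x := fun x => by
      have := congrArg (· * x) h.nbn
      simpa [mul_assoc] using this
    have hbnb' : ∀ x, b * (n * (b * x)) = b * x := fun x => by
      have := congrArg (· * x) h.bnb
      simpa [mul_assoc] using this
    intro i j p q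
    fin_cases i <;> fin_cases j <;> fin_cases p <;> fin_cases q <;>
      simp [mul_assoc, h.nn, h.bb, h.nbn, h.bnb, hn', hb', hnbn', hbnb']
  sum := by simp
  comm := by
    intro c i j
    change _ * (c • (n * b + b * n)) = (c • (n * b + b * n)) * _
    rw [mul_smul_comm, smul_mul_assoc]
    congr 1
    have e1 : (n * b + b * n) * (n * b) = n * b := by rw [← mul_assoc, h.en]
    have e2 : (n * b) * (n * b + b * n) = n * b := by rw [mul_assoc, h.be]
    have e3 : (n * b + b * n) * (b * n) = b * n := by rw [← mul_assoc, h.eb]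
    have e4 : (b * n) * (n * b + b * n) = b * n := by rw [mul_assoc, h.ne]
    fin_cases i <;> fin_cases j <;> simp [h.en, h.ne, h.eb, h.be, e1, e2, e3, e4]
  fmul := by
    intro c d
    change (c * d) • (n * b + b * n) = (c • (n * b + b * n)) * (d • (n * b + b * n))
    rw [smul_mul_smul_comm, h.ee]
  one := one_smul _ _
  inj := by
    intro c d hcd
    change c • (n * b + b * n) = d • (n * b + b * n) at hcd
    have he : n * b + b * n ≠ 0 := by
      intro he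
      apply hn0
      rw [← h.ne, he, mul_zero]
    by_contra hne
    apply he
    have h1 : (c - d) • (n * b + b * n) = 0 := by rw [sub_smul, hcd, sub_self]
    exact (smul_eq_zero.1 h1).resolve_left (sub_ne_zero.2 hne)

/-- the subgroups isomorphic to `SL₂(k)` -/
theorem psl2_pair (h : Bar n b) (hn0 : n ≠ 0) (hn : NN G n) (hb : NN G b) :
    ∃ A₀ B₀ : Subgroup (LinearMap.GeneralLinearGroup k M), (∀ g ∈ A₀, ∃ c : k, (g : M →ₗ[k] M) = 1 + c • n) ∧
      (∀ g ∈ B₀, ∃ c : k, (g : M →ₗ[k] M) = 1 + c • b) ∧ IsPSL2PairOver k A₀ B₀ := by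
  set ρ := (rho (muk h hn0)).toHomUnits with hρ
  have hinj : Function.Injective ρ := fun g g' hg => rho_inj (muk h hn0) (congrArg Units.val hg)
  have hu : ∀ c : k, (ρ (uu c) : M →ₗ[k] M) = 1 + c • n := by
    intro c
    change rho (muk h hn0) (uu c) = _
    rw [rho_uu]
    change 1 + (c • (n * b + b * n)) * n = _
    rw [smul_mul_assoc, h.en]
  have hv : ∀ c : k, (ρ (vv c) : M →ₗ[k] M) = 1 + c • b := by
    intro c
    change rho (muk h hn0) (vv c) = _
    rw [rho_vv]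
    change 1 + (c • (n * b + b * n)) * b = _
    rw [smul_mul_assoc, h.eb]
  refine ⟨(upperUnipotentSL2 k).map ρ, (lowerUnipotentSL2 k).map ρ, ?_, ?_, ρ, ?_, ?_, rfl, rfl⟩
  · rintro _ ⟨g, hg, rfl⟩
    obtain ⟨c, rfl⟩ := mem_upper.1 hg
    exact ⟨c, hu c⟩
  · rintro _ ⟨g, hg, rfl⟩
    obtain ⟨c, rfl⟩ := mem_lower.1 hg
    exact ⟨c, hv c⟩
  · rw [MonoidHom.range_eq_map, ← Subgroup.map_sup, sup_comm, lower_sup_upper]
  · rw [(MonoidHom.ker_eq_bot_iff ρ).2 hinj]
    exact bot_le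

theorem card_k (h2 : (2 : k) ≠ 0) (h3 : Nat.card k ≠ 3) : 3 < ENat.card k := by
  rcases finite_or_infinite k with hf | hi
  · rw [ENat.card_eq_coe_natCard]
    exact_mod_cast card_gt h2 h3
  · rw [ENat.card_eq_top_of_infinite]
    exact ENat.coe_lt_top 3

variable [FiniteDimensional k M]

theorem op_of_ro (h2k : (2 : k) ≠ 0) (h3k : Nat.card k ≠ 3) (hmin : MinR G d) (hn : N1 G d n) (hm : N1 G d m)
    (hA : IsE G n A) (hB : IsE G m B) (h : IsRankOnePair A B) : Op n m := by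
  by_contra hop
  apply ro_not_nilpotent_sup h
  have hu := nonop_unip h2k h3k hmin hn hm hA hB hop
  exact group_nilpotent (Jsp_alg _) (nil_of_unip hu) (fun g hg => mem_Jsp hg)

theorem sl2_sub (h2k : (2 : k) ≠ 0) (h3k : Nat.card k ≠ 3) (hmin : MinR G d) (hn : N1 G d n) (hm : N1 G d m)
    (hA : IsE G n A) (hB : IsE G m B) (h : Op n m) :
    ∃ A₀ B₀ : Subgroup (LinearMap.GeneralLinearGroup k M), A₀ ≤ A ∧ B₀ ≤ B ∧
        ∃ (k₁ : Type u) (_ : Field k₁), 3 < ENat.card k₁ ∧ IsPSL2PairOver k₁ A₀ B₀ := by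
  obtain ⟨b, hb, h1, h2⟩ := op_bar h2k h3k hmin hn hm h
  have hbar : Bar n b := bar_of hn hm hb h1 h2
  obtain ⟨A₀, B₀, hA₀, hB₀, hP⟩ := psl2_pair (G := G) hbar hn.2.1 hn.1 hb.1
  refine ⟨A₀, B₀, ?_, ?_, k, inferInstance, card_k h2k h3k, hP⟩
  · intro g hg
    obtain ⟨c, hc⟩ := hA₀ g hg
    rw [hA]
    have e : (g : M →ₗ[k] M) - 1 = c • n := by rw [hc]; abel
    rw [e]; exact AA.smul (AA.self hn.1) c
  · intro g hg
    obtain ⟨c, hc⟩ := hB₀ g hg
    rw [hB]
    have e : (g : M →ₗ[k] M) - 1 = c • b := by rw [hc]; abel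
    rw [e]; exact AA.smul hb c

/-- members of `Σ` -/
theorem sigma_data {A : Subgroup (LinearMap.GeneralLinearGroup k M)} (hd : QD G d) (hA : A ∈ quadraticRootSubgroups G) :
    ∃ n, N1 G d n ∧ IsE G n A := by
  obtain ⟨σ, hσ, rfl⟩ := hA
  exact ⟨_, hd.n1 hσ, fun g => mem_E hd hσ g⟩

theorem sigma_mem (hd : QD G d) (hn : N1 G d n) (hA : IsE G n A) : A ∈ quadraticRootSubgroups G := by
  obtain ⟨L, hL, hL'⟩ := exists_E hd hn
  rwa [hA.ext hL']

theorem sigma_conj (hd : QD G d) (hA : A ∈ quadraticRootSubgroups G) {g : LinearMap.GeneralLinearGroup k M} (hg : g ∈ G) :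
    conjBy A g ∈ quadraticRootSubgroups G := by
  obtain ⟨n, hn, hA'⟩ := sigma_data hd hA
  exact sigma_mem hd (hn.conj hg) (hA'.conj hg)

/-- the three cases -/
theorem sigma_pair (hG : IsIrreducibleFor G) (h2k : (2 : k) ≠ 0) (h3k : Nat.card k ≠ 3) (hd : QD G d)
    (hA : A ∈ quadraticRootSubgroups G) (hB : B ∈ quadraticRootSubgroups G) :
    ⁅A, B⁆ = ⊥ ∨ IsRankOnePair A B ∨ RootCommutatorCase (quadraticRootSubgroups G) A B := by
  obtain ⟨n, hn, hA'⟩ := sigma_data hd hA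
  obtain ⟨m, hm, hB'⟩ := sigma_data hd hB
  by_cases hop : Op n m
  · exact Or.inr (Or.inl (rankOne h2k h3k hd.min hn hm hA' hB' hop))
  by_cases hc : ⁅A, B⁆ = ⊥
  · exact Or.inl hc
  · obtain ⟨h1, h2, h3, h4, h5, h6⟩ := main68 hG h2k h3k hd hn hm hop hA' hB' hc
    refine Or.inr (Or.inr ⟨h1, ?_, h2, h3⟩)
    intro c hc x hx
    rw [Subgroup.commutator_eq_bot_iff_le_centralizer] at h5
    have h7 : c ∈ ⁅A ⊔ B, A ⊔ B⁆ := Subgroup.commutator_mono le_sup_left le_sup_right hc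
    exact ((Subgroup.mem_centralizer_iff.1 (h5 h7)) x hx).symm

theorem sigma_notIsolated (hG : IsIrreducibleFor G) (h2k : (2 : k) ≠ 0) (h3k : Nat.card k ≠ 3) (hd : QD G d)
    (hA : A ∈ quadraticRootSubgroups G) : ∃ g ∈ G, FAdj (quadraticRootSubgroups G) A (conjBy A g) := by
  obtain ⟨n, hn, hA'⟩ := sigma_data hd hA
  obtain ⟨g, hg, hop⟩ := exists_opp hG h2k h3k hd hn
  exact ⟨g, hg, hA, sigma_conj hd hA hg, rankOne h2k h3k hd.min hn (hn.conj hg) hA' (hA'.conj hg) hop⟩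

end Cfsg.Agent.H3.QP
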