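import Mathlib
import Cfsg.Agent.H3.QPTrans

/-!
Quadratic pairs: noncommuting root subgroups have a common opposite.
-/

set_option autoImplicit false

namespace Cfsg.Agent.H3.QP

open scoped commutatorElement
open Cfsg.Agent.H28

universe u v

variable {k : Type u} [Field k] {M : Type v} [AddCommGroup M] [Module k M] 
variable {G : Subgroup (LinearMap.GeneralLinearGroup k M)} {d : ℕ} {n m e w t b : M →ₗ[k] M}
variable {A B : Subgroup (LinearMap.GeneralLinearGroup k M)}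

open LinearMap (range ker)

variable [FiniteDimensional k M]

theorem exists_common (hG : IsIrreducibleFor G) (h2k : (2 : k) ≠ 0) (h3k : Nat.card k ≠ 3) (hd : QD G d) (hn : N1 G d n) (hm : N1 G d m)
    (hop : ¬ Op n m) (hne : n * m - m * n ≠ 0) :
    ∃ q, N1 G d q ∧ Op m q ∧ Op (n * m - m * n) q := by
  have hmin := hd.min
  have ht := t_N1 hmin hn hm hop hne
  obtain ⟨z1, z2⟩ := nonop_zero hop
  obtain ⟨a1, a2, a3, a4⟩ := t_ann hn.1.1 hm.1.1 z1 z2
  have mpn := (mem_JJt h2k h3k hmin hn hm hop hne (AA.self hn.1)).2.1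
  have hne' : m * n - n * m ≠ 0 := fun h => hne (by rw [← neg_sub, h, neg_zero])
  have mpm := (mem_JJt h2k h3k hmin hm hn (fun h => hop h.symm) hne' (AA.self hm.1)).2.1
  have e0 : m * n - n * m = -(n * m - m * n) := by abel
  rw [e0, LinearMap.range_neg, LinearMap.ker_neg] at mpm
  set t := n * m - m * n with htdef
  obtain ⟨g, hg, hopt⟩ := exists_opp hG h2k h3k hd ht
  obtain ⟨b, hb, b1, b2⟩ := op_bar h2k h3k hmin ht (ht.conj hg) hopt
  have hbar : Bar t b := ⟨ht.1.1, hb.1.1, b1, b2⟩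
  have hbN : N1 G d b := AA.n1 (ht.conj hg) hb (hbar.nn_ne ht.2.1)
  obtain ⟨n2, nn1, on1, rn1⟩ := pure_part h2k hn.1 ht.1 hbN.1 hbar ⟨a1, a2, mpn⟩
  obtain ⟨m2, nm1, om1, rm1⟩ := pure_part h2k hm.1 ht.1 hbN.1 hbar ⟨a3, a4, mpm⟩
  set n₂ := (t * b + b * t) * (n * (t * b + b * t)) with hn₂
  set m₂ := (t * b + b * t) * (m * (t * b + b * t)) with hm₂
  set n₁ := n - n₂ with hn₁
  set m₁ := m - m₂ with hm₁
  have hnsum : n = n₁ + n₂ := by rw [hn₁]; abel
  have hmsum : m = m₁ + m₂ := by rw [hm₁]; abel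
  have x1 : n * m₂ = 0 := AA.mul_zero a1 (AA.self hn.1) m2
  have x2 : n₂ * m = 0 := AA.mul_zero a4 n2 (AA.self hm.1)
  have x3 : m * n₂ = 0 := AA.mul_zero a3 (AA.self hm.1) n2
  have x4 : m₂ * n = 0 := AA.mul_zero a2 m2 (AA.self hn.1)
  have x5 : n₂ * m₂ = 0 := AA.mul_eq ht.1.1 n2 m2
  have x6 : m₂ * n₂ = 0 := AA.mul_eq ht.1.1 m2 n2
  have hc1 : n₁ * m₁ - m₁ * n₁ = t := by
    have : n₁ * m₁ - m₁ * n₁ = (n * m - m * n) - n * m₂ - n₂ * m + n₂ * m₂ + m * n₂ + m₂ * n - m₂ * n₂ := by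
      rw [hn₁, hm₁]; noncomm_ring
    rw [this, x1, x2, x3, x4, x5, x6, ← htdef]; simp
  have hn1 : N1 G d n₁ := ⟨nn1, fun h => ht.2.1 (by rw [← hc1, h]; simp), rn1.trans hn.2.2⟩
  have hm1 : N1 G d m₁ := ⟨nm1, fun h => ht.2.1 (by rw [← hc1, h]; simp), rm1.trans hm.2.2⟩
  obtain ⟨x, hx, hxm⟩ := pure_surj' h2k h3k hmin hn1 hm1 ht hbar on1 om1 hbN hc1 m2
  have hnmn : n₁ * (m₁ * n₁) = 0 := by
    have h1 : (n₁ * m₁ - m₁ * n₁) * n₁ = 0 := by rw [hc1]; exact on1.tn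
    rw [sub_mul, mul_assoc m₁, on1.nn, mul_zero, sub_zero, mul_assoc] at h1
    exact h1
  have hmnm : m₁ * (n₁ * m₁) = 0 := by
    have h1 : m₁ * (n₁ * m₁ - m₁ * n₁) = 0 := by rw [hc1]; exact om1.nt
    rw [mul_sub, ← mul_assoc m₁ m₁, om1.nn, zero_mul, sub_zero] at h1
    exact h1
  have hop1 : ¬ Op n₁ m₁ := fun h => h ⟨hnmn, hmnm⟩
  have y1 := (nonop_xyx h2k h3k hmin hn1 hm1 hop1 hx (AA.self hm1.1)).1
  obtain ⟨f, hf, f1, f2⟩ := hx.1.exists_unit 1
  rw [one_smul] at f1 f2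
  have e1 : (1 + x) * m₁ * (1 - x) = m := by
    have : (1 + x) * m₁ * (1 - x) = m₁ + (x * m₁ - m₁ * x) - x * (m₁ * x) := by noncomm_ring
    rw [this, hxm, y1, sub_zero, hmsum]
  have hxt : x * t = 0 := AA.mul_zero on1.nt hx (AA.self ht.1)
  have htx : t * x = 0 := AA.mul_zero on1.tn (AA.self ht.1) hx
  have e2 : (1 + x) * t * (1 - x) = t := by
    have : (1 + x) * t * (1 - x) = t + x * t - t * x - (x * t) * x := by noncomm_ring
    rw [this, hxt, htx]; simp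
  have hxx : x * x = 0 := hx.1.1
  have e3 : (1 - x) * (1 + x) = 1 := by
    have : (1 - x) * (1 + x) = 1 - x * x := by noncomm_ring
    rw [this, hxx, sub_zero]
  -- the element `q₁`
  obtain ⟨g', hg', g1, g2⟩ := hbar.w_mem ht.1 hbN.1
  have hq0 := (hn1.conj1 hm1.1).conj hg'
  have e4 : (1 + m₁) * n₁ * (1 - m₁) = n₁ - t := by
    have : (1 + m₁) * n₁ * (1 - m₁) = n₁ - (n₁ * m₁ - m₁ * n₁) - m₁ * (n₁ * m₁) := by noncomm_ring
    rw [this, hc1, hmnm, sub_zero]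
  rw [e4, g1, g2] at hq0
  have e5 : ((1 + t) * (1 - b) * (1 + t)) * (n₁ - t) * ((1 - t) * (1 + b) * (1 - t)) = n₁ * b - b * n₁ + b := by
    rw [mul_sub, sub_mul, hat_of on1 hbar hbar rfl on1.nt on1.tn, hbar.w_conj le_rfl le_rfl, hbar.bnb]
    abel
  rw [e5] at hq0
  set q₁ := n₁ * b - b * n₁ + b with hq₁
  have c1 := club h2k h3k hmin hm1 ht hbN.1 hbar om1 hbN (AA.self hbN.1)
  have hmqm : m₁ * q₁ * m₁ = -m₁ := by
    have r1 : m₁ * q₁ * m₁ = (m₁ * n₁) * (b * m₁) - (m₁ * b) * (n₁ * m₁) + m₁ * (b * m₁) := by rw [hq₁]; noncomm_ring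
    have r2 : m₁ * n₁ = n₁ * m₁ - t := by rw [← hc1]; abel
    have r3 : n₁ * m₁ = m₁ * n₁ + t := by rw [← hc1]; abel
    have r4 : (m₁ * n₁) * (b * m₁) = n₁ * (m₁ * (b * m₁)) - t * b * m₁ := by rw [r2]; noncomm_ring
    have r5 : (m₁ * b) * (n₁ * m₁) = (m₁ * (b * m₁)) * n₁ + m₁ * b * t := by rw [r3]; noncomm_ring
    rw [r1, r4, r5, c1]
    have r6 := om1.odd
    have r7 : (t * b + b * t) * m₁ = t * b * m₁ := by rw [add_mul, mul_assoc b, om1.tn, mul_zero, add_zero]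
    have r8 : m₁ * (t * b + b * t) = m₁ * b * t := by rw [mul_add, ← mul_assoc, om1.nt, zero_mul, zero_add, mul_assoc]
    rw [r7, r8] at r6
    simp only [mul_zero, zero_mul, zero_sub, zero_add, add_zero]
    conv_rhs => rw [← r6]
    abel
  have htqt : t * q₁ * t = t := by
    have r1 : t * q₁ * t = (t * n₁) * b * t - t * b * (n₁ * t) + t * (b * t) := by rw [hq₁]; noncomm_ring
    rw [r1, on1.tn, on1.nt, hbar.nbn]; simp
  refine ⟨(1 + x) * q₁ * (1 - x), ?_, ?_, ?_⟩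
  · have := hq0.conj hf
    rwa [f1, f2] at this
  · intro h
    apply hm.2.1
    have h5 : m * ((1 + x) * q₁ * (1 - x) * m) = -m := by
      rw [← e1]
      have : (1 + x) * m₁ * (1 - x) * ((1 + x) * q₁ * (1 - x) * ((1 + x) * m₁ * (1 - x))) =
          (1 + x) * m₁ * ((1 - x) * (1 + x)) * q₁ * ((1 - x) * (1 + x)) * m₁ * (1 - x) := by simp only [mul_assoc]
      rw [this, e3]
      have : (1 + x) * m₁ * 1 * q₁ * 1 * m₁ * (1 - x) = (1 + x) * (m₁ * q₁ * m₁) * (1 - x) := by simp only [mul_assoc, one_mul]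
      rw [this, hmqm, mul_neg, neg_mul]
    rw [h.1] at h5
    exact neg_eq_zero.1 h5.symm
  · intro h
    apply ht.2.1
    have h5 : t * ((1 + x) * q₁ * (1 - x) * t) = t := by
      have k0 : t = (1 + x) * t * (1 - x) := e2.symm
      have : (1 + x) * t * (1 - x) * ((1 + x) * q₁ * (1 - x) * ((1 + x) * t * (1 - x))) =
          (1 + x) * t * ((1 - x) * (1 + x)) * q₁ * ((1 - x) * (1 + x)) * t * (1 - x) := by simp only [mul_assoc]
      rw [e2, e3] at this
      rw [this]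
      have : (1 + x) * t * 1 * q₁ * 1 * t * (1 - x) = (1 + x) * (t * q₁ * t) * (1 - x) := by simp only [mul_assoc, one_mul]
      rw [this, htqt, e2]
    rw [h.1] at h5
    exact h5.symm

/-- connectivity -/
theorem FAdj_of_op (h2k : (2 : k) ≠ 0) (h3k : Nat.card k ≠ 3) (hd : QD G d) (hn : N1 G d n) (hm : N1 G d m) (hA : IsE G n A) (hB : IsE G m B)
    (h : Op n m) : FAdj (quadraticRootSubgroups G) A B :=
  ⟨sigma_mem hd hn hA, sigma_mem hd hm hB, rankOne h2k h3k hd.min hn hm hA hB h⟩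

theorem conn_L (hG : IsIrreducibleFor G) (h2k : (2 : k) ≠ 0) (h3k : Nat.card k ≠ 3) (hd : QD G d) (hn : N1 G d n) (hm : N1 G d m)
    (hop : ¬ Op n m) (hne : n * m - m * n ≠ 0) (hB : IsE G m B) {L : Subgroup (LinearMap.GeneralLinearGroup k M)}
    (hL : IsE G (n * m - m * n) L) : Relation.ReflTransGen (FAdj (quadraticRootSubgroups G)) B L := by
  obtain ⟨q, hq, h1, h2⟩ := exists_common hG h2k h3k hd hn hm hop hne
  obtain ⟨Q, hQ, hQ'⟩ := exists_E hd hq
  have ht := t_N1 hd.min hn hm hop hne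
  exact (Relation.ReflTransGen.single (FAdj_of_op h2k h3k hd hm hq hB hQ' h1)).tail
    (FAdj_of_op h2k h3k hd hq ht hQ' hL h2.symm)

theorem FAdj_symm {Γ : Type*} [Group Γ] {S : Set (Subgroup Γ)} {A B : Subgroup Γ} (h : FAdj S A B) : FAdj S B A :=
  ⟨h.2.1, h.1, RankOnePair_symm h.2.2⟩

theorem conn_symm {Γ : Type*} [Group Γ] {S : Set (Subgroup Γ)} {A B : Subgroup Γ} (h : Relation.ReflTransGen (FAdj S) A B) :
    Relation.ReflTransGen (FAdj S) B A := by
  induction h with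
  | refl => exact Relation.ReflTransGen.refl
  | tail _ h ih => exact (Relation.ReflTransGen.single (FAdj_symm h)).trans ih

/-- noncommuting members are connected -/
theorem conn_of_ncomm (hG : IsIrreducibleFor G) (h2k : (2 : k) ≠ 0) (h3k : Nat.card k ≠ 3) (hd : QD G d)
    (hA : A ∈ quadraticRootSubgroups G) (hB : B ∈ quadraticRootSubgroups G) (hAB : ⁅A, B⁆ ≠ ⊥) :
    Relation.ReflTransGen (FAdj (quadraticRootSubgroups G)) A B ∧
      (¬ IsRankOnePair A B → Relation.ReflTransGen (FAdj (quadraticRootSubgroups G)) A ⁅A, B⁆) := by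
  obtain ⟨n, hn, hA'⟩ := sigma_data hd hA
  obtain ⟨m, hm, hB'⟩ := sigma_data hd hB
  by_cases hop : Op n m
  · have h1 := FAdj_of_op h2k h3k hd hn hm hA' hB' hop
    exact ⟨Relation.ReflTransGen.single h1, fun h => absurd h1.2.2 h⟩
  · have hne : n * m - m * n ≠ 0 := by
      intro h
      apply hAB
      apply comm_bot
      intro f hf g hg
      obtain ⟨x, hx, hx1, -⟩ := hA'.val hf
      obtain ⟨y, hy, hy1, -⟩ := hB'.val hg
      rw [comm_of_one hx1 hy1]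
      exact comm_all h2k h3k hd.min hn hm (sub_eq_zero.1 h) hx hy
    obtain ⟨L, hLS, hL⟩ := exists_E hd (t_N1 hd.min hn hm hop hne)
    obtain ⟨c1, -, -⟩ := comm_eq hG h2k h3k hd hn hm hop hne hA' hB' hL
    have h1 := conn_L hG h2k h3k hd hn hm hop hne hB' hL
    have hL' : IsE G (m * n - n * m) L := by
      intro x
      rw [hL x]
      have : m * n - n * m = -(n * m - m * n) := by abel
      rw [this, AA_neg]
    have hne' : m * n - n * m ≠ 0 := fun h => hne (by rw [← neg_sub, h, neg_zero])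
    have h2 := conn_L hG h2k h3k hd hm hn (fun h => hop h.symm) hne' hA' hL'
    exact ⟨h2.trans (conn_symm h1), fun _ => by rw [c1]; exact h2⟩

end Cfsg.Agent.H3.QP
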