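import Mathlib
import Cfsg.Agent.H3.QPConn

/-!
Quadratic pairs: subnormal unipotent subgroups.
-/

set_option autoImplicit false

namespace Cfsg.Agent.H3.QP

open scoped commutatorElement
open Cfsg.Agent.H28

universe u v

section grp
variable {Γ : Type*} [Group Γ]

theorem comm_le_normal {N A : Subgroup Γ} (hN : ∀ a ∈ A, ∀ x ∈ N, a * x * a⁻¹ ∈ N) (hA : ∀ a ∈ A, ∀ b ∈ A, a * b = b * a)
    {x : Γ} (hx : x ∈ N) : ⁅A ⊔ conjBy A x, A ⊔ conjBy A x⁆ ≤ N := by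
  let K : Subgroup Γ := {
    carrier := {g | ∃ y ∈ N, ∃ a ∈ A, g = y * a}
    mul_mem' := by
      rintro _ _ ⟨y, hy, a, ha, rfl⟩ ⟨z, hz, b, hb, rfl⟩
      refine ⟨y * (a * z * a⁻¹), mul_mem hy (hN a ha z hz), a * b, mul_mem ha hb, by group⟩
    one_mem' := ⟨1, one_mem _, 1, one_mem _, by simp⟩
    inv_mem' := by
      rintro _ ⟨y, hy, a, ha, rfl⟩
      refine ⟨a⁻¹ * y⁻¹ * a⁻¹⁻¹, hN a⁻¹ (inv_mem ha) _ (inv_mem hy), a⁻¹, inv_mem ha, by group⟩ }
  have hK : A ⊔ conjBy A x ≤ K := by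
    apply sup_le
    · intro a ha
      exact ⟨1, one_mem _, a, ha, by simp⟩
    · rintro _ ⟨a, ha, rfl⟩
      refine ⟨x * (a * x⁻¹ * a⁻¹), mul_mem hx (hN a ha _ (inv_mem hx)), a, ha, ?_⟩
      change x * a * x⁻¹ = _
      group
  rw [Subgroup.commutator_le]
  intro g hg h hh
  obtain ⟨y, hy, a, ha, rfl⟩ := hK hg
  obtain ⟨z, hz, b, hb, rfl⟩ := hK hh
  have e : ⁅y * a, z * b⁆ = y * (a * z * a⁻¹) * (b * y⁻¹ * b⁻¹) * z⁻¹ := by
    rw [commutatorElement_def]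
    have h1 : a * b * a⁻¹ = b := by rw [hA a ha b hb]; group
    calc y * a * (z * b) * (y * a)⁻¹ * (z * b)⁻¹ = y * (a * z * a⁻¹) * (a * b * a⁻¹) * y⁻¹ * b⁻¹ * z⁻¹ := by group
      _ = _ := by rw [h1]; group
  rw [e]
  exact mul_mem (mul_mem (mul_mem hy (hN a ha z hz)) (hN b hb _ (inv_mem hy))) (inv_mem hz)

end grp

variable {k : Type u} [Field k] {M : Type v} [AddCommGroup M] [Module k M] 
variable {G : Subgroup (LinearMap.GeneralLinearGroup k M)} {d : ℕ} {n m e w t b : M →ₗ[k] M}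
variable {A B : Subgroup (LinearMap.GeneralLinearGroup k M)}

open LinearMap (range ker)

/-- conjugation as an algebra homomorphism -/
def conjAlg (g : LinearMap.GeneralLinearGroup k M) : (M →ₗ[k] M) →ₐ[k] (M →ₗ[k] M) where
  toFun x := (g : M →ₗ[k] M) * x * ((g⁻¹ : LinearMap.GeneralLinearGroup k M) : M →ₗ[k] M)
  map_one' := by rw [mul_one, Units.mul_inv]
  map_mul' x y := by
    have : (g : M →ₗ[k] M) * x * ((g⁻¹ : LinearMap.GeneralLinearGroup k M) : M →ₗ[k] M) *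
        ((g : M →ₗ[k] M) * y * ((g⁻¹ : LinearMap.GeneralLinearGroup k M) : M →ₗ[k] M)) =
        (g : M →ₗ[k] M) * x * (((g⁻¹ : LinearMap.GeneralLinearGroup k M) : M →ₗ[k] M) * (g : M →ₗ[k] M)) * y *
        ((g⁻¹ : LinearMap.GeneralLinearGroup k M) : M →ₗ[k] M) := by simp only [mul_assoc]
    rw [this, Units.inv_mul, mul_one]
    simp only [mul_assoc]
  map_zero' := by rw [mul_zero, zero_mul]
  map_add' x y := by rw [mul_add, add_mul]
  commutes' c := by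
    rw [Algebra.algebraMap_eq_smul_one, mul_smul_comm, mul_one, smul_mul_assoc, Units.mul_inv]

theorem Jsp_conj (U : Subgroup (LinearMap.GeneralLinearGroup k M)) (g : LinearMap.GeneralLinearGroup k M) :
    Jsp (conjBy U g) ≤ (Jsp U).map (conjAlg g).toLinearMap := by
  apply Jsp_le
  rintro _ ⟨u, hu, rfl⟩
  refine ⟨(u : M →ₗ[k] M) - 1, mem_Jsp hu, ?_⟩
  change (g : M →ₗ[k] M) * ((u : M →ₗ[k] M) - 1) * ((g⁻¹ : LinearMap.GeneralLinearGroup k M) : M →ₗ[k] M) = _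
  rw [mul_sub, sub_mul, mul_one, Units.mul_inv]
  rfl

theorem Nil_conj {U : Subgroup (LinearMap.GeneralLinearGroup k M)} (h : Nil (Jsp U)) (g : LinearMap.GeneralLinearGroup k M) :
    Nil (Jsp (conjBy U g)) := by
  obtain ⟨n, hn⟩ := h
  refine Nil.mono ⟨n, ?_⟩ (Jsp_conj U g)
  have := Submodule.map_pow (Jsp U) (conjAlg g) n
  change (Jsp U ^ n).map (conjAlg g).toLinearMap = _ at this
  rw [hn, Submodule.map_bot] at this
  exact this.symm

/-- no nontrivial normal unipotent subgroup -/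
def NoUni (Y : Subgroup (LinearMap.GeneralLinearGroup k M)) : Prop :=
  ∀ U : Subgroup (LinearMap.GeneralLinearGroup k M), U ≤ Y → (∀ y ∈ Y, ∀ u ∈ U, y * u * y⁻¹ ∈ U) → Nil (Jsp U) → U = ⊥

variable [FiniteDimensional k M]

theorem NoUni.of_irr (hG : IsIrreducibleFor G) : NoUni G := by
  intro U hUG hU hN
  have hbot := irr_nil hG hN (by
    intro g hg x hx
    unfold Jsp at hx
    induction hx using Submodule.span_induction with
    | mem x hx =>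
      obtain ⟨h, hh, rfl⟩ := hx
      have h2 := mem_Jsp (hU g hg h hh)
      rw [Units.val_mul, Units.val_mul] at h2
      rw [mul_sub, sub_mul, mul_one, Units.mul_inv]
      exact h2
    | zero => rw [mul_zero, zero_mul]; exact zero_mem _
    | add x y _ _ hx hy => rw [mul_add, add_mul]; exact add_mem hx hy
    | smul c x _ hx => rw [mul_smul_comm, smul_mul_assoc]; exact Submodule.smul_mem _ _ hx)
  rw [eq_bot_iff]
  intro u hu
  have h1 := mem_Jsp hu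
  rw [hbot, Submodule.mem_bot, sub_eq_zero] at h1
  rw [Subgroup.mem_bot]
  exact Units.ext h1

theorem NoUni.normal {Y N : Subgroup (LinearMap.GeneralLinearGroup k M)} (hY : NoUni Y) (hNY : N ≤ Y)
    (hN : ∀ y ∈ Y, ∀ x ∈ N, y * x * y⁻¹ ∈ N) : NoUni N := by
  intro U hUN hU hnil
  let W : Set (Subgroup (LinearMap.GeneralLinearGroup k M)) := {B | ∃ y ∈ Y, B = conjBy U y}
  have hWN : ∀ B ∈ W, B ≤ N := by
    rintro _ ⟨y, hy, rfl⟩ _ ⟨u, hu, rfl⟩
    exact hN y hy u (hUN hu)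
  have hWn : ∀ B ∈ W, ∀ x ∈ N, ∀ b ∈ B, x * b * x⁻¹ ∈ B := by
    rintro _ ⟨y, hy, rfl⟩ x hx b hb
    rw [mem_conjBy] at hb ⊢
    have h1 : y⁻¹ * x * y⁻¹⁻¹ ∈ N := hN y⁻¹ (inv_mem hy) x hx
    have h2 := hU _ h1 _ hb
    have e : y⁻¹ * x * y⁻¹⁻¹ * (y⁻¹ * b * y) * (y⁻¹ * x * y⁻¹⁻¹)⁻¹ = y⁻¹ * (x * b * x⁻¹) * y := by group
    rwa [e] at h2
  have hWW : ∀ B ∈ W, ∀ C ∈ W, IsUnipotentOn (B ⊔ C) := by
    intro B hB C hC
    have hB' : Nil (Jsp B) := by obtain ⟨y, hy, rfl⟩ := hB; exact Nil_conj hnil y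
    have hC' : Nil (Jsp C) := by obtain ⟨y, hy, rfl⟩ := hC; exact Nil_conj hnil y
    obtain ⟨J, hJ, hJn, hJ1, hJ2⟩ := alg_nil_sup (Jsp_alg B) (Jsp_alg C) hB' hC'
      (Jsp_normal (fun g hg z hz => hWn B hB g (hWN C hC hg) z hz))
    refine unip_of_nil hJn (J := J) ?_
    have : B ⊔ C ≤ UG hJ := sup_le (fun b hb => hJ1 (mem_Jsp hb)) (fun c hc => hJ2 (mem_Jsp hc))
    intro g hg
    exact this hg
  have hconj : ∀ B ∈ W, ∀ g ∈ Y, conjBy B g ∈ W := by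
    rintro _ ⟨y, hy, rfl⟩ g hg
    exact ⟨g * y, mul_mem hg hy, conjBy_conjBy _ _ _⟩
  have hUF := baer_suzuki (fun B hB => (hWN B hB).trans hNY) hWW hconj
  have hVbot := hY (⨆ B ∈ W, B) (iSup₂_le (fun B hB => (hWN B hB).trans hNY)) (by
    intro y hy u hu
    have hle : (⨆ B ∈ W, B) ≤ (⨆ B ∈ W, B).comap (MulAut.conj y).toMonoidHom := by
      refine iSup₂_le (fun B hB => ?_)
      rw [← Subgroup.map_le_iff_le_comap]
      exact le_iSup₂_of_le (f := fun (A : Subgroup (LinearMap.GeneralLinearGroup k M)) (_ : A ∈ W) => A) _ (hconj B hB y hy) le_rfl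
    exact hle hu) hUF.jsp
  rw [eq_bot_iff, ← hVbot]
  have hUW : U ∈ W := ⟨1, one_mem _, (conjBy_one U).symm⟩
  exact le_iSup₂_of_le (f := fun (A : Subgroup (LinearMap.GeneralLinearGroup k M)) (_ : A ∈ W) => A) _ hUW le_rfl

end Cfsg.Agent.H3.QP
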