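import Mathlib
import Cfsg.Agent.H3.QPUni

/-!
Quadratic pairs: quasisimplicity of the components.
-/

set_option autoImplicit false

namespace Cfsg.Agent.H3.QP

open scoped commutatorElement
open Cfsg.Agent.H28

universe u v

variable {k : Type u} [Field k] {M : Type v} [AddCommGroup M] [Module k M] 
variable {G : Subgroup (LinearMap.GeneralLinearGroup k M)} {d : ℕ} {n m e w t b : M →ₗ[k] M}
variable {A B : Subgroup (LinearMap.GeneralLinearGroup k M)}

open LinearMap (range ker)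

theorem bar_perfect (h2k : (2 : k) ≠ 0) (h3k : Nat.card k ≠ 3) (h : Bar n b) (hn0 : n ≠ 0)
    {H : Subgroup (LinearMap.GeneralLinearGroup k M)}
    (h1 : ∀ (c : k) (g : LinearMap.GeneralLinearGroup k M), (g : M →ₗ[k] M) = 1 + c • n → g ∈ H)
    (h2 : ∀ (c : k) (g : LinearMap.GeneralLinearGroup k M), (g : M →ₗ[k] M) = 1 + c • b → g ∈ H)
    {g : LinearMap.GeneralLinearGroup k M} (hg : (g : M →ₗ[k] M) = 1 + n) : g ∈ ⁅H, H⁆ := by
  set ρ := (rho (muk h hn0)).toHomUnits with hρ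
  have hu : ∀ c : k, (ρ (uu c) : M →ₗ[k] M) = 1 + c • n := by
    intro c
    change rho (muk h hn0) (uu c) = _
    rw [rho_uu]
    change 1 + (c • (n * b + b * n)) * n = _
    rw [smul_mul_assoc, h.en]
  have hv : ∀ c : k, (ρ (vv c) : M →ₗ[k] M) = 1 + c • b := by
    intro c
    change rho (muk h hn0) (vv c) = _
    rw [rho_vv]
    change 1 + (c • (n * b + b * n)) * b = _
    rw [smul_mul_assoc, h.eb]
  have htop : H.comap ρ = ⊤ := top_of_uv (fun c => h1 c _ (hu c)) (fun c => h2 c _ (hv c))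
  have hmap : (⊤ : Subgroup (Matrix.SpecialLinearGroup (Fin 2) k)).map ρ ≤ H := by
    rw [Subgroup.map_le_iff_le_comap, htop]
  obtain ⟨c, hc, hc2⟩ := exists_sq_ne h2k h3k
  have hp := perfect_top hc hc2
  have h3 : ρ (uu 1) ∈ ⁅H, H⁆ := by
    have h4 : uu (1 : k) ∈ ⁅(⊤ : Subgroup (Matrix.SpecialLinearGroup (Fin 2) k)), (⊤ : Subgroup (Matrix.SpecialLinearGroup (Fin 2) k))⁆ := by
      rw [hp]; trivial
    have h5 : ρ (uu 1) ∈ (⁅(⊤ : Subgroup (Matrix.SpecialLinearGroup (Fin 2) k)), (⊤ : Subgroup (Matrix.SpecialLinearGroup (Fin 2) k))⁆).map ρ :=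
      ⟨_, h4, rfl⟩
    rw [Subgroup.map_commutator] at h5
    exact Subgroup.commutator_mono hmap hmap h5
  have h6 : ρ (uu 1) = g := Units.ext (by rw [hu, hg, one_smul])
  rwa [h6] at h3

variable [FiniteDimensional k M]

theorem perfect_pair (h2k : (2 : k) ≠ 0) (h3k : Nat.card k ≠ 3) (hd : QD G d)
    (hA : A ∈ quadraticRootSubgroups G) (hB : B ∈ quadraticRootSubgroups G) (h : IsRankOnePair A B) : A ≤ ⁅A ⊔ B, A ⊔ B⁆ := by
  obtain ⟨n, hn, hA'⟩ := sigma_data hd hA
  obtain ⟨m, hm, hB'⟩ := sigma_data hd hB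
  have hop := op_of_ro h2k h3k hd.min hn hm hA' hB' h
  intro g hg
  obtain ⟨x, hx, hx1, -⟩ := hA'.val hg
  by_cases hx0 : x = 0
  · have : g = 1 := Units.ext (by rw [hx1, hx0, add_zero, Units.val_one])
    rw [this]; exact one_mem _
  have hx' := AA.n1 hn hx hx0
  obtain ⟨b, hb, h1, h2⟩ := op_bar h2k h3k hd.min hx' hm (op_congr h2k h3k hd.min hn hm hx (AA.self hm.1) hx0 hm.2.1 hop)
  have hbar : Bar x b := bar_of hx' hm hb h1 h2
  refine bar_perfect h2k h3k hbar hx0 ?_ ?_ hx1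
  · intro c g hg
    apply Subgroup.mem_sup_left
    rw [hA']
    have e : (g : M →ₗ[k] M) - 1 = c • x := by rw [hg]; abel
    rw [e]; exact AA.smul hx c
  · intro c g hg
    apply Subgroup.mem_sup_right
    rw [hB']
    have e : (g : M →ₗ[k] M) - 1 = c • b := by rw [hg]; abel
    rw [e]; exact AA.smul hb c

/-- a good class of root subgroups -/
structure GC (G : Subgroup (LinearMap.GeneralLinearGroup k M)) (C : Set (Subgroup (LinearMap.GeneralLinearGroup k M))) : Prop where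
  ne : C.Nonempty
  sub : C ⊆ quadraticRootSubgroups G
  conj : ∀ A ∈ C, ∀ g ∈ (⨆ B ∈ C, B), conjBy A g ∈ C
  trans : ∀ A ∈ C, ∀ B ∈ C, ∃ g ∈ (⨆ B ∈ C, B), B = conjBy A g
  comm : ∀ A ∈ C, ∀ B ∈ C, ⁅A, B⁆ ≠ ⊥ → ¬ IsRankOnePair A B → ⁅A, B⁆ ∈ C
  opp : ∀ A ∈ C, ∃ B ∈ C, IsRankOnePair A B
  nouni : NoUni (⨆ B ∈ C, B)

variable {C : Set (Subgroup (LinearMap.GeneralLinearGroup k M))}

omit [FiniteDimensional k M] in
theorem le_X {A : Subgroup (LinearMap.GeneralLinearGroup k M)} (hA : A ∈ C) : A ≤ (⨆ B ∈ C, B) :=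
  le_iSup₂_of_le (f := fun (A : Subgroup (LinearMap.GeneralLinearGroup k M)) (_ : A ∈ C) => A) A hA le_rfl

omit [FiniteDimensional k M] in
theorem GC.all_le (h : GC G C) {N : Subgroup (LinearMap.GeneralLinearGroup k M)}
    (hN : ∀ g ∈ (⨆ B ∈ C, B), ∀ x ∈ N, g * x * g⁻¹ ∈ N) {A : Subgroup (LinearMap.GeneralLinearGroup k M)} (hA : A ∈ C)
    (hAN : A ≤ N) : (⨆ B ∈ C, B) ≤ N := by
  refine iSup₂_le (fun B hB => ?_)
  obtain ⟨g, hg, rfl⟩ := h.trans A hA B hB
  rintro _ ⟨a, ha, rfl⟩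
  exact hN g hg a (hAN ha)

theorem GC.perfect (h2k : (2 : k) ≠ 0) (h3k : Nat.card k ≠ 3) (hd : QD G d) (h : GC G C) :
    ⁅(⨆ B ∈ C, B : Subgroup (LinearMap.GeneralLinearGroup k M)), (⨆ B ∈ C, B)⁆ = (⨆ B ∈ C, B) := by
  apply le_antisymm (Subgroup.commutator_le_self _)
  refine iSup₂_le (fun A hA => ?_)
  obtain ⟨B, hB, hAB⟩ := h.opp A hA
  refine (perfect_pair h2k h3k hd (h.sub hA) (h.sub hB) hAB).trans ?_
  exact Subgroup.commutator_mono (sup_le (le_X hA) (le_X hB)) (sup_le (le_X hA) (le_X hB))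

theorem GC.normal (h2k : (2 : k) ≠ 0) (h3k : Nat.card k ≠ 3) (hd : QD G d) (h : GC G C)
    {N : Subgroup (LinearMap.GeneralLinearGroup k M)} (hNX : N ≤ (⨆ B ∈ C, B))
    (hN : ∀ g ∈ (⨆ B ∈ C, B), ∀ x ∈ N, g * x * g⁻¹ ∈ N) :
    (⨆ B ∈ C, B) ≤ N ∨ ∀ x ∈ N, ∀ g ∈ (⨆ B ∈ C, B), x * g = g * x := by
  by_cases hcase : (⨆ B ∈ C, B) ≤ N
  · exact Or.inl hcase
  right
  have hnot : ∀ A ∈ C, ¬ A ≤ N := fun A hA hAN => hcase (h.all_le hN hA hAN)
  have hab : ∀ A ∈ C, ∀ a ∈ A, ∀ b ∈ A, a * b = b * a := by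
    intro A hA a ha b hb
    obtain ⟨n, hn, hA'⟩ := sigma_data hd (h.sub hA)
    exact hA'.comm hn a ha b hb
  have hNno : NoUni N := h.nouni.normal hNX hN
  have key : ∀ A ∈ C, ∀ a ∈ A, ∀ x ∈ N, a * x = x * a := by
    intro A hA a ha x hx
    have hAX := le_X hA
    -- all conjugates commute
    have hcx : ∀ x ∈ N, ⁅A, conjBy A x⁆ = ⊥ ∧ ¬ IsRankOnePair A (conjBy A x) := by
      intro x hx
      have hAxC := h.conj A hA x (hNX hx)
      have hle := comm_le_normal (N := N) (A := A) (fun a ha x hx => hN a (hAX ha) x hx) (hab A hA) hx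
      have h1 : ¬ IsRankOnePair A (conjBy A x) := by
        intro hr
        exact hnot A hA ((perfect_pair h2k h3k hd (h.sub hA) (h.sub hAxC) hr).trans hle)
      refine ⟨?_, h1⟩
      by_contra h2
      have h3 := h.comm A hA _ hAxC h2 h1
      exact hnot _ h3 ((Subgroup.commutator_mono le_sup_left le_sup_right).trans hle)
    let W : Set (Subgroup (LinearMap.GeneralLinearGroup k M)) := {B | ∃ y ∈ N, B = conjBy A y}
    have hWC : ∀ B ∈ W, B ∈ C := by
      rintro _ ⟨y, hy, rfl⟩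
      exact h.conj A hA y (hNX hy)
    have hWcomm : ∀ B ∈ W, ∀ D ∈ W, ⁅B, D⁆ = ⊥ ∧ ¬ IsRankOnePair B D := by
      rintro _ ⟨y, hy, rfl⟩ _ ⟨z, hz, rfl⟩
      obtain ⟨h1, h2⟩ := hcx (y⁻¹ * z) (mul_mem (inv_mem hy) hz)
      have h3 : conjBy A z = conjBy (conjBy A (y⁻¹ * z)) y := by
        rw [conjBy_conjBy]; congr 1; group
      constructor
      · rw [h3]
        change ⁅A.map (MulAut.conj y).toMonoidHom, (conjBy A (y⁻¹ * z)).map (MulAut.conj y).toMonoidHom⁆ = ⊥
        rw [← Subgroup.map_commutator, h1, Subgroup.map_bot]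
      · intro h4
        rw [h3] at h4
        exact h2 (ro_conj_iff.1 h4)
    have hVcomm : ∀ g ∈ (⨆ B ∈ W, B), ∀ B ∈ W, ∀ b ∈ B, g * b = b * g := by
      intro g hg B hB b hb
      have hle : (⨆ B ∈ W, B) ≤ Subgroup.centralizer (B : Set (LinearMap.GeneralLinearGroup k M)) := by
        refine iSup₂_le (fun D hD => ?_)
        exact Subgroup.commutator_eq_bot_iff_le_centralizer.1 (hWcomm D hD B hB).1
      exact ((Subgroup.mem_centralizer_iff.1 (hle hg)) b hb).symm
    have hUF : UF W := by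
      refine baer_suzuki (G := (⨆ B ∈ W, B)) (fun B hB => le_X hB) ?_ ?_
      · intro B hB D hD
        obtain ⟨n, hn, hB'⟩ := sigma_data hd (h.sub (hWC B hB))
        obtain ⟨m, hm, hD'⟩ := sigma_data hd (h.sub (hWC D hD))
        exact nonop_unip h2k h3k hd.min hn hm hB' hD'
          (fun hop => (hWcomm B hB D hD).2 (rankOne h2k h3k hd.min hn hm hB' hD' hop))
      · intro B hB g hg
        have : conjBy B g = B := by
          ext y
          rw [mem_conjBy]
          constructor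
          · intro hy
            have h1 := hVcomm g hg B hB _ hy
            have h2 : g⁻¹ * y * g = y := by
              have h3 : g * (g⁻¹ * y * g) = y * g := by group
              rw [h3] at h1
              exact (mul_right_cancel h1).symm
            rwa [h2] at hy
          · intro hy
            have h1 := hVcomm g hg B hB y hy
            have h2 : g⁻¹ * y * g = y := by rw [mul_assoc, ← h1]; group
            rw [h2]; exact hy
        rw [this]; exact hB
    -- the intersection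
    have hUbot := hNno ((⨆ B ∈ W, B : Subgroup (LinearMap.GeneralLinearGroup k M)) ⊓ N) inf_le_right (by
      rintro y hy u ⟨hu1, hu2⟩
      refine ⟨?_, hN y (hNX hy) u hu2⟩
      have hle : (⨆ B ∈ W, B : Subgroup (LinearMap.GeneralLinearGroup k M)) ≤ (⨆ B ∈ W, B : Subgroup (LinearMap.GeneralLinearGroup k M)).comap (MulAut.conj y).toMonoidHom := by
        refine iSup₂_le (fun B hB => ?_)
        rw [← Subgroup.map_le_iff_le_comap]
        obtain ⟨z, hz, rfl⟩ := hB
        have : conjBy A (y * z) ∈ W := ⟨y * z, mul_mem hy hz, rfl⟩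
        refine le_trans ?_ (le_X this)
        rw [← conjBy_conjBy]
      exact hle hu1) (hUF.jsp.mono (Jsp_mono inf_le_left))
    have hW1 : A ∈ W := ⟨1, one_mem _, (conjBy_one A).symm⟩
    have hWx : conjBy A x ∈ W := ⟨x, hx, rfl⟩
    have hxa : x * a⁻¹ * x⁻¹ ∈ conjBy A x := ⟨a⁻¹, inv_mem ha, rfl⟩
    have h5 : a * (x * a⁻¹ * x⁻¹) ∈ (⨆ B ∈ W, B : Subgroup (LinearMap.GeneralLinearGroup k M)) ⊓ N := by
      constructor
      · apply mul_mem
        · exact le_X hW1 ha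
        · exact le_X hWx hxa
      · have e : a * (x * a⁻¹ * x⁻¹) = (a * x * a⁻¹) * x⁻¹ := by group
        change a * (x * a⁻¹ * x⁻¹) ∈ N
        rw [e]
        exact mul_mem (hN a (hAX ha) x hx) (inv_mem hx)
    rw [hUbot, Subgroup.mem_bot] at h5
    have e : a * x = (a * (x * a⁻¹ * x⁻¹)) * (x * a) := by group
    rw [e, h5, one_mul]
  intro x hx g hg
  have hle : (⨆ B ∈ C, B) ≤ Subgroup.centralizer ({x} : Set (LinearMap.GeneralLinearGroup k M)) := by
    refine iSup₂_le (fun A hA a ha => ?_)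
    rw [Subgroup.mem_centralizer_iff]
    intro y hy
    rw [Set.mem_singleton_iff] at hy
    rw [hy]
    exact (key A hA a ha x hx).symm
  exact (Subgroup.mem_centralizer_iff.1 (hle hg)) x rfl

theorem GC.quasisimple (h2k : (2 : k) ≠ 0) (h3k : Nat.card k ≠ 3) (hd : QD G d) (h : GC G C) :
    IsQuasisimple ↥(⨆ B ∈ C, B : Subgroup (LinearMap.GeneralLinearGroup k M)) := by
  set X := (⨆ B ∈ C, B : Subgroup (LinearMap.GeneralLinearGroup k M)) with hX
  have hperf : ⁅X, X⁆ = X := h.perfect h2k h3k hd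
  have hP : commutator X = ⊤ := by
    apply Subgroup.map_injective X.subtype_injective
    rw [commutator_def, Subgroup.map_commutator, ← MonoidHom.range_eq_map, Subgroup.range_subtype, hperf]
  refine ⟨⟨hP⟩, ?_⟩
  have hnontriv : Nontrivial (X ⧸ Subgroup.center X) := by
    by_contra h0
    rw [not_nontrivial_iff_subsingleton, QuotientGroup.subsingleton_iff] at h0
    obtain ⟨A, hA⟩ := h.ne
    obtain ⟨B, hB, hAB⟩ := h.opp A hA
    apply ro_not_comm hAB
    apply comm_bot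
    intro a ha b hb
    have h1 : (⟨a, le_X hA ha⟩ : X) ∈ Subgroup.center X := by rw [h0]; trivial
    exact (congrArg Subtype.val (Subgroup.mem_center_iff.1 h1 ⟨b, le_X hB hb⟩)).symm
  refine { eq_bot_or_eq_top_of_normal := fun N hN => ?_ }
  let N' : Subgroup X := N.comap (QuotientGroup.mk' (Subgroup.center X))
  haveI hN' : N'.Normal := hN.comap _
  have h1 : N'.map X.subtype ≤ X := by
    rintro _ ⟨y, -, rfl⟩; exact y.2
  have h2 : ∀ g ∈ X, ∀ x ∈ N'.map X.subtype, g * x * g⁻¹ ∈ N'.map X.subtype := by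
    rintro g hg _ ⟨y, hy, rfl⟩
    exact ⟨_, hN'.conj_mem y hy ⟨g, hg⟩, rfl⟩
  rcases h.normal h2k h3k hd h1 h2 with h3 | h3
  · right
    have h4 : N' = ⊤ := by
      rw [eq_top_iff]
      intro x _
      obtain ⟨y, hy, hyx⟩ := h3 x.2
      have : y = x := Subtype.ext hyx
      rwa [← this]
    rw [← Subgroup.comap_top (QuotientGroup.mk' (Subgroup.center X))] at h4
    exact Subgroup.comap_injective (QuotientGroup.mk'_surjective _) h4
  · left
    rw [eq_bot_iff]
    intro x hx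
    obtain ⟨y, rfl⟩ := QuotientGroup.mk_surjective x
    have h4 : y ∈ N' := hx
    rw [Subgroup.mem_bot, QuotientGroup.eq_one_iff, Subgroup.mem_center_iff]
    intro g
    exact Subtype.ext (h3 y ⟨y, h4, rfl⟩ g g.2).symm

end Cfsg.Agent.H3.QP
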