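import Mathlib
import Cfsg.Agent.H3.QPQuasi
import Cfsg.Agent.H3.RankA

/-!
Quadratic pairs: the components.
-/

set_option autoImplicit false

namespace Cfsg.Agent.H3.QP

open scoped commutatorElement
open Cfsg.Agent.H28

universe u v

variable {k : Type u} [Field k] {M : Type v} [AddCommGroup M] [Module k M] 
variable {G : Subgroup (LinearMap.GeneralLinearGroup k M)} {d : ℕ} {n m e w t b : M →ₗ[k] M}
variable {A B A₀ B₀ : Subgroup (LinearMap.GeneralLinearGroup k M)}

open LinearMap (range ker)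

/-- the component of `A` -/
def Cp (G : Subgroup (LinearMap.GeneralLinearGroup k M)) (A : Subgroup (LinearMap.GeneralLinearGroup k M)) :
    Set (Subgroup (LinearMap.GeneralLinearGroup k M)) :=
  componentOf (FAdj (quadraticRootSubgroups G)) (quadraticRootSubgroups G) A

theorem Cp_eq (h : B ∈ Cp G A) : Cp G B = Cp G A := by
  ext D
  constructor
  · rintro ⟨h1, h2⟩; exact ⟨h1, h.2.trans h2⟩
  · rintro ⟨h1, h2⟩; exact ⟨h1, (conn_symm h.2).trans h2⟩

theorem Cp_self (h : A ∈ quadraticRootSubgroups G) : A ∈ Cp G A := ⟨h, Relation.ReflTransGen.refl⟩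

variable [FiniteDimensional k M]

theorem reach_conj (hd : QD G d) {g : LinearMap.GeneralLinearGroup k M} (hg : g ∈ G)
    (h : Relation.ReflTransGen (FAdj (quadraticRootSubgroups G)) A B) :
    Relation.ReflTransGen (FAdj (quadraticRootSubgroups G)) (conjBy A g) (conjBy B g) := by
  induction h with
  | refl => exact Relation.ReflTransGen.refl
  | @tail C D _ h1 ih => exact ih.tail ⟨sigma_conj hd h1.1 hg, sigma_conj hd h1.2.1 hg, ro_conj_iff.2 h1.2.2⟩

theorem sigma_le (hd : QD G d) (hA : A ∈ quadraticRootSubgroups G) : A ≤ G := by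
  obtain ⟨n, hn, hA'⟩ := sigma_data hd hA
  exact hA'.le

/-- the normalizer of a component -/
theorem Cp_conj1 (hd : QD G d) (hB : B ∈ Cp G A₀) {g : LinearMap.GeneralLinearGroup k M} (hg : g ∈ B) (hA : A ∈ Cp G A₀) :
    conjBy A g ∈ Cp G A₀ := by
  have hgG := sigma_le hd hB.1 hg
  have h1 := reach_conj hd hgG ((conn_symm hB.2).trans hA.2)
  rw [conjBy_mem_self hg] at h1
  exact ⟨sigma_conj hd hA.1 hgG, hB.2.trans h1⟩

theorem Cp_conj (hd : QD G d) {g : LinearMap.GeneralLinearGroup k M} (hg : g ∈ (⨆ B ∈ Cp G A₀, B : Subgroup (LinearMap.GeneralLinearGroup k M)))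
    (hA : A ∈ Cp G A₀) : conjBy A g ∈ Cp G A₀ := by
  let P : Subgroup (LinearMap.GeneralLinearGroup k M) := {
    carrier := {g | ∀ A ∈ Cp G A₀, conjBy A g ∈ Cp G A₀ ∧ conjBy A g⁻¹ ∈ Cp G A₀}
    mul_mem' := by
      intro x y hx hy A hA
      constructor
      · rw [← conjBy_conjBy]; exact (hx _ (hy A hA).1).1
      · rw [mul_inv_rev, ← conjBy_conjBy]; exact (hy _ (hx A hA).2).2
    one_mem' := by
      intro A hA
      rw [inv_one, conjBy_one]; exact ⟨hA, hA⟩
    inv_mem' := by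
      intro x hx A hA
      rw [inv_inv]; exact ⟨(hx A hA).2, (hx A hA).1⟩ }
  have hP : (⨆ B ∈ Cp G A₀, B : Subgroup (LinearMap.GeneralLinearGroup k M)) ≤ P := by
    refine iSup₂_le (fun B hB => ?_)
    intro b hb A hA
    exact ⟨Cp_conj1 hd hB hb hA, Cp_conj1 hd hB (inv_mem hb) hA⟩
  exact (hP hg A hA).1

theorem Cp_trans (hA : A ∈ Cp G A₀) (hB : B ∈ Cp G A₀) :
    ∃ g ∈ (⨆ B ∈ Cp G A₀, B : Subgroup (LinearMap.GeneralLinearGroup k M)), B = conjBy A g := by
  have h : Relation.ReflTransGen (FAdj (quadraticRootSubgroups G)) A B := (conn_symm hA.2).trans hB.2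
  clear hB
  induction h with
  | refl => exact ⟨1, one_mem _, (conjBy_one A).symm⟩
  | @tail C D h0 h1 ih =>
    obtain ⟨g, hg, hg'⟩ := ih
    obtain ⟨x, hx, hx'⟩ := ro_mem_right h1.2.2
    have hC : C ∈ Cp G A₀ := ⟨h1.1, hA.2.trans h0⟩
    have hD : D ∈ Cp G A₀ := ⟨h1.2.1, hC.2.tail h1⟩
    refine ⟨x * g, mul_mem (?_) hg, by rw [hx', hg', conjBy_conjBy]⟩
    exact (sup_le (le_X hC) (le_X hD) : C ⊔ D ≤ _) hx

theorem commute_of_not_mem (hG : IsIrreducibleFor G) (h2k : (2 : k) ≠ 0) (h3k : Nat.card k ≠ 3) (hd : QD G d)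
    (hA : A ∈ Cp G A₀) (hB : B ∈ quadraticRootSubgroups G) (hB' : B ∉ Cp G A₀) : ⁅A, B⁆ = ⊥ := by
  by_contra h
  exact hB' ⟨hB, hA.2.trans (conn_of_ncomm hG h2k h3k hd hA.1 hB h).1⟩

theorem commute_X_of_not_mem (hG : IsIrreducibleFor G) (h2k : (2 : k) ≠ 0) (h3k : Nat.card k ≠ 3) (hd : QD G d)
    (hB : B ∈ quadraticRootSubgroups G) (hB' : B ∉ Cp G A₀) {b x : LinearMap.GeneralLinearGroup k M} (hb : b ∈ B)
    (hx : x ∈ (⨆ B ∈ Cp G A₀, B : Subgroup (LinearMap.GeneralLinearGroup k M))) : b * x = x * b := by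
  have hle : (⨆ B ∈ Cp G A₀, B : Subgroup (LinearMap.GeneralLinearGroup k M)) ≤ Subgroup.centralizer (B : Set (LinearMap.GeneralLinearGroup k M)) := by
    refine iSup₂_le (fun D hD => ?_)
    exact Subgroup.commutator_eq_bot_iff_le_centralizer.1 (commute_of_not_mem hG h2k h3k hd hD hB hB')
  exact (Subgroup.mem_centralizer_iff.1 (hle hx)) b hb

theorem sigma_nouni (hG : IsIrreducibleFor G) (hd : QD G d) :
    NoUni (⨆ B ∈ quadraticRootSubgroups G, B : Subgroup (LinearMap.GeneralLinearGroup k M)) := by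
  refine (NoUni.of_irr hG).normal (iSup₂_le (fun B hB => sigma_le hd hB)) ?_
  intro y hy x hx
  have hle : (⨆ B ∈ quadraticRootSubgroups G, B : Subgroup (LinearMap.GeneralLinearGroup k M)) ≤
      (⨆ B ∈ quadraticRootSubgroups G, B : Subgroup (LinearMap.GeneralLinearGroup k M)).comap (MulAut.conj y).toMonoidHom := by
    refine iSup₂_le (fun B hB => ?_)
    rw [← Subgroup.map_le_iff_le_comap]
    exact le_X (sigma_conj hd hB hy)
  exact hle hx

theorem Cp_nouni (hG : IsIrreducibleFor G) (h2k : (2 : k) ≠ 0) (h3k : Nat.card k ≠ 3) (hd : QD G d) :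
    NoUni (⨆ B ∈ Cp G A₀, B : Subgroup (LinearMap.GeneralLinearGroup k M)) := by
  refine (sigma_nouni hG hd).normal (iSup₂_le (fun B hB => le_X hB.1)) ?_
  set X := (⨆ B ∈ Cp G A₀, B : Subgroup (LinearMap.GeneralLinearGroup k M)) with hX
  have hle : (⨆ B ∈ quadraticRootSubgroups G, B : Subgroup (LinearMap.GeneralLinearGroup k M)) ≤
      Subgroup.normalizer (X : Set (LinearMap.GeneralLinearGroup k M)) := by
    refine iSup₂_le (fun B hB => ?_)
    by_cases hBC : B ∈ Cp G A₀
    · exact (le_X hBC).trans Subgroup.le_normalizer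
    · intro b hb
      rw [Subgroup.mem_normalizer_iff]
      intro x
      constructor
      · intro hx
        have := commute_X_of_not_mem hG h2k h3k hd hB hBC hb hx
        rw [this]
        have e : x * b * b⁻¹ = x := by group
        rw [e]; exact hx
      · intro hx
        have h1 := commute_X_of_not_mem hG h2k h3k hd hB hBC (inv_mem hb) hx
        have e : b⁻¹ * (b * x * b⁻¹) = x * b⁻¹ := by group
        rw [e] at h1
        have h2 : x = b * x * b⁻¹ := by
          have := mul_right_cancel h1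
          exact this
        rw [h2]; exact hx
  intro y hy x hx
  exact ((Subgroup.mem_normalizer_iff.1 (hle hy)) x).1 hx

theorem Cp_GC (hG : IsIrreducibleFor G) (h2k : (2 : k) ≠ 0) (h3k : Nat.card k ≠ 3) (hd : QD G d)
    (hA₀ : A₀ ∈ quadraticRootSubgroups G) : GC G (Cp G A₀) where
  ne := ⟨A₀, Cp_self hA₀⟩
  sub := fun B hB => hB.1
  conj := fun A hA g hg => Cp_conj hd hg hA
  trans := fun A hA B hB => Cp_trans hA hB
  comm := by
    intro A hA B hB h1 h2
    have h3 := (conn_of_ncomm hG h2k h3k hd hA.1 hB.1 h1).2 h2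
    refine ⟨?_, hA.2.trans h3⟩
    rcases sigma_pair hG h2k h3k hd hA.1 hB.1 with h | h | h
    · exact absurd h h1
    · exact absurd h h2
    · exact h.1
  opp := by
    intro A hA
    obtain ⟨g, hg, h1⟩ := sigma_notIsolated hG h2k h3k hd hA.1
    exact ⟨_, ⟨h1.2.1, hA.2.tail h1⟩, h1.2.2⟩
  nouni := Cp_nouni hG h2k h3k hd

theorem Cp_commute (hG : IsIrreducibleFor G) (h2k : (2 : k) ≠ 0) (h3k : Nat.card k ≠ 3) (hd : QD G d) 
    (hne : Cp G A₀ ≠ Cp G B₀)
    {x y : LinearMap.GeneralLinearGroup k M} (hx : x ∈ (⨆ B ∈ Cp G A₀, B : Subgroup (LinearMap.GeneralLinearGroup k M)))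
    (hy : y ∈ (⨆ B ∈ Cp G B₀, B : Subgroup (LinearMap.GeneralLinearGroup k M))) : x * y = y * x := by
  have hle : (⨆ B ∈ Cp G A₀, B : Subgroup (LinearMap.GeneralLinearGroup k M)) ≤ Subgroup.centralizer {y} := by
    refine iSup₂_le (fun B hB => ?_)
    intro b hb
    rw [Subgroup.mem_centralizer_iff]
    intro z hz
    rw [Set.mem_singleton_iff] at hz
    rw [hz]
    refine (commute_X_of_not_mem hG h2k h3k hd hB.1 ?_ hb hy).symm
    intro h
    exact hne ((Cp_eq hB).symm.trans (Cp_eq h))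
  exact ((Subgroup.mem_centralizer_iff.1 (hle hx)) y rfl).symm

/-- finiteness of the number of components -/
theorem Cp_finite (hG : IsIrreducibleFor G) (h2k : (2 : k) ≠ 0) (h3k : Nat.card k ≠ 3) (hd : QD G d) :
    ((fun A => Cp G A) '' (quadraticRootSubgroups G)).Finite := by
  by_contra hinf
  have hinf' : ((fun A => Cp G A) '' (quadraticRootSubgroups G)).Infinite := hinf
  let c := hinf'.natEmbedding
  have hc : ∀ i, ∃ A ∈ quadraticRootSubgroups G, Cp G A = (c i).1 := fun i => (c i).2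
  choose a ha ha' using hc
  have hinj : ∀ i j, i ≠ j → Cp G (a i) ≠ Cp G (a j) := by
    intro i j hij h
    apply hij
    apply c.injective
    apply Subtype.ext
    rw [← ha', ← ha', h]
  let Z : ℕ → Submodule k (M →ₗ[k] M) := fun i => {
    carrier := {f | ∀ j ≤ i, ∀ x ∈ (⨆ B ∈ Cp G (a j), B : Subgroup (LinearMap.GeneralLinearGroup k M)), f * (x : M →ₗ[k] M) = x * f}
    add_mem' := by
      intro f g hf hg j hj x hx
      rw [add_mul, mul_add, hf j hj x hx, hg j hj x hx]
    zero_mem' := by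
      intro j _ x _
      rw [zero_mul, mul_zero]
    smul_mem' := by
      intro s f hf j hj x hx
      rw [smul_mul_assoc, mul_smul_comm, hf j hj x hx] }
  let Z' : ℕ →o (Submodule k (M →ₗ[k] M))ᵒᵈ := {
    toFun := fun i => OrderDual.toDual (Z i)
    monotone' := by
      intro i j hij
      change Z j ≤ Z i
      intro f hf l hl
      exact hf l (hl.trans hij) }
  obtain ⟨N, hN⟩ := monotone_stabilizes_iff_artinian.2 (inferInstance : IsArtinian k (M →ₗ[k] M)) Z'
  have hZ : Z N = Z (N + 1) := hN (N + 1) (Nat.le_succ N)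
  have hgc := Cp_GC hG h2k h3k hd (ha (N + 1))
  obtain ⟨B, hB, hAB⟩ := hgc.opp _ (Cp_self (ha (N + 1)))
  apply ro_not_comm hAB
  apply comm_bot
  intro x hx y hy
  have h1 : (x : M →ₗ[k] M) ∈ Z N := by
    intro j hj z hz
    have := Cp_commute hG h2k h3k hd (hinj (N + 1) j (by omega)) (le_X (Cp_self (ha (N + 1))) hx) hz
    have h2 := congrArg (Units.val) this
    rwa [Units.val_mul, Units.val_mul] at h2
  rw [hZ] at h1
  have h2 := h1 (N + 1) le_rfl y (le_X hB hy)
  apply Units.ext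
  rw [Units.val_mul, Units.val_mul]
  exact h2

end Cfsg.Agent.H3.QP
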