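import Mathlib
import Cfsg.Agent.H3.QPComp

/-!
Quadratic pairs: an operator of minimal rank and an arbitrary square zero operator.
-/

set_option autoImplicit false
set_option linter.style.haveILetI false

namespace Cfsg.Agent.H3.QP

open scoped commutatorElement

local notation "SL" => Matrix.SpecialLinearGroup (Fin 2)

universe u v

theorem Fit.unique {R : Type*} [Ring R] {z e w e' w' : R} (h : Fit z e w) (h' : Fit z e' w') : e = e' := by
  have key : ∀ {e w e' w' : R}, Fit z e w → Fit z e' w' → e * e' = e := by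
    intro e w e' w' h h'
    obtain ⟨r, hr⟩ := h'.nil
    have h1 : z ^ (r + 1) * (1 - e') = 0 := by rw [pow_succ', mul_assoc, hr, mul_zero]
    have h2 : e * (1 - e') = 0 := by rw [← h.pow' r, mul_assoc, h1, mul_zero]
    rw [mul_sub, mul_one, sub_eq_zero] at h2
    exact h2.symm
  have h1 := key h h'
  have h2 := key h' h
  have h3 : e * z = z * e := h.ez
  have h4 : e * e' = e' * e := by
    have := h'.comm_e (x := e) h3
    exact this
  rw [← h1, h4, h2]

variable {k : Type u} [Field k] {M : Type v} [AddCommGroup M] [Module k M]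

local notation "GL" => LinearMap.GeneralLinearGroup k M

variable {G : Subgroup (LinearMap.GeneralLinearGroup k M)} {d : ℕ} {n m e w : M →ₗ[k] M}

theorem unip_base' [FiniteDimensional k M] (h2k : (2 : k) ≠ 0) (hmin : MinR G d) (h : N1 G d n) (h' : NN G m)
    (h1 : n * (m * (n * (m * n))) = 0) : n * (m * n) = 0 := by
  by_contra hne
  have hn := h.1.1
  have hm := h'.1
  have hn' : ∀ x, n * (n * x) = 0 := fun x => by rw [← mul_assoc, hn, zero_mul]
  have hm' : ∀ x, m * (m * x) = 0 := fun x => by rw [← mul_assoc, hm, zero_mul]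
  have h1' : ∀ x, n * (m * (n * (m * (n * x)))) = 0 := fun x => by
    have := congrArg (· * x) h1
    simpa [mul_assoc] using this
  -- the elements of `G`
  have hg : ∀ a b : k, ∃ g : GL, g ∈ G ∧ (g : M →ₗ[k] M) = 1 + (-2 * (a ^ 2 * b)) • (n * (m * n)) +
      (a ^ 2 * b ^ 2) • (n * (m * (n * m)) - m * (n * (m * n))) := by
    intro a b
    obtain ⟨x, hx, hx'⟩ := comm_mem h.1 h' a b
    obtain ⟨y, hy, hy'⟩ := comm_mem h.1 h' (-a) b
    refine ⟨x * y, mul_mem hx hy, ?_⟩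
    rw [Units.val_mul, hx', hy']
    simp only [mul_add, add_mul, mul_sub, sub_mul, mul_one, one_mul, smul_mul_assoc, mul_smul_comm, smul_smul,
      mul_assoc, hn, hm, hn', hm', h1, h1', mul_zero, zero_mul, smul_zero]
    module
  -- additivity
  let S : AddSubgroup (k × k) := {
    carrier := {p | ∃ g : GL, g ∈ G ∧ (g : M →ₗ[k] M) = 1 + p.1 • (n * (m * n)) +
      p.2 • (n * (m * (n * m)) - m * (n * (m * n)))}
    zero_mem' := ⟨1, one_mem _, by simp⟩
    add_mem' := by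
      rintro ⟨a, b⟩ ⟨a', b'⟩ ⟨x, hx, hx'⟩ ⟨y, hy, hy'⟩
      refine ⟨x * y, mul_mem hx hy, ?_⟩
      rw [Units.val_mul, hx', hy']
      simp only [mul_add, add_mul, mul_sub, sub_mul, mul_one, one_mul, smul_mul_assoc, mul_smul_comm, smul_smul,
        mul_assoc, hn, hm, hn', hm', h1, h1', mul_zero, zero_mul, smul_zero, Prod.fst_add, Prod.snd_add]
      module
    neg_mem' := by
      rintro ⟨a, b⟩ ⟨x, hx, hx'⟩
      refine ⟨x⁻¹, inv_mem hx, ?_⟩
      have hz : (a • (n * (m * n)) + b • (n * (m * (n * m)) - m * (n * (m * n)))) *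
          (a • (n * (m * n)) + b • (n * (m * (n * m)) - m * (n * (m * n)))) = 0 := by
        simp only [mul_add, add_mul, mul_sub, sub_mul, mul_one, one_mul, smul_mul_assoc, mul_smul_comm, smul_smul,
          mul_assoc, hn, hm, hn', hm', h1, h1', mul_zero, zero_mul, smul_zero, sub_zero, add_zero]
      rw [inv_val_of hz (by rw [hx', add_assoc])]
      simp only [Prod.fst_neg, Prod.snd_neg]
      module }
  have hS1 : ∀ a b : k, ((-2 * (a ^ 2 * b), a ^ 2 * b ^ 2) : k × k) ∈ S := fun a b => hg a b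
  have hS2 : ∀ w : k, ((0, w) : k × k) ∈ S := by
    intro w
    have e1 := hS1 1 1
    have e2 := hS1 1 (-w / 2)
    have e3 := hS1 1 (1 + -w / 2)
    have e4 := S.sub_mem (S.add_mem e1 e2) e3
    convert e4 using 1
    ext
    · simp; ring
    · simp; field_simp; ring
  have hS3 : ∀ c : k, ((c, 0) : k × k) ∈ S := by
    intro c
    have e1 := hS1 1 (-c / 2)
    have e4 := S.sub_mem e1 (hS2 (1 ^ 2 * (-c / 2) ^ 2))
    convert e4 using 1
    ext
    · simp; field_simp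
    · simp
  have hNN : NN G (n * (m * n)) := by
    refine ⟨?_, fun c => ?_⟩
    · simp only [mul_assoc, hn', mul_zero]
    · obtain ⟨g, hg, hg'⟩ := hS3 c
      exact ⟨g, hg, by rw [hg']; simp⟩
  have hr := hmin _ hNN hne
  -- the range does not change
  have hle : LinearMap.range (n * (m * n)) ≤ LinearMap.range n := by rintro _ ⟨x, rfl⟩; exact ⟨(m * n) x, rfl⟩
  have heq : LinearMap.range (n * (m * n)) = LinearMap.range n :=
    Submodule.eq_of_le_of_finrank_le hle (h.2.2.trans hr)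
  apply h.2.1
  ext x
  have hx : n x ∈ LinearMap.range (n * (m * n)) := by rw [heq]; exact ⟨x, rfl⟩
  obtain ⟨y, hy⟩ := hx
  have hy2 : n y ∈ LinearMap.range (n * (m * n)) := by rw [heq]; exact ⟨y, rfl⟩
  obtain ⟨z, hz⟩ := hy2
  have h5 : (n * (m * (n * (m * n)))) z = n x := by
    change n (m (n (m (n z)))) = n x
    change n (m (n z)) = n y at hz
    change n (m (n y)) = n x at hy
    rw [hz, hy]
  rw [h1] at h5
  exact h5.symm

theorem nsn {R : Type*} [Ring R] {n m : R} (hn : n * n = 0) (hm : m * m = 0) :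
    n * ((1 + m) * n * (1 - m) * n) = -(n * (m * (n * (m * n)))) := by
  have hn' : ∀ x, n * (n * x) = 0 := fun x => by rw [← mul_assoc, hn, zero_mul]
  have hm' : ∀ x, m * (m * x) = 0 := fun x => by rw [← mul_assoc, hm, zero_mul]
  simp only [mul_add, add_mul, mul_sub, sub_mul, mul_one, one_mul, mul_assoc, hn, hm, hn', hm', mul_zero, zero_mul]
  abel

theorem unip_gen [FiniteDimensional k M] (h2k : (2 : k) ≠ 0) (hmin : MinR G d) (h : N1 G d n) (h' : NN G m) {r : ℕ}
    (hr : (n * m + m * n) ^ r = 0) : n * (m * n) = 0 := by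
  apply unip_base' h2k hmin h h'
  have hc := h.conj1 h'
  have h1 : (n * ((1 + m) * n * (1 - m)) + (1 + m) * n * (1 - m) * n) ^ r = 0 := by
    rw [conj_z h.1.1 h'.1, neg_pow, ← pow_mul, mul_comm 2 r, pow_mul, hr, zero_pow two_ne_zero, mul_zero]
  have h2 := unip_pair h2k hmin r n _ h hc h1
  rw [nsn h.1.1 h'.1, neg_eq_zero] at h2
  exact h2

/-- if `n m n ≠ 0` then the Fitting idempotent is not zero -/
theorem fit_ne [FiniteDimensional k M] (h2k : (2 : k) ≠ 0) (hmin : MinR G d) (h : N1 G d n) (h' : NN G m)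
    (hF : Fit (n * m + m * n) e w) (hne : n * (m * n) ≠ 0) : e ≠ 0 := by
  rintro rfl
  obtain ⟨r, hr⟩ := hF.nil
  rw [sub_zero, mul_one] at hr
  exact hne (unip_gen h2k hmin h h' hr)

theorem gen_left [FiniteDimensional k M] (h2k : (2 : k) ≠ 0) (h3k : Nat.card k ≠ 3) (hmin : MinR G d) (hn : N1 G d n) (hm : NN G m)
    (hF : Fit (n * m + m * n) e w) (he : e ≠ 0) : n * (1 - e) = 0 := by
  have hF' := hF.negsq
  rw [← conj_z hn.1.1 hm.1] at hF'
  exact claim h2k h3k hmin _ n _ e _ hn (hn.conj1 hm) hF' he rfl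

variable {A : Type u} [CommRing A] [Algebra k A] {φ : A →ₗ[k] (M →ₗ[k] M)} {α : A}

theorem R1 [FiniteDimensional k M] (h2k : (2 : k) ≠ 0) (h3k : Nat.card k ≠ 3) (hmin : MinR G d)
    (hn : N1 G d n) (hm : NN G m) (hF : Fit (n * m + m * n) e w)
    (hA : AlgData (n * m + m * n) e A φ α) {h : SL A}
    (hx' : N1 G d (rho (muOf hn.1.1 hm.1 hF hA) h * n * rho (muOf hn.1.1 hm.1 hF hA) h⁻¹)) : h.1 1 0 = 0 ∨ IsUnit (h.1 1 0) := by
  haveI := hA.fd
  have h2A : IsUnit (2 : A) := by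
    have : IsUnit (algebraMap k A 2) := (IsUnit.mk0 2 h2k).map _
    rwa [map_ofNat] at this
  set mu := muOf hn.1.1 hm.1 hF hA with hmu
  have nz := n_comm_z (n := n) (m := m) hn.1.1
  have mz := m_comm_z (n := n) (m := m) hm.1
  have ne := hF.comm_e nz
  have me := hF.comm_e mz
  have cn : ∀ a, n * φ a = φ a * n := fun a => hA.comm a n nz
  have cm : ∀ a, m * φ a = φ a * m := fun a => hA.comm a m mz
  have φe : ∀ c, φ c * e = φ c := fun c => by rw [← hA.one, ← hA.mul, mul_one]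
  have φn : ∀ a, φ a * (n * e) = φ a * n := fun a => by rw [← cn, ← mul_assoc, ← cn, mul_assoc, φe] 
  have h1e : (1 - e) * e = 0 := by rw [sub_mul, one_mul, hF.ee, sub_self]
  have h1e' : e * (1 - e) = 0 := by rw [mul_sub, mul_one, hF.ee, sub_self]
  have hRR : ∀ X : Matrix (Fin 2) (Fin 2) A, RR (φ : A →+ (M →ₗ[k] M)) (ff n m e w) X =
      φ (X 0 0) * (w * n * m) + φ (X 0 1) * (n * e) + φ (X 1 0) * (w * m) + φ (X 1 1) * (w * m * n) := fun X => rfl
  have hsum : w * n * m + w * m * n = e := by rw [mul_assoc, mul_assoc, ← mul_add, hF.wz]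
  have an2 : (n * (1 - e)) * (n * (1 - e)) = 0 := by
    have : (1 - e) * n = n * (1 - e) := by rw [mul_sub, sub_mul, ne, mul_one, one_mul]
    rw [mul_assoc, ← mul_assoc (1 - e), this, mul_assoc n, ← mul_assoc n n, hn.1.1, zero_mul]
  have ane : (n * (1 - e)) * e = 0 := by rw [mul_assoc, h1e, mul_zero]
  have ean : e * (n * (1 - e)) = 0 := by rw [← mul_assoc, ← ne, mul_assoc, h1e', mul_zero]
  have nsum : n = n * (1 - e) + RR (φ : A →+ (M →ₗ[k] M)) (ff n m e w) !![0, 1; 0, 0] := by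
    rw [hRR]
    simp only [Matrix.of_apply, Matrix.cons_val', Matrix.cons_val_zero, Matrix.cons_val_one, Matrix.cons_val_fin_one, map_zero,
      zero_mul, zero_add, add_zero]
    rw [φn, hA.one, ← ne, ← mul_add, sub_add_cancel, mul_one]
  have e1 : rho mu h * n * rho mu h⁻¹ = n * (1 - e) + RR (φ : A →+ (M →ₗ[k] M)) (ff n m e w) (h.1 * !![0, 1; 0, 0] * (h⁻¹).1) := by
    have e0 : rho mu h * n * rho mu h⁻¹ = rho mu h * (n * (1 - e) + RR (φ : A →+ (M →ₗ[k] M)) (ff n m e w) !![0, 1; 0, 0]) *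
        rho mu h⁻¹ := by rw [← nsum]
    rw [e0, mul_add, add_mul, rho_conj_compl mu h ne, rho_conj_RR]
  rw [e1] at hx'
  set Y := h.1 * !![0, 1; 0, 0] * (h⁻¹).1 with hY
  have hdet := det_eq h
  have Y00 : Y 0 0 = -(h.1 0 0 * h.1 1 0) := by
    rw [hY, Matrix.mul_apply, Fin.sum_univ_two, Matrix.mul_apply, Matrix.mul_apply, Fin.sum_univ_two, Fin.sum_univ_two, inv00, inv10]
    simp
  have Y01 : Y 0 1 = h.1 0 0 * h.1 0 0 := by
    rw [hY, Matrix.mul_apply, Fin.sum_univ_two, Matrix.mul_apply, Matrix.mul_apply, Fin.sum_univ_two, Fin.sum_univ_two, inv01, inv11]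
    simp
  have Y10 : Y 1 0 = -(h.1 1 0 * h.1 1 0) := by
    rw [hY, Matrix.mul_apply, Fin.sum_univ_two, Matrix.mul_apply, Matrix.mul_apply, Fin.sum_univ_two, Fin.sum_univ_two, inv00, inv10]
    simp
  have Y11 : Y 1 1 = h.1 1 0 * h.1 0 0 := by
    rw [hY, Matrix.mul_apply, Fin.sum_univ_two, Matrix.mul_apply, Matrix.mul_apply, Fin.sum_univ_two, Fin.sum_univ_two, inv01, inv11]
    simp
  have p1 : n * (n * (1 - e) + RR (φ : A →+ (M →ₗ[k] M)) (ff n m e w) Y) =
      RR (φ : A →+ (M →ₗ[k] M)) (ff n m e w) (!![0, 1; 0, 0] * Y) := by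
    have e0 : n * (n * (1 - e) + RR (φ : A →+ (M →ₗ[k] M)) (ff n m e w) Y) =
        (n * (1 - e) + RR (φ : A →+ (M →ₗ[k] M)) (ff n m e w) !![0, 1; 0, 0]) *
          (n * (1 - e) + RR (φ : A →+ (M →ₗ[k] M)) (ff n m e w) Y) := by rw [← nsum]
    rw [e0]
    exact sum_mul_sum mu an2 ane ean _ _
  have p2 : (n * (1 - e) + RR (φ : A →+ (M →ₗ[k] M)) (ff n m e w) Y) * n =
      RR (φ : A →+ (M →ₗ[k] M)) (ff n m e w) (Y * !![0, 1; 0, 0]) := by
    have e0 : (n * (1 - e) + RR (φ : A →+ (M →ₗ[k] M)) (ff n m e w) Y) * n =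
        (n * (1 - e) + RR (φ : A →+ (M →ₗ[k] M)) (ff n m e w) Y) *
          (n * (1 - e) + RR (φ : A →+ (M →ₗ[k] M)) (ff n m e w) !![0, 1; 0, 0]) := by rw [← nsum]
    rw [e0]
    exact sum_mul_sum mu an2 ane ean _ _
  have q1 : n * (n * (1 - e) + RR (φ : A →+ (M →ₗ[k] M)) (ff n m e w) Y) +
      (n * (1 - e) + RR (φ : A →+ (M →ₗ[k] M)) (ff n m e w) Y) * n = φ (-(h.1 1 0 * h.1 1 0)) := by
    rw [p1, p2, ← RR_add, hRR]
    simp only [Matrix.add_apply, Matrix.mul_apply, Fin.sum_univ_two, Matrix.of_apply, Matrix.cons_val', Matrix.cons_val_zero,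
      Matrix.cons_val_one, Matrix.cons_val_fin_one, zero_mul, mul_zero, one_mul, mul_one, zero_add, add_zero, Y00, Y01, Y10, Y11,
      map_zero]
    have : h.1 1 0 * h.1 0 0 + -(h.1 0 0 * h.1 1 0) = 0 := by ring
    rw [this, map_zero, zero_mul, add_zero, ← mul_add, hsum, φe]
  have q2 : -(h.1 1 0 * h.1 1 0) = 0 → n * (n * (1 - e) + RR (φ : A →+ (M →ₗ[k] M)) (ff n m e w) Y) -
      (n * (1 - e) + RR (φ : A →+ (M →ₗ[k] M)) (ff n m e w) Y) * n = φ (2 * (h.1 0 0 * h.1 1 0)) * n := by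
    intro h0
    rw [p1, p2, ← RR_sub, hRR]
    have : h.1 1 0 * h.1 0 0 - -(h.1 0 0 * h.1 1 0) = 2 * (h.1 0 0 * h.1 1 0) := by ring
    simp only [Matrix.sub_apply, Matrix.mul_apply, Fin.sum_univ_two, Matrix.of_apply, Matrix.cons_val', Matrix.cons_val_zero,
      Matrix.cons_val_one, Matrix.cons_val_fin_one, zero_mul, mul_zero, one_mul, mul_one, zero_add, add_zero, Y00, Y01, Y10, Y11,
      map_zero, sub_zero, zero_sub, h0, neg_zero, this]
    rw [φn]
  have q3 : -(h.1 1 0 * h.1 1 0) = 0 → 2 * (h.1 0 0 * h.1 1 0) * (2 * (h.1 0 0 * h.1 1 0)) = 0 := by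
    intro h0
    linear_combination -(4 * h.1 0 0 ^ 2) * h0
  rcases Rkey h2k hmin hF hA hn hx' rfl cn cm q1 q2 q3
    (fun n1 m1 e1 w1 h1 h2 h3 h4 _ => claim h2k h3k hmin _ n1 m1 e1 w1 h1 h2 h3 h4 rfl) with h5 | ⟨h5, h6⟩
  · right
    rw [IsUnit.neg_iff] at h5
    exact isUnit_of_mul_isUnit_left h5
  · left
    have h7 : h.1 0 0 * h.1 1 0 = 0 := (h2A.mul_right_eq_zero).1 h6
    linear_combination (-(h.1 1 0)) * hdet + h.1 1 1 * h7 + h.1 0 1 * h5

end Cfsg.Agent.H3.QP
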