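import Mathlib
import Cfsg.Agent.H3.QPGen

/-!
Quadratic pairs: an operator of minimal rank and an arbitrary square zero operator, splitting.
-/

set_option autoImplicit false
set_option linter.style.haveILetI false

namespace Cfsg.Agent.H3.QP

open scoped commutatorElement

local notation "SL" => Matrix.SpecialLinearGroup (Fin 2)

universe u v

variable {k : Type u} [Field k] {M : Type v} [AddCommGroup M] [Module k M]

local notation "GL" => LinearMap.GeneralLinearGroup k M

variable {G : Subgroup (LinearMap.GeneralLinearGroup k M)} {d : ℕ} {n m e w : M →ₗ[k] M}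
variable {A : Type u} [CommRing A] [Algebra k A] {φ : A →ₗ[k] (M →ₗ[k] M)} {α : A}

theorem alg_map {z : M →ₗ[k] M} (hA : AlgData z e A φ α) (r : k) : φ (algebraMap k A r) = r • e := by
  rw [Algebra.algebraMap_eq_smul_one, map_smul, hA.one]

theorem ee_sq {R : Type*} [Ring R] {z e : R} (h : e * z = z * e) (he : e * e = e) : z * z * e = z * e * (z * e) := by
  have : z * e * (z * e) = z * (e * z) * e := by simp only [mul_assoc]
  rw [this, h]
  have : z * (z * e) * e = z * z * (e * e) := by simp only [mul_assoc]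
  rw [this, he]

theorem gen_field [FiniteDimensional k M] (h2k : (2 : k) ≠ 0) (h3k : Nat.card k ≠ 3) (hmin : MinR G d)
    (hn : N1 G d n) (hm : NN G m) (hF : Fit (n * m + m * n) e w) (he : e ≠ 0)
    (hA : AlgData (n * m + m * n) e A φ α) : ∀ y : A, y = 0 ∨ IsUnit y := by
  haveI := hA.fd
  set mu := muOf hn.1.1 hm.1 hF hA with hmu
  have nz := n_comm_z (n := n) (m := m) hn.1.1
  have mz := m_comm_z (n := n) (m := m) hm.1
  have ne := hF.comm_e nz
  have me := hF.comm_e mz
  have cn : ∀ a, n * φ a = φ a * n := fun a => hA.comm a n nz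
  have cm : ∀ a, m * φ a = φ a * m := fun a => hA.comm a m mz
  have φe : ∀ c, φ c * e = φ c := fun c => by rw [← hA.one, ← hA.mul, mul_one]
  have eφ : ∀ c, e * φ c = φ c := fun c => by rw [← hA.one, ← hA.mul, one_mul]
  have hn1 := gen_left h2k h3k hmin hn hm hF he
  rw [mul_sub, mul_one, sub_eq_zero] at hn1
  have hαm : φ α * (w * m) = m * e := by
    rw [hA.al]
    calc (n * m + m * n) * e * (w * m) = (n * m + m * n) * (e * w) * m := by simp only [mul_assoc]
      _ = m * e := by rw [hF.ew, hF.zw, me]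
  -- the pair `n, n*`
  have hc := hn.conj1 hm
  have hne : ¬ (n * ((1 + m) * n * (1 - m) * n) = 0 ∧ (1 + m) * n * (1 - m) * (n * ((1 + m) * n * (1 - m))) = 0) := by
    rintro ⟨h1, -⟩
    rw [nsn hn.1.1 hm.1, neg_eq_zero] at h1
    have h2 := unip_base' h2k hmin hn hm h1
    apply he
    have h3 : (n * m + m * n) ^ 2 = 0 := by
      have : (n * m + m * n) ^ 2 = (n * (m * n)) * m + n * (m * m) * n + m * (n * n) * m + m * (n * (m * n)) := by noncomm_ring
      rw [this, h2, hm.1, hn.1.1]; simp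
    rw [← hF.pow 1, h3, zero_mul]
  obtain ⟨e', w', hF', K, _, _, φ', α', hA', hne', -, -, hrho⟩ := opp_main h2k h3k hmin hn hc hne
  have hF2 := hF.negsq
  rw [← conj_z hn.1.1 hm.1] at hF2
  obtain rfl : e' = e := hF'.unique hF2
  have nz' := n_comm_z (n := n) (m := (1 + m) * n * (1 - m)) hn.1.1
  have cn' : ∀ a, n * φ' a = φ' a * n := fun a => hA'.comm a n nz'
  have φe' : ∀ c, φ' c * e' = φ' c := fun c => by rw [← hA'.one, ← hA'.mul, mul_one]
  have hNN : ∀ κ : K, NN G (φ' κ * n) := by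
    intro κ
    refine ⟨?_, fun c => ?_⟩
    · rw [mul_assoc, ← mul_assoc n, cn', mul_assoc, hn.1.1, mul_zero, mul_zero]
    · refine ⟨_, hrho (uu (c • κ)), ?_⟩
      change rho _ (uu (c • κ)) = _
      rw [rho_uu]
      change 1 + φ' (c • κ) * (n * e') = _
      rw [hne', map_smul, smul_mul_assoc]
  have hα' : φ' α' = -φ (α * α) := by
    rw [hA'.al, conj_z hn.1.1 hm.1, hA.mul, hA.al, neg_mul, pow_two]
    congr 1
    exact ee_sq hF.ez hF.ee
  have hK : ∀ κ : K, ∃ a : A, φ a = φ' κ := by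
    intro κ
    have hκ : κ ∈ Algebra.adjoin k ({α'} : Set K) := by rw [hA'.gen]; trivial
    induction hκ using Algebra.adjoin_induction with
    | mem x hx =>
      rw [Set.mem_singleton_iff] at hx
      exact ⟨-(α * α), by rw [map_neg, hx, hα']⟩
    | algebraMap r => exact ⟨algebraMap k A r, by rw [alg_map hA, alg_map hA']⟩
    | add x y _ _ hx hy =>
      obtain ⟨a, ha⟩ := hx
      obtain ⟨b, hb⟩ := hy
      exact ⟨a + b, by rw [map_add, map_add, ha, hb]⟩
    | mul x y _ _ hx hy =>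
      obtain ⟨a, ha⟩ := hx
      obtain ⟨b, hb⟩ := hy
      exact ⟨a * b, by rw [hA.mul, hA'.mul, ha, hb]⟩
  choose ψ hψ using hK
  have ψadd : ∀ a b, ψ (a + b) = ψ a + ψ b := fun a b => hA.inj (by rw [map_add, hψ, hψ, hψ, map_add])
  have ψmul : ∀ a b, ψ (a * b) = ψ a * ψ b := fun a b => hA.inj (by rw [hA.mul, hψ, hψ, hψ, hA'.mul])
  have ψone : ψ 1 = 1 := hA.inj (by rw [hψ, hA.one, hA'.one])
  have ψzero : ψ 0 = 0 := hA.inj (by rw [hψ, map_zero, map_zero])
  have ψneg : ∀ a, ψ (-a) = -ψ a := fun a => hA.inj (by rw [hψ, map_neg, map_neg, hψ])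
  have ψalg : ∀ r : k, ψ (algebraMap k K r) = algebraMap k A r := fun r => hA.inj (by rw [hψ, alg_map hA, alg_map hA'])
  have ψα : ψ (-α') = α * α := hA.inj (by rw [hψ, map_neg, hα', neg_neg])
  have hunit : ∀ κ : K, κ ≠ 0 → IsUnit (ψ κ) := by
    intro κ hκ
    refine IsUnit.of_mul_eq_one (ψ κ⁻¹) ?_
    rw [← ψmul, mul_inv_cancel₀ hκ, ψone]
  have hdec : ∀ y : A, ∃ a b : K, y = ψ a + ψ b * α := by
    intro y
    have hy : y ∈ Algebra.adjoin k ({α} : Set A) := by rw [hA.gen]; trivial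
    induction hy using Algebra.adjoin_induction with
    | mem x hx =>
      rw [Set.mem_singleton_iff] at hx
      exact ⟨0, 1, by rw [hx, ψone, ψzero, one_mul, zero_add]⟩
    | algebraMap r => exact ⟨algebraMap k K r, 0, by rw [ψalg, ψzero, zero_mul, add_zero]⟩
    | add x y _ _ hx hy =>
      obtain ⟨a, b, rfl⟩ := hx
      obtain ⟨c, d, rfl⟩ := hy
      exact ⟨a + c, b + d, by rw [ψadd, ψadd]; ring⟩
    | mul x y _ _ hx hy =>
      obtain ⟨a, b, rfl⟩ := hx
      obtain ⟨c, d, rfl⟩ := hy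
      refine ⟨a * c + b * d * (-α'), a * d + b * c, ?_⟩
      rw [ψadd, ψadd, ψmul, ψmul, ψmul, ψmul, ψα, ψmul]; ring
  -- conjugations
  have hu1 : ∀ (κ : K) (Y : M →ₗ[k] M), (1 + φ' κ * n) * Y * (1 - φ' κ * n) = rho mu (uu (ψ κ)) * Y * rho mu (uu (ψ κ))⁻¹ := by
    intro κ Y
    rw [uu_inv, rho_uu, rho_uu]
    change _ = (1 + φ (ψ κ) * (n * e')) * Y * (1 + φ (-ψ κ) * (n * e'))
    rw [← hn1, map_neg, hψ, neg_mul, ← sub_eq_add_neg]
  have hv1 : ∀ (c : k) (Y : M →ₗ[k] M), e' * Y = Y → Y * e' = Y →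
      (1 + c • m) * Y * (1 - c • m) = rho mu (vv (c • α)) * Y * rho mu (vv (c • α))⁻¹ := by
    intro c Y hY1 hY2
    rw [vv_inv, rho_vv, rho_vv]
    change _ = (1 + φ (c • α) * (w * m)) * Y * (1 + φ (-(c • α)) * (w * m))
    rw [map_neg, map_smul, neg_mul, smul_mul_assoc, hαm, ← sub_eq_add_neg]
    have h1 : (1 + c • m) * Y = (1 + c • (m * e')) * Y := by
      rw [add_mul, add_mul, smul_mul_assoc, smul_mul_assoc, mul_assoc m, hY1]
    have h2 : Y * (1 - c • m) = Y * (1 - c • (m * e')) := by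
      rw [mul_sub, mul_sub, mul_smul_comm, mul_smul_comm, me, ← mul_assoc, hY2]
    rw [h1, mul_assoc, h2, ← mul_assoc]
  have hke : ∀ (g : SL A) (Y : M →ₗ[k] M), e' * Y = Y → Y * e' = Y →
      e' * (rho mu g * Y * rho mu g⁻¹) = rho mu g * Y * rho mu g⁻¹ ∧ (rho mu g * Y * rho mu g⁻¹) * e' = rho mu g * Y * rho mu g⁻¹ := by
    intro g Y hY1 hY2
    have h0 : ∀ g : SL A, e' * rho mu g = rho mu g * e' := by
      intro g
      have h1 := rho_mul_compl mu g
      have h2 := compl_mul_rho mu g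
      rw [mul_sub, mul_one] at h1
      rw [sub_mul, one_mul] at h2
      have h3 : rho mu g * e' = rho mu g - (1 - e') := by rw [← h1]; abel
      have h4 : e' * rho mu g = rho mu g - (1 - e') := by rw [← h2]; abel
      rw [h3, h4]
    constructor
    · rw [← mul_assoc, ← mul_assoc, h0, mul_assoc (rho mu g) e' Y, hY1]
    · rw [mul_assoc, ← h0, ← mul_assoc, mul_assoc (rho mu g) Y e', hY2]
  have key : ∀ κ : K, (1 - ψ κ * α = 0) ∨ IsUnit (1 - ψ κ * α) := by
    intro κ
    have en : e' * n = n := by rw [← ne, ← hn1]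
    have hc1 := (hn.conj1 hm)
    have hc2 := hc1.conj1 (hNN κ)
    have hc3 := hc2.conj1 (hm.smul (-(2 : k)⁻¹))
    have e1 : (1 + m) * n * (1 - m) = rho mu (vv α) * n * rho mu (vv α)⁻¹ := by
      have := hv1 1 n en hn1.symm
      simpa only [one_smul] using this
    have hk1 := hke (vv α) n en hn1.symm
    rw [e1, hu1] at hc3
    have hk2 := hke (uu (ψ κ)) _ hk1.1 hk1.2
    rw [hv1 _ _ hk2.1 hk2.2] at hc3
    have e2 : rho mu (vv (-(2 : k)⁻¹ • α)) * (rho mu (uu (ψ κ)) * (rho mu (vv α) * n * rho mu (vv α)⁻¹) * rho mu (uu (ψ κ))⁻¹) *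
        rho mu (vv (-(2 : k)⁻¹ • α))⁻¹ = rho mu (vv (-(2 : k)⁻¹ • α) * uu (ψ κ) * vv α) * n *
        rho mu (vv (-(2 : k)⁻¹ • α) * uu (ψ κ) * vv α)⁻¹ := by
      rw [mul_inv_rev, mul_inv_rev, map_mul, map_mul, map_mul, map_mul]
      simp only [mul_assoc]
    rw [e2] at hc3
    have h5 := R1 h2k h3k hmin hn hm hF hA hc3
    have h6 : (vv (-(2 : k)⁻¹ • α) * uu (ψ κ) * vv α : SL A).1 1 0 = algebraMap k A (2 : k)⁻¹ * (α * (1 - ψ κ * α)) := by
      simp only [mul00, mul01, mul10, mul11, vv00, vv01, vv10, vv11, uu00, uu01, uu10, uu11]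
      have h7 : (-(2 : k)⁻¹ • α : A) = -(algebraMap k A (2 : k)⁻¹ * α) := by rw [neg_smul, Algebra.smul_def]
      have h8 : algebraMap k A (2 : k)⁻¹ * 2 = 1 := by
        rw [← map_ofNat (algebraMap k A) 2, ← map_mul, inv_mul_cancel₀ h2k, map_one]
      rw [h7]
      linear_combination (-α) * h8
    rw [h6] at h5
    have h9 : IsUnit (algebraMap k A (2 : k)⁻¹ * α) := ((IsUnit.mk0 _ (inv_ne_zero h2k)).map _).mul hA.unit
    rw [← mul_assoc] at h5
    rcases h5 with h5 | h5
    · left; exact (h9.mul_right_eq_zero).1 h5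
    · right; exact isUnit_of_mul_isUnit_right h5
  intro y
  obtain ⟨a, b, rfl⟩ := hdec y
  by_cases ha : a = 0
  · rw [ha, ψzero, zero_add]
    by_cases hb : b = 0
    · left; rw [hb, ψzero, zero_mul]
    · right; exact (hunit b hb).mul hA.unit
  · have h1 : ψ a + ψ b * α = ψ a * (1 - ψ (-(a⁻¹ * b)) * α) := by
      rw [ψneg, ψmul]
      have : ψ a * ψ a⁻¹ = 1 := by rw [← ψmul, mul_inv_cancel₀ ha, ψone]
      linear_combination (-(ψ b * α)) * this
    rw [h1]
    rcases key (-(a⁻¹ * b)) with h2 | h2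
    · left; rw [h2, mul_zero]
    · right; exact (hunit a ha).mul h2

theorem gen_main [FiniteDimensional k M] (h2k : (2 : k) ≠ 0) (h3k : Nat.card k ≠ 3) (hmin : MinR G d)
    (hn : N1 G d n) (hm : NN G m) (hF : Fit (n * m + m * n) e w) (he : e ≠ 0) :
    n * (1 - e) = 0 ∧ n * e = e * n ∧ m * e = e * m ∧ N1 G d (m * e) ∧ NN G (m * (1 - e)) := by
  have h1 := gen_left h2k h3k hmin hn hm hF he
  have ne := hF.comm_e (n_comm_z (n := n) (m := m) hn.1.1)
  have me := hF.comm_e (m_comm_z (n := n) (m := m) hm.1)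
  obtain ⟨A, _, _, φ, α, hA⟩ := exists_alg hF
  haveI := hA.fd
  haveI : Nontrivial A := by
    refine ⟨⟨1, 0, fun h => he ?_⟩⟩
    rw [← hA.one, h, map_zero]
  have hf := gen_field h2k h3k hmin hn hm hF he hA
  have hfield : IsField A := {
    exists_pair_ne := exists_pair_ne A
    mul_comm := mul_comm
    mul_inv_cancel := fun {a} ha => ((hf a).resolve_left ha).exists_right_inv }
  letI : Field A := hfield.toField
  have h2A : (2 : A) ≠ 0 := by
    have : IsUnit (algebraMap k A 2) := (IsUnit.mk0 2 h2k).map _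
    rw [map_ofNat] at this
    exact this.ne_zero
  have hH := dick (k := k) (K := A) h2A h3k hA.unit.ne_zero hA.gen
  obtain ⟨c, hc, hc2⟩ := exists_sq_ne h2k h3k
  have hc' : algebraMap k A c ≠ 0 := by
    intro h
    exact hc ((algebraMap k A).injective (by rw [h, map_zero]))
  have hc2' : (algebraMap k A c) ^ 2 ≠ 1 := by
    intro h
    apply hc2
    apply (algebraMap k A).injective
    rw [map_pow, h, map_one]
  have hD : ⁅HS (Set.range (algebraMap k A)) α, HS (Set.range (algebraMap k A)) α⁆ = ⊤ := by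
    rw [hH]; exact perfect_top hc' hc2'
  have hnm : n * m * (1 - e) = 0 := by
    have h2 : m * (1 - e) = (1 - e) * m := by rw [mul_sub, sub_mul, me, mul_one, one_mul]
    rw [mul_assoc, h2, ← mul_assoc, h1, zero_mul]
  have hmn : m * n * (1 - e) = 0 := by rw [mul_assoc, h1, mul_zero]
  have hαm : φ α * (w * m) = m * e := by
    rw [hA.al]
    calc (n * m + m * n) * e * (w * m) = (n * m + m * n) * (e * w) * m := by simp only [mul_assoc]
      _ = m * e := by rw [hF.ew, hF.zw, me]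
  have hNN : NN G (m * e) := by
    refine ⟨?_, fun c => ?_⟩
    · rw [mul_assoc, ← mul_assoc e, ← me, mul_assoc m e e, ← mul_assoc, hm.1, zero_mul]
    · refine ⟨(rho (muOf hn.1.1 hm.1 hF hA)).toHomUnits (vv (c • α)), D_mem hn.1 hm hF hA hnm hmn (by rw [hD]; trivial), ?_⟩
      change rho _ (vv (c • α)) = _
      rw [rho_vv]
      change 1 + φ (c • α) * (w * m) = _
      rw [map_smul, smul_mul_assoc, hαm]
  have hme : m * e ≠ 0 := by
    intro h0
    apply he
    have h2 : e = (n * m + m * n) * e * w := by rw [mul_assoc, hF.ew, hF.zw]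
    have h3 : (n * m + m * n) * e = n * (m * e) + (m * e) * n := by rw [add_mul, mul_assoc, mul_assoc, mul_assoc m e n, ne]
    rw [h2, h3, h0]; simp
  have hrk : rk (m * e) ≤ d := by
    have h2 : m * e = m * (n * (m * w)) := by
      have h3 : m * (n * m + m * n) = m * (n * m) := by rw [mul_add, ← mul_assoc m m n, hm.1, zero_mul, add_zero]
      rw [← hF.zw, ← mul_assoc, h3]; simp only [mul_assoc]
    rw [h2]
    exact (rk_mul_right _ _).trans ((rk_mul_left _ _).trans hn.2.2)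
  refine ⟨h1, ne, me, ⟨hNN, hme, hrk⟩, ?_⟩
  have h4 : m * (1 - e) = m + -(m * e) := by rw [mul_sub, mul_one, sub_eq_add_neg]
  rw [h4]
  refine hm.add hNN.neg ?_ ?_
  · rw [mul_neg, ← mul_assoc, hm.1, zero_mul, neg_zero]
  · rw [neg_mul, mul_assoc, ← me, ← mul_assoc, hm.1, zero_mul, neg_zero]

end Cfsg.Agent.H3.QP
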