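import Mathlib
import Cfsg.Agent.H3.QPGen2

/-!
Quadratic pairs: the components are normal.
-/

set_option autoImplicit false

namespace Cfsg.Agent.H3.QP

open scoped commutatorElement
open Cfsg.Agent.H28

universe u v

theorem comm_star {R : Type*} [Ring R] (h2 : ∀ x : R, x + x = 0 → x = 0) {n x : R} (hn : n * n = 0) (hx : x * x = 0)
    (h : n * ((1 + x) * n * (1 - x)) = (1 + x) * n * (1 - x) * n) :
    n * (x * n) = 0 ∧ n * ((1 + x) * n * (1 - x)) = 0 := by
  have hn' : ∀ y, n * (n * y) = 0 := fun y => by rw [← mul_assoc, hn, zero_mul]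
  have hx' : ∀ y, x * (x * y) = 0 := fun y => by rw [← mul_assoc, hx, zero_mul]
  have e1 : n * ((1 + x) * n * (1 - x)) = n * (x * n) - n * (x * (n * x)) := by
    simp only [mul_add, add_mul, mul_sub, sub_mul, mul_one, one_mul, mul_assoc, hn, hx, hn', hx', mul_zero, zero_mul]
    abel
  have e2 : (1 + x) * n * (1 - x) * n = -(n * (x * n)) - x * (n * (x * n)) := by
    simp only [mul_add, add_mul, mul_sub, sub_mul, mul_one, one_mul, mul_assoc, hn, hx, hn', hx', mul_zero, zero_mul]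
    abel
  rw [e1, e2] at h
  have a1 : x * (n * (x * n)) - x * (n * (x * (n * x))) = -(x * (n * (x * n))) := by
    have := congrArg (x * ·) h
    simp only [mul_sub, mul_neg, hx', sub_zero] at this
    exact this
  have a2 : n * (x * (n * x)) = -(n * (x * (n * x))) - x * (n * (x * (n * x))) := by
    have := congrArg (· * x) h
    simp only [sub_mul, neg_mul, mul_assoc, hx, mul_zero, sub_zero] at this
    exact this
  have a3 : x * (n * (x * (n * x))) = 0 := by
    apply h2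
    have := congrArg (x * ·) a2
    simp only [mul_sub, mul_neg, hx', sub_zero] at this
    nth_rewrite 1 [this]
    abel
  have a4 : x * (n * (x * n)) = 0 := by
    apply h2
    rw [a3, sub_zero] at a1
    nth_rewrite 1 [a1]
    abel
  have a5 : n * (x * (n * x)) = 0 := by
    apply h2
    rw [a3, sub_zero] at a2
    nth_rewrite 1 [a2]
    abel
  have a6 : n * (x * n) = 0 := by
    apply h2
    rw [a4, a5, sub_zero, sub_zero] at h
    nth_rewrite 1 [h]
    abel
  exact ⟨a6, by rw [e1, a6, a5, sub_zero]⟩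

theorem two_e {R : Type*} [Ring R] (h2 : ∀ x : R, x + x = 0 → x = 0) {e x : R} (he : e * e = e) (hx : x * x = 0)
    (h1 : e * ((1 + x) * e * (1 - x)) = 0) (h3 : (1 + x) * e * (1 - x) * e = 0) : e = 0 := by
  have b1 : (1 - x) * (1 + x) = 1 := by
    have : (1 - x) * (1 + x) = 1 - x * x := by noncomm_ring
    rw [this, hx, sub_zero]
  have c1 : e * (1 + x) * e = 0 := by
    have : e * (1 + x) * e = e * ((1 + x) * e * (1 - x)) * (1 + x) := by
      have h5 : e * ((1 + x) * e * (1 - x)) * (1 + x) = e * (1 + x) * e * ((1 - x) * (1 + x)) := by simp only [mul_assoc]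
      rw [h5, b1, mul_one]
    rw [this, h1, zero_mul]
  have c2 : e * (1 - x) * e = 0 := by
    have : e * (1 - x) * e = (1 - x) * ((1 + x) * e * (1 - x) * e) := by
      have h5 : (1 - x) * ((1 + x) * e * (1 - x) * e) = ((1 - x) * (1 + x)) * e * (1 - x) * e := by simp only [mul_assoc]
      rw [h5, b1, one_mul]
    rw [this, h3, mul_zero]
  apply h2
  have : e * (1 + x) * e + e * (1 - x) * e = e * e + e * e := by noncomm_ring
  rw [c1, c2, he, add_zero] at this
  exact this.symm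

variable {k : Type u} [Field k] {M : Type v} [AddCommGroup M] [Module k M] 
variable {G : Subgroup (LinearMap.GeneralLinearGroup k M)} {d : ℕ} {n m e w t b x y : M →ₗ[k] M}
variable {A B A₀ B₀ : Subgroup (LinearMap.GeneralLinearGroup k M)}

open LinearMap (range ker)

theorem two_end (h2k : (2 : k) ≠ 0) (x : M →ₗ[k] M) (h : x + x = 0) : x = 0 := by
  rw [← two_smul k] at h
  exact (smul_eq_zero.1 h).resolve_left h2k

/-- a unit commuting with `1 + x` commutes with `x` -/
theorem unit_comm {g a : LinearMap.GeneralLinearGroup k M} (ha : (a : M →ₗ[k] M) = 1 + x) (h : g * a = a * g) :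
    (g : M →ₗ[k] M) * x = x * (g : M →ₗ[k] M) := by
  have h1 := congrArg Units.val h
  rw [Units.val_mul, Units.val_mul, ha, mul_add, add_mul, mul_one, one_mul] at h1
  exact add_left_cancel h1

variable [FiniteDimensional k M]

theorem X_le (hd : QD G d) : (⨆ B ∈ Cp G A₀, B : Subgroup (LinearMap.GeneralLinearGroup k M)) ≤ G :=
  iSup₂_le (fun B hB => sigma_le hd hB.1)

/-- an opposite inside the component -/
theorem exists_op_in (hG : IsIrreducibleFor G) (h2k : (2 : k) ≠ 0) (h3k : Nat.card k ≠ 3) (hd : QD G d)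
    (hn : N1 G d n) (hA : IsE G n A) (hA₀ : A ∈ Cp G A₀) :
    ∃ h ∈ (⨆ B ∈ Cp G A₀, B : Subgroup (LinearMap.GeneralLinearGroup k M)),
      Op n ((h : M →ₗ[k] M) * n * ((h⁻¹ : LinearMap.GeneralLinearGroup k M) : M →ₗ[k] M)) := by
  have hA1 : A ∈ Cp G A := Cp_self hA₀.1
  have hgc := Cp_GC hG h2k h3k hd hA₀.1
  obtain ⟨B, hB, hAB⟩ := hgc.opp A hA1
  obtain ⟨h, hh, rfl⟩ := hgc.trans A hA1 B hB
  rw [Cp_eq hA₀] at hh
  have hhG := X_le hd hh
  exact ⟨h, hh, op_of_ro h2k h3k hd.min hn (hn.conj hhG) hA (hA.conj hhG) hAB⟩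

theorem Cp_norm1 (hG : IsIrreducibleFor G) (h2k : (2 : k) ≠ 0) (h3k : Nat.card k ≠ 3) (hd : QD G d)
    (hA₀ : A₀ ∈ quadraticRootSubgroups G) (hx : NN G x) {g : LinearMap.GeneralLinearGroup k M} (hgG : g ∈ G)
    (hg : (g : M →ₗ[k] M) = 1 + x) : conjBy A₀ g ∈ Cp G A₀ := by
  by_contra hnot
  have hg' := inv_val_of hx.1 hg
  have hA₁ := sigma_conj hd hA₀ hgG
  have hne : Cp G A₀ ≠ Cp G (conjBy A₀ g) := fun h => hnot (by rw [h]; exact Cp_self hA₁)
  have hcomm : ∀ u ∈ (⨆ B ∈ Cp G A₀, B : Subgroup (LinearMap.GeneralLinearGroup k M)),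
      ∀ v ∈ (⨆ B ∈ Cp G (conjBy A₀ g), B : Subgroup (LinearMap.GeneralLinearGroup k M)), u * v = v * u :=
    fun u hu v hv => Cp_commute hG h2k h3k hd hne hu hv
  obtain ⟨n, hn, hA⟩ := sigma_data hd hA₀
  obtain ⟨h, hh, hop⟩ := exists_op_in hG h2k h3k hd hn hA (Cp_self hA₀)
  have hhG := X_le hd hh
  have hnh := hn.conj hhG
  obtain ⟨b, hb, b1, b2⟩ := op_bar h2k h3k hd.min hn hnh hop
  have hbar : Bar n b := bar_of hn hnh hb b1 b2
  have hB : IsE G ((h : M →ₗ[k] M) * n * ((h⁻¹ : LinearMap.GeneralLinearGroup k M) : M →ₗ[k] M)) (conjBy A₀ h) := hA.conj hhG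
  have hBC : conjBy A₀ h ∈ Cp G A₀ := Cp_conj hd hh (Cp_self hA₀)
  obtain ⟨ua, hua, ua1, -⟩ := hA.exists (AA.self hn.1)
  obtain ⟨ub, hub, ub1, -⟩ := hB.exists hb
  have huaX := le_X (Cp_self hA₀) hua
  have hubX := le_X hBC hub
  -- the starred elements
  have hAs := hA.conj hgG
  have hBsC : conjBy (conjBy A₀ h) g ∈ Cp G (conjBy A₀ g) := ⟨sigma_conj hd hBC.1 hgG, reach_conj hd hgG hBC.2⟩
  have hua' : g * ua * g⁻¹ ∈ conjBy A₀ g := ⟨ua, hua, rfl⟩
  have hub' : g * ub * g⁻¹ ∈ conjBy (conjBy A₀ h) g := ⟨ub, hub, rfl⟩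
  have huaX' := le_X (Cp_self hA₁) hua'
  have hubX' := le_X hBsC hub'
  set ns := (1 + x) * n * (1 - x) with hns
  set bs := (1 + x) * b * (1 - x) with hbs
  have vconj : ∀ {u : LinearMap.GeneralLinearGroup k M} {z : M →ₗ[k] M}, (u : M →ₗ[k] M) = 1 + z →
      ((g * u * g⁻¹ : LinearMap.GeneralLinearGroup k M) : M →ₗ[k] M) = 1 + (1 + x) * z * (1 - x) := by
    intro u z hu
    rw [Units.val_mul, Units.val_mul, hu, mul_add, mul_one, add_mul, Units.mul_inv, hg', hg]
  have va := vconj ua1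
  have vb := vconj ub1
  have c1 : n * ns = ns * n := (comm_of_one ua1 va).1 (hcomm _ huaX _ huaX')
  have c2 : n * bs = bs * n := (comm_of_one ua1 vb).1 (hcomm _ huaX _ hubX')
  have c3 : b * ns = ns * b := (comm_of_one ub1 va).1 (hcomm _ hubX _ huaX')
  have c4 : b * bs = bs * b := (comm_of_one ub1 vb).1 (hcomm _ hubX _ hubX')
  have ch : (h : M →ₗ[k] M) * ns = ns * (h : M →ₗ[k] M) := unit_comm va (hcomm _ hh _ huaX')
  have hinv : h⁻¹ ∈ (⨆ B ∈ Cp G A₀, B : Subgroup (LinearMap.GeneralLinearGroup k M)) := inv_mem hh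
  have ch' : ((h⁻¹ : LinearMap.GeneralLinearGroup k M) : M →ₗ[k] M) * ns = ns * ((h⁻¹ : LinearMap.GeneralLinearGroup k M) : M →ₗ[k] M) :=
    unit_comm va (hcomm _ hinv _ huaX')
  obtain ⟨-, z1⟩ := comm_star (two_end h2k) hn.1.1 hx.1 c1
  have hnsN : NN G ns := (hn.conj1 hx).1
  have z2 : b * ns = 0 := by
    refine AA.mul_zero (a := (h : M →ₗ[k] M) * n * ((h⁻¹ : LinearMap.GeneralLinearGroup k M) : M →ₗ[k] M)) (b := ns) ?_ hb (AA.self hnsN)
    rw [mul_assoc, ch', ← mul_assoc, mul_assoc (h : M →ₗ[k] M), z1, mul_zero, zero_mul]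
  set e := n * b + b * n with he
  have y1 : e * ns = 0 := by rw [he, add_mul, mul_assoc, mul_assoc, z1, z2, mul_zero, mul_zero, add_zero]
  have y2 : ns * e = 0 := by
    rw [he, mul_add, ← mul_assoc, ← c1, z1, ← mul_assoc, ← c3, z2]; simp
  have y3 : e * bs = bs * e := by
    exact (Commute.add_left (Commute.mul_left (show Commute n bs from c2) (show Commute b bs from c4))
      (Commute.mul_left (show Commute b bs from c4) (show Commute n bs from c2)))
  have b0 : (1 - x) * (1 + x) = 1 := by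
    have : (1 - x) * (1 + x) = 1 - x * x := by noncomm_ring
    rw [this, hx.1, sub_zero]
  have y4 : (1 + x) * e * (1 - x) = ns * bs + bs * ns := by
    have h1 : ns * bs = (1 + x) * n * ((1 - x) * (1 + x)) * b * (1 - x) := by rw [hns, hbs]; simp only [mul_assoc]
    have h2 : bs * ns = (1 + x) * b * ((1 - x) * (1 + x)) * n * (1 - x) := by rw [hns, hbs]; simp only [mul_assoc]
    rw [h1, h2, b0, he]
    noncomm_ring
  have he0 : e = 0 := by
    refine two_e (two_end h2k) hbar.ee hx.1 ?_ ?_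
    · rw [y4, mul_add, ← mul_assoc, y1, zero_mul, ← mul_assoc, y3, mul_assoc, y1, mul_zero, add_zero]
    · rw [y4, add_mul, mul_assoc, ← y3, ← mul_assoc, y2, zero_mul, mul_assoc, y2, mul_zero, add_zero]
  apply hn.2.1
  rw [← hbar.ne, ← he, he0, mul_zero]

/-- the components are normal -/
theorem Cp_normal (hG : IsQuadraticPair G) (h2k : (2 : k) ≠ 0) (h3k : Nat.card k ≠ 3) (hd : QD G d)
    {g : LinearMap.GeneralLinearGroup k M} (hg : g ∈ G) (hA : A ∈ Cp G A₀) : conjBy A g ∈ Cp G A₀ := by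
  let P : Subgroup (LinearMap.GeneralLinearGroup k M) := {
    carrier := {g | ∀ A ∈ Cp G A₀, conjBy A g ∈ Cp G A₀ ∧ conjBy A g⁻¹ ∈ Cp G A₀}
    mul_mem' := by
      intro x y hx hy A hA
      constructor
      · rw [← conjBy_conjBy]; exact (hx _ (hy A hA).1).1
      · rw [mul_inv_rev, ← conjBy_conjBy]; exact (hy _ (hx A hA).2).2
    one_mem' := by
      intro A hA
      rw [inv_one, conjBy_one]; exact ⟨hA, hA⟩
    inv_mem' := by
      intro x hx A hA
      rw [inv_inv]; exact ⟨(hx A hA).2, (hx A hA).1⟩ }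
  have hP : G ≤ P := by
    rw [← hG.2, Subgroup.closure_le]
    intro σ hσ A hA
    have hx := nn_of_mem hσ
    have h1 : (σ : M →ₗ[k] M) = 1 + ((σ : M →ₗ[k] M) - 1) := by abel
    have h2 := inv_val_of hx.1 h1
    rw [sub_eq_add_neg] at h2
    constructor
    · have := Cp_norm1 hG.1 h2k h3k hd hA.1 hx hσ.1 h1
      rwa [Cp_eq hA] at this
    · have := Cp_norm1 hG.1 h2k h3k hd hA.1 hx.neg (inv_mem hσ.1) h2
      rwa [Cp_eq hA] at this
  exact (hP hg A hA).1

end Cfsg.Agent.H3.QP
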