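import Mathlib
import Cfsg.Agent.H3.QPNorm

/-!
Quadratic pairs: an arbitrary quadratic element centralizes a component or lies in it.
-/

set_option autoImplicit false

namespace Cfsg.Agent.H3.QP

open scoped commutatorElement
open Cfsg.Agent.H28

universe u v

variable {k : Type u} [Field k] {M : Type v} [AddCommGroup M] [Module k M] 
variable {G : Subgroup (LinearMap.GeneralLinearGroup k M)} {d : ℕ} {n m e w t b x y : M →ₗ[k] M}
variable {A B A₀ B₀ : Subgroup (LinearMap.GeneralLinearGroup k M)}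

open LinearMap (range ker)

theorem conjAlg_apply (g : LinearMap.GeneralLinearGroup k M) (x : M →ₗ[k] M) :
    conjAlg g x = (g : M →ₗ[k] M) * x * ((g⁻¹ : LinearMap.GeneralLinearGroup k M) : M →ₗ[k] M) := rfl

theorem conjAlg_mul (g h : LinearMap.GeneralLinearGroup k M) (x : M →ₗ[k] M) :
    conjAlg (g * h) x = conjAlg g (conjAlg h x) := by
  rw [conjAlg_apply, conjAlg_apply, conjAlg_apply, mul_inv_rev, Units.val_mul, Units.val_mul]
  simp only [mul_assoc]

theorem conjAlg_one (x : M →ₗ[k] M) : conjAlg (1 : LinearMap.GeneralLinearGroup k M) x = x := by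
  rw [conjAlg_apply, inv_one, Units.val_one, one_mul, mul_one]

theorem conjAlg_inv_left (g : LinearMap.GeneralLinearGroup k M) (x : M →ₗ[k] M) : conjAlg g⁻¹ (conjAlg g x) = x := by
  rw [← conjAlg_mul, inv_mul_cancel, conjAlg_one]

theorem conjAlg_inv_right (g : LinearMap.GeneralLinearGroup k M) (x : M →ₗ[k] M) : conjAlg g (conjAlg g⁻¹ x) = x := by
  rw [← conjAlg_mul, mul_inv_cancel, conjAlg_one]

theorem conjAlg_of (hx : x * x = 0) {g : LinearMap.GeneralLinearGroup k M} (hg : (g : M →ₗ[k] M) = 1 + x) (y : M →ₗ[k] M) :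
    conjAlg g y = (1 + x) * y * (1 - x) := by
  rw [conjAlg_apply, inv_val_of hx hg, hg]

theorem div_c {V : Type*} [AddCommGroup V] [Module k V] {c : k} (hc : c ≠ 0) {T1 T2 T3 : V}
    (h : c • T1 + c ^ 2 • T2 - c ^ 3 • T3 = 0) : T1 + c • T2 - c ^ 2 • T3 = 0 := by
  have : c • (T1 + c • T2 - c ^ 2 • T3) = 0 := by rw [← h]; module
  exact (smul_eq_zero.1 this).resolve_left hc

/-- the operators of the component -/
def NC (G : Subgroup (LinearMap.GeneralLinearGroup k M)) (d : ℕ) (A₀ : Subgroup (LinearMap.GeneralLinearGroup k M)) :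
    Set (M →ₗ[k] M) := {n | N1 G d n ∧ ∃ B ∈ Cp G A₀, IsE G n B}

/-- the annihilated operators -/
def JC (G : Subgroup (LinearMap.GeneralLinearGroup k M)) (d : ℕ) (A₀ : Subgroup (LinearMap.GeneralLinearGroup k M)) :
    Submodule k (M →ₗ[k] M) where
  carrier := {y | ∀ n ∈ NC G d A₀, n * y * n = 0}
  add_mem' := by
    intro a b ha hb n hn
    rw [mul_add, add_mul, ha n hn, hb n hn, add_zero]
  zero_mem' := by
    intro n _
    rw [mul_zero, zero_mul]
  smul_mem' := by
    intro c a ha n hn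
    rw [mul_smul_comm, smul_mul_assoc, ha n hn, smul_zero]

variable [FiniteDimensional k M]

theorem NC_conj (hG : IsQuadraticPair G) (h2k : (2 : k) ≠ 0) (h3k : Nat.card k ≠ 3) (hd : QD G d)
    {g : LinearMap.GeneralLinearGroup k M} (hg : g ∈ G) (hn : n ∈ NC G d A₀) : conjAlg g n ∈ NC G d A₀ := by
  obtain ⟨h1, B, hB, hB'⟩ := hn
  exact ⟨h1.conj hg, _, Cp_normal hG h2k h3k hd hg hB, hB'.conj hg⟩

theorem JC_conj (hG : IsQuadraticPair G) (h2k : (2 : k) ≠ 0) (h3k : Nat.card k ≠ 3) (hd : QD G d)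
    {g : LinearMap.GeneralLinearGroup k M} (hg : g ∈ G) (hy : y ∈ JC G d A₀) : conjAlg g y ∈ JC G d A₀ := by
  intro n hn
  have h1 := hy _ (NC_conj hG h2k h3k hd (inv_mem hg) hn)
  have h2 := congrArg (conjAlg g) h1
  rw [map_mul, map_mul, conjAlg_inv_right, map_zero] at h2
  exact h2

/-- the polynomial argument -/
theorem JC_comm (hG : IsQuadraticPair G) (h2k : (2 : k) ≠ 0) (h3k : Nat.card k ≠ 3) (hd : QD G d)
    (hx : x ∈ JC G d A₀) (hn : n ∈ NC G d A₀) : x * n - n * x ∈ JC G d A₀ := by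
  intro m hm
  have hmxm := hx m hm
  have hnxn := hx n hn
  have key : ∀ c : k, c ≠ 0 →
      (m * x * (n * m - m * n) + (n * m - m * n) * x * m) +
      c • ((n * m - m * n) * x * (n * m - m * n) - m * x * (n * m * n) - (n * m * n) * x * m) -
      c ^ 2 • ((n * m - m * n) * x * (n * m * n) + (n * m * n) * x * (n * m - m * n)) = 0 := by
    intro c hc
    obtain ⟨g, hg, h1, h2⟩ := hn.1.1.exists_unit c
    have h3 := hx _ (NC_conj hG h2k h3k hd hg hm)
    rw [conjAlg_apply, h1, h2] at h3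
    have e1 : (1 + c • n) * m * (1 - c • n) = m + c • (n * m - m * n) - c ^ 2 • (n * m * n) := by
      simp only [mul_add, add_mul, mul_sub, sub_mul, mul_one, one_mul, smul_mul_assoc, mul_smul_comm, smul_smul, mul_assoc]
      module
    rw [e1] at h3
    have e2 : (m + c • (n * m - m * n) - c ^ 2 • (n * m * n)) * x * (m + c • (n * m - m * n) - c ^ 2 • (n * m * n)) =
        m * x * m + c • (m * x * (n * m - m * n) + (n * m - m * n) * x * m) +
        c ^ 2 • ((n * m - m * n) * x * (n * m - m * n) - m * x * (n * m * n) - (n * m * n) * x * m) -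
        c ^ 3 • ((n * m - m * n) * x * (n * m * n) + (n * m * n) * x * (n * m - m * n)) +
        c ^ 4 • (n * m * (n * x * n) * m * n) := by
      simp only [mul_add, add_mul, mul_sub, sub_mul, smul_mul_assoc, mul_smul_comm, smul_smul, mul_assoc]
      module
    rw [e2, hmxm, hnxn, mul_zero, zero_mul, zero_mul, smul_zero, add_zero, zero_add] at h3
    exact div_c hc h3
  set T1 := m * x * (n * m - m * n) + (n * m - m * n) * x * m with hT1
  set T2 := (n * m - m * n) * x * (n * m - m * n) - m * x * (n * m * n) - (n * m * n) * x * m with hT2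
  set T3 := (n * m - m * n) * x * (n * m * n) + (n * m * n) * x * (n * m - m * n) with hT3
  obtain ⟨c, hc, hc2⟩ := exists_sq_ne h2k h3k
  have k1 := key 1 one_ne_zero
  have k2 := key (-1) (neg_ne_zero.2 one_ne_zero)
  have k3 := key c hc
  rw [one_smul, one_pow, one_smul] at k1
  rw [neg_one_smul, neg_one_sq, one_smul] at k2
  have hT2' : T2 = 0 := by
    apply two_end h2k
    have : T2 + T2 = (T1 + T2 - T3) - (T1 + -T2 - T3) := by abel
    rw [this, k1, k2, sub_zero]
  rw [hT2', add_zero, sub_eq_zero] at k1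
  rw [hT2', smul_zero, add_zero, k1] at k3
  have hT3' : T3 = 0 := by
    have h5 : (1 - c ^ 2) • T3 = 0 := by rw [sub_smul, one_smul]; exact k3
    exact (smul_eq_zero.1 h5).resolve_left (sub_ne_zero.2 (Ne.symm hc2))
  rw [hT3'] at k1
  have e3 : m * (x * n - n * x) * m = T1 + (m * x * m) * n - n * (m * x * m) := by rw [hT1]; noncomm_ring
  rw [e3, k1, hmxm]; simp

theorem JC_quad (hG : IsQuadraticPair G) (h2k : (2 : k) ≠ 0) (h3k : Nat.card k ≠ 3) (hd : QD G d)
    (hxN : NN G x) (hx : x ∈ JC G d A₀) (hn : n ∈ NC G d A₀) : (1 + x) * n * (1 - x) - n ∈ JC G d A₀ := by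
  have h1 := JC_comm hG h2k h3k hd hx hn
  obtain ⟨g, hg, g1, -⟩ := hxN.exists_unit 1
  rw [one_smul] at g1
  have h2 := JC_comm hG h2k h3k hd hx (NC_conj hG h2k h3k hd hg hn)
  rw [conjAlg_of hxN.1 g1] at h2
  have hxx : ∀ y, x * (x * y) = 0 := fun y => by rw [← mul_assoc, hxN.1, zero_mul]
  have e1 : x * ((1 + x) * n * (1 - x)) - (1 + x) * n * (1 - x) * x = (x * n - n * x) - (2 : k) • (x * n * x) := by
    rw [two_smul]
    simp only [mul_add, add_mul, mul_sub, sub_mul, mul_one, one_mul, mul_assoc, hxx, hxN.1, mul_zero]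
    abel
  rw [e1] at h2
  have h3 := Submodule.sub_mem _ h1 h2
  rw [sub_sub_cancel] at h3
  have h4 : x * n * x ∈ JC G d A₀ := by
    have := Submodule.smul_mem _ (2 : k)⁻¹ h3
    rwa [smul_smul, inv_mul_cancel₀ h2k, one_smul] at this
  have e2 : (1 + x) * n * (1 - x) - n = (x * n - n * x) - x * n * x := by noncomm_ring
  rw [e2]
  exact Submodule.sub_mem _ h1 h4

/-- the group acting trivially modulo the radical -/
def YC (hG : IsQuadraticPair G) (h2k : (2 : k) ≠ 0) (h3k : Nat.card k ≠ 3) (hd : QD G d)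
    (A₀ : Subgroup (LinearMap.GeneralLinearGroup k M)) : Subgroup (LinearMap.GeneralLinearGroup k M) where
  carrier := {y | y ∈ G ∧ ∀ n ∈ NC G d A₀, conjAlg y n - n ∈ Submodule.span k (NC G d A₀) ⊓ JC G d A₀}
  mul_mem' := by
    rintro y z ⟨hy, hy'⟩ ⟨hz, hz'⟩
    refine ⟨mul_mem hy hz, fun n hn => ?_⟩
    have h1 := hy' _ (NC_conj hG h2k h3k hd hz hn)
    have h2 := hz' n hn
    have : conjAlg (y * z) n - n = (conjAlg y (conjAlg z n) - conjAlg z n) + (conjAlg z n - n) := by rw [conjAlg_mul]; abel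
    rw [this]
    exact Submodule.add_mem _ h1 h2
  one_mem' := ⟨one_mem _, fun n _ => by rw [conjAlg_one, sub_self]; exact Submodule.zero_mem _⟩
  inv_mem' := by
    rintro y ⟨hy, hy'⟩
    refine ⟨inv_mem hy, fun n hn => ?_⟩
    have h1 := hy' _ (NC_conj hG h2k h3k hd (inv_mem hy) hn)
    rw [conjAlg_inv_right] at h1
    have := Submodule.neg_mem _ h1
    rwa [neg_sub] at this

theorem span_conj (hG : IsQuadraticPair G) (h2k : (2 : k) ≠ 0) (h3k : Nat.card k ≠ 3) (hd : QD G d)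
    {g : LinearMap.GeneralLinearGroup k M} (hg : g ∈ G) (hy : y ∈ Submodule.span k (NC G d A₀)) :
    conjAlg g y ∈ Submodule.span k (NC G d A₀) := by
  induction hy using Submodule.span_induction with
  | mem x hx => exact Submodule.subset_span (NC_conj hG h2k h3k hd hg hx)
  | zero => rw [map_zero]; exact zero_mem _
  | add x y _ _ hx hy => rw [map_add]; exact add_mem hx hy
  | smul c x _ hx => rw [map_smul]; exact Submodule.smul_mem _ _ hx

theorem YC_conj (hG : IsQuadraticPair G) (h2k : (2 : k) ≠ 0) (h3k : Nat.card k ≠ 3) (hd : QD G d)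
    {g z : LinearMap.GeneralLinearGroup k M} (hg : g ∈ G) (hz : z ∈ YC hG h2k h3k hd A₀) : g * z * g⁻¹ ∈ YC hG h2k h3k hd A₀ := by
  refine ⟨mul_mem (mul_mem hg hz.1) (inv_mem hg), fun n hn => ?_⟩
  obtain ⟨h1, h2⟩ := hz.2 _ (NC_conj hG h2k h3k hd (inv_mem hg) hn)
  have e1 : conjAlg (g * z * g⁻¹) n - n = conjAlg g (conjAlg z (conjAlg g⁻¹ n) - conjAlg g⁻¹ n) := by
    rw [map_sub, conjAlg_inv_right, conjAlg_mul, conjAlg_mul]
  rw [e1]
  exact ⟨span_conj hG h2k h3k hd hg h1, JC_conj hG h2k h3k hd hg h2⟩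

theorem mem_YC (hG : IsQuadraticPair G) (h2k : (2 : k) ≠ 0) (h3k : Nat.card k ≠ 3) (hd : QD G d)
    (hxN : NN G x) (hx : x ∈ JC G d A₀) {g : LinearMap.GeneralLinearGroup k M} (hgG : g ∈ G) (hg : (g : M →ₗ[k] M) = 1 + x) :
    g ∈ YC hG h2k h3k hd A₀ := by
  refine ⟨hgG, fun n hn => ⟨?_, ?_⟩⟩
  · exact Submodule.sub_mem _ (Submodule.subset_span (NC_conj hG h2k h3k hd hgG hn)) (Submodule.subset_span hn)
  · change conjAlg g n - n ∈ JC G d A₀
    rw [conjAlg_of hxN.1 hg]
    exact JC_quad hG h2k h3k hd hxN hx hn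

/-- the group acting trivially modulo the radical centralizes the component -/
theorem YC_central (hG : IsQuadraticPair G) (h2k : (2 : k) ≠ 0) (h3k : Nat.card k ≠ 3) (hd : QD G d)
    (hA₀ : A₀ ∈ quadraticRootSubgroups G) {z : LinearMap.GeneralLinearGroup k M} (hz : z ∈ YC hG h2k h3k hd A₀) :
    ∀ g ∈ (⨆ B ∈ Cp G A₀, B : Subgroup (LinearMap.GeneralLinearGroup k M)), g * z = z * g := by
  have hgc := Cp_GC hG.1 h2k h3k hd hA₀
  set X := (⨆ B ∈ Cp G A₀, B : Subgroup (LinearMap.GeneralLinearGroup k M)) with hX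
  have hXG : X ≤ G := X_le hd
  have hXn : ∀ g ∈ G, ∀ x ∈ X, g * x * g⁻¹ ∈ X := by
    intro g hg x hx
    have hle : X ≤ X.comap (MulAut.conj g).toMonoidHom := by
      refine iSup₂_le (fun B hB => ?_)
      rw [← Subgroup.map_le_iff_le_comap]
      exact le_X (Cp_normal hG h2k h3k hd hg hB)
    exact hle hx
  rcases hgc.normal h2k h3k hd (N := X ⊓ YC hG h2k h3k hd A₀) inf_le_left (by
    rintro g hg y ⟨hy1, hy2⟩
    exact ⟨hXn g (hXG hg) y hy1, YC_conj hG h2k h3k hd (hXG hg) hy2⟩) with h1 | h1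
  · exfalso
    obtain ⟨n, hn, hA⟩ := sigma_data hd hA₀
    have hnC : n ∈ NC G d A₀ := ⟨hn, A₀, Cp_self hA₀, hA⟩
    obtain ⟨h, hh, hop⟩ := exists_op_in hG.1 h2k h3k hd hn hA (Cp_self hA₀)
    obtain ⟨-, hr⟩ := (h1 hh).2.2 n hnC
    have hnh := NC_conj hG h2k h3k hd (hXG hh) hnC
    apply hop
    rw [← conjAlg_apply]
    constructor
    · have := hr n hnC
      rw [mul_sub, sub_mul, mul_assoc n n, hn.1.1, mul_zero, sub_zero, mul_assoc] at this
      exact this
    · have := hr _ hnh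
      rw [mul_sub, sub_mul, hnh.1.1.1, zero_mul, zero_sub, neg_eq_zero, mul_assoc] at this
      exact this
  · -- the central case
    have hperf : ⁅X, X⁆ = X := hgc.perfect h2k h3k hd
    have hc : ∀ g ∈ X, ∃ c ∈ X, (∀ u ∈ X, c * u = u * c) ∧ z * g * z⁻¹ = c * g := by
      intro g hg
      refine ⟨z * g * z⁻¹ * g⁻¹, ?_, ?_, by group⟩
      · exact mul_mem (hXn z hz.1 g hg) (inv_mem hg)
      · have hgi : g⁻¹ ∈ X := inv_mem hg
        refine h1 _ ⟨X.mul_mem (hXn z hz.1 g hg) hgi, ?_⟩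
        have e1 : z * g * z⁻¹ * g⁻¹ = z * (g * z⁻¹ * g⁻¹) := by group
        have hzi : z⁻¹ ∈ YC hG h2k h3k hd A₀ := inv_mem hz
        have e2 : z * (g * z⁻¹ * g⁻¹) ∈ YC hG h2k h3k hd A₀ := mul_mem hz (YC_conj hG h2k h3k hd (hXG hg) hzi)
        rw [← e1] at e2
        exact e2
    have hle : X ≤ Subgroup.centralizer {z} := by
      rw [← hperf, Subgroup.commutator_le]
      intro g hg h hh
      obtain ⟨c, hcX, hc1, hc2⟩ := hc g hg
      obtain ⟨c', hcX', hc1', hc2'⟩ := hc h hh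
      have e2 : z * ⁅g, h⁆ * z⁻¹ = ⁅g, h⁆ := by
        have e3 : z * ⁅g, h⁆ * z⁻¹ = (z * g * z⁻¹) * (z * h * z⁻¹) * (z * g * z⁻¹)⁻¹ * (z * h * z⁻¹)⁻¹ := by
          rw [commutatorElement_def]; group
        rw [e3, hc2, hc2', commutatorElement_def]
        have k1 := hc1' g hg
        have k2 := hc1 h hh
        calc c * g * (c' * h) * (c * g)⁻¹ * (c' * h)⁻¹ = c * (g * c') * h * g⁻¹ * c⁻¹ * h⁻¹ * c'⁻¹ := by group
          _ = c * c' * g * h * g⁻¹ * (c⁻¹ * h⁻¹) * c'⁻¹ := by rw [← k1]; group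
          _ = c * c' * g * h * g⁻¹ * (h⁻¹ * c⁻¹) * c'⁻¹ := by
              have : c⁻¹ * h⁻¹ = h⁻¹ * c⁻¹ := by rw [← mul_inv_rev, ← mul_inv_rev, k2]
              rw [this]
          _ = c * c' * (g * h * g⁻¹ * h⁻¹) * (c * c')⁻¹ * (c * c' * c⁻¹ * c'⁻¹) := by group
          _ = g * h * g⁻¹ * h⁻¹ := by
              have k3 : c * c' = c' * c := hc1 c' hcX'
              have k4 : c * c' * c⁻¹ * c'⁻¹ = 1 := by rw [k3]; group
              have hu : g * h * g⁻¹ * h⁻¹ ∈ X := mul_mem (mul_mem (mul_mem hg hh) (inv_mem hg)) (inv_mem hh)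
              have k5 := hc1 _ hu
              have k6 := hc1' _ hu
              rw [k4, mul_one]
              calc c * c' * (g * h * g⁻¹ * h⁻¹) * (c * c')⁻¹ = c * (c' * (g * h * g⁻¹ * h⁻¹)) * (c * c')⁻¹ := by group
                _ = c * (g * h * g⁻¹ * h⁻¹) * c' * (c * c')⁻¹ := by rw [k6]; group
                _ = g * h * g⁻¹ * h⁻¹ * c * c' * (c * c')⁻¹ := by rw [k5]
                _ = g * h * g⁻¹ * h⁻¹ := by group
      rw [Subgroup.mem_centralizer_iff]
      intro y hy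
      rw [Set.mem_singleton_iff] at hy
      rw [hy]
      have := congrArg (· * z) e2
      simpa [mul_assoc] using this
    intro g hg
    exact ((Subgroup.mem_centralizer_iff.1 (hle hg)) z rfl).symm

end Cfsg.Agent.H3.QP
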