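import Mathlib
import Cfsg.Agent.H3.QPCent

/-!
Quadratic pairs: an arbitrary quadratic element centralizes a component or lies in it.
-/

set_option autoImplicit false

namespace Cfsg.Agent.H3.QP

open scoped commutatorElement
open Cfsg.Agent.H28

universe u v

variable {k : Type u} [Field k] {M : Type v} [AddCommGroup M] [Module k M] 
variable {G : Subgroup (LinearMap.GeneralLinearGroup k M)} {d : ℕ} {n m e w t b x y : M →ₗ[k] M}
variable {A B A₀ B₀ : Subgroup (LinearMap.GeneralLinearGroup k M)}

open LinearMap (range ker)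

variable [FiniteDimensional k M]

theorem exists_g (hx : NN G x) : ∃ g : LinearMap.GeneralLinearGroup k M, g ∈ G ∧ (g : M →ₗ[k] M) = 1 + x := by
  obtain ⟨g, hg, h1⟩ := hx.2 1
  rw [one_smul] at h1
  exact ⟨g, hg, h1⟩

theorem range_kill (hG : IsQuadraticPair G) (h2k : (2 : k) ≠ 0) (h3k : Nat.card k ≠ 3) (hd : QD G d)
    (hA₀ : A₀ ∈ quadraticRootSubgroups G) (hn : n ∈ NC G d A₀) (hy : NN G y) (hyn : y * n = 0)
    (hc : ∀ g : LinearMap.GeneralLinearGroup k M, (g : M →ₗ[k] M) = 1 + y →
      ∀ u ∈ (⨆ B ∈ Cp G A₀, B : Subgroup (LinearMap.GeneralLinearGroup k M)), g * u = u * g) : y = 0 := by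
  obtain ⟨gy, hgy, gy1⟩ := exists_g hy
  have hyu : ∀ u ∈ (⨆ B ∈ Cp G A₀, B : Subgroup (LinearMap.GeneralLinearGroup k M)), y * (u : M →ₗ[k] M) = (u : M →ₗ[k] M) * y :=
    fun u hu => (unit_comm gy1 (hc gy gy1 u hu).symm).symm
  -- `y` kills all operators of the component
  have hall : ∀ m ∈ NC G d A₀, y * m = 0 := by
    rintro m ⟨hm, D, hD, hD'⟩
    obtain ⟨hn1, B, hB, hB'⟩ := hn
    obtain ⟨h, hh, rfl⟩ := Cp_trans hB hD
    have hhG : h ∈ G := X_le hd hh
    have h1 := hB'.conj hhG
    have h2 : m ∈ AA G ((h : M →ₗ[k] M) * n * ((h⁻¹ : LinearMap.GeneralLinearGroup k M) : M →ₗ[k] M)) := by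
      obtain ⟨g, hg, g1, -⟩ := hD'.exists (AA.self hm.1)
      have := (h1 g).1 hg
      have e : (g : M →ₗ[k] M) - 1 = m := by rw [g1]; abel
      rwa [e] at this
    refine AA.mul_zero (a := y) ?_ (AA.self hy) h2
    rw [← mul_assoc, ← mul_assoc, hyu h hh, mul_assoc (h : M →ₗ[k] M), hyn, mul_zero, zero_mul]
  let W : Submodule k M := {
    carrier := {v | ∀ g ∈ G, y ((g : M →ₗ[k] M) v) = 0}
    add_mem' := by
      intro a b ha hb g hg
      rw [map_add, map_add, ha g hg, hb g hg, add_zero]
    zero_mem' := by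
      intro g _
      rw [map_zero, map_zero]
    smul_mem' := by
      intro c a ha g hg
      rw [map_smul, map_smul, ha g hg, smul_zero] }
  rcases hG.1.2 W (by
    intro g hg v hv h hh
    have := hv (h * g) (mul_mem hh hg)
    exact this) with hW | hW
  · exfalso
    apply hn.1.2.1
    ext v
    have h1 : n v ∈ W := by
      intro g hg
      have h2 := hall _ (NC_conj hG h2k h3k hd hg hn)
      have h3 : (g : M →ₗ[k] M) * n = conjAlg g n * (g : M →ₗ[k] M) := by
        rw [conjAlg_apply, mul_assoc, Units.inv_mul, mul_one]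
      have h4 : y * ((g : M →ₗ[k] M) * n) = 0 := by rw [h3, ← mul_assoc, h2, zero_mul]
      exact ap h4 v
    rw [hW, Submodule.mem_bot] at h1
    exact h1
  · ext v
    have h1 : v ∈ W := by rw [hW]; trivial
    have := h1 1 (one_mem _)
    exact this

theorem tri (hG : IsQuadraticPair G) (h2k : (2 : k) ≠ 0) (h3k : Nat.card k ≠ 3) (hd : QD G d)
    (hA₀ : A₀ ∈ quadraticRootSubgroups G) (N : ℕ) : ∀ x : M →ₗ[k] M, NN G x → rk x = N →
    (∀ g : LinearMap.GeneralLinearGroup k M, (g : M →ₗ[k] M) = 1 + x →
      ∀ u ∈ (⨆ B ∈ Cp G A₀, B : Subgroup (LinearMap.GeneralLinearGroup k M)), g * u = u * g) ∨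
    (∀ g : LinearMap.GeneralLinearGroup k M, (g : M →ₗ[k] M) = 1 + x →
      g ∈ (⨆ B ∈ Cp G A₀, B : Subgroup (LinearMap.GeneralLinearGroup k M))) := by
  induction N using Nat.strong_induction_on with
  | _ N IH =>
    intro x hx hN
    by_cases hall : ∀ n ∈ NC G d A₀, n * x * n = 0
    · left
      intro g hg u hu
      obtain ⟨g', hg', g1⟩ := exists_g hx
      obtain rfl : g = g' := Units.ext (hg.trans g1.symm)
      exact (YC_central hG h2k h3k hd hA₀ (mem_YC hG h2k h3k hd hx hall hg' hg) u hu).symm
    · right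
      push Not at hall
      obtain ⟨n, hn, hne⟩ := hall
      rw [mul_assoc] at hne
      obtain ⟨e, w, hF⟩ := exists_fit (n * x + x * n)
      have he := fit_ne h2k hd.min hn.1 hx hF hne
      obtain ⟨h1, ne, xe, hN1, hNN⟩ := gen_main h2k h3k hd.min hn.1 hx hF he
      obtain ⟨-, B, hB, hB'⟩ := id hn
      obtain ⟨D, hD, hD'⟩ := exists_E hd hN1
      have hee := hF.ee
      -- `1 + x e` lies in the component
      have hDC : D ∈ Cp G A₀ := by
        have hc : ⁅B, D⁆ ≠ ⊥ := by
          intro h0
          obtain ⟨ub, hub, ub1, -⟩ := hB'.exists (AA.self hn.1.1)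
          obtain ⟨ud, hud, ud1, -⟩ := hD'.exists (AA.self hN1.1)
          have h2 : ub * ud = ud * ub := by
            have h3 : ⁅ub, ud⁆ ∈ ⁅B, D⁆ := Subgroup.commutator_mem_commutator hub hud
            rw [h0, Subgroup.mem_bot, commutatorElement_eq_one_iff_mul_comm] at h3
            exact h3
          have h3 := (comm_of_one ub1 ud1).1 h2
          apply hne
          have h4 : n * (x * e) * n = 0 := by rw [h3, mul_assoc, hn.1.1.1, mul_zero]
          have h5 : e * n = n := by
            rw [mul_sub, mul_one, sub_eq_zero] at h1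
            rw [← ne, ← h1]
          rw [mul_assoc, mul_assoc x e n, h5] at h4
          exact h4
        exact ⟨hD, hB.2.trans (conn_of_ncomm hG.1 h2k h3k hd hB.1 hD hc).1⟩
      obtain ⟨ud, hud, ud1, -⟩ := hD'.exists (AA.self hN1.1)
      have hudX := le_X hDC hud
      set y := x * (1 - e) with hy
      have hsum : x = x * e + y := by rw [hy, ← mul_add, add_sub_cancel, mul_one]
      have hprod : (x * e) * y = 0 := by
        have : (1 - e) * e = 0 := by rw [sub_mul, one_mul, hee, sub_self]
        have h6 : x * (1 - e) = (1 - e) * x := by rw [mul_sub, sub_mul, mul_one, one_mul, xe]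
        rw [hy, h6, xe, mul_assoc, ← mul_assoc x, h6, mul_assoc, hx.1, mul_zero, mul_zero]
      have hyn : y * n = 0 := by
        have : (1 - e) * n = n * (1 - e) := by rw [mul_sub, sub_mul, mul_one, one_mul, ne]
        rw [hy, mul_assoc, this, h1, mul_zero]
      have hlt : rk y < N := by
        rw [← hN]
        have hle : range y ≤ range x := by
          rintro _ ⟨v, rfl⟩; exact ⟨(1 - e) v, rfl⟩
        rcases (Submodule.finrank_mono hle).lt_or_eq with h | h
        · exact h
        · exfalso
          have h7 := Submodule.eq_of_le_of_finrank_eq hle h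
          apply hN1.2.1
          have h8 : e * y = 0 := by
            have : e * (1 - e) = 0 := by rw [mul_sub, mul_one, hee, sub_self]
            rw [hy, ← mul_assoc, ← xe, mul_assoc, this, mul_zero]
          rw [xe]
          ext v
          have h9 : x v ∈ range y := by rw [h7]; exact ⟨v, rfl⟩
          obtain ⟨u, hu⟩ := h9
          change e (x v) = 0
          rw [← hu]
          exact ap h8 u
      rcases IH (rk y) hlt y hNN rfl with h2 | h2
      · have hy0 := range_kill hG h2k h3k hd hA₀ hn hNN hyn h2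
        intro g hg
        have : g = ud := Units.ext (by rw [hg, ud1, hsum, hy0, add_zero, mul_assoc, hee])
        rw [this]; exact hudX
      · intro g hg
        obtain ⟨gy, hgy, gy1⟩ := exists_g hNN
        have : g = ud * gy := by
          apply Units.ext
          rw [Units.val_mul, hg, ud1, gy1]
          have e1 : (1 + x * e) * (1 + y) = 1 + (x * e + y) + (x * e) * y := by noncomm_ring
          rw [e1, hprod, add_zero, ← hsum]
        rw [this]
        exact mul_mem hudX (h2 gy gy1)

end Cfsg.Agent.H3.QP
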