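import Mathlib
import Cfsg.Agent.H3.QPTri
import Cfsg.Agent.H13.Quasi

/-!
Quadratic pairs: restriction to an irreducible submodule.
-/

set_option autoImplicit false

namespace Cfsg.Agent.H3.QP

open scoped commutatorElement
open Cfsg.Agent.H28

universe u v

theorem sq_units {R : Type*} [Ring R] {z : R} (hz : z * z = 0) : (1 + z) * (1 - z) = 1 ∧ (1 - z) * (1 + z) = 1 := by
  have h1 : (1 + z) * (1 - z) = 1 - z * z := by noncomm_ring
  have h2 : (1 - z) * (1 + z) = 1 - z * z := by noncomm_ring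
  rw [h1, h2, hz, sub_zero]
  exact ⟨rfl, rfl⟩

variable {k : Type u} [Field k] {M : Type v} [AddCommGroup M] [Module k M] 
variable {G H : Subgroup (LinearMap.GeneralLinearGroup k M)} {d : ℕ} {n m e w t b x y : M →ₗ[k] M}
variable {A B A₀ B₀ : Subgroup (LinearMap.GeneralLinearGroup k M)} {M₁ : Submodule k M}

open LinearMap (range ker)

/-- restriction to an invariant submodule -/
def resHom (hinv : ∀ g ∈ H, ∀ v ∈ M₁, (g : M →ₗ[k] M) v ∈ M₁) : H →* (M₁ →ₗ[k] M₁) where
  toFun g := LinearMap.restrict ((g : LinearMap.GeneralLinearGroup k M) : M →ₗ[k] M) (hinv g g.2)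
  map_one' := by
    ext v; rfl
  map_mul' := by
    intro g h
    ext v; rfl

/-- restriction to an invariant submodule -/
def res (hinv : ∀ g ∈ H, ∀ v ∈ M₁, (g : M →ₗ[k] M) v ∈ M₁) : H →* LinearMap.GeneralLinearGroup k M₁ :=
  (resHom hinv).toHomUnits

theorem res_apply (hinv : ∀ g ∈ H, ∀ v ∈ M₁, (g : M →ₗ[k] M) v ∈ M₁) (g : H) (v : M₁) :
    (((res hinv g : LinearMap.GeneralLinearGroup k M₁) : M₁ →ₗ[k] M₁) v : M) = ((g : LinearMap.GeneralLinearGroup k M) : M →ₗ[k] M) v := rfl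

/-- the quadratic elements centralizing the root subgroups -/
def QC (G : Subgroup (LinearMap.GeneralLinearGroup k M)) : Set (LinearMap.GeneralLinearGroup k M) :=
  {σ | σ ∈ quadraticElements G ∧ ∀ u ∈ (⨆ B ∈ quadraticRootSubgroups G, B : Subgroup (LinearMap.GeneralLinearGroup k M)), σ * u = u * σ}

/-- the data for the restriction -/
structure Clif (G : Subgroup (LinearMap.GeneralLinearGroup k M)) (M₁ : Submodule k M) : Prop where
  inv : ∀ g ∈ Subgroup.closure (QC G), ∀ v ∈ M₁, (g : M →ₗ[k] M) v ∈ M₁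
  ne : M₁ ≠ ⊥
  min : ∀ W : Submodule k M, W ≤ M₁ → (∀ g ∈ Subgroup.closure (QC G), ∀ v ∈ W, (g : M →ₗ[k] M) v ∈ W) → W = ⊥ ∨ W = M₁
  faith : ∀ a : M →ₗ[k] M, (∀ u ∈ (⨆ B ∈ quadraticRootSubgroups G, B : Subgroup (LinearMap.GeneralLinearGroup k M)),
    a * (u : M →ₗ[k] M) = (u : M →ₗ[k] M) * a) → (∀ v ∈ M₁, a v = 0) → a = 0

theorem QC_comm {g : LinearMap.GeneralLinearGroup k M} (hg : g ∈ Subgroup.closure (QC G)) :
    ∀ u ∈ (⨆ B ∈ quadraticRootSubgroups G, B : Subgroup (LinearMap.GeneralLinearGroup k M)), g * u = u * g := by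
  have hle : Subgroup.closure (QC G) ≤
      Subgroup.centralizer ((⨆ B ∈ quadraticRootSubgroups G, B : Subgroup (LinearMap.GeneralLinearGroup k M)) : Set (LinearMap.GeneralLinearGroup k M)) := by
    rw [Subgroup.closure_le]
    intro σ hσ
    exact Subgroup.mem_centralizer_iff.2 (fun u hu => (hσ.2 u hu).symm)
  intro u hu
  exact ((Subgroup.mem_centralizer_iff.1 (hle hg)) u hu).symm

theorem QC_le : Subgroup.closure (QC G) ≤ G := by
  rw [Subgroup.closure_le]
  intro σ hσ
  exact hσ.1.1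

/-- the scalar families -/
theorem QC_smul (hx : NN G x) (hc : ∀ u ∈ (⨆ B ∈ quadraticRootSubgroups G, B : Subgroup (LinearMap.GeneralLinearGroup k M)),
      x * (u : M →ₗ[k] M) = (u : M →ₗ[k] M) * x) {g : LinearMap.GeneralLinearGroup k M} {c : k} (hg : (g : M →ₗ[k] M) = 1 + c • x) :
    g ∈ Subgroup.closure (QC G) := by
  by_cases h0 : c • x = 0
  · have : g = 1 := Units.ext (by rw [hg, h0, add_zero, Units.val_one])
    rw [this]; exact one_mem _
  · obtain ⟨σ, hσ, h1⟩ := mem_of_nn (hx.smul c) h0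
    obtain rfl : g = σ := Units.ext (hg.trans h1.symm)
    apply Subgroup.subset_closure
    refine ⟨hσ, fun u hu => ?_⟩
    apply Units.ext
    rw [Units.val_mul, Units.val_mul, hg, add_mul, mul_add, one_mul, mul_one, smul_mul_assoc, mul_smul_comm, hc u hu]

theorem comm_sub_one {g u : LinearMap.GeneralLinearGroup k M} (h : g * u = u * g) :
    ((g : M →ₗ[k] M) - 1) * (u : M →ₗ[k] M) = (u : M →ₗ[k] M) * ((g : M →ₗ[k] M) - 1) := by
  have h1 := congrArg Units.val h
  rw [Units.val_mul, Units.val_mul] at h1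
  rw [sub_mul, mul_sub, h1, one_mul, mul_one]

theorem Clif.inj (h : Clif G M₁) : Function.Injective (res h.inv) := by
  intro g g' hgg
  apply Subtype.ext
  apply Units.ext
  rw [← sub_eq_zero]
  apply h.faith
  · intro u hu
    have h1 := congrArg Units.val (QC_comm g.2 u hu)
    have h2 := congrArg Units.val (QC_comm g'.2 u hu)
    rw [Units.val_mul, Units.val_mul] at h1 h2
    rw [sub_mul, mul_sub, h1, h2]
  · intro v hv
    have h1 := congrArg (fun f : LinearMap.GeneralLinearGroup k M₁ => (((f : M₁ →ₗ[k] M₁) ⟨v, hv⟩ : M₁) : M)) hgg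
    change ((g : LinearMap.GeneralLinearGroup k M) : M →ₗ[k] M) v = ((g' : LinearMap.GeneralLinearGroup k M) : M →ₗ[k] M) v at h1
    rw [LinearMap.sub_apply, h1, sub_self]

theorem Clif.res_quad (h : Clif G M₁) {g : Subgroup.closure (QC G)} (hg : (g : LinearMap.GeneralLinearGroup k M) ∈ quadraticElements G) :
    res h.inv g ∈ quadraticElements (res h.inv).range := by
  have hx := nn_of_mem hg
  have hc : ∀ u ∈ (⨆ B ∈ quadraticRootSubgroups G, B : Subgroup (LinearMap.GeneralLinearGroup k M)),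
      (((g : LinearMap.GeneralLinearGroup k M) : M →ₗ[k] M) - 1) * (u : M →ₗ[k] M) =
        (u : M →ₗ[k] M) * (((g : LinearMap.GeneralLinearGroup k M) : M →ₗ[k] M) - 1) := fun u hu => comm_sub_one (QC_comm g.2 u hu)
  refine ⟨⟨g, rfl⟩, ⟨?_, ?_⟩, ?_⟩
  · ext v
    exact ap hx.1 v.1
  · intro h0
    apply hg.2.1.2
    apply h.faith _ hc
    intro v hv
    have := congrArg (fun f : M₁ →ₗ[k] M₁ => ((f ⟨v, hv⟩ : M₁) : M)) h0
    exact this
  · rintro τ ⟨c, hτ⟩
    obtain ⟨t, ht, ht'⟩ := hx.2 c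
    have htC : t ∈ Subgroup.closure (QC G) := QC_smul hx hc ht'
    refine ⟨⟨t, htC⟩, ?_⟩
    apply Units.ext
    rw [hτ]
    ext v
    exact ap ht' v.1

theorem Clif.lift_quad (h : Clif G M₁) {g : Subgroup.closure (QC G)} (hg : res h.inv g ∈ quadraticElements (res h.inv).range) :
    (g : LinearMap.GeneralLinearGroup k M) ∈ quadraticElements G := by
  have hc : ∀ u ∈ (⨆ B ∈ quadraticRootSubgroups G, B : Subgroup (LinearMap.GeneralLinearGroup k M)),
      (((g : LinearMap.GeneralLinearGroup k M) : M →ₗ[k] M) - 1) * (u : M →ₗ[k] M) =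
        (u : M →ₗ[k] M) * (((g : LinearMap.GeneralLinearGroup k M) : M →ₗ[k] M) - 1) := fun u hu => comm_sub_one (QC_comm g.2 u hu)
  refine ⟨QC_le g.2, ⟨?_, ?_⟩, ?_⟩
  · apply h.faith
    · intro u hu
      rw [mul_assoc, hc u hu, ← mul_assoc, hc u hu, mul_assoc]
    · intro v hv
      have := congrArg (fun f : M₁ →ₗ[k] M₁ => ((f ⟨v, hv⟩ : M₁) : M)) hg.2.1.1
      exact this
  · intro h0
    apply hg.2.1.2
    ext v
    exact ap h0 v.1
  · rintro τ ⟨c, hτ⟩
    -- the scalar multiple downstairs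
    have hsq := hg.2.1.1
    obtain ⟨t', ht'⟩ : ∃ t' : LinearMap.GeneralLinearGroup k M₁, (t' : M₁ →ₗ[k] M₁) = 1 + c • ((res h.inv g : M₁ →ₗ[k] M₁) - 1) := by
      refine ⟨⟨1 + c • ((res h.inv g : M₁ →ₗ[k] M₁) - 1), 1 - c • ((res h.inv g : M₁ →ₗ[k] M₁) - 1), ?_, ?_⟩, rfl⟩
      · exact (sq_units (smul_sq (c := c) hsq)).1
      · exact (sq_units (smul_sq (c := c) hsq)).2
    obtain ⟨s, hs⟩ := hg.2.2 ⟨c, ht'⟩
    have hs2 : ((s : LinearMap.GeneralLinearGroup k M) : M →ₗ[k] M) - (1 + c • (((g : LinearMap.GeneralLinearGroup k M) : M →ₗ[k] M) - 1)) = 0 := by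
      apply h.faith
      · intro u hu
        have h1 := congrArg Units.val (QC_comm s.2 u hu)
        rw [Units.val_mul, Units.val_mul] at h1
        rw [sub_mul, mul_sub, h1, add_mul, mul_add, one_mul, mul_one, smul_mul_assoc, mul_smul_comm, hc u hu]
      · intro v hv
        have h1 := congrArg (fun f : LinearMap.GeneralLinearGroup k M₁ => (((f : M₁ →ₗ[k] M₁) ⟨v, hv⟩ : M₁) : M)) hs
        simp only [ht'] at h1
        rw [LinearMap.sub_apply, sub_eq_zero]
        exact h1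
    have : τ = s := Units.ext (by rw [hτ]; exact (sub_eq_zero.1 hs2).symm)
    rw [this]
    exact QC_le s.2

theorem Clif.quadPair (h : Clif G M₁) : IsQuadraticPair (res h.inv).range := by
  refine ⟨⟨?_, ?_⟩, ?_⟩
  · obtain ⟨v, hv, hv0⟩ := (Submodule.ne_bot_iff _).1 h.ne
    exact ⟨⟨v, hv⟩, fun h0 => hv0 (congrArg Subtype.val h0)⟩
  · intro W hW
    have h1 : W.map M₁.subtype ≤ M₁ := by
      rintro _ ⟨w, -, rfl⟩; exact w.2
    rcases h.min (W.map M₁.subtype) h1 (by
      rintro g hg _ ⟨w, hw, rfl⟩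
      exact ⟨_, hW _ ⟨⟨g, hg⟩, rfl⟩ w hw, rfl⟩) with h2 | h2
    · left
      rw [eq_bot_iff]
      intro w hw
      have h3 : (w : M) ∈ W.map M₁.subtype := ⟨w, hw, rfl⟩
      rw [h2, Submodule.mem_bot] at h3
      rw [Submodule.mem_bot]
      exact Subtype.ext h3
    · right
      rw [eq_top_iff]
      rintro w -
      have h3 : (w : M) ∈ W.map M₁.subtype := by rw [h2]; exact w.2
      obtain ⟨w', hw', h4⟩ := h3
      have : w' = w := Subtype.ext h4
      rwa [← this]
  · apply le_antisymm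
    · rw [Subgroup.closure_le]
      intro σ hσ
      exact hσ.1
    · rintro _ ⟨⟨g, hg⟩, rfl⟩
      have key : ∀ g (hg : g ∈ Subgroup.closure (QC G)), res h.inv ⟨g, hg⟩ ∈ Subgroup.closure (quadraticElements (res h.inv).range) := by
        intro g hg
        induction hg using Subgroup.closure_induction with
        | mem x hx => exact Subgroup.subset_closure (h.res_quad (g := ⟨x, Subgroup.subset_closure hx⟩) hx.1)
        | one =>
          have : (⟨1, one_mem _⟩ : Subgroup.closure (QC G)) = 1 := rfl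
          rw [this, map_one]; exact one_mem _
        | mul x y hx hy h1 h2 =>
          have : (⟨x * y, mul_mem hx hy⟩ : Subgroup.closure (QC G)) = ⟨x, hx⟩ * ⟨y, hy⟩ := rfl
          rw [this, map_mul]; exact mul_mem h1 h2
        | inv x hx h1 =>
          have : (⟨x⁻¹, inv_mem hx⟩ : Subgroup.closure (QC G)) = ⟨x, hx⟩⁻¹ := rfl
          rw [this, map_inv]; exact inv_mem h1
      exact key g hg

end Cfsg.Agent.H3.QP
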