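import Mathlib
import Cfsg.Agent.H3.QPClif

/-!
Quadratic pairs: central product decomposition.
-/

set_option autoImplicit false

namespace Cfsg.Agent.H3.QP

open scoped commutatorElement
open Cfsg.Agent.H28

universe u v

section
variable {k : Type u} [Field k] {M : Type v} [AddCommGroup M] [Module k M] 
variable {G H : Subgroup (LinearMap.GeneralLinearGroup k M)} {d : ℕ} {n m e w t b x y : M →ₗ[k] M}
variable {A B A₀ B₀ : Subgroup (LinearMap.GeneralLinearGroup k M)} {M₁ : Submodule k M}

open LinearMap (range ker)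

variable [FiniteDimensional k M]

theorem dich (hG : IsQuadraticPair G) (h2k : (2 : k) ≠ 0) (h3k : Nat.card k ≠ 3) (hd : QD G d)
    {σ : LinearMap.GeneralLinearGroup k M} (hσ : σ ∈ quadraticElements G) :
    (∃ A ∈ quadraticRootSubgroups G, σ ∈ (⨆ B ∈ Cp G A, B : Subgroup (LinearMap.GeneralLinearGroup k M))) ∨ σ ∈ QC G := by
  by_cases h : ∀ A ∈ quadraticRootSubgroups G, ∀ u ∈ A, σ * u = u * σ
  · right
    refine ⟨hσ, ?_⟩
    have hle : (⨆ B ∈ quadraticRootSubgroups G, B : Subgroup (LinearMap.GeneralLinearGroup k M)) ≤ Subgroup.centralizer {σ} := by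
      refine iSup₂_le (fun B hB u hu => ?_)
      rw [Subgroup.mem_centralizer_iff]
      intro y hy
      rw [Set.mem_singleton_iff] at hy
      rw [hy]
      exact h B hB u hu
    intro u hu
    exact (Subgroup.mem_centralizer_iff.1 (hle hu)) σ rfl
  · left
    push Not at h
    obtain ⟨A, hA, u, hu, hne⟩ := h
    refine ⟨A, hA, ?_⟩
    have h1 : (σ : M →ₗ[k] M) = 1 + ((σ : M →ₗ[k] M) - 1) := by abel
    rcases tri hG h2k h3k hd hA _ _ (nn_of_mem hσ) rfl with h | h
    · exact absurd (h σ h1 u (le_X (Cp_self hA) hu)) hne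
    · exact h σ h1

omit [FiniteDimensional k M] in
theorem X_le_E : (⨆ B ∈ Cp G A₀, B : Subgroup (LinearMap.GeneralLinearGroup k M)) ≤
    (⨆ B ∈ quadraticRootSubgroups G, B : Subgroup (LinearMap.GeneralLinearGroup k M)) :=
  iSup₂_le (fun _ hB => le_X hB.1)

theorem exists_clif (hG : IsQuadraticPair G) (h2k : (2 : k) ≠ 0) (h3k : Nat.card k ≠ 3) (hd : QD G d)
    (hA₀ : A₀ ∈ quadraticRootSubgroups G) : ∃ M₁ : Submodule k M, Clif G M₁ ∧ Module.finrank k M₁ < Module.finrank k M := by
  let S : Set (Submodule k M) := {W | W ≠ ⊥ ∧ ∀ g ∈ Subgroup.closure (QC G), ∀ v ∈ W, (g : M →ₗ[k] M) v ∈ W}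
  have hS : S.Nonempty := by
    refine ⟨⊤, ?_, fun _ _ _ _ => trivial⟩
    obtain ⟨m, hm⟩ := hG.1.1
    intro h
    have : m ∈ (⊤ : Submodule k M) := trivial
    rw [h, Submodule.mem_bot] at this
    exact hm this
  obtain ⟨M₁, hM₁, hmin⟩ := (wellFounded_lt (α := Submodule k M)).has_min S hS
  have hmin' : ∀ W : Submodule k M, W ≤ M₁ → (∀ g ∈ Subgroup.closure (QC G), ∀ v ∈ W, (g : M →ₗ[k] M) v ∈ W) → W = ⊥ ∨ W = M₁ := by
    intro W hW hinv
    by_cases h0 : W = ⊥
    · exact Or.inl h0
    · right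
      by_contra hne
      exact hmin W ⟨h0, hinv⟩ (lt_of_le_of_ne hW hne)
  refine ⟨M₁, ⟨hM₁.2, hM₁.1, hmin', ?_⟩, ?_⟩
  · intro a ha hav
    let V : Submodule k M := Submodule.span k {v | ∃ u ∈ (⨆ B ∈ quadraticRootSubgroups G, B : Subgroup (LinearMap.GeneralLinearGroup k M)),
      ∃ m ∈ M₁, v = (u : M →ₗ[k] M) m}
    have hV1 : ∀ g ∈ (⨆ B ∈ quadraticRootSubgroups G, B : Subgroup (LinearMap.GeneralLinearGroup k M)), ∀ v ∈ V, (g : M →ₗ[k] M) v ∈ V := by
      intro g hg v hv
      induction hv using Submodule.span_induction with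
      | mem x hx =>
        obtain ⟨u, hu, m, hm, rfl⟩ := hx
        exact Submodule.subset_span ⟨g * u, mul_mem hg hu, m, hm, rfl⟩
      | zero => rw [map_zero]; exact zero_mem _
      | add x y _ _ hx hy => rw [map_add]; exact add_mem hx hy
      | smul c x _ hx => rw [map_smul]; exact Submodule.smul_mem _ _ hx
    have hV2 : ∀ g ∈ Subgroup.closure (QC G), ∀ v ∈ V, (g : M →ₗ[k] M) v ∈ V := by
      intro g hg v hv
      induction hv using Submodule.span_induction with
      | mem x hx =>
        obtain ⟨u, hu, m, hm, rfl⟩ := hx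
        refine Submodule.subset_span ⟨u, hu, (g : M →ₗ[k] M) m, hM₁.2 g hg m hm, ?_⟩
        have := congrArg Units.val (QC_comm hg u hu)
        exact ap this m
      | zero => rw [map_zero]; exact zero_mem _
      | add x y _ _ hx hy => rw [map_add]; exact add_mem hx hy
      | smul c x _ hx => rw [map_smul]; exact Submodule.smul_mem _ _ hx
    let P : Subgroup (LinearMap.GeneralLinearGroup k M) := {
      carrier := {g | ∀ v ∈ V, (g : M →ₗ[k] M) v ∈ V ∧ ((g⁻¹ : LinearMap.GeneralLinearGroup k M) : M →ₗ[k] M) v ∈ V}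
      mul_mem' := by
        intro x y hx hy v hv
        refine ⟨(hx _ (hy v hv).1).1, ?_⟩
        rw [mul_inv_rev]
        exact (hy _ (hx v hv).2).2
      one_mem' := by
        intro v hv
        rw [inv_one]; exact ⟨hv, hv⟩
      inv_mem' := by
        intro x hx v hv
        rw [inv_inv]; exact ⟨(hx v hv).2, (hx v hv).1⟩ }
    have hP : G ≤ P := by
      rw [← hG.2, Subgroup.closure_le]
      intro σ hσ v hv
      rcases dich hG h2k h3k hd hσ with ⟨A, hA, h1⟩ | h1
      · have h2 := X_le_E h1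
        exact ⟨hV1 σ h2 v hv, hV1 σ⁻¹ (inv_mem h2) v hv⟩
      · have h2 : σ ∈ Subgroup.closure (QC G) := Subgroup.subset_closure h1
        exact ⟨hV2 σ h2 v hv, hV2 σ⁻¹ (inv_mem h2) v hv⟩
    have hMV : M₁ ≤ V := fun m hm => Submodule.subset_span ⟨1, one_mem _, m, hm, rfl⟩
    rcases hG.1.2 V (fun g hg v hv => (hP hg v hv).1) with hV | hV
    · exfalso
      rw [hV] at hMV
      exact hM₁.1 (le_bot_iff.1 hMV)
    · ext v
      have hv : v ∈ V := by rw [hV]; trivial
      rw [LinearMap.zero_apply]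
      induction hv using Submodule.span_induction with
      | mem x hx =>
        obtain ⟨u, hu, m, hm, rfl⟩ := hx
        have h1 := ap (ha u hu) m
        change a ((u : M →ₗ[k] M) m) = (u : M →ₗ[k] M) (a m) at h1
        rw [h1, hav m hm, map_zero]
      | zero => rw [map_zero]
      | add x y _ _ hx hy => rw [map_add, hx, hy, add_zero]
      | smul c x _ hx => rw [map_smul, hx, smul_zero]
  · apply Submodule.finrank_lt
    intro htop
    obtain ⟨n, hn, hA⟩ := sigma_data hd hA₀
    obtain ⟨u, hu, u1, -⟩ := hA.exists (AA.self hn.1)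
    have huE := le_X hA₀ hu
    rcases hmin' (ker n) (by rw [htop]; exact le_top) (by
      intro g hg v hv
      have h1 := unit_comm u1 (QC_comm hg u huE)
      have h2 := ap h1 v
      change (g : M →ₗ[k] M) (n v) = n ((g : M →ₗ[k] M) v) at h2
      rw [LinearMap.mem_ker] at hv ⊢
      rw [← h2, hv, map_zero]) with h | h
    · apply hn.2.1
      ext v
      have h1 : n v ∈ ker n := ap hn.1.1 v
      rw [h, Submodule.mem_bot] at h1
      exact h1
    · apply hn.2.1
      ext v
      have h1 : v ∈ ker n := by rw [h, htop]; trivial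
      exact h1

/-- the result -/
def Res63 (G : Subgroup (LinearMap.GeneralLinearGroup k M)) : Prop :=
  ∃ S : Set (Subgroup (LinearMap.GeneralLinearGroup k M)), S.Finite ∧ (∀ H ∈ S, H ≤ G ∧ ∀ g ∈ G, conjBy H g = H) ∧
    (∀ H ∈ S, ∀ K ∈ S, H ≠ K → ∀ x ∈ H, ∀ y ∈ K, x * y = y * x) ∧ (∀ σ ∈ quadraticElements G, ∃ H ∈ S, σ ∈ H) ∧
    (∀ H ∈ S, IsQuasisimple ↥H ∧ Subgroup.closure (quadraticElements G ∩ (H : Set (LinearMap.GeneralLinearGroup k M))) = H)

omit [FiniteDimensional k M] in
theorem conjBy_eq_self (hH : ∀ g ∈ G, ∀ x ∈ H, g * x * g⁻¹ ∈ H) {g : LinearMap.GeneralLinearGroup k M} (hg : g ∈ G) : conjBy H g = H := by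
  ext x
  rw [mem_conjBy]
  constructor
  · intro hx
    have := hH g hg _ hx
    have e : g * (g⁻¹ * x * g) * g⁻¹ = x := by group
    rwa [e] at this
  · intro hx
    have := hH g⁻¹ (inv_mem hg) _ hx
    rwa [inv_inv] at this

end

theorem main63 {k : Type u} [Field k] (h2k : (2 : k) ≠ 0) (h3k : Nat.card k ≠ 3) (N : ℕ) :
    ∀ (M : Type v) [AddCommGroup M] [Module k M] [FiniteDimensional k M] (G : Subgroup (LinearMap.GeneralLinearGroup k M)),
      IsQuadraticPair G → Module.finrank k M = N → Res63 G := by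
  induction N using Nat.strong_induction_on with
  | _ N IH =>
    intro M _ _ _ G hG hN
    by_cases hQ : (quadraticElements G).Nonempty
    swap
    · rw [Set.not_nonempty_iff_eq_empty] at hQ
      refine ⟨∅, Set.finite_empty, ?_, ?_, ?_, ?_⟩
      · rintro H ⟨⟩
      · rintro H ⟨⟩
      · intro σ hσ
        rw [hQ] at hσ
        exact absurd hσ (Set.notMem_empty σ)
      · rintro H ⟨⟩
    -- minimal quadratic elements
    obtain ⟨σ₀, hσ₀⟩ : ∃ σ, σ ∈ minimalQuadraticElements G := by
      classical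
      have hex : ∃ r, ∃ σ ∈ quadraticElements G, commutatorRank σ = r := by
        obtain ⟨σ, hσ⟩ := hQ
        exact ⟨_, σ, hσ, rfl⟩
      obtain ⟨σ, hσ, hr⟩ := Nat.find_spec hex
      refine ⟨σ, hσ, fun τ hτ => ?_⟩
      rw [hr]
      exact Nat.find_min' hex ⟨τ, hτ, rfl⟩
    have hd := QD.of hσ₀
    have hSig : sameActionSubgroup G σ₀ ∈ quadraticRootSubgroups G := ⟨σ₀, hσ₀, rfl⟩
    obtain ⟨M₁, hcl, hlt⟩ := exists_clif hG h2k h3k hd hSig
    obtain ⟨S', hS'fin, hS'n, hS'c, hS'q, hS's⟩ := IH (Module.finrank k M₁) (by omega) M₁ (res hcl.inv).range hcl.quadPair rfl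
    set ρ := res hcl.inv with hρ
    let lift : Subgroup (LinearMap.GeneralLinearGroup k M₁) → Subgroup (LinearMap.GeneralLinearGroup k M) :=
      fun H' => (H'.comap ρ).map (Subgroup.closure (QC G)).subtype
    have mem_lift : ∀ H' g, g ∈ lift H' ↔ ∃ hg : g ∈ Subgroup.closure (QC G), ρ ⟨g, hg⟩ ∈ H' := by
      intro H' g
      constructor
      · rintro ⟨x, hx, rfl⟩; exact ⟨x.2, hx⟩
      · rintro ⟨hg, hx⟩; exact ⟨⟨g, hg⟩, hx, rfl⟩
    let X : Subgroup (LinearMap.GeneralLinearGroup k M) → Subgroup (LinearMap.GeneralLinearGroup k M) :=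
      fun A => (⨆ B ∈ Cp G A, B)
    have hXE : ∀ A, X A ≤ (⨆ B ∈ quadraticRootSubgroups G, B : Subgroup (LinearMap.GeneralLinearGroup k M)) := fun A => X_le_E
    have hEL : ∀ x ∈ (⨆ B ∈ quadraticRootSubgroups G, B : Subgroup (LinearMap.GeneralLinearGroup k M)),
        ∀ y ∈ Subgroup.closure (QC G), x * y = y * x := fun x hx y hy => (QC_comm hy x hx).symm
    have hQQ : ∀ H : Subgroup (LinearMap.GeneralLinearGroup k M), (∀ g ∈ quadraticElements G, ∀ x ∈ H, g * x * g⁻¹ ∈ H ∧ g⁻¹ * x * g ∈ H) →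
        ∀ g ∈ G, ∀ x ∈ H, g * x * g⁻¹ ∈ H := by
      intro H hH g hg x hx
      have hle : G ≤ Subgroup.normalizer (H : Set (LinearMap.GeneralLinearGroup k M)) := by
        rw [← hG.2, Subgroup.closure_le]
        intro σ hσ
        rw [SetLike.mem_coe, Subgroup.mem_normalizer_iff]
        intro y
        constructor
        · intro hy; exact (hH σ hσ y hy).1
        · intro hy
          have := (hH σ hσ _ hy).2
          have e : σ⁻¹ * (σ * y * σ⁻¹) * σ = y := by group
          rwa [e] at this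
      exact ((Subgroup.mem_normalizer_iff.1 (hle hg)) x).1 hx
    refine ⟨X '' quadraticRootSubgroups G ∪ lift '' S', ?_, ?_, ?_, ?_, ?_⟩
    · refine Set.Finite.union ?_ (hS'fin.image _)
      have h1 := Cp_finite hG.1 h2k h3k hd
      have h2 := h1.image (fun C : Set (Subgroup (LinearMap.GeneralLinearGroup k M)) => (⨆ B ∈ C, B : Subgroup (LinearMap.GeneralLinearGroup k M)))
      rw [Set.image_image] at h2
      exact h2
    · rintro H (⟨A, hA, rfl⟩ | ⟨H', hH', rfl⟩)
      · refine ⟨X_le hd, fun g hg => conjBy_eq_self (G := G) ?_ hg⟩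
        intro g hg x hx
        have hle : X A ≤ (X A).comap (MulAut.conj g).toMonoidHom := by
          refine iSup₂_le (fun B hB => ?_)
          rw [← Subgroup.map_le_iff_le_comap]
          exact le_X (Cp_normal hG h2k h3k hd hg hB)
        exact hle hx
      · refine ⟨?_, fun g hg => conjBy_eq_self (G := G) ?_ hg⟩
        · intro g hg
          obtain ⟨h1, -⟩ := (mem_lift H' g).1 hg
          exact QC_le h1
        · refine hQQ _ ?_
          intro σ hσ x hx
          obtain ⟨hx1, hx2⟩ := (mem_lift H' x).1 hx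
          rcases dich hG h2k h3k hd hσ with ⟨A, hA, h1⟩ | h1
          · have h2 := hEL _ (hXE A h1) x hx1
            have h3 := hEL _ (hXE A (inv_mem h1)) x hx1
            constructor
            · rw [h2, mul_inv_cancel_right]; exact hx
            · rw [h3, inv_mul_cancel_right]; exact hx
          · have h2 : σ ∈ Subgroup.closure (QC G) := Subgroup.subset_closure h1
            have hk : ∀ g, ∀ hg : g ∈ Subgroup.closure (QC G), g * x * g⁻¹ ∈ lift H' := by
              intro g hg
              refine (mem_lift H' _).2 ⟨mul_mem (mul_mem hg hx1) (inv_mem hg), ?_⟩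
              have e : (⟨g * x * g⁻¹, mul_mem (mul_mem hg hx1) (inv_mem hg)⟩ : Subgroup.closure (QC G)) = ⟨g, hg⟩ * ⟨x, hx1⟩ * ⟨g, hg⟩⁻¹ := rfl
              rw [e, map_mul, map_mul, map_inv]
              have h5 := (hS'n H' hH').2 (ρ ⟨g, hg⟩) ⟨_, rfl⟩
              have h6 : ρ ⟨g, hg⟩ * ρ ⟨x, hx1⟩ * (ρ ⟨g, hg⟩)⁻¹ ∈ conjBy H' (ρ ⟨g, hg⟩) := ⟨_, hx2, rfl⟩
              rwa [h5] at h6
            refine ⟨hk σ h2, ?_⟩
            have := hk σ⁻¹ (inv_mem h2)
            rwa [inv_inv] at this
    · rintro H (⟨A, hA, rfl⟩ | ⟨H', hH', rfl⟩) K (⟨B, hB, rfl⟩ | ⟨K', hK', rfl⟩) hne x hx y hy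
      · refine Cp_commute hG.1 h2k h3k hd ?_ hx hy
        intro h
        apply hne
        change (⨆ D ∈ Cp G A, D) = (⨆ D ∈ Cp G B, D)
        rw [h]
      · obtain ⟨hy1, hy2⟩ := (mem_lift K' y).1 hy
        exact hEL x (hXE A hx) y hy1
      · obtain ⟨hx1, hx2⟩ := (mem_lift H' x).1 hx
        exact (hEL y (hXE B hy) x hx1).symm
      · obtain ⟨hx1, hx2⟩ := (mem_lift H' x).1 hx
        obtain ⟨hy1, hy2⟩ := (mem_lift K' y).1 hy
        have h1 : H' ≠ K' := fun h => hne (by rw [h])
        have h2 := hS'c H' hH' K' hK' h1 _ hx2 _ hy2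
        rw [← map_mul, ← map_mul] at h2
        exact congrArg Subtype.val (hcl.inj h2)
    · intro σ hσ
      rcases dich hG h2k h3k hd hσ with ⟨A, hA, h1⟩ | h1
      · exact ⟨_, Or.inl ⟨A, hA, rfl⟩, h1⟩
      · have h2 : σ ∈ Subgroup.closure (QC G) := Subgroup.subset_closure h1
        obtain ⟨H', hH', h3⟩ := hS'q _ (hcl.res_quad (g := ⟨σ, h2⟩) hσ)
        exact ⟨_, Or.inr ⟨H', hH', rfl⟩, (mem_lift H' σ).2 ⟨h2, h3⟩⟩
    · rintro H (⟨A, hA, rfl⟩ | ⟨H', hH', rfl⟩)
      · refine ⟨(Cp_GC hG.1 h2k h3k hd hA).quasisimple h2k h3k hd, ?_⟩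
        apply le_antisymm
        · rw [Subgroup.closure_le]
          intro x hx; exact hx.2
        · change (⨆ B ∈ Cp G A, B) ≤ _
          refine iSup₂_le (fun B hB u hu => ?_)
          obtain ⟨n, hn, hB'⟩ := sigma_data hd hB.1
          obtain ⟨x, hx, hx1, -⟩ := hB'.val hu
          by_cases hx0 : x = 0
          · have : u = 1 := Units.ext (by rw [hx1, hx0, add_zero, Units.val_one])
            rw [this]; exact one_mem _
          · obtain ⟨σ, hσ, h1⟩ := mem_of_nn hx.1 hx0
            have : u = σ := Units.ext (hx1.trans h1.symm)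
            apply Subgroup.subset_closure
            refine ⟨by rw [this]; exact hσ, le_X hB hu⟩
      · obtain ⟨h1, h2⟩ := hS's H' hH'
        have hH'r := (hS'n H' hH').1
        constructor
        · have e1 : (H'.comap ρ) ≃* lift H' := Subgroup.equivMapOfInjective _ _ (Subgroup.subtype_injective _)
          have e2 : (H'.comap ρ) ≃* (H'.comap ρ).map ρ := Subgroup.equivMapOfInjective _ _ hcl.inj
          rw [Subgroup.map_comap_eq_self hH'r] at e2
          exact Cfsg.Agent.H13.isQuasisimple_congr (e2.symm.trans e1) h1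
        · apply le_antisymm
          · rw [Subgroup.closure_le]
            intro x hx; exact hx.2
          · intro x hx
            obtain ⟨hx1, hx2⟩ := (mem_lift H' x).1 hx
            have key : ∀ h' ∈ Subgroup.closure (quadraticElements ρ.range ∩ (H' : Set (LinearMap.GeneralLinearGroup k M₁))),
                ∃ g : Subgroup.closure (QC G), ρ g = h' ∧ (g : LinearMap.GeneralLinearGroup k M) ∈
                  Subgroup.closure (quadraticElements G ∩ (lift H' : Set (LinearMap.GeneralLinearGroup k M))) := by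
              intro h' hh'
              induction hh' using Subgroup.closure_induction with
              | mem z hz =>
                obtain ⟨g, rfl⟩ := hz.1.1
                refine ⟨g, rfl, Subgroup.subset_closure ⟨hcl.lift_quad hz.1, ?_⟩⟩
                exact (mem_lift H' _).2 ⟨g.2, hz.2⟩
              | one => exact ⟨1, map_one _, one_mem _⟩
              | mul z w _ _ hz hw =>
                obtain ⟨g, rfl, hg⟩ := hz
                obtain ⟨g', rfl, hg'⟩ := hw
                exact ⟨g * g', map_mul _ _ _, mul_mem hg hg'⟩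
              | inv z _ hz =>
                obtain ⟨g, rfl, hg⟩ := hz
                exact ⟨g⁻¹, map_inv _ _, inv_mem hg⟩
            rw [h2] at key
            obtain ⟨g, hg1, hg2⟩ := key _ hx2
            have : g = ⟨x, hx1⟩ := hcl.inj hg1
            rw [this] at hg2
            exact hg2

end Cfsg.Agent.H3.QP
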