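import Cfsg.Agent.H3.Quat3
import Cfsg.Agent.H4.ZStarF
import Cfsg.Agent.H1.Chief

/-!
# Brauer–Suzuki consequences (helper3)
-/

set_option autoImplicit false
set_option linter.style.haveILetI false
set_option linter.unusedSimpArgs false
set_option linter.unusedSectionVars false
set_option linter.unusedVariables false
open Cfsg
open scoped commutatorElement

namespace Cfsg.Agent.H3

open Cfsg.Agent.H4

universe u

variable {G : Type u} [Group G] [Finite G]

/-- Brauer–Suzuki without assumption on the odd core -/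
theorem bs_general (S : Sylow 2 G) (n : ℕ)
    (e : (S : Subgroup G) ≃* QuaternionGroup (2 ^ (n + 2))) :
    ∃ M : Subgroup G, M.Normal ∧ (∃ k, Odd k ∧ Nat.card M = 2 * k) ∧
      (∀ g : G, orderOf g = 2 → g ∈ M) ∧ (∀ g ∈ M, g ∈ S → g * g = 1) := by
  haveI : Fact (Nat.Prime 2) := ⟨Nat.prime_two⟩
  set O := oddCore G with hO
  let f := QuotientGroup.mk' O
  have hf : Function.Surjective f := QuotientGroup.mk'_surjective O
  have hker : f.ker = O := QuotientGroup.ker_mk' O
  have hOodd : Odd (Nat.card O) := oddCore_odd G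
  have htriv : ∀ x ∈ S, x ∈ O → x = 1 := by
    intro x hx hxO
    have h1 : orderOf x ∣ Nat.card O := by
      have := orderOf_dvd_natCard (⟨x, hxO⟩ : O)
      rwa [Subgroup.orderOf_mk] at this
    obtain ⟨k, hk⟩ := (IsPGroup.iff_orderOf.1 S.2) ⟨x, hx⟩
    rw [Subgroup.orderOf_mk] at hk
    have h2 : Nat.Coprime (orderOf x) (Nat.card O) := by
      rw [hk]
      exact Nat.Coprime.pow_left k (Nat.coprime_two_left.2 hOodd)
    exact orderOf_eq_one_iff.1 (Nat.eq_one_of_dvd_coprimes h2 dvd_rfl h1)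
  let S' : Sylow 2 (G ⧸ O) := S.mapSurjective hf
  have hS' : (S' : Subgroup (G ⧸ O)) = (S : Subgroup G).map f := rfl
  let φ : (S : Subgroup G) →* (S' : Subgroup (G ⧸ O)) := f.subgroupMap (S : Subgroup G)
  have hφb : Function.Bijective φ := by
    constructor
    · rw [injective_iff_map_eq_one]
      intro x hx
      have h1 : f (x : G) = 1 := congrArg Subtype.val hx
      rw [← MonoidHom.mem_ker, hker] at h1
      exact Subtype.ext (htriv x x.2 h1)
    · exact MonoidHom.subgroupMap_surjective f _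
  let e' : (S' : Subgroup (G ⧸ O)) ≃* QuaternionGroup (2 ^ (n + 2)) :=
    (MulEquiv.ofBijective φ hφb).symm.trans e
  have hOQ : oddCore (G ⧸ O) = ⊥ := H1.pPrimeCore_quotient_eq_bot 2
  obtain ⟨t, ht2, htc, huniq⟩ := brauer_suzuki hOQ S' (n := 2 ^ (n + 2)) (by
    have : 1 ≤ 2 ^ n := Nat.one_le_two_pow
    rw [pow_succ, pow_succ]; omega) e'
  have hcardM : Nat.card ((Subgroup.center (G ⧸ O)).comap f) = 2 * Nat.card O := by
    have h5 := Subgroup.index_comap_of_surjective (Subgroup.center (G ⧸ O)) hf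
    have h6 := ((Subgroup.center (G ⧸ O)).comap f).index_mul_card
    have h7 := (Subgroup.center (G ⧸ O)).index_mul_card
    have h8 := O.card_eq_card_quotient_mul_card_subgroup
    have h9 : Nat.card (Subgroup.center (G ⧸ O)) = 2 := by rw [htc, Nat.card_zpowers, ht2]
    rw [h5] at h6
    rw [h9] at h7
    have hpos : 0 < (Subgroup.center (G ⧸ O)).index :=
      Nat.pos_of_ne_zero Subgroup.index_ne_zero_of_finite
    apply Nat.eq_of_mul_eq_mul_left hpos
    rw [h6, h8, ← h7]; ring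
  refine ⟨(Subgroup.center (G ⧸ O)).comap f, inferInstance, ⟨Nat.card O, hOodd, hcardM⟩, ?_, ?_⟩
  · intro g hg
    rw [Subgroup.mem_comap]
    -- `f g` has order two
    have h1 : orderOf (f g) = 2 := by
      have h2 : orderOf (f g) ∣ 2 := (orderOf_map_dvd f g).trans (dvd_of_eq hg)
      rcases (Nat.dvd_prime Nat.prime_two).1 h2 with h3 | h3
      · exfalso
        rw [orderOf_eq_one_iff, ← MonoidHom.mem_ker, hker] at h3
        have h4 : orderOf g ∣ Nat.card O := by
          have := orderOf_dvd_natCard (⟨g, h3⟩ : O)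
          rwa [Subgroup.orderOf_mk] at this
        rw [hg] at h4
        exact (Nat.not_even_iff_odd.2 hOodd) (even_iff_two_dvd.2 h4)
      · exact h3
    have h2 : IsPGroup 2 (Subgroup.zpowers (f g)) := by
      rw [IsPGroup.iff_card]
      exact ⟨1, by rw [Nat.card_zpowers, h1, pow_one]⟩
    obtain ⟨c, hc⟩ := exists_map_conj_le_sylow S' _ h2
    have h3 : c * f g * c⁻¹ ∈ (S' : Subgroup (G ⧸ O)) := hc ⟨_, Subgroup.mem_zpowers _, rfl⟩
    have h4 := huniq _ h3 (by rw [orderOf_conj, h1])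
    have htcen : t ∈ Subgroup.center (G ⧸ O) := by rw [htc]; exact Subgroup.mem_zpowers t
    have h5 : f g = t := by
      calc f g = c⁻¹ * (c * f g * c⁻¹) * c := by group
        _ = c⁻¹ * (t * c) := by rw [h4]; group
        _ = c⁻¹ * (c * t) := by rw [Subgroup.mem_center_iff.1 htcen c]
        _ = t := by group
    rw [h5]; exact htcen
  · intro g hg hgS
    rw [Subgroup.mem_comap, htc] at hg
    have h1 : f g * f g = 1 := by
      obtain ⟨k, hk⟩ := Subgroup.mem_zpowers_iff.1 hg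
      rw [← hk, ← zpow_add, ← two_mul, zpow_mul]
      have h2' : t ^ (2 : ℕ) = 1 := orderOf_dvd_iff_pow_eq_one.1 (dvd_of_eq ht2)
      have : t ^ (2 : ℤ) = 1 := by
        rw [show (2 : ℤ) = ((2 : ℕ) : ℤ) from rfl, zpow_natCast, h2']
      rw [this, one_zpow]
    rw [← map_mul, ← MonoidHom.mem_ker, hker] at h1
    exact htriv _ (mul_mem hgS hgS) h1

theorem bs_S0845 (S : Sylow 2 G) (n : ℕ)
    (e : (S : Subgroup G) ≃* QuaternionGroup (2 ^ (n + 2))) :
    ∃ M : Subgroup G, M.Normal ∧ Even (Nat.card M) ∧ ¬ commutator G ≤ M := by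
  obtain ⟨M, hM, ⟨k, hk, hc⟩, -, h2⟩ := bs_general S n e
  refine ⟨M, hM, ⟨k, by rw [hc]; ring⟩, fun hle => ?_⟩
  obtain ⟨a, x, h⟩ := qsyl_of_equiv e
  have h1 : a ^ 2 ∈ ⁅(S : Subgroup G), (S : Subgroup G)⁆ := by
    rw [qsyl_commutator h]; exact Subgroup.mem_zpowers _
  have h3 : a ^ 2 ∈ M := hle (Subgroup.commutator_mono le_top le_top h1)
  exact qsyl_sq_ne h (by omega) (h2 _ h3 (Subgroup.pow_mem _ h.ha 2))

theorem bs_S0846 (S : Sylow 2 G) (n : ℕ)
    (e : (S : Subgroup G) ≃* QuaternionGroup (2 ^ (n + 2)))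
    (Q : Sylow 2 ↥(Subgroup.closure {g : G | orderOf g = 2})) : IsCyclic Q := by
  haveI : Fact (Nat.Prime 2) := ⟨Nat.prime_two⟩
  obtain ⟨M, hM, ⟨k, hk, hc⟩, h1, -⟩ := bs_general S n e
  have h2 : Subgroup.closure {g : G | orderOf g = 2} ≤ M := by
    rw [Subgroup.closure_le]; exact fun g hg => h1 g hg
  have h3 : Nat.card Q.1 ∣ Nat.card M :=
    (Subgroup.card_subgroup_dvd_card Q.1).trans (Subgroup.card_dvd_of_le h2)
  obtain ⟨j, hj⟩ := (IsPGroup.iff_card).1 Q.2
  have h4 : Nat.card Q.1 ∣ 2 := by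
    have hcop : Nat.Coprime (Nat.card Q.1) k := by
      rw [hj]
      exact Nat.Coprime.pow_left j (Nat.coprime_two_left.2 hk)
    rw [hc] at h3
    exact hcop.dvd_of_dvd_mul_right h3
  exact isCyclic_of_card_dvd_prime h4

end Cfsg.Agent.H3
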