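import Mathlib
import Cfsg.Prelude.Def_RootSubgroups
import Cfsg.Prelude.Def_Transfer
import Cfsg.Agent.H3.RankS

/-!
Special rank one groups with abelian unipotent subgroups: elementary abelian or torsion-free
divisible; quadratic modules.
-/

set_option autoImplicit false
open Cfsg Cfsg.Agent.H28

namespace Cfsg.Agent.H3

section
variable {G : Type*} [Group G] {A B : Subgroup G}

theorem hau_comm (hab : HasAbelianUnipotents A B) : ∀ x ∈ A, ∀ y ∈ A, x * y = y * x := by
  intro x hx y hy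
  have := hab.1.is_comm.comm ⟨x, hx⟩ ⟨y, hy⟩
  exact congrArg Subtype.val this

theorem hau_comm' (hab : HasAbelianUnipotents A B) : ∀ x ∈ B, ∀ y ∈ B, x * y = y * x := by
  intro x hx y hy
  have := hab.2.is_comm.comm ⟨x, hx⟩ ⟨y, hy⟩
  exact congrArg Subtype.val this

theorem sp_prime_order (h : IsSpecialRankOnePair A B) (hab : HasAbelianUnipotents A B) {a : G}
    (ha : a ∈ A) (ha1 : a ≠ 1) (hf : IsOfFinOrder a) {p : ℕ} (hp : p.Prime)
    (hpa : p ∣ orderOf a) : a ^ p = 1 := by
  by_contra hap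
  obtain ⟨b, hb⟩ := brel_left h.1 ha ha1
  obtain ⟨d, hd⟩ := brel_left h.1 (pow_mem ha p) hap
  have h1 := BRel.pow_pow p h hab hb hd
  have h2 : orderOf (a ^ p) = orderOf a / p := by
    rw [orderOf_pow_of_dvd hp.ne_zero hpa]
  have h3 : orderOf b ∣ orderOf d := by rw [← h1]; exact orderOf_pow_dvd p
  rw [hb.orderOf_eq h, hd.orderOf_eq h, h2] at h3
  have h4 := hf.orderOf_pos
  have h5 : 0 < orderOf a / p := Nat.div_pos (Nat.le_of_dvd h4 hpa) hp.pos
  have h6 := Nat.le_of_dvd h5 h3
  have h7 := Nat.div_lt_self h4 hp.one_lt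
  omega

theorem sp_exponent (h : IsSpecialRankOnePair A B) (hab : HasAbelianUnipotents A B) {a : G}
    (ha : a ∈ A) (ha1 : a ≠ 1) {p : ℕ} (hap : a ^ p = 1) : ∀ c ∈ A, c ^ p = 1 := by
  intro c hc
  by_contra hcp
  have hc1 : c ≠ 1 := by rintro rfl; exact hcp (one_pow p)
  have hac : (a * c) ^ p = c ^ p := by
    rw [(show Commute a c from hau_comm hab a ha c hc).mul_pow, hap, one_mul]
  have hac1 : a * c ≠ 1 := by
    intro h1; rw [h1, one_pow] at hac; exact hcp hac.symm
  obtain ⟨b, hb⟩ := brel_left h.1 hc hc1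
  obtain ⟨b', hb'⟩ := brel_left h.1 (mul_mem ha hc) hac1
  obtain ⟨d, hd⟩ := brel_left h.1 (pow_mem hc p) hcp
  have h1 := BRel.pow_pow p h hab hb hd
  have h2 := BRel.pow_pow p h hab hb' (hac.symm ▸ hd)
  rw [← h1, h2] at hb
  have h3 := hb.unique' h.1 hb'
  exact ha1 (by rwa [right_eq_mul] at h3)

theorem sp_dichotomy (h : IsSpecialRankOnePair A B) (hab : HasAbelianUnipotents A B) :
    (∃ p : ℕ, p.Prime ∧ IsElementaryAbelian p A) ∨
    ((∀ a ∈ A, a ≠ 1 → ¬ IsOfFinOrder a) ∧ ∀ a ∈ A, ∀ n : ℕ, 0 < n → ∃ c ∈ A, c ^ n = a) := by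
  by_cases hf : ∃ a ∈ A, a ≠ 1 ∧ IsOfFinOrder a
  · left
    obtain ⟨a, ha, ha1, haf⟩ := hf
    obtain ⟨p, hp, hpa⟩ := Nat.exists_prime_and_dvd (n := orderOf a) (by
      rw [Ne, orderOf_eq_one_iff]; exact ha1)
    exact ⟨p, hp, hab.1, sp_exponent h hab ha ha1 (sp_prime_order h hab ha ha1 haf hp hpa)⟩
  · right
    push Not at hf
    refine ⟨hf, fun a ha n hn => ?_⟩
    by_cases ha1 : a = 1
    · exact ⟨1, one_mem _, by rw [one_pow, ha1]⟩
    · obtain ⟨b, hb⟩ := brel_left h.1 ha ha1
      have hbn : b ^ n ≠ 1 := by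
        intro h1
        exact hf a ha ha1 (isOfFinOrder_iff_pow_eq_one.2 ⟨n, hn, (hb.pow_eq_one h n).2 h1⟩)
      obtain ⟨e, he⟩ := brel_right h.1 (pow_mem hb.hb n) hbn
      exact ⟨e, he.ha, BRel.pow_pow n (sp_symm h) ⟨hab.2, hab.1⟩ hb.symm he.symm⟩

end

section quad

variable {X : Type*} [Group X] {A B : Subgroup X} {N : Type*} [AddCommGroup N]
  [DistribMulAction X N]

/-- `[N, A]` -/
def modComm (N : Type*) [AddCommGroup N] [DistribMulAction X N] (A : Subgroup X) :
    AddSubgroup N := AddSubgroup.closure {m | ∃ a ∈ A, ∃ n : N, m = a • n - n}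

theorem smul_sub_mem_modComm {a : X} (ha : a ∈ A) (n : N) : a • n - n ∈ modComm N A :=
  AddSubgroup.subset_closure ⟨a, ha, n, rfl⟩

theorem modComm_fixed (hq : ∀ a ∈ A, ∀ a' ∈ A, ∀ n : N, a' • (a • n - n) = a • n - n)
    {a : X} (ha : a ∈ A) {m : N} (hm : m ∈ modComm N A) : a • m = m := by
  induction hm using AddSubgroup.closure_induction with
  | mem x hx =>
    obtain ⟨a', ha', n, rfl⟩ := hx
    exact hq a' ha' a ha n
  | zero => exact smul_zero a
  | add x y _ _ hx hy => rw [smul_add, hx, hy]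
  | neg x _ hx => rw [smul_neg, hx]

theorem modComm_conj {m : N} (x : X) (hm : m ∈ modComm N A) : x • m ∈ modComm N (conjBy A x) := by
  induction hm using AddSubgroup.closure_induction with
  | mem y hy =>
    obtain ⟨a, ha, n, rfl⟩ := hy
    have : x • (a • n - n) = (x * a * x⁻¹) • (x • n) - x • n := by
      rw [smul_sub, mul_smul, inv_smul_smul, mul_smul]
    rw [this]
    exact smul_sub_mem_modComm (conjBy_normal_iff.2 ha) _
  | zero => rw [smul_zero]; exact zero_mem _
  | add y z _ _ hy hz => rw [smul_add]; exact add_mem hy hz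
  | neg y _ hy => rw [smul_neg]; exact neg_mem hy

/-- every commutator is in `[N,A] + [N,B]` -/
theorem smul_sub_mem_sup {x : X} (hx : x ∈ A ⊔ B) (n : N) :
    x • n - n ∈ modComm N A ⊔ modComm N B := by
  revert n
  apply sup_induct (A := A) (B := B) (p := fun x => ∀ n : N, x • n - n ∈ modComm N A ⊔ modComm N B)
  · intro a ha n; exact AddSubgroup.mem_sup_left (smul_sub_mem_modComm ha n)
  · intro a ha n; exact AddSubgroup.mem_sup_right (smul_sub_mem_modComm ha n)
  · intro x y hx hy n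
    have : (x * y) • n - n = (x • (y • n) - y • n) + (y • n - n) := by rw [mul_smul]; abel
    rw [this]
    exact add_mem (hx _) (hy _)
  · exact hx

variable (hq : ∀ a ∈ A, ∀ a' ∈ A, ∀ n : N, a' • (a • n - n) = a • n - n)

theorem quad_conj (hq : ∀ a ∈ A, ∀ a' ∈ A, ∀ n : N, a' • (a • n - n) = a • n - n) (x : X) :
    ∀ a ∈ conjBy A x, ∀ a' ∈ conjBy A x, ∀ n : N, a' • (a • n - n) = a • n - n := by
  intro a ha a' ha' n
  rw [mem_conjBy] at ha ha'
  have := hq _ ha _ ha' (x⁻¹ • n)
  have h2 := congrArg (fun m => x • m) this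
  simp only [smul_sub, smul_smul, mul_assoc, mul_inv_cancel_left, mul_inv_cancel, mul_one,
    one_smul] at h2 ⊢
  exact h2

theorem modComm_conj' {m : N} {x : X} (hm : m ∈ modComm N (conjBy A x)) : x⁻¹ • m ∈ modComm N A := by
  have := modComm_conj x⁻¹ hm
  rwa [conjBy_conjBy, inv_mul_cancel, conjBy_one] at this

/-- for `v ∈ [N,A]` -/
theorem quad_rel (hq : ∀ a ∈ A, ∀ a' ∈ A, ∀ n : N, a' • (a • n - n) = a • n - n)
    {a b : X} (h : BRel A B a b) {v : N} (hv : v ∈ modComm N A) :
    v + (a • (b⁻¹ • v - v) - (b⁻¹ • v - v)) ∈ modComm N A ⊓ modComm N B := by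
  have h1 : b⁻¹ • v ∈ modComm N (conjBy B a⁻¹) := by
    rw [← h.eq]; exact modComm_conj b⁻¹ hv
  have h2 := modComm_conj' h1
  rw [inv_inv] at h2
  have h3 : a • b⁻¹ • v = v + (a • (b⁻¹ • v - v) - (b⁻¹ • v - v)) + (b⁻¹ • v - v) := by
    rw [smul_sub, modComm_fixed hq h.ha hv]; abel
  have h4 : b⁻¹ • v - v ∈ modComm N B := smul_sub_mem_modComm (inv_mem h.hb) v
  constructor
  · exact add_mem hv (smul_sub_mem_modComm h.ha _)
  · rw [h3] at h2
    exact (add_mem_cancel_right h4).1 h2

theorem inv_smul_eq_of_quad (hq : ∀ a ∈ A, ∀ a' ∈ A, ∀ n : N, a' • (a • n - n) = a • n - n)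
    {a : X} (ha : a ∈ A) (n : N) : a⁻¹ • n = n - (a • n - n) := by
  have h1 := hq a ha a⁻¹ (inv_mem ha) n
  rw [smul_sub, inv_smul_smul] at h1
  rw [← h1]; abel

theorem quad_special (hX : A ⊔ B = ⊤) (h : IsRankOnePair A B)
    (hq : ∀ a ∈ A, ∀ a' ∈ A, ∀ n : N, a' • (a • n - n) = a • n - n)
    (hn : ∃ x y : X, ∃ n : N, y • (x • n - n) ≠ x • n - n) : IsSpecialRankOnePair A B := by
  refine ⟨h, fun a ha ha1 b hb hb1 hab => ?_⟩
  have hr : BRel A B a b := ⟨ha, ha1, hb, hb1, hab⟩
  obtain ⟨x₀, hx₀, hx₀'⟩ := ro_mem_right h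
  have hqB : ∀ a ∈ B, ∀ a' ∈ B, ∀ n : N, a' • (a • n - n) = a • n - n := by
    rw [hx₀']; exact quad_conj hq x₀
  set VA := modComm N A with hVA
  set VB := modComm N B with hVB
  have hDfix : ∀ (x : X), ∀ m ∈ VA ⊓ VB, x • m = m := by
    intro x
    have hx : x ∈ A ⊔ B := hX ▸ Subgroup.mem_top x
    revert hx
    apply sup_induct (A := A) (B := B) (p := fun x => ∀ m ∈ VA ⊓ VB, x • m = m)
    · rintro a ha m ⟨hm, -⟩; exact modComm_fixed hq ha hm
    · rintro a ha m ⟨-, hm⟩; exact modComm_fixed hqB ha hm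
    · intro x y hx hy m hm
      rw [mul_smul, hy m hm, hx m hm]
  have hcomm : ∀ (x : X) (n : N), x • n - n ∈ VA ⊔ VB := fun x n =>
    smul_sub_mem_sup (hX ▸ Subgroup.mem_top x) n
  have hVinv : ∀ (x : X), ∀ v ∈ VA ⊔ VB, x • v ∈ VA ⊔ VB := by
    intro x v hv
    have : x • v = (x • v - v) + v := by abel
    rw [this]
    exact add_mem (hcomm x v) hv
  -- the kernel of the action on `V / D`
  let K : Subgroup X := {
    carrier := {x | ∀ v ∈ VA ⊔ VB, x • v - v ∈ VA ⊓ VB}
    one_mem' := fun v _ => by rw [one_smul, sub_self]; exact zero_mem _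
    mul_mem' := by
      intro x y hx hy v hv
      have h1 : (x * y) • v - v = (x • (y • v) - y • v) + (y • v - v) := by rw [mul_smul]; abel
      rw [h1]
      exact add_mem (hx _ (hVinv y v hv)) (hy v hv)
    inv_mem' := by
      intro x hx v hv
      have h1 := hx _ (hVinv x⁻¹ v hv)
      rw [smul_inv_smul] at h1
      rw [← neg_sub]
      exact neg_mem h1 }
  have hK : K.Normal := by
    constructor
    intro x hx g v hv
    have h1 : (g * x * g⁻¹) • v - v = g • (x • (g⁻¹ • v) - g⁻¹ • v) := by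
      rw [smul_sub, smul_inv_smul, mul_smul, mul_smul]
    rw [h1]
    have h2 := hx _ (hVinv g⁻¹ v hv)
    rw [hDfix g _ h2]
    exact h2
  set z := (a⁻¹ * b⁻¹ * a)⁻¹ * (b⁻¹ * a * b) with hz
  have hTB : ∀ v ∈ VA, v - (a • (b • v - v) - (b • v - v)) ∈ VA ⊓ VB := by
    intro v hv
    have h1 := quad_rel hq hr hv
    rw [inv_smul_eq_of_quad hqB hb] at h1
    have h2 : v - (b • v - v) - v = -(b • v - v) := by abel
    rw [h2, smul_neg] at h1
    convert h1 using 1
    abel
  have hTA : ∀ v ∈ VB, v - (b • (a • v - v) - (a • v - v)) ∈ VA ⊓ VB := by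
    intro v hv
    have h1 := quad_rel hqB hr.symm hv
    rw [inv_smul_eq_of_quad hq ha] at h1
    have h2 : v - (a • v - v) - v = -(a • v - v) := by abel
    rw [h2, smul_neg, inf_comm] at h1
    convert h1 using 1
    abel
  have hzK : z ∈ K := by
    have key : ∀ v ∈ VA ⊔ VB, (b⁻¹ * a * b) • v - (a⁻¹ * b⁻¹ * a) • v ∈ VA ⊓ VB := by
      intro v hv
      obtain ⟨u, hu, w, hw, rfl⟩ := AddSubgroup.mem_sup.1 hv
      have h1 : (b⁻¹ * a * b) • (u + w) - (a⁻¹ * b⁻¹ * a) • (u + w) =
          ((b⁻¹ * a * b) • u - (a⁻¹ * b⁻¹ * a) • u) + ((b⁻¹ * a * b) • w - (a⁻¹ * b⁻¹ * a) • w) := by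
        rw [smul_add, smul_add]; abel
      rw [h1]
      refine add_mem ?_ ?_
      · -- `u ∈ VA`
        set t := b • u - u with ht
        have hbu : b • u = u + t := by rw [ht]; abel
        have hbt : b • t = t := hqB b hb b hb u
        have hau : a • u = u := modComm_fixed hq ha hu
        set s := a • t - t with hs
        have hat : a • t = t + s := by rw [hs]; abel
        have has : a • s = s := hq a ha a ha t
        have hd := hTB u hu
        rw [← ht, ← hs] at hd
        set d := u - s with hd'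
        have hbd : b • d = d := hDfix b d hd
        have hs' : s = u - d := by rw [hd']; abel
        have hbs : b • s = u + t - d := by rw [hs', smul_sub, hbu, hbd]
        have e1 : (b⁻¹ * a * b) • u = u + s - t := by
          rw [mul_smul, mul_smul, hbu, smul_add, hau, hat, inv_smul_eq_of_quad hqB hb]
          rw [smul_add, smul_add, hbu, hbt, hbs, hs']
          abel
        have e2 : (a⁻¹ * b⁻¹ * a) • u = u - t + s := by
          rw [mul_smul, mul_smul, hau, inv_smul_eq_of_quad hqB hb, ← ht,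
            inv_smul_eq_of_quad hq ha, smul_sub, hau, hat]
          abel
        rw [e1, e2]
        convert zero_mem (VA ⊓ VB) using 1
        abel
      · set t := a • w - w with ht
        have haw : a • w = w + t := by rw [ht]; abel
        have hat : a • t = t := hq a ha a ha w
        have hbw : b • w = w := modComm_fixed hqB hb hw
        set s := b • t - t with hs
        have hbt : b • t = t + s := by rw [hs]; abel
        have hbs : b • s = s := hqB b hb b hb t
        have hd := hTA w hw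
        rw [← ht, ← hs] at hd
        set d := w - s with hd'
        have had : a • d = d := hDfix a d hd
        have hs' : s = w - d := by rw [hd']; abel
        have e1 : (b⁻¹ * a * b) • w = w + t - s := by
          rw [mul_smul, mul_smul, hbw, haw, inv_smul_eq_of_quad hqB hb]
          rw [smul_add, hbw, hbt]
          abel
        have e2 : (a⁻¹ * b⁻¹ * a) • w = w + t - s := by
          have e3 : b⁻¹ • (w + t) = d + t := by
            rw [inv_smul_eq_of_quad hqB hb, smul_add, hbw, hbt, hd']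
            abel
          rw [mul_smul, mul_smul, haw, e3, inv_smul_eq_of_quad hq ha, smul_add, had, hat, hd']
          abel
        rw [e1, e2, sub_self]
        exact zero_mem _
    intro v hv
    have h1 := key v hv
    have h2 : z • v - v = (a⁻¹ * b⁻¹ * a)⁻¹ • ((b⁻¹ * a * b) • v - (a⁻¹ * b⁻¹ * a) • v) := by
      rw [hz, mul_smul, smul_sub, inv_smul_smul]
    rw [h2, hDfix _ _ h1]
    exact h1
  rcases ro_normal hX h hK with hKA | hKZ
  · -- contradiction
    exfalso
    have hVA1 : ∀ (x : X), ∀ v ∈ VA ⊔ VB, x • v - v ∈ VA := by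
      intro x
      have hx : x ∈ K ⊔ A := hKA ▸ Subgroup.mem_top x
      revert hx
      apply sup_induct (A := K) (B := A) (p := fun x => ∀ v ∈ VA ⊔ VB, x • v - v ∈ VA)
      · intro k hk v hv; exact (hk v hv).1
      · intro a ha v _; exact smul_sub_mem_modComm ha v
      · intro x y hx hy v hv
        have h1 : (x * y) • v - v = (x • (y • v) - y • v) + (y • v - v) := by rw [mul_smul]; abel
        rw [h1]
        exact add_mem (hx _ (hVinv y v hv)) (hy v hv)
    have hVAD : VA ≤ VA ⊓ VB := by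
      intro v hv
      have h1 : b • v - v ∈ VA ⊓ VB :=
        ⟨hVA1 b v (AddSubgroup.mem_sup_left hv), smul_sub_mem_modComm hb v⟩
      have h2 := hTB v hv
      rw [hDfix a _ h1, sub_self, sub_zero] at h2
      exact h2
    have hVBD : VB ≤ VA ⊓ VB := by
      intro v hv
      have h1 : x₀⁻¹ • v ∈ VA := modComm_conj' (by rw [← hx₀']; exact hv)
      have h2 := hVAD h1
      have h3 := hDfix x₀ _ h2
      rw [smul_inv_smul] at h3
      rw [h3]; exact h2
    obtain ⟨x, y, n, hxy⟩ := hn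
    exact hxy (hDfix y _ ((sup_le hVAD hVBD) (hcomm x n)))
  · have hzc := hKZ hzK
    have h1 : z ∈ conjBy A b⁻¹ := by
      refine mul_mem (inv_mem ?_) ?_
      · rw [hab]
        have := (conjBy_normal_iff (A := B) (g := a⁻¹)).2 (inv_mem hb)
        rwa [inv_inv] at this
      · have := (conjBy_normal_iff (A := A) (g := b⁻¹)).2 ha
        rwa [inv_inv] at this
    rw [mem_conjBy, inv_inv] at h1
    have h2 : b * z * b⁻¹ = z := by
      rw [Subgroup.mem_center_iff.1 hzc b, mul_inv_cancel_right]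
    rw [h2] at h1
    have h3 : z = 1 := by
      apply rankOne_left_normalizer h h1
      rw [Subgroup.mem_normalizer_iff]
      intro g
      rw [← Subgroup.mem_center_iff.1 hzc g, mul_inv_cancel_right]
    rw [hz, inv_mul_eq_one] at h3
    exact h3.symm

end quad

end Cfsg.Agent.H3
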