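import Mathlib
import Cfsg.Prelude.Def_RootSubgroups
import Cfsg.Agent.H3.RankT

/-!
Special rank one groups with abelian unipotent subgroups with more than 3 elements:
`[A,H] = A`.
-/

set_option autoImplicit false
open Cfsg Cfsg.Agent.H28
open scoped commutatorElement

namespace Cfsg.Agent.H3

variable {G : Type*} [Group G] {A B : Subgroup G}

theorem sp_sq_dichotomy (h : IsSpecialRankOnePair A B) (hab : HasAbelianUnipotents A B) :
    (∀ a ∈ A, a ^ 2 = 1) ∨ (∀ a ∈ A, a ^ 2 = 1 → a = 1) := by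
  by_cases hc : ∃ a ∈ A, a ≠ 1 ∧ a ^ 2 = 1
  · obtain ⟨a, ha, ha1, ha2⟩ := hc
    exact Or.inl (sp_exponent h hab ha ha1 ha2)
  · right
    push Not at hc
    intro a ha ha2
    by_contra ha1
    exact hc a ha ha1 ha2

/-- at least four elements -/
def FourElts (A : Subgroup G) : Prop := ∀ x ∈ A, ∃ y ∈ A, y ≠ 1 ∧ y ≠ x ∧ y ≠ x⁻¹

theorem fourElts_of_card (h : ¬ ENat.card A ≤ 3) : FourElts A := by
  intro x hx
  by_contra hcon
  push Not at hcon
  apply h
  have h4 : (A : Set G) ⊆ {1, x, x⁻¹} := by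
    intro y hy
    by_cases h1 : y = 1
    · left; exact h1
    · right
      by_cases h2 : y = x
      · left; exact h2
      · right; exact hcon y hy h1 h2
  have h5 : ENat.card A = (A : Set G).encard := rfl
  rw [h5]
  refine (Set.encard_le_encard h4).trans ((Set.encard_insert_le _ _).trans ?_)
  refine (add_le_add_left ((Set.encard_insert_le _ _)) _).trans ?_
  rw [Set.encard_singleton]
  norm_num

theorem le_of_sq_rel (h : IsSpecialRankOnePair A B) (hab : HasAbelianUnipotents A B)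
    (h4 : FourElts A) {M : Subgroup G}
    (hM : ∀ a ∈ A, ∀ c ∈ A, a ≠ 1 → c ≠ 1 → a * c ≠ 1 → c ^ 2 * a ∈ M) : A ≤ M := by
  have hc := hau_comm hab
  intro a ha
  by_cases ha1 : a = 1
  · rw [ha1]; exact one_mem _
  rcases sp_sq_dichotomy h hab with h2 | h2
  · -- exponent 2
    obtain ⟨c, hcA, hc1, hca, -⟩ := h4 a ha
    have := hM a ha c hcA ha1 hc1 (fun h3 => hca (by
      have : a⁻¹ = a := by
        rw [inv_eq_iff_mul_eq_one, ← pow_two]; exact h2 a ha
      rw [← this]; exact eq_inv_of_mul_eq_one_right h3))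
    rwa [h2 c hcA, one_mul] at this
  · have hsq : ∀ c ∈ A, c ≠ 1 → c * c ≠ 1 := fun c hcA hc1 h3 => hc1 (h2 c hcA (by rw [pow_two, h3]))
    obtain ⟨y, hy, hy1, hya, hya'⟩ := h4 a ha
    have h3 : a ^ 2 * a ∈ M := hM a ha a ha ha1 ha1 (hsq a ha ha1)
    have h3' : y ^ 2 * y ∈ M := hM y hy y hy hy1 hy1 (hsq y hy hy1)
    have h5 : a ^ 2 * y ∈ M := hM y hy a ha hy1 ha1 (fun h6 => hya' (eq_inv_of_mul_eq_one_left h6))
    have h6 : (a⁻¹) ^ 2 * y ∈ M := hM y hy a⁻¹ (inv_mem ha) hy1 (inv_ne_one.2 ha1)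
      (fun h6 => hya (by rw [mul_inv_eq_one] at h6; exact h6))
    -- `a⁴ ∈ M`, `a³ ∈ M`
    have h7 : a ^ 4 ∈ M := by
      have := mul_mem h5 (inv_mem h6)
      have e : a ^ 2 * y * (a⁻¹ ^ 2 * y)⁻¹ = a ^ 4 := by
        rw [mul_inv_rev, inv_pow, inv_inv, mul_assoc, ← mul_assoc y, mul_inv_cancel, one_mul,
          ← pow_add]
      rwa [e] at this
    have h8 : a = a ^ 4 * (a ^ 2 * a)⁻¹ := by
      rw [← pow_succ, eq_mul_inv_iff_mul_eq, ← pow_succ']
    rw [h8]
    exact mul_mem h7 (inv_mem h3)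

theorem mem_diag {x : G} : x ∈ rankOneDiagonal A B ↔
    x ∈ A ⊔ B ∧ conjBy A x = A ∧ conjBy B x = B := by
  rw [rankOneDiagonal, Subgroup.mem_inf, Subgroup.mem_inf, mem_normalizer_iff_conjBy,
    mem_normalizer_iff_conjBy, and_assoc]

theorem n_mem_sup {a b : G} (h1 : BRel A B a b) : a * b⁻¹ * a ∈ A ⊔ B :=
  mul_mem (mul_mem (Subgroup.mem_sup_left h1.ha) (inv_mem (Subgroup.mem_sup_right h1.hb)))
    (Subgroup.mem_sup_left h1.ha)

theorem nn_mem_diag (h : IsSpecialRankOnePair A B) {a b a' b' : G} (h1 : BRel A B a b)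
    (h2 : BRel A B a' b') : (a * b⁻¹ * a) * (a' * b'⁻¹ * a')⁻¹ ∈ rankOneDiagonal A B := by
  rw [mem_diag]
  refine ⟨mul_mem (n_mem_sup h1) (inv_mem (n_mem_sup h2)), ?_, ?_⟩
  · rw [← conjBy_conjBy, h2.n_conjA h]
    nth_rw 1 [← h1.n_conjA h]
    rw [conjBy_conjBy, mul_inv_cancel, conjBy_one]
  · rw [← conjBy_conjBy, h2.n_conjB h]
    nth_rw 1 [← h1.n_conjB h]
    rw [conjBy_conjBy, mul_inv_cancel, conjBy_one]

/-- `c² a ∈ [A,H]` -/
theorem sq_mem_comm (h : IsSpecialRankOnePair A B) (hab : HasAbelianUnipotents A B)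
    {a c : G} (ha : a ∈ A) (hc : c ∈ A) (ha1 : a ≠ 1) (hc1 : c ≠ 1) (hac : a * c ≠ 1) :
    c ^ 2 * a ∈ ⁅A, rankOneDiagonal A B⁆ := by
  have hcm := hau_comm hab
  have hcm' := hau_comm' hab
  obtain ⟨b, hb⟩ := brel_left h.1 ha ha1
  obtain ⟨d, hd⟩ := brel_left h.1 (mul_mem ha hc) hac
  set n := a * b⁻¹ * a with hn
  set M := ⁅A, rankOneDiagonal A B⁆ with hM
  have hMA : M ≤ A := by
    rw [hM, Subgroup.commutator_le]
    intro x hx g hg
    rw [mem_diag] at hg
    have h2 : g * x⁻¹ * g⁻¹ ∈ A := by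
      have := (conjBy_normal_iff (A := A) (g := g)).2 (inv_mem hx)
      rwa [hg.2.1] at this
    have := mul_mem hx h2
    rw [commutatorElement_def]
    simpa [mul_assoc] using this
  -- the key fact
  have key : ∀ {y z : G}, BRel A B y z → (n * z * n⁻¹) * y ∈ M := by
    intro y z hyz
    have h2 := nn_mem_diag h hb hyz
    rw [← hn] at h2
    set g := n * (y * z⁻¹ * y)⁻¹ with hg
    have h3 : n * z * n⁻¹ = g * y⁻¹ * g⁻¹ := by
      have h4 : z = (y * z⁻¹ * y)⁻¹ * y⁻¹ * (y * z⁻¹ * y) := by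
        have e := hyz.n_a h
        have e' : (y * z⁻¹ * y)⁻¹ * y⁻¹ * (y * z⁻¹ * y) = ((y * z⁻¹ * y)⁻¹ * y * (y * z⁻¹ * y))⁻¹ := by
          group
        rw [e', e, inv_inv]
      rw [hg]
      nth_rw 1 [h4]
      simp only [mul_inv_rev, inv_inv, mul_assoc]
    have h5 : (n * z * n⁻¹) * y = g * y⁻¹ * g⁻¹ * y := by rw [h3]
    rw [h5]
    have h6 : ⁅y⁻¹, g⁆⁻¹ = g * y⁻¹ * g⁻¹ * y := by
      rw [commutatorElement_def]; group
    rw [← h6]
    exact inv_mem (Subgroup.commutator_mem_commutator (inv_mem hyz.ha) h2)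
  have hβc1 : n⁻¹ * c * n ≠ 1 := by
    intro h2; apply hc1
    have : c = n * (n⁻¹ * c * n) * n⁻¹ := by group
    rw [this, h2]; group
  have hβc : n⁻¹ * c * n ∈ B := by
    have h2 := hb.n_conjA h
    rw [← hn] at h2
    rw [← h2, mem_conjBy]
    have : n⁻¹⁻¹ * (n⁻¹ * c * n) * n⁻¹ = c := by group
    rwa [this]
  obtain ⟨e, he⟩ := brel_right h.1 hβc hβc1
  have hs := hb.sum h hab hc hc1 hd he
  -- memberships
  have m1 := key hd
  have m2 := key he
  have m3 := key hs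
  have e2 : n * (n⁻¹ * c * n) * n⁻¹ = c := by group
  rw [e2] at m2
  have e3 : n * (d * b⁻¹) * n⁻¹ = (n * d * n⁻¹) * a := by
    have h4 : n * b⁻¹ * n⁻¹ = a := by
      have := hb.n_a h
      rw [← hn] at this
      rw [← this]; group
    rw [← h4]; group
  rw [e3] at m3
  have hγA : n * d * n⁻¹ ∈ A := by
    have h2 := hMA m1
    exact (Subgroup.mul_mem_cancel_right A (mul_mem ha hc)).1 h2
  set γ := n * d * n⁻¹ with hγ
  -- `γ a c ∈ M`, `c e ∈ M`, `γ a (e a⁻¹) ∈ M`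
  have m4 : γ * e ∈ M := by
    have : γ * a * (e * a⁻¹) = γ * e := by
      rw [mul_assoc, ← mul_assoc a, hcm a ha e he.ha, mul_inv_cancel_right]
    rwa [this] at m3
  have m5 : c * e * (γ * e)⁻¹ * (γ * (a * c)) ∈ M := mul_mem (mul_mem m2 (inv_mem m4)) m1
  have e5 : c * e * (γ * e)⁻¹ * (γ * (a * c)) = c ^ 2 * a := by
    rw [mul_inv_rev, hcm a ha c hc, pow_two]
    group
  rwa [e5] at m5

theorem comm_diag_eq (h : IsSpecialRankOnePair A B) (hab : HasAbelianUnipotents A B)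
    (h4 : FourElts A) : ⁅A, rankOneDiagonal A B⁆ = A := by
  apply le_antisymm
  · rw [Subgroup.commutator_le]
    intro x hx g hg
    rw [mem_diag] at hg
    have h2 : g * x⁻¹ * g⁻¹ ∈ A := by
      have := (conjBy_normal_iff (A := A) (g := g)).2 (inv_mem hx)
      rwa [hg.2.1] at this
    have := mul_mem hx h2
    rw [commutatorElement_def]
    simpa [mul_assoc] using this
  · exact le_of_sq_rel h hab h4 fun a ha c hc ha1 hc1 hac => sq_mem_comm h hab ha hc ha1 hc1 hac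

/-- a special rank one group with abelian unipotent subgroups with at least 4 elements is
perfect -/
theorem sp_perfect (h : IsSpecialRankOnePair A B) (hab : HasAbelianUnipotents A B)
    (h4 : FourElts A) : ⁅A ⊔ B, A ⊔ B⁆ = A ⊔ B := by
  apply le_antisymm
  · rw [Subgroup.commutator_le]
    intro x hx y hy
    exact mul_mem (mul_mem (mul_mem hx hy) (inv_mem hx)) (inv_mem hy)
  · have hA : A ≤ ⁅A ⊔ B, A ⊔ B⁆ := by
      nth_rw 1 [← comm_diag_eq h hab h4]
      exact Subgroup.commutator_mono le_sup_left (inf_le_left.trans inf_le_left)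
    refine sup_le hA ?_
    obtain ⟨x, hx, hx'⟩ := ro_mem_right h.1
    have h5 := conjBy_mono hA x
    have h6 : conjBy ⁅A ⊔ B, A ⊔ B⁆ x = ⁅A ⊔ B, A ⊔ B⁆ := by
      unfold Cfsg.conjBy
      rw [Subgroup.map_commutator]
      have := conjBy_mem_self hx
      unfold Cfsg.conjBy at this
      rw [this]
    rw [h6] at h5
    exact hx'.le.trans h5

end Cfsg.Agent.H3
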