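import Mathlib
import Cfsg.Prelude.Def_RootSubgroups
import Cfsg.Agent.H3.RankSL2

/-!
The Steinberg presentation of `SL₂(k)`.
-/

set_option autoImplicit false
open Cfsg Cfsg.Agent.H28 Matrix

namespace Cfsg.Agent.H3

variable {k : Type*} [Field k] {X : Type*} [Group X]

/-- `n(t) = x(t) y(-1/t) x(t)` -/
def stN (x y : k → X) (t : k) : X := x t * y (-t⁻¹) * x t

/-- `h(t) = n(t) n(-1)` -/
def stH (x y : k → X) (t : k) : X := stN x y t * stN x y (-1)

/-- the Steinberg relations of rank one -/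
structure StRel (x y : k → X) : Prop where
  hx : ∀ s t, x (s + t) = x s * x t
  hy : ∀ s t, y (s + t) = y s * y t
  hxn : ∀ t, t ≠ 0 → ∀ u, x u * stN x y t = stN x y t * y (-u / t ^ 2)
  hyn : ∀ t, t ≠ 0 → ∀ u, y u * stN x y t = stN x y t * x (-u * t ^ 2)

namespace StRel

variable {x y : k → X} (S : StRel x y)
include S

theorem x0 : x 0 = 1 := by
  have := S.hx 0 0
  rwa [add_zero, left_eq_mul] at this

theorem y0 : y 0 = 1 := by
  have := S.hy 0 0
  rwa [add_zero, left_eq_mul] at this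

theorem xneg (t : k) : x (-t) = (x t)⁻¹ := by
  rw [eq_inv_iff_mul_eq_one, ← S.hx, neg_add_cancel, S.x0]

theorem yneg (t : k) : y (-t) = (y t)⁻¹ := by
  rw [eq_inv_iff_mul_eq_one, ← S.hy, neg_add_cancel, S.y0]

theorem nneg (t : k) : stN x y (-t) = (stN x y t)⁻¹ := by
  simp only [stN, inv_neg, neg_neg, S.xneg, S.yneg, _root_.mul_inv_rev, inv_inv, mul_assoc]

theorem n1_mul : stN x y 1 * stN x y (-1) = 1 := by rw [S.nneg, mul_inv_cancel]

theorem h1 : stH x y 1 = 1 := S.n1_mul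

theorem hn1 (t : k) : stH x y t * stN x y 1 = stN x y t := by
  rw [stH, mul_assoc, S.nneg, inv_mul_cancel, mul_one]

theorem xh {t : k} (ht : t ≠ 0) (w : k) : x w * stH x y t = stH x y t * x (w / t ^ 2) := by
  rw [stH, ← mul_assoc, S.hxn t ht, mul_assoc, S.hyn (-1) (by simp), mul_assoc]
  congr 3
  ring

theorem hx' {t : k} (ht : t ≠ 0) (u : k) : stH x y t * x u = x (t ^ 2 * u) * stH x y t := by
  rw [S.xh ht]
  congr 2
  field_simp

theorem yh {t : k} (ht : t ≠ 0) (w : k) : y w * stH x y t = stH x y t * y (w * t ^ 2) := by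
  rw [stH, ← mul_assoc, S.hyn t ht, mul_assoc, S.hxn (-1) (by simp), mul_assoc]
  congr 3
  ring

/-- the braid form of `n(t)` -/
theorem braid {t : k} (ht : t ≠ 0) : stN x y t = y (-t⁻¹) * x t * y (-t⁻¹) := by
  have h1 := S.hxn t ht t
  have h2 : -t / t ^ 2 = -t⁻¹ := by field_simp
  rw [h2] at h1
  have h3 : x t * stN x y t = x t * (y (-t⁻¹) * x t * y (-t⁻¹)) := by
    rw [h1]; simp only [stN, mul_assoc]
  exact mul_left_cancel h3

theorem nn {t u : k} (ht : t ≠ 0) (hu : u ≠ 0) :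
    stN x y t * stN x y u = stN x y u * stN x y (u ^ 2 / t) := by
  have h1 : stN x y (u ^ 2 / t) = y (-t / u ^ 2) * x (u ^ 2 / t) * y (-t / u ^ 2) := by
    rw [S.braid (div_ne_zero (pow_ne_zero 2 hu) ht)]
    congr 2 <;> [congr 1; skip] <;> congr 1 <;> field_simp
  rw [h1]
  have h2 : stN x y t * stN x y u = x t * (y (-t⁻¹) * (x t * stN x y u)) := by
    simp only [stN, mul_assoc]
  rw [h2, S.hxn u hu, ← mul_assoc (y (-t⁻¹)), S.hyn u hu]
  rw [mul_assoc (stN x y u), ← mul_assoc (x t), S.hxn u hu]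
  simp only [mul_assoc]
  congr 4
  field_simp

/-- conjugation by `n(1)` inverts `h` -/
theorem hn {t : k} (ht : t ≠ 0) : stH x y t * stN x y 1 = stN x y 1 * stH x y t⁻¹ := by
  have h1 := S.nn ht one_ne_zero
  rw [one_pow, one_div] at h1
  rw [S.hn1, stH, ← mul_assoc, ← h1, mul_assoc, S.n1_mul, mul_one]

theorem hn' {t : k} (ht : t ≠ 0) : stN x y 1 * stH x y t = stH x y t⁻¹ * stN x y 1 := by
  rw [S.hn (inv_ne_zero ht), inv_inv]

/-- the basic consequence of `y(1/t) y(1/u) = y(1/s)` -/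
theorem three {t u : k} (ht : t ≠ 0) (hu : u ≠ 0) (hw : t + u ≠ 0) :
    stN x y (t ^ 2 / (t + u)) * stN x y (-t) * stN x y (-u) = stN x y (-(t * u / (t + u))) := by
  have hy1 : ∀ {t : k}, t ≠ 0 → y t⁻¹ = x t * stN x y (-t) * x t := by
    intro t ht
    simp only [stN, inv_neg, neg_neg, S.xneg, mul_assoc, mul_inv_cancel_left, inv_mul_cancel, mul_one]
  set w := t + u with hw'
  set s := t * u / w with hs
  set r := t ^ 2 / w with hr
  have hs0 : s ≠ 0 := div_ne_zero (mul_ne_zero ht hu) hw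
  have hr0 : r ≠ 0 := div_ne_zero (pow_ne_zero 2 ht) hw
  have h1 : y t⁻¹ * y u⁻¹ = y s⁻¹ := by
    rw [← S.hy]; congr 1; rw [hs]; field_simp; rw [hw']; ring
  rw [hy1 ht, hy1 hu, hy1 hs0] at h1
  have h2 : stN x y (-t) * x w = x (-r) * stN x y r * x (-r) * stN x y (-t) := by
    have h3 := S.hyn (-t) (neg_ne_zero.2 ht) (-r⁻¹)
    have h4 : y (-r⁻¹) = x (-r) * stN x y r * x (-r) := by
      have := hy1 (neg_ne_zero.2 hr0)
      rwa [inv_neg, neg_neg] at this
    have h5 : -(-r⁻¹) * (-t) ^ 2 = w := by rw [hr]; field_simp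
    rw [h5, h4] at h3
    exact h3.symm
  have h6 : x t * stN x y (-t) * x t * (x u * stN x y (-u) * x u) =
      x t * (stN x y (-t) * x w) * stN x y (-u) * x u := by
    rw [hw', S.hx]; simp only [mul_assoc]
  rw [h6, h2] at h1
  have h7 : x t * x (-r) = x s := by
    rw [← S.hx]; congr 1; rw [hr, hs]; field_simp; rw [hw']; ring
  have h8 : x t * (x (-r) * stN x y r * x (-r) * stN x y (-t)) * stN x y (-u) * x u =
      x s * (stN x y r * (x (-r) * stN x y (-t)) * stN x y (-u) * x u) := by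
    rw [← h7]; simp only [mul_assoc]
  have h9 : x (-r) * stN x y (-t) = stN x y (-t) * y w⁻¹ := by
    rw [S.hxn _ (neg_ne_zero.2 ht)]; congr 2; rw [hr]; field_simp
  have h10 : y w⁻¹ * stN x y (-u) = stN x y (-u) * x (s - u) := by
    rw [S.hyn _ (neg_ne_zero.2 hu)]; congr 2; rw [hs]; field_simp; rw [hw']; ring
  have h11 : stN x y r * (x (-r) * stN x y (-t)) * stN x y (-u) * x u =
      stN x y r * stN x y (-t) * stN x y (-u) * x s := by
    have h12 : x (s - u) * x u = x s := by rw [← S.hx, sub_add_cancel]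
    rw [h9]
    calc stN x y r * (stN x y (-t) * y w⁻¹) * stN x y (-u) * x u
        = stN x y r * stN x y (-t) * (y w⁻¹ * stN x y (-u)) * x u := by simp only [mul_assoc]
      _ = _ := by rw [h10, ← h12]; simp only [mul_assoc]
  rw [h8, h11] at h1
  have h13 : x s * (stN x y r * stN x y (-t) * stN x y (-u)) * x s = x s * stN x y (-s) * x s := by
    rw [← h1]; simp only [mul_assoc]
  exact mul_left_cancel (mul_right_cancel h13)

/-- the previous relation in terms of `h` -/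
theorem three' {t u : k} (ht : t ≠ 0) (hu : u ≠ 0) (hw : t + u ≠ 0) :
    stH x y (t ^ 2 / (t + u)) * (stH x y t)⁻¹ =
      (stH x y ((t + u) / (t * u)))⁻¹ * stH x y u⁻¹ := by
  have h1 := S.three ht hu hw
  rw [S.nneg, S.nneg, S.nneg] at h1
  have hs0 : t * u / (t + u) ≠ 0 := div_ne_zero (mul_ne_zero ht hu) hw
  have h2 : stN x y (t ^ 2 / (t + u)) * (stN x y t)⁻¹ =
      (stN x y (t * u / (t + u)))⁻¹ * stN x y u := by
    rw [← h1]; simp only [mul_assoc, inv_mul_cancel, mul_one]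
  rw [← S.hn1 (t ^ 2 / (t + u)), ← S.hn1 t, ← S.hn1 (t * u / (t + u)), ← S.hn1 u] at h2
  rw [_root_.mul_inv_rev, _root_.mul_inv_rev] at h2
  have h3 : (stH x y (t * u / (t + u)))⁻¹ * stH x y u * stN x y 1 =
      stN x y 1 * ((stH x y ((t + u) / (t * u)))⁻¹ * stH x y u⁻¹) := by
    rw [mul_assoc, S.hn hu, ← mul_assoc, ← mul_assoc]
    congr 1
    rw [inv_mul_eq_iff_eq_mul, ← mul_assoc, eq_mul_inv_iff_mul_eq]
    rw [S.hn hs0, inv_div]
  have h4 : stH x y (t ^ 2 / (t + u)) * (stH x y t)⁻¹ =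
      (stN x y 1)⁻¹ * ((stH x y (t * u / (t + u)))⁻¹ * stH x y u * stN x y 1) := by
    have h5 : stH x y (t ^ 2 / (t + u)) * stN x y 1 * ((stN x y 1)⁻¹ * (stH x y t)⁻¹) =
      stH x y (t ^ 2 / (t + u)) * (stH x y t)⁻¹ := by group
    rw [← h5, h2]; simp only [mul_assoc]
  rw [h4, h3, inv_mul_cancel_left]

/-- multiplicativity for squares, if the `h(t)` commute -/
theorem h_sq (hc : ∀ t u : k, t ≠ 0 → u ≠ 0 → stH x y t * stH x y u = stH x y u * stH x y t)
    {t u : k} (ht : t ≠ 0) (hu : u ≠ 0) :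
    stH x y (t * u ^ 2) = stH x y t * stH x y (u ^ 2) := by
  have key : ∀ {t u : k}, t ≠ 0 → u ≠ 0 →
      stH x y t * stH x y u⁻¹ = stH x y u * stH x y (u ^ 2 / t)⁻¹ := by
    intro t u ht hu
    have h1 := S.nn ht hu
    rw [← S.hn1 t, ← S.hn1 u, ← S.hn1 (u ^ 2 / t)] at h1
    have h2 : stH x y t * (stN x y 1 * stH x y u) = stH x y u * (stN x y 1 * stH x y (u ^ 2 / t)) := by
      apply mul_right_cancel (b := stN x y 1)
      simpa only [mul_assoc] using h1
    rw [S.hn' hu, S.hn' (div_ne_zero (pow_ne_zero 2 hu) ht), ← mul_assoc, ← mul_assoc] at h2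
    exact mul_right_cancel h2
  have hu' := inv_ne_zero hu
  have h1 := key one_ne_zero hu'
  have h2 := key ht hu'
  rw [S.h1, one_mul, inv_inv, div_one, inv_pow, inv_inv] at h1
  rw [inv_inv, inv_pow, inv_div, div_inv_eq_mul, h1, ← mul_assoc, hc t _ ht hu', mul_assoc] at h2
  exact (mul_left_cancel h2).symm

/-- if two nonzero squares have a nonsquare sum, `h` is multiplicative -/
theorem h_mul (hc : ∀ t u : k, t ≠ 0 → u ≠ 0 → stH x y t * stH x y u = stH x y u * stH x y t)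
    (hns : ∀ t u : k, ¬ IsSquare t → ¬ IsSquare u → IsSquare (t * u))
    (hsum : (∀ t : k, IsSquare t) ∨ ∃ t u : k, t ≠ 0 ∧ u ≠ 0 ∧ ¬ IsSquare (t ^ 2 + u ^ 2))
    {t u : k} (ht : t ≠ 0) (hu : u ≠ 0) : stH x y (t * u) = stH x y t * stH x y u := by
  have hsq : ∀ {t u : k}, t ≠ 0 → u ≠ 0 → IsSquare u → stH x y (t * u) = stH x y t * stH x y u := by
    rintro t u ht hu ⟨v, rfl⟩
    have hv : v ≠ 0 := by rintro rfl; exact hu (mul_zero _)
    rw [← pow_two]
    exact S.h_sq hc ht hv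
  by_cases hus : IsSquare u
  · exact hsq ht hu hus
  by_cases hts : IsSquare t
  · rw [mul_comm t u, hc t u ht hu]
    exact hsq hu ht hts
  rcases hsum with hall | ⟨a, b, ha, hb, hw⟩
  · exact absurd (hall u) hus
  set w := a ^ 2 + b ^ 2 with hw'
  have hw0 : w ≠ 0 := by intro h; apply hw; rw [h]; exact ⟨0, by simp⟩
  have hab0 : a ^ 2 * b ^ 2 ≠ 0 := mul_ne_zero (pow_ne_zero 2 ha) (pow_ne_zero 2 hb)
  -- `h(w) h(1/w) = 1`
  have hinv : ∀ {v : k}, v ≠ 0 → IsSquare v → stH x y v⁻¹ = (stH x y v)⁻¹ := by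
    intro v hv hvs
    rw [eq_inv_iff_mul_eq_one, ← hsq (inv_ne_zero hv) hv hvs, inv_mul_cancel₀ hv, S.h1]
  have h3 := S.three' (pow_ne_zero 2 ha) (pow_ne_zero 2 hb) hw0
  rw [← hw'] at h3
  have e1 : (a ^ 2) ^ 2 / w = w⁻¹ * (a ^ 2) ^ 2 := by rw [div_eq_inv_mul]
  have e2 : w / (a ^ 2 * b ^ 2) = w * (a ^ 2 * b ^ 2)⁻¹ := div_eq_mul_inv _ _
  have s1 : IsSquare ((a ^ 2) ^ 2) := ⟨a ^ 2, by ring⟩
  have s2 : IsSquare (a ^ 2 * b ^ 2) := ⟨a * b, by ring⟩
  have s3 : IsSquare (a ^ 2 * b ^ 2)⁻¹ := ⟨(a * b)⁻¹, by rw [← _root_.mul_inv_rev]; congr 1; ring⟩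
  have s4 : IsSquare (b ^ 2) := ⟨b, by ring⟩
  have s5 : IsSquare (a ^ 2) := ⟨a, by ring⟩
  rw [e1, e2, hsq (inv_ne_zero hw0) (pow_ne_zero 2 (pow_ne_zero 2 ha)) s1,
    hsq hw0 (inv_ne_zero hab0) s3, hinv hab0 s2, hinv (pow_ne_zero 2 hb) s4,
    hsq (pow_ne_zero 2 ha) (pow_ne_zero 2 hb) s4] at h3
  have e3 : stH x y ((a ^ 2) ^ 2) = stH x y (a ^ 2) * stH x y (a ^ 2) := by
    rw [pow_two (a ^ 2)]; exact hsq (pow_ne_zero 2 ha) (pow_ne_zero 2 ha) s5
  rw [e3] at h3
  have h4 : stH x y w⁻¹ * stH x y (a ^ 2) = stH x y (a ^ 2) * (stH x y w)⁻¹ := by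
    have h5 : stH x y w⁻¹ * (stH x y (a ^ 2) * stH x y (a ^ 2)) * (stH x y (a ^ 2))⁻¹ =
      stH x y w⁻¹ * stH x y (a ^ 2) := by group
    have h6 : (stH x y w * (stH x y (a ^ 2) * stH x y (b ^ 2))⁻¹)⁻¹ * (stH x y (b ^ 2))⁻¹ =
      (stH x y (a ^ 2) * stH x y (b ^ 2)) * (stH x y w)⁻¹ * (stH x y (b ^ 2))⁻¹ := by group
    rw [h5, h6] at h3
    rw [h3, mul_assoc, mul_assoc]
    congr 1
    have h7 := hc w (b ^ 2) hw0 (pow_ne_zero 2 hb)
    rw [← _root_.mul_inv_rev, mul_inv_eq_iff_eq_mul, inv_mul_eq_iff_eq_mul.symm.symm.symm]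
    rw [h7.symm]
    group
  have h8 : stH x y w⁻¹ = (stH x y w)⁻¹ := by
    rw [hc _ _ (inv_ne_zero hw0) (pow_ne_zero 2 ha)] at h4
    exact mul_left_cancel h4
  have h9 : stH x y (w * w) = stH x y w * stH x y w := by
    have s6 : IsSquare (w * w) := ⟨w, rfl⟩
    have hww : w * w ≠ 0 := mul_ne_zero hw0 hw0
    have h10 := hsq (inv_ne_zero hw0) hww s6
    rw [h8] at h10
    have h11 : w⁻¹ * (w * w) = w := by field_simp
    rw [h11] at h10
    rw [eq_inv_mul_iff_mul_eq] at h10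
    exact h10.symm
  -- general nonsquares
  obtain ⟨t', ht'⟩ := hns t w⁻¹ hts (fun h => hw (by simpa using h.inv))
  obtain ⟨u', hu'⟩ := hns u w⁻¹ hus (fun h => hw (by simpa using h.inv))
  have ht2 : t = w * (t' * t') := by rw [← ht']; field_simp
  have hu2 : u = w * (u' * u') := by rw [← hu']; field_simp
  have ht0 : t' * t' ≠ 0 := by intro h; rw [h, mul_zero] at ht2; exact ht ht2
  have hu0 : u' * u' ≠ 0 := by intro h; rw [h, mul_zero] at hu2; exact hu hu2
  have e5 : t * u = (w * w) * ((t' * t') * (u' * u')) := by rw [ht2, hu2]; ring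
  rw [e5, hsq (mul_ne_zero hw0 hw0) (mul_ne_zero ht0 hu0) ⟨t' * u', by ring⟩,
    hsq ht0 hu0 ⟨u', rfl⟩, h9]
  have et : stH x y t = stH x y w * stH x y (t' * t') := by
    rw [← hsq hw0 ht0 ⟨t', rfl⟩, ← ht2]
  have eu : stH x y u = stH x y w * stH x y (u' * u') := by
    rw [← hsq hw0 hu0 ⟨u', rfl⟩, ← hu2]
  rw [et, eu]
  have h12 := hc w (t' * t') hw0 ht0
  calc stH x y w * stH x y w * (stH x y (t' * t') * stH x y (u' * u'))
      = stH x y w * (stH x y w * stH x y (t' * t')) * stH x y (u' * u') := by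
        simp only [mul_assoc]
    _ = stH x y w * (stH x y (t' * t') * stH x y w) * stH x y (u' * u') := by rw [h12]
    _ = _ := by simp only [mul_assoc]

open Classical in
omit S in
/-- the map to `X` -/
noncomputable def phi (x y : k → X) (g : SpecialLinearGroup (Fin 2) k) : X :=
  if (g : Matrix (Fin 2) (Fin 2) k) 1 0 = 0 then
    stH x y ((g : Matrix (Fin 2) (Fin 2) k) 0 0) *
      x ((g : Matrix (Fin 2) (Fin 2) k) 0 1 / (g : Matrix (Fin 2) (Fin 2) k) 0 0)
  else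
    x ((g : Matrix (Fin 2) (Fin 2) k) 0 0 / (g : Matrix (Fin 2) (Fin 2) k) 1 0) *
      stN x y (-1 / (g : Matrix (Fin 2) (Fin 2) k) 1 0) *
      x ((g : Matrix (Fin 2) (Fin 2) k) 1 1 / (g : Matrix (Fin 2) (Fin 2) k) 1 0)

omit S in
theorem phi_zero {g : SpecialLinearGroup (Fin 2) k} {a b : k}
    (h00 : (g : Matrix (Fin 2) (Fin 2) k) 0 0 = a) (h01 : (g : Matrix (Fin 2) (Fin 2) k) 0 1 = b)
    (h10 : (g : Matrix (Fin 2) (Fin 2) k) 1 0 = 0) : phi x y g = stH x y a * x (b / a) := by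
  rw [phi, if_pos h10, h00, h01]

omit S in
theorem phi_ne {g : SpecialLinearGroup (Fin 2) k} {a c d : k} (hc : c ≠ 0)
    (h00 : (g : Matrix (Fin 2) (Fin 2) k) 0 0 = a) (h10 : (g : Matrix (Fin 2) (Fin 2) k) 1 0 = c)
    (h11 : (g : Matrix (Fin 2) (Fin 2) k) 1 1 = d) :
    phi x y g = x (a / c) * stN x y (-1 / c) * x (d / c) := by
  rw [phi, if_neg (h10 ▸ hc), h00, h10, h11]

/-- the Weyl element -/
def wW : SpecialLinearGroup (Fin 2) k := ⟨!![0, 1; -1, 0], by simp [Matrix.det_fin_two]⟩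

omit S in
@[simp] theorem coe_wW : ((wW : SpecialLinearGroup (Fin 2) k) : Matrix (Fin 2) (Fin 2) k) =
    !![0, 1; -1, 0] := rfl

theorem phi_one : phi x y 1 = 1 := by
  rw [phi_zero (a := 1) (b := 0) (by simp) (by simp) (by simp), S.h1, zero_div, S.x0, mul_one]

theorem phi_xU (s : k) : phi x y (xU s) = x s := by
  rw [phi_zero (a := 1) (b := s) (by simp) (by simp) (by simp), S.h1, div_one, one_mul]

theorem phi_wW : phi x y wW = stN x y 1 := by
  rw [phi_ne (a := 0) (c := -1) (d := 0) (by simp) (by simp) (by simp) (by simp)]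
  simp [S.x0]

theorem phi_mul_xU (g : SpecialLinearGroup (Fin 2) k) (s : k) :
    phi x y (g * xU s) = phi x y g * x s := by
  have hdet := g.det_coe
  rw [Matrix.det_fin_two] at hdet
  by_cases hc : (g : Matrix (Fin 2) (Fin 2) k) 1 0 = 0
  · have ha : (g : Matrix (Fin 2) (Fin 2) k) 0 0 ≠ 0 := by
      intro ha; rw [ha, hc] at hdet; simp at hdet
    rw [phi_zero rfl rfl hc, phi_zero (a := (g : Matrix (Fin 2) (Fin 2) k) 0 0)
      (b := (g : Matrix (Fin 2) (Fin 2) k) 0 0 * s + (g : Matrix (Fin 2) (Fin 2) k) 0 1)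
      (by simp [SpecialLinearGroup.coe_mul, Matrix.mul_apply, Fin.sum_univ_two])
      (by simp [SpecialLinearGroup.coe_mul, Matrix.mul_apply, Fin.sum_univ_two])
      (by simp [SpecialLinearGroup.coe_mul, Matrix.mul_apply, Fin.sum_univ_two, hc]),
      mul_assoc, ← S.hx]
    congr 2
    field_simp
    ring
  · rw [phi_ne hc rfl rfl rfl, phi_ne (a := (g : Matrix (Fin 2) (Fin 2) k) 0 0)
      (c := (g : Matrix (Fin 2) (Fin 2) k) 1 0)
      (d := (g : Matrix (Fin 2) (Fin 2) k) 1 0 * s + (g : Matrix (Fin 2) (Fin 2) k) 1 1) hc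
      (by simp [SpecialLinearGroup.coe_mul, Matrix.mul_apply, Fin.sum_univ_two])
      (by simp [SpecialLinearGroup.coe_mul, Matrix.mul_apply, Fin.sum_univ_two])
      (by simp [SpecialLinearGroup.coe_mul, Matrix.mul_apply, Fin.sum_univ_two]),
      mul_assoc _ _ (x s), ← S.hx]
    congr 2
    field_simp
    ring

theorem phi_mul_wW (hm : ∀ t u : k, t ≠ 0 → u ≠ 0 → stH x y (t * u) = stH x y t * stH x y u)
    (g : SpecialLinearGroup (Fin 2) k) : phi x y (g * wW) = phi x y g * stN x y 1 := by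
  have hdet := g.det_coe
  rw [Matrix.det_fin_two] at hdet
  set a := (g : Matrix (Fin 2) (Fin 2) k) 0 0 with ha
  set b := (g : Matrix (Fin 2) (Fin 2) k) 0 1 with hb
  set c := (g : Matrix (Fin 2) (Fin 2) k) 1 0 with hc
  set d := (g : Matrix (Fin 2) (Fin 2) k) 1 1 with hd
  have e00 : ((g * wW : SpecialLinearGroup (Fin 2) k) : Matrix (Fin 2) (Fin 2) k) 0 0 = -b := by
    simp [SpecialLinearGroup.coe_mul, Matrix.mul_apply, Fin.sum_univ_two, ← ha, ← hb]
  have e01 : ((g * wW : SpecialLinearGroup (Fin 2) k) : Matrix (Fin 2) (Fin 2) k) 0 1 = a := by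
    simp [SpecialLinearGroup.coe_mul, Matrix.mul_apply, Fin.sum_univ_two, ← ha, ← hb]
  have e10 : ((g * wW : SpecialLinearGroup (Fin 2) k) : Matrix (Fin 2) (Fin 2) k) 1 0 = -d := by
    simp [SpecialLinearGroup.coe_mul, Matrix.mul_apply, Fin.sum_univ_two, ← hc, ← hd]
  have e11 : ((g * wW : SpecialLinearGroup (Fin 2) k) : Matrix (Fin 2) (Fin 2) k) 1 1 = c := by
    simp [SpecialLinearGroup.coe_mul, Matrix.mul_apply, Fin.sum_univ_two, ← hc, ← hd]
  -- `n(-1/c) n(1) = h(1/c)`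
  have hnn : ∀ {c : k}, c ≠ 0 → stN x y (-1 / c) * stN x y 1 = stH x y c⁻¹ := by
    intro c hc
    have h1 : stN x y 1 * stN x y 1 = stH x y (-1) := by
      have h2 : stH x y (-1) * stH x y (-1) = 1 := by
        rw [← hm _ _ (by simp) (by simp)]; simp [S.h1]
      have h3 : stH x y (-1) = (stN x y 1 * stN x y 1)⁻¹ := by
        rw [stH, S.nneg, _root_.mul_inv_rev]
      rw [h3] at h2
      rw [h3]
      have h4 : stN x y 1 * stN x y 1 * (stN x y 1 * stN x y 1) = 1 := by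
        rw [← _root_.inv_inj, _root_.mul_inv_rev, h2, inv_one]
      exact eq_inv_of_mul_eq_one_left h4
    rw [← S.hn1 (-1 / c), mul_assoc, h1, ← hm _ _ (div_ne_zero (by simp) hc) (by simp)]
    congr 1
    field_simp
  by_cases hc0 : c = 0
  · have ha0 : a ≠ 0 := by
      intro ha; rw [ha, hc0] at hdet; simp at hdet
    have hd0 : d ≠ 0 := by
      intro ha; rw [ha, hc0] at hdet; simp at hdet
    have hd' : d = a⁻¹ := by
      rw [hc0, mul_zero, sub_zero] at hdet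
      field_simp; linear_combination hdet
    rw [phi_ne (neg_ne_zero.2 hd0) e00 e10 e11, phi_zero ha.symm hb.symm (hc.symm.trans hc0), hc0,
      zero_div, S.x0, mul_one, S.hx' ha0, mul_assoc, S.hn1]
    congr 2
    · rw [hd']; field_simp
    · rw [hd']; field_simp
  · rw [phi_ne hc0 ha.symm hc.symm hd.symm]
    by_cases hd0 : d = 0
    · rw [phi_zero e00 e01 (e10.trans (by rw [hd0, neg_zero])), hd0, zero_div, S.x0, mul_one,
        mul_assoc, hnn hc0]
      have hb' : -b = c⁻¹ := by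
        rw [hd0, mul_zero, zero_sub] at hdet
        field_simp; linear_combination hdet
      rw [hb', S.xh (inv_ne_zero hc0)]
      congr 2
      field_simp
    · rw [phi_ne (neg_ne_zero.2 hd0) e00 e10 e11]
      set v := d / c with hv
      have hv0 : v ≠ 0 := div_ne_zero hd0 hc0
      have h1 : x v * stN x y 1 = stN x y 1 * x (-v⁻¹) * stN x y v⁻¹ * x (-v⁻¹) := by
        rw [S.hxn 1 one_ne_zero v]
        have h2 : y (-v) = x (-v⁻¹) * stN x y v⁻¹ * x (-v⁻¹) := by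
          simp only [stN, inv_inv, S.xneg, mul_assoc, inv_mul_cancel_left, mul_inv_cancel, mul_one]
        rw [one_pow, div_one, h2]; simp only [mul_assoc]
      have h3 : x (a / c) * stN x y (-1 / c) * x v * stN x y 1 =
          x (a / c) * (stN x y (-1 / c) * stN x y 1) * x (-v⁻¹) * stN x y v⁻¹ * x (-v⁻¹) := by
        rw [mul_assoc, h1]; simp only [mul_assoc]
      rw [h3, hnn hc0, mul_assoc (x (a / c)), S.hx' (inv_ne_zero hc0), ← S.hn1 v⁻¹]
      have h4 : x (a / c) * (x (c⁻¹ ^ 2 * -v⁻¹) * stH x y c⁻¹) * (stH x y v⁻¹ * stN x y 1) *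
          x (-v⁻¹) = (x (a / c) * x (c⁻¹ ^ 2 * -v⁻¹)) * ((stH x y c⁻¹ * stH x y v⁻¹) * stN x y 1) *
          x (-v⁻¹) := by simp only [mul_assoc]
      rw [h4, ← S.hx, ← hm _ _ (inv_ne_zero hc0) (inv_ne_zero hv0), S.hn1]
      congr 3
      · rw [hv]; field_simp; linear_combination -hdet
      · rw [hv]; field_simp
      · rw [hv]; field_simp

/-- **The Steinberg presentation**: the homomorphism from `SL₂(k)` -/
theorem lift (hm : ∀ t u : k, t ≠ 0 → u ≠ 0 → stH x y (t * u) = stH x y t * stH x y u) :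
    ∃ φ : SpecialLinearGroup (Fin 2) k →* X, (∀ t, φ (xU t) = x t) ∧ (∀ t, φ (yL t) = y t) := by
  let P : Subgroup (SpecialLinearGroup (Fin 2) k) := {
    carrier := {g' | ∀ g, phi x y (g * g') = phi x y g * phi x y g'}
    one_mem' := fun g => by rw [mul_one, S.phi_one, mul_one]
    mul_mem' := by
      intro a b ha hb g
      rw [← mul_assoc, hb, ha, hb a, mul_assoc]
    inv_mem' := by
      intro a ha g
      have h1 := ha (g * a⁻¹)
      rw [inv_mul_cancel_right] at h1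
      have h2 := ha a⁻¹
      rw [inv_mul_cancel, S.phi_one] at h2
      rw [h1, mul_assoc, ← inv_eq_of_mul_eq_one_left h2.symm, mul_inv_cancel, mul_one] }
  have hxP : ∀ s, xU s ∈ P := fun s g => by rw [S.phi_mul_xU, S.phi_xU]
  have hwP : (wW : SpecialLinearGroup (Fin 2) k) ∈ P := fun g => by
    rw [S.phi_mul_wW hm, S.phi_wW]
  have hyw : ∀ s : k, yL s = wW⁻¹ * xU (-s) * wW := by
    intro s
    rw [mul_assoc, eq_inv_mul_iff_mul_eq]
    ext i j; fin_cases i <;> fin_cases j <;>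
      simp [SpecialLinearGroup.coe_mul, Matrix.mul_apply, Fin.sum_univ_two]
  have hyP : ∀ s, yL s ∈ P := fun s => by
    rw [hyw]; exact P.mul_mem (P.mul_mem (P.inv_mem hwP) (hxP _)) hwP
  have htop : P = ⊤ := by
    rw [eq_top_iff, ← lower_sup_upper]
    refine sup_le ?_ ?_
    · intro g hg
      obtain ⟨t, rfl⟩ := mem_lower.1 hg
      exact hyP t
    · intro g hg
      obtain ⟨t, rfl⟩ := mem_upper.1 hg
      exact hxP t
  let φ : SpecialLinearGroup (Fin 2) k →* X := {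
    toFun := phi x y
    map_one' := S.phi_one
    map_mul' := fun a b => (htop ▸ Subgroup.mem_top b : b ∈ P) a }
  refine ⟨φ, S.phi_xU, fun t => ?_⟩
  have h1 : φ (yL t) = (stN x y 1)⁻¹ * x (-t) * stN x y 1 := by
    rw [hyw, map_mul, map_mul, map_inv]
    have e1 : φ wW = stN x y 1 := S.phi_wW
    have e2 : φ (xU (-t)) = x (-t) := S.phi_xU _
    rw [e1, e2]
  rw [h1, mul_assoc, S.hxn 1 one_ne_zero, inv_mul_cancel_left]
  congr 1
  simp

end StRel

end Cfsg.Agent.H3
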