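import Mathlib
import Cfsg.Prelude.Def_RootSubgroups
import Cfsg.Agent.H3.RankSt
import Cfsg.Agent.H3.RankT

/-!
The subgroup `⟨a, b(a)⟩` of a special rank one group.
-/

set_option autoImplicit false
open Cfsg Cfsg.Agent.H28 Matrix

namespace Cfsg.Agent.H3

section pw
variable {G : Type*} [Group G] {p : ℕ} [Fact p.Prime]

theorem pow_val_add {g : G} (hg : g ^ p = 1) (s t : ZMod p) :
    g ^ (s + t).val = g ^ s.val * g ^ t.val := by
  rw [ZMod.val_add, ← pow_add, ← pow_eq_pow_mod _ hg]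

theorem pow_val_mul {g : G} (hg : g ^ p = 1) (s t : ZMod p) :
    g ^ (s * t).val = (g ^ s.val) ^ t.val := by
  rw [ZMod.val_mul, ← pow_mul, ← pow_eq_pow_mod _ hg]

theorem pow_val_one (g : G) : g ^ (1 : ZMod p).val = g := by
  rw [ZMod.val_one, pow_one]

theorem pow_val_neg {g : G} (hg : g ^ p = 1) (s : ZMod p) :
    g ^ (-s).val = (g ^ s.val)⁻¹ := by
  rw [eq_inv_iff_mul_eq_one, ← pow_val_add hg, neg_add_cancel, ZMod.val_zero, pow_zero]

end pw

section zmod
variable {p : ℕ} [Fact p.Prime]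

theorem zmod_nonsq {t u : ZMod p} (ht : ¬ IsSquare t) (hu : ¬ IsSquare u) : IsSquare (t * u) := by
  classical
  have ht0 : t ≠ 0 := by rintro rfl; exact ht ⟨0, by simp⟩
  have hu0 : u ≠ 0 := by rintro rfl; exact hu ⟨0, by simp⟩
  rw [← quadraticChar_one_iff_isSquare (mul_ne_zero ht0 hu0), map_mul,
    quadraticChar_neg_one_iff_not_isSquare.2 ht, quadraticChar_neg_one_iff_not_isSquare.2 hu]
  norm_num

theorem zmod_sum : (∀ t : ZMod p, IsSquare t) ∨
    ∃ t u : ZMod p, t ≠ 0 ∧ u ≠ 0 ∧ ¬ IsSquare (t ^ 2 + u ^ 2) := by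
  classical
  by_cases h : ∀ t : ZMod p, IsSquare t
  · exact Or.inl h
  right
  push Not at h
  obtain ⟨w, hw⟩ := h
  have hex : ∃ m : ℕ, ¬ IsSquare (m : ZMod p) := ⟨w.val, by rwa [ZMod.natCast_zmod_val]⟩
  set m := Nat.find hex with hm
  have h1 : ¬ IsSquare (m : ZMod p) := Nat.find_spec hex
  have h2 : 0 < m := by
    rw [Nat.pos_iff_ne_zero]; intro h0; rw [h0] at h1; exact h1 ⟨0, by simp⟩
  have h3 : IsSquare ((m - 1 : ℕ) : ZMod p) := by
    have := Nat.find_min hex (m := m - 1) (by omega)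
    rwa [not_not] at this
  obtain ⟨s, hs⟩ := h3
  rw [Nat.cast_sub h2, Nat.cast_one] at hs
  have h4 : (m : ZMod p) = s ^ 2 + 1 ^ 2 := by rw [pow_two s, ← hs]; ring
  refine ⟨s, 1, ?_, one_ne_zero, h4 ▸ h1⟩
  rintro rfl
  apply h1
  rw [h4]
  exact ⟨1, by ring⟩

end zmod

namespace StRel

variable {X : Type*} [Group X] {p : ℕ} [Fact p.Prime] {x y : ZMod p → X} (S : StRel x y)
include S

theorem h_comm_zmod (t u : ZMod p) (ht : t ≠ 0) (hu : u ≠ 0) :
    stH x y t * stH x y u = stH x y u * stH x y t := by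
  obtain ⟨g, hg⟩ := IsCyclic.exists_monoid_generator (α := (ZMod p)ˣ)
  let L : Subgroup X := Subgroup.closure (Set.range x ∪ Set.range y)
  have hxL : ∀ t, x t ∈ L := fun t => Subgroup.subset_closure (Or.inl ⟨t, rfl⟩)
  have hyL : ∀ t, y t ∈ L := fun t => Subgroup.subset_closure (Or.inr ⟨t, rfl⟩)
  have hnL : ∀ t, stN x y t ∈ L := fun t => mul_mem (mul_mem (hxL _) (hyL _)) (hxL _)
  have hhL : ∀ t, stH x y t ∈ L := fun t => mul_mem (hnL _) (hnL _)
  have hpow : ∀ (i : ℕ) (w : ZMod p), x w * stH x y g ^ i = stH x y g ^ i * x (w / (g ^ i : ZMod p) ^ 2) ∧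
      y w * stH x y g ^ i = stH x y g ^ i * y (w * (g ^ i : ZMod p) ^ 2) := by
    intro i
    induction i with
    | zero => intro w; simp
    | succ i ih =>
      intro w
      constructor
      · rw [pow_succ, ← mul_assoc, (ih w).1, mul_assoc, S.xh g.ne_zero, ← mul_assoc]
        congr 2; field_simp; ring
      · rw [pow_succ, ← mul_assoc, (ih w).2, mul_assoc, S.yh g.ne_zero, ← mul_assoc]
        congr 2; ring
  have hcen : ∀ t : ZMod p, t ≠ 0 → ∃ i : ℕ, ∀ z ∈ L,
      z * (stH x y t * (stH x y g ^ i)⁻¹) = (stH x y t * (stH x y g ^ i)⁻¹) * z := by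
    intro t ht
    obtain ⟨i, hi⟩ := hg (Units.mk0 t ht)
    have hi' : (g : ZMod p) ^ i = t := by
      have := congrArg Units.val hi
      simpa using this
    refine ⟨i, fun z hz => ?_⟩
    have hxc : ∀ w, x w * (stH x y t * (stH x y g ^ i)⁻¹) = (stH x y t * (stH x y g ^ i)⁻¹) * x w := by
      intro w
      have h1 := (hpow i w).1
      rw [hi'] at h1
      have h2 : (stH x y g ^ i)⁻¹ * x w = x (w / t ^ 2) * (stH x y g ^ i)⁻¹ := by
        rw [inv_mul_eq_iff_eq_mul, ← mul_assoc, ← h1, mul_inv_cancel_right]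
      rw [← mul_assoc, S.xh ht, mul_assoc, mul_assoc, h2]
    have hyc : ∀ w, y w * (stH x y t * (stH x y g ^ i)⁻¹) = (stH x y t * (stH x y g ^ i)⁻¹) * y w := by
      intro w
      have h1 := (hpow i w).2
      rw [hi'] at h1
      have h2 : (stH x y g ^ i)⁻¹ * y w = y (w * t ^ 2) * (stH x y g ^ i)⁻¹ := by
        rw [inv_mul_eq_iff_eq_mul, ← mul_assoc, ← h1, mul_inv_cancel_right]
      rw [← mul_assoc, S.yh ht, mul_assoc, mul_assoc, h2]
    have h3 : L ≤ Subgroup.centralizer {stH x y t * (stH x y g ^ i)⁻¹} := by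
      rw [Subgroup.closure_le]
      rintro _ (⟨w, rfl⟩ | ⟨w, rfl⟩)
      · rw [SetLike.mem_coe, Subgroup.mem_centralizer_singleton_iff]; exact hxc w
      · rw [SetLike.mem_coe, Subgroup.mem_centralizer_singleton_iff]; exact hyc w
    exact Subgroup.mem_centralizer_singleton_iff.1 (h3 hz)
  obtain ⟨i, hi⟩ := hcen t ht
  obtain ⟨j, hj⟩ := hcen u hu
  set c := stH x y t * (stH x y g ^ i)⁻¹ with hc
  set d := stH x y u * (stH x y g ^ j)⁻¹ with hd
  have e1 : stH x y t = c * stH x y g ^ i := by rw [hc, inv_mul_cancel_right]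
  have e2 : stH x y u = d * stH x y g ^ j := by rw [hd, inv_mul_cancel_right]
  have hgL : ∀ i : ℕ, stH x y g ^ i ∈ L := fun i => pow_mem (hhL _) i
  have hcL : c ∈ L := mul_mem (hhL _) (inv_mem (hgL _))
  have f1 := hj c hcL
  have f2 := hi _ (hgL j)
  have f3 := hj _ (hgL i)
  have f4 : stH x y g ^ i * stH x y g ^ j = stH x y g ^ j * stH x y g ^ i := by
    rw [← pow_add, ← pow_add, add_comm]
  rw [e1, e2]
  calc c * stH x y g ^ i * (d * stH x y g ^ j) = c * (stH x y g ^ i * d) * stH x y g ^ j := by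
        simp only [mul_assoc]
    _ = (c * d) * (stH x y g ^ i * stH x y g ^ j) := by rw [f3]; simp only [mul_assoc]
    _ = d * (c * stH x y g ^ j) * stH x y g ^ i := by rw [f1, f4]; simp only [mul_assoc]
    _ = _ := by rw [← f2]; simp only [mul_assoc]

theorem lift_zmod : ∃ φ : SpecialLinearGroup (Fin 2) (ZMod p) →* X,
    (∀ t, φ (xU t) = x t) ∧ (∀ t, φ (yL t) = y t) :=
  S.lift fun _ _ ht hu => S.h_mul S.h_comm_zmod (fun _ _ => zmod_nonsq) zmod_sum ht hu

end StRel

section iso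

variable {k : Type*} [Field k] {G : Type*} [Group G]

theorem iso_of_ker_le_center (φ : SpecialLinearGroup (Fin 2) k →* G)
    (h : φ.ker ≤ Subgroup.center (SpecialLinearGroup (Fin 2) k)) :
    Nonempty (φ.range ≃* SpecialLinearGroup (Fin 2) k) ∨
      Nonempty (φ.range ≃* ProjectiveSpecialLinearGroup (Fin 2) k) := by
  by_cases hk : φ.ker = ⊥
  · left
    exact ⟨(MonoidHom.ofInjective ((MonoidHom.ker_eq_bot_iff φ).1 hk)).symm⟩
  · right
    obtain ⟨c, hc, hc1⟩ := exists_ne_one_of_ne_bot hk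
    obtain ⟨r, hr, hrc⟩ := Matrix.SpecialLinearGroup.mem_center_iff.1 (h hc)
    have hsq : ∀ r : k, r ^ Fintype.card (Fin 2) = 1 → r = 1 ∨ r = -1 := by
      intro r hr
      rw [Fintype.card_fin, pow_two] at hr
      exact mul_self_eq_one_iff.1 hr
    have hr1 : r = -1 := by
      rcases hsq r hr with h1 | h1
      · exfalso
        apply hc1
        apply Subtype.ext
        rw [← hrc, h1]
        simp
      · exact h1
    have heq : φ.ker = Subgroup.center (SpecialLinearGroup (Fin 2) k) := by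
      apply le_antisymm h
      intro z hz
      obtain ⟨s, hs, hsz⟩ := Matrix.SpecialLinearGroup.mem_center_iff.1 hz
      rcases hsq s hs with h1 | h1
      · have : z = 1 := by
          apply Subtype.ext
          rw [← hsz, h1]
          simp
        rw [this]; exact one_mem _
      · have : z = c := by
          apply Subtype.ext
          rw [← hsz, ← hrc, h1, hr1]
        rw [this]; exact hc
    exact ⟨(QuotientGroup.quotientKerEquivRange φ).symm.trans
      (QuotientGroup.quotientMulEquivOfEq heq)⟩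

end iso

section special

variable {G : Type*} [Group G] {A B : Subgroup G}

theorem pow_eq_one_right (h : IsSpecialRankOnePair A B) {p : ℕ} (hA : ∀ a ∈ A, a ^ p = 1) :
    ∀ b ∈ B, b ^ p = 1 := by
  intro b hb
  by_cases hb1 : b = 1
  · rw [hb1, one_pow]
  · obtain ⟨a, ha⟩ := brel_right h.1 hb hb1
    exact (ha.pow_eq_one h p).1 (hA a ha.ha)

theorem BRel.pow_val (h : IsSpecialRankOnePair A B) (hab : HasAbelianUnipotents A B) {p : ℕ}
    [Fact p.Prime] (hA : ∀ a ∈ A, a ^ p = 1) {a b : G} (h1 : BRel A B a b) {t : ZMod p}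
    (ht : t ≠ 0) : BRel A B (a ^ t.val) (b ^ (t⁻¹).val) := by
  have hB := pow_eq_one_right h hA
  have h2 : a ^ t.val ≠ 1 := by
    intro h2
    apply h1.ha1
    have h3 := pow_val_mul (hA a h1.ha) t t⁻¹
    rwa [h2, one_pow, mul_inv_cancel₀ ht, pow_val_one] at h3
  obtain ⟨d, hd⟩ := brel_left h.1 (pow_mem h1.ha t.val) h2
  have h3 := BRel.pow_pow _ h hab h1 hd
  have h4 : d = b ^ (t⁻¹).val := by
    rw [← h3, ← pow_val_mul (hB d hd.hb), mul_inv_cancel₀ ht, pow_val_one]
  rwa [← h4]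

theorem stRel_of_brel (h : IsSpecialRankOnePair A B) (hab : HasAbelianUnipotents A B) {p : ℕ}
    [Fact p.Prime] (hA : ∀ a ∈ A, a ^ p = 1) {a b : G} (h1 : BRel A B a b) :
    StRel (fun t : ZMod p => a ^ t.val) (fun t : ZMod p => b ^ t.val) := by
  have hB := pow_eq_one_right h hA
  have hap := hA a h1.ha
  have hbp := hB b h1.hb
  have hn : ∀ t : ZMod p, t ≠ 0 → stN (fun t : ZMod p => a ^ t.val) (fun t : ZMod p => b ^ t.val) t =
      a ^ t.val * (b ^ (t⁻¹).val)⁻¹ * a ^ t.val := by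
    intro t ht
    rw [stN, pow_val_neg hbp]
  refine ⟨pow_val_add hap, pow_val_add hbp, ?_, ?_⟩
  · intro t ht u
    have h2 := (h1.pow_val h hab hA ht).n_a h
    rw [hn t ht]
    set n := a ^ t.val * (b ^ (t⁻¹).val)⁻¹ * a ^ t.val with hn'
    have h3 : SemiconjBy n (b ^ (t⁻¹).val)⁻¹ (a ^ t.val) := by
      rw [SemiconjBy, ← h2]; group
    have h4 := h3.pow_right (u / t).val
    rw [← pow_val_neg hbp, ← pow_val_mul hbp, ← pow_val_mul hap] at h4
    have e1 : t * (u / t) = u := by field_simp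
    have e2 : -t⁻¹ * (u / t) = -u / t ^ 2 := by field_simp
    rw [e1, e2] at h4
    exact h4.symm
  · intro t ht u
    have h2 := (h1.pow_val h hab hA ht).n_b h
    rw [hn t ht]
    set n := a ^ t.val * (b ^ (t⁻¹).val)⁻¹ * a ^ t.val with hn'
    have h3 : SemiconjBy n (a ^ t.val)⁻¹ (b ^ (t⁻¹).val) := by
      rw [SemiconjBy, ← h2]; group
    have h4 := h3.pow_right (u * t).val
    rw [← pow_val_neg hap, ← pow_val_mul hbp, ← pow_val_mul hap] at h4
    have e1 : t⁻¹ * (u * t) = u := by field_simp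
    have e2 : -t * (u * t) = -u * t ^ 2 := by ring
    rw [e1, e2] at h4
    exact h4.symm

theorem sl2_of_brel (h : IsSpecialRankOnePair A B) (hab : HasAbelianUnipotents A B) {p : ℕ}
    [Fact p.Prime] (hA : ∀ a ∈ A, a ^ p = 1) {a b : G} (h1 : BRel A B a b) :
    ∃ φ : SpecialLinearGroup (Fin 2) (ZMod p) →* G, φ (xU 1) = a ∧ φ (yL 1) = b ∧
      φ.range = Subgroup.closure {a, b} ∧
      φ.ker ≤ Subgroup.center (SpecialLinearGroup (Fin 2) (ZMod p)) := by
  obtain ⟨φ, hx, hy⟩ := (stRel_of_brel h hab hA h1).lift_zmod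
  have hx1 : φ (xU 1) = a := by rw [hx, pow_val_one]
  have hy1 : φ (yL 1) = b := by rw [hy, pow_val_one]
  refine ⟨φ, hx1, hy1, ?_, ?_⟩
  · apply le_antisymm
    · rw [MonoidHom.range_eq_map, ← lower_sup_upper, Subgroup.map_sup]
      refine sup_le ?_ ?_
      · rintro _ ⟨g, hg, rfl⟩
        obtain ⟨t, rfl⟩ := mem_lower.1 hg
        rw [hy]
        exact (Subgroup.closure ({a, b} : Set G)).pow_mem (Subgroup.subset_closure (by simp)) _
      · rintro _ ⟨g, hg, rfl⟩
        obtain ⟨t, rfl⟩ := mem_upper.1 hg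
        rw [hx]
        exact (Subgroup.closure ({a, b} : Set G)).pow_mem (Subgroup.subset_closure (by simp)) _
    · rw [Subgroup.closure_le]
      rintro _ (rfl | rfl)
      · exact ⟨_, hx1⟩
      · exact ⟨_, hy1⟩
  · rcases ro_normal lower_sup_upper ro_SL2 (N := φ.ker) inferInstance with h2 | h2
    · exfalso
      have h3 : φ.range ≤ B := by
        rw [MonoidHom.range_eq_map, ← h2, Subgroup.map_sup]
        refine sup_le ?_ ?_
        · rintro _ ⟨g, hg, rfl⟩
          rw [MonoidHom.mem_ker.1 hg]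
          exact one_mem _
        · rintro _ ⟨g, hg, rfl⟩
          obtain ⟨t, rfl⟩ := mem_lower.1 hg
          rw [hy]
          exact pow_mem h1.hb _
      have h4 : a ∈ A ⊓ B := ⟨h1.ha, h3 ⟨_, hx1⟩⟩
      rw [rankOne_inf h.1] at h4
      exact h1.ha1 h4
    · exact h2

end special

end Cfsg.Agent.H3
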