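import Mathlib
import Cfsg.Prelude.Def_RootSubgroups
import Cfsg.Agent.H3.RootD

/-!
Abstract root subgroups: homomorphic images.
-/

set_option autoImplicit false
open Cfsg Cfsg.Agent.H28

namespace Cfsg.Agent.H3

variable {G H : Type*} [Group G] [Group H] {A B C D E : Subgroup G} {S : Set (Subgroup G)}

theorem cm_nilpotent (h : Cm A A) : Group.IsNilpotent A := by
  haveI := cm_self_comm h
  open scoped IsMulCommutative in exact inferInstance

theorem Cm.map (h : Cm A B) (f : G →* H) : Cm (A.map f) (B.map f) := by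
  rintro _ ⟨a, ha, rfl⟩ _ ⟨b, hb, rfl⟩
  rw [← map_mul, h a ha b hb, map_mul]

/-- image of a rank one pair -/
theorem ro_image (f : G →* H) (cA : Cm A A) (cB : Cm B B) (h : IsRankOnePair A B) :
    (A.map f = B.map f) ∨ IsRankOnePair (A.map f) (B.map f) := by
  have hN : ∀ x ∈ A ⊔ B, conjBy (f.ker ⊓ (A ⊔ B)) x = f.ker ⊓ (A ⊔ B) := by
    refine norm_of_le fun x hx y hy => ?_
    rw [mem_conjBy, Subgroup.mem_inf] at hy
    refine Subgroup.mem_inf.2 ⟨?_, ?_⟩
    · have := hy.1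
      rw [MonoidHom.mem_ker, map_mul, map_mul] at this
      rw [MonoidHom.mem_ker]
      have e : f y = f x * (f x⁻¹ * f y * f x) * (f x)⁻¹ := by rw [map_inv]; group
      rw [e, this]; group
    · have := hy.2
      have e : y = x * (x⁻¹ * y * x) * x⁻¹ := by group
      rw [e]
      exact mul_mem (mul_mem hx this) (inv_mem hx)
  rcases ro_normal_sup h inf_le_right hN with h1 | h1
  · left
    have hBA : B.map f ≤ A.map f := by
      have h2 : B ≤ f.ker ⊓ (A ⊔ B) ⊔ A := by rw [h1]; exact le_sup_right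
      have h3 := Subgroup.map_mono (f := f) h2
      rw [Subgroup.map_sup] at h3
      refine h3.trans (sup_le ?_ le_rfl)
      rintro _ ⟨x, hx, rfl⟩
      rw [MonoidHom.mem_ker.1 hx.1]
      exact one_mem _
    apply le_antisymm _ hBA
    -- `A = B^x`
    obtain ⟨x, hx, hx'⟩ := ro_mem_right (rankOne_symm h)
    rw [sup_comm] at hx
    have h5 : A ⊔ B ≤ (A.map f).comap f := sup_le (Subgroup.le_comap_map f A)
      (Subgroup.map_le_iff_le_comap.1 hBA)
    have hfx : f x ∈ A.map f := h5 hx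
    have h6 : A.map f = conjBy (B.map f) (f x) := by
      nth_rw 1 [hx']; rw [conjBy_map]
    have h7 : conjBy (A.map f) (f x)⁻¹ = A.map f := conjBy_mem_self (inv_mem hfx)
    rw [← h7, h6, conjBy_conjBy, inv_mul_cancel, conjBy_one]
  · right
    have hne : A.map f ≠ B.map f := by
      intro h2
      obtain ⟨a, ha, ha1⟩ := exists_ne_one_of_ne_bot (ro_ne_bot h)
      apply ro_quad_absurd h cB ha ha1
      intro b hb b' hb'
      apply h1 _ _ b' (Subgroup.mem_sup_right hb')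
      refine Subgroup.mem_inf.2 ⟨?_, ?_⟩
      · rw [MonoidHom.mem_ker, map_mul, map_mul, map_mul, map_inv, map_inv]
        have h3 := cA.map f (f a) ⟨a, ha, rfl⟩ (f b) (h2 ▸ ⟨b, hb, rfl⟩)
        rw [h3]; group
      · exact mul_mem (mul_mem (mul_mem (Subgroup.mem_sup_left ha) (Subgroup.mem_sup_right hb))
          (inv_mem (Subgroup.mem_sup_left ha))) (inv_mem (Subgroup.mem_sup_right hb))
    have key : ∀ {A B : Subgroup G}, IsRankOnePair A B → A.map f ≠ B.map f →
        RankOneCondition (A.map f) (B.map f) := by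
      rintro A B h hne _ ⟨a, ha, rfl⟩ hfa
      have ha1 : a ≠ 1 := by rintro rfl; exact hfa (map_one f)
      obtain ⟨b, hb, hb1, hab⟩ := h.cond_left a ha ha1
      have h3 : conjBy (A.map f) (f b)⁻¹ = conjBy (B.map f) (f a)⁻¹ := by
        rw [← map_inv, ← map_inv, conjBy_map, conjBy_map, hab]
      refine ⟨f b, ⟨b, hb, rfl⟩, fun h4 => ?_, h3⟩
      rw [h4, inv_one, conjBy_one, eq_comm, conjBy_eq_iff, inv_inv,
        conjBy_mem_self (show f a ∈ A.map f from ⟨a, ha, rfl⟩)] at h3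
      exact hne h3.symm
    exact ⟨hne, cm_nilpotent (cA.map f), cm_nilpotent (cB.map f), key h hne,
      key (rankOne_symm h) hne.symm⟩

theorem rc_image (f : G →* H) (h : RootCommutatorCase S A B) :
    RootCommutatorCase ((fun A : Subgroup G => A.map f) '' S) (A.map f) (B.map f) := by
  have e : ⁅A.map f, B.map f⁆ = ⁅A, B⁆.map f := (Subgroup.map_commutator A B f).symm
  refine ⟨⟨_, h.1, e.symm⟩, ?_, ?_, ?_⟩
  · rw [e, ← Subgroup.map_sup]
    exact Cm.map (show Cm ⁅A, B⁆ (A ⊔ B) from h.2.1) f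
  · rintro _ ⟨a, ha, rfl⟩ hfa
    have ha1 : a ≠ 1 := by rintro rfl; exact hfa (map_one f)
    apply le_antisymm
    · rw [Subgroup.closure_le]
      rintro _ ⟨_, ⟨b, hb, rfl⟩, rfl⟩
      exact mem_comm _ _ ⟨a, ha, rfl⟩ ⟨b, hb, rfl⟩
    · rw [e]
      rintro _ ⟨c, hc, rfl⟩
      obtain ⟨b, hb, rfl⟩ := rc_surj h ha ha1 hc
      exact Subgroup.subset_closure ⟨f b, ⟨b, hb, rfl⟩, by simp⟩
  · rintro _ ⟨b, hb, rfl⟩ hfb
    have hb1 : b ≠ 1 := by rintro rfl; exact hfb (map_one f)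
    apply le_antisymm
    · rw [Subgroup.closure_le]
      rintro _ ⟨_, ⟨a, ha, rfl⟩, rfl⟩
      exact mem_comm _ _ ⟨a, ha, rfl⟩ ⟨b, hb, rfl⟩
    · rw [e]
      rintro _ ⟨c, hc, rfl⟩
      obtain ⟨a, ha, rfl⟩ := rc_surj_right h hb hb1 hc
      exact Subgroup.subset_closure ⟨f a, ⟨a, ha, rfl⟩, by simp⟩

theorem root_image (hS : IsRootSubgroupSet S) (f : G →* H) (hf : Function.Surjective f)
    (hne : ∀ A ∈ S, A.map f ≠ ⊥) : IsRootSubgroupSet ((fun A : Subgroup G => A.map f) '' S) := by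
  refine ⟨?_, ?_, ?_, ?_, ?_⟩
  · rintro _ ⟨A, hA, rfl⟩
    exact cm_self_comm (Cm.map (show Cm A A from S_comm hS hA) f)
  · rintro _ ⟨A, hA, rfl⟩
    exact hne A hA
  · have h1 : (⨆ A ∈ S, A).map f = ⊤ := by
      rw [hS.generates, ← MonoidHom.range_eq_map, MonoidHom.range_eq_top]; exact hf
    rw [eq_top_iff, ← h1, Subgroup.map_iSup]
    refine iSup_le fun A => ?_
    rw [Subgroup.map_iSup]
    refine iSup_le fun hA => ?_
    exact le_iSup₂_of_le (A.map f) ⟨A, hA, rfl⟩ le_rfl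
  · rintro _ ⟨A, hA, rfl⟩ g
    obtain ⟨g, rfl⟩ := hf g
    exact ⟨conjBy A g, hS.conj_mem A hA g, (conjBy_map f A g).symm⟩
  · rintro _ ⟨A, hA, rfl⟩ _ ⟨B, hB, rfl⟩
    rcases hS.pair A hA B hB with h | h | h
    · left; exact cm_iff.1 ((cm_iff.2 h).map f)
    · rcases ro_image f (S_comm hS hA) (S_comm hS hB) h with h1 | h1
      · left
        show ⁅A.map f, B.map f⁆ = ⊥
        rw [← h1, ← cm_iff]
        exact Cm.map (show Cm A A from S_comm hS hA) f
      · exact Or.inr (Or.inl h1)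
    · exact Or.inr (Or.inr (rc_image f h))

theorem reach_image (hS : IsRootSubgroupSet S) (f : G →* H)
    (h : Relation.ReflTransGen (FAdj S) A B) :
    Relation.ReflTransGen (FAdj ((fun A : Subgroup G => A.map f) '' S)) (A.map f) (B.map f) := by
  induction h with
  | refl => exact Relation.ReflTransGen.refl
  | @tail C D _ h1 ih =>
    rcases ro_image f (S_comm hS h1.1) (S_comm hS h1.2.1) h1.2.2 with h2 | h2
    · rw [← h2]; exact ih
    · exact ih.tail ⟨⟨_, h1.1, rfl⟩, ⟨_, h1.2.1, rfl⟩, h2⟩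

theorem conj_of_reach (h : Relation.ReflTransGen (FAdj S) A B) : ∃ g : G, B = conjBy A g := by
  induction h with
  | refl => exact ⟨1, (conjBy_one A).symm⟩
  | tail _ h1 ih =>
    obtain ⟨g, hg⟩ := ih
    obtain ⟨x, -, hx⟩ := ro_mem_right h1.2.2
    exact ⟨x * g, by rw [hx, hg, conjBy_conjBy]⟩

end Cfsg.Agent.H3
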