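import Mathlib
import Cfsg.Prelude.Def_RootSubgroups
import Cfsg.Agent.H3.RootD

/-!
Abstract root subgroups: the natural module configuration.
-/

set_option autoImplicit false
open Cfsg Cfsg.Agent.H28

namespace Cfsg.Agent.H3

variable {G : Type*} [Group G] {A B C D E : Subgroup G} {S : Set (Subgroup G)}

theorem nm_inf (hS : IsRootSubgroupSet S) (r1 : RootCommutatorCase S A B) {a : G} (ha : a ∈ A)
    (haC : a ∈ ⁅A, B⁆) : a = 1 := by
  by_contra ha1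
  apply rc_ne hS r1
  rw [eq_bot_iff]
  intro c hc
  obtain ⟨b, hb, rfl⟩ := rc_surj r1 ha ha1 hc
  rw [rc_comm_right r1 haC hb, Subgroup.mem_bot]; group

theorem nm_unique (hS : IsRootSubgroupSet S) (r1 : RootCommutatorCase S A B) {a c a' c' : G}
    (ha : a ∈ A) (ha' : a' ∈ A) (hc : c ∈ ⁅A, B⁆) (hc' : c' ∈ ⁅A, B⁆) (h : c * a = c' * a') :
    c = c' ∧ a = a' := by
  have h1 : c'⁻¹ * c = a' * a⁻¹ := by
    rw [inv_mul_eq_iff_eq_mul, ← mul_assoc, ← h, mul_inv_cancel_right]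
  have h2 := nm_inf hS r1 (mul_mem ha' (inv_mem ha)) (h1 ▸ mul_mem (inv_mem hc') hc)
  rw [h2, inv_mul_eq_one] at h1
  rw [mul_inv_eq_one] at h2
  exact ⟨h1.symm, h2.symm⟩

/-- `B, D` is a rank one pair -/
theorem nm_ro (hS : IsRootSubgroupSet S) (hA : A ∈ S) (hB : B ∈ S) (hD : D ∈ S)
    (r1 : RootCommutatorCase S A B) (hDC : ⁅D, ⁅A, B⁆⁆ = A) : IsRankOnePair B D := by
  have r2 : RootCommutatorCase S D ⁅A, B⁆ := rc_of_mem hS hD r1.1 (hDC.symm ▸ hA)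
  have cAD : Cm A D := fun a ha d hd => by
    rw [← hDC] at ha; exact rc_comm_left r2 ha hd
  have cAC : Cm A ⁅A, B⁆ := fun a ha c hc => (rc_comm_left r1 hc ha).symm
  have cCB : Cm ⁅A, B⁆ B := fun c hc b hb => rc_comm_right r1 hc hb
  have cAA : Cm A A := S_comm hS hA
  rcases hS.pair B hB D hD with h | h | h
  · exfalso
    apply rc_ne hS r1
    nth_rw 1 [← hDC]
    apply Subgroup.commutator_commutator_eq_bot_of_rotate
    · rw [cm_iff.1 cCB, Subgroup.commutator_bot_left]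
    · rw [h, Subgroup.commutator_bot_left]
  · exact h
  · exfalso
    obtain ⟨b, hb, hb1⟩ := exists_ne_one_of_ne_bot (hS.ne_bot B hB)
    obtain ⟨d, hd, hd1⟩ := exists_ne_one_of_ne_bot (hS.ne_bot D hD)
    -- surjectivity
    have sβ : ∀ c ∈ ⁅A, B⁆, ∃ a ∈ A, b * a * b⁻¹ = c * a := by
      intro c hc
      obtain ⟨a, ha, hac⟩ := rc_surj_right r1 hb hb1 (inv_mem hc)
      refine ⟨a, ha, ?_⟩
      have := congrArg (·⁻¹) hac
      simp only [inv_inv] at this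
      rw [← this]; group
    have hβ : ∀ a ∈ A, b * a * b⁻¹ * a⁻¹ ∈ ⁅A, B⁆ := by
      intro a ha
      have := inv_mem (mem_comm a b ha hb)
      convert this using 1; group
    have sδ : ∀ a ∈ A, ∃ c ∈ ⁅A, B⁆, d * c * d⁻¹ = a * c := by
      intro a ha
      rw [← hDC] at ha
      obtain ⟨c, hc, hac⟩ := rc_surj r2 hd hd1 ha
      exact ⟨c, hc, by rw [← hac]; group⟩
    have hδ : ∀ c ∈ ⁅A, B⁆, d * c * d⁻¹ * c⁻¹ ∈ A := by
      intro c hc
      have := mem_comm d c hd hc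
      rwa [hDC] at this
    set e := b * d * b⁻¹ * d⁻¹ with he
    have heE : e ∈ ⁅B, D⁆ := mem_comm b d hb hd
    have ceb : e * b = b * e := rc_comm_left h heE hb
    have ced : e * d = d * e := rc_comm_right h heE hd
    -- `N` is invariant under `b`, `d`
    have hNB : ∀ x ∈ B, conjBy (A ⊔ ⁅A, B⁆) x = A ⊔ ⁅A, B⁆ := norm_of_le fun x hx => by
      rw [conjBy_sup, conjBy_comm_right hx]
      exact sup_le (conjBy_le_of_comm (by rw [Subgroup.commutator_comm]) hx) le_sup_right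
    have hND : ∀ x ∈ D, conjBy (A ⊔ ⁅A, B⁆) x = A ⊔ ⁅A, B⁆ := norm_of_le fun x hx => by
      rw [conjBy_sup, cAD.conj_eq hx]
      refine sup_le le_sup_left ?_
      have : conjBy ⁅A, B⁆ x ≤ ⁅A, B⁆ ⊔ A := conjBy_le_of_comm (le_of_eq hDC) hx
      rwa [sup_comm] at this
    have heN : conjBy (A ⊔ ⁅A, B⁆) e = A ⊔ ⁅A, B⁆ := by
      rw [he, ← conjBy_conjBy, ← conjBy_conjBy, ← conjBy_conjBy, hND _ (inv_mem hd),
        hNB _ (inv_mem hb), hND _ hd, hNB _ hb]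
    have heN' : conjBy (A ⊔ ⁅A, B⁆) e⁻¹ = A ⊔ ⁅A, B⁆ := by
      nth_rw 1 [← heN]; rw [conjBy_conjBy, inv_mul_cancel, conjBy_one]
    have memN : ∀ x ∈ A ⊔ ⁅A, B⁆, ∃ a ∈ A, ∃ c ∈ ⁅A, B⁆, x = a * c := fun x hx =>
      mem_sup_cm cAC hx
    -- `e⁻¹ C e ≤ C`, `e⁻¹ A e ≤ A` and for `e`
    have hC' : ∀ z, z * b = b * z → conjBy (A ⊔ ⁅A, B⁆) z = A ⊔ ⁅A, B⁆ →
        ∀ c ∈ ⁅A, B⁆, z * c * z⁻¹ ∈ ⁅A, B⁆ := by
      intro z hz hzN c hc
      obtain ⟨a, ha, hac⟩ := sβ c hc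
      have h1 : z * a * z⁻¹ ∈ A ⊔ ⁅A, B⁆ := by
        have := (conjBy_normal_iff (A := A ⊔ ⁅A, B⁆) (g := z)).2 (Subgroup.mem_sup_left ha)
        rwa [hzN] at this
      obtain ⟨a', ha', c', hc', hn⟩ := memN _ h1
      have h2 : c = b * a * b⁻¹ * a⁻¹ := by rw [hac, mul_inv_cancel_right]
      have h3 : z * c * z⁻¹ = b * (z * a * z⁻¹) * b⁻¹ * (z * a * z⁻¹)⁻¹ := by
        have e1 : z * b⁻¹ = b⁻¹ * z := by
          rw [mul_inv_eq_iff_eq_mul, mul_assoc, hz, inv_mul_cancel_left]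
        rw [h2]
        calc z * (b * a * b⁻¹ * a⁻¹) * z⁻¹ = (z * b) * a * b⁻¹ * a⁻¹ * z⁻¹ := by group
          _ = b * z * a * b⁻¹ * a⁻¹ * z⁻¹ := by rw [hz]
          _ = b * (z * a * z⁻¹) * (z * b⁻¹) * a⁻¹ * z⁻¹ := by group
          _ = b * (z * a * z⁻¹) * b⁻¹ * (z * a * z⁻¹)⁻¹ := by rw [e1]; group
      rw [h3, hn]
      have h4 : b * (a' * c') * b⁻¹ * (a' * c')⁻¹ = (b * a' * b⁻¹ * a'⁻¹) := by
        have h5 : c' * b⁻¹ = b⁻¹ * c' := cCB c' hc' b⁻¹ (inv_mem hb)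
        calc b * (a' * c') * b⁻¹ * (a' * c')⁻¹ = b * a' * (c' * b⁻¹) * c'⁻¹ * a'⁻¹ := by group
          _ = _ := by rw [h5]; group
      rw [h4]
      exact hβ a' ha'
    have hA' : ∀ z, z * d = d * z → conjBy (A ⊔ ⁅A, B⁆) z = A ⊔ ⁅A, B⁆ →
        ∀ a ∈ A, z * a * z⁻¹ ∈ A := by
      intro z hz hzN a ha
      obtain ⟨c, hc, hac⟩ := sδ a ha
      have h1 : z * c * z⁻¹ ∈ A ⊔ ⁅A, B⁆ := by
        have := (conjBy_normal_iff (A := A ⊔ ⁅A, B⁆) (g := z)).2 (Subgroup.mem_sup_right hc)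
        rwa [hzN] at this
      obtain ⟨a', ha', c', hc', hn⟩ := memN _ h1
      have h2 : a = d * c * d⁻¹ * c⁻¹ := by rw [hac, mul_inv_cancel_right]
      have h3 : z * a * z⁻¹ = d * (z * c * z⁻¹) * d⁻¹ * (z * c * z⁻¹)⁻¹ := by
        have e1 : z * d⁻¹ = d⁻¹ * z := by
          rw [mul_inv_eq_iff_eq_mul, mul_assoc, hz, inv_mul_cancel_left]
        rw [h2]
        calc z * (d * c * d⁻¹ * c⁻¹) * z⁻¹ = (z * d) * c * d⁻¹ * c⁻¹ * z⁻¹ := by group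
          _ = d * z * c * d⁻¹ * c⁻¹ * z⁻¹ := by rw [hz]
          _ = d * (z * c * z⁻¹) * (z * d⁻¹) * c⁻¹ * z⁻¹ := by group
          _ = d * (z * c * z⁻¹) * d⁻¹ * (z * c * z⁻¹)⁻¹ := by rw [e1]; group
      rw [h3, hn]
      have h4 : d * (a' * c') * d⁻¹ * (a' * c')⁻¹ = a' * (d * c' * d⁻¹ * c'⁻¹) * a'⁻¹ := by
        have h5 : a' * d = d * a' := cAD a' ha' d hd
        calc d * (a' * c') * d⁻¹ * (a' * c')⁻¹ = (d * a') * c' * d⁻¹ * c'⁻¹ * a'⁻¹ := by group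
          _ = _ := by rw [← h5]; group
      rw [h4]
      exact mul_mem (mul_mem ha' (hδ c' hc')) (inv_mem ha')
    have ceb' : e⁻¹ * b = b * e⁻¹ := by
      rw [inv_mul_eq_iff_eq_mul, ← mul_assoc, ceb, mul_inv_cancel_right]
    have ced' : e⁻¹ * d = d * e⁻¹ := by
      rw [inv_mul_eq_iff_eq_mul, ← mul_assoc, ced, mul_inv_cancel_right]
    -- step 1: `e` centralizes `C`
    have st1 : ∀ c ∈ ⁅A, B⁆, e⁻¹ * c * e = c := by
      intro y hy
      obtain ⟨a, ha, hay⟩ := sβ y hy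
      -- `d y d⁻¹ a = e⁻¹ (y a) e`
      have h1 : d * y * d⁻¹ * a = e⁻¹ * (y * a) * e := by
        have h2 : d * b = e⁻¹ * (b * d) := by
          rw [he]; group
        have h3 : a * d = d * a := cAD a ha d hd
        have h4 : y * a = b * a * b⁻¹ := hay.symm
        have h5 : d * a * d⁻¹ = a := by rw [← h3, mul_inv_cancel_right]
        calc d * y * d⁻¹ * a = d * y * d⁻¹ * (d * a * d⁻¹) := by rw [h5]
          _ = d * (y * a) * d⁻¹ := by group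
          _ = (d * b) * a * (d * b)⁻¹ := by rw [h4]; group
          _ = e⁻¹ * b * (d * a * d⁻¹) * b⁻¹ * e := by rw [h2]; group
          _ = _ := by rw [h5, h4]; group
      have h6 : e⁻¹ * (y * a) * e = (e⁻¹ * y * e) * (e⁻¹ * a * e) := by group
      have h7 : d * y * d⁻¹ * a = y * ((d * y * d⁻¹ * y⁻¹) * a) := by
        have h8 := cAC _ (hδ y hy) y hy
        calc d * y * d⁻¹ * a = (d * y * d⁻¹ * y⁻¹) * y * a := by group
          _ = _ := by rw [h8]; group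
      rw [h6, h7] at h1
      have k1 := hC' e⁻¹ ceb' heN' y hy
      have k2 := hA' e⁻¹ ced' heN' a ha
      rw [inv_inv] at k1 k2
      exact (nm_unique hS r1 (mul_mem (hδ y hy) ha) k2 hy k1 h1).1.symm
    -- step 2: `b` centralizes `A`
    apply rc_ne hS r1
    rw [eq_bot_iff]
    intro c₀ hc₀
    obtain ⟨x, hx, hxc⟩ := sβ c₀ hc₀
    obtain ⟨c, hc, hcx⟩ := sδ x hx
    have h1 : b * x * b⁻¹ * c = e * (x * c) * e⁻¹ := by
      have h2 : b * d = e * (d * b) := by rw [he]; group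
      have h3 : b * c * b⁻¹ = c := by rw [← cCB c hc b hb, mul_inv_cancel_right]
      calc b * x * b⁻¹ * c = b * x * b⁻¹ * (b * c * b⁻¹) := by rw [h3]
        _ = b * (x * c) * b⁻¹ := by group
        _ = (b * d) * c * (b * d)⁻¹ := by rw [← hcx]; group
        _ = e * d * (b * c * b⁻¹) * d⁻¹ * e⁻¹ := by rw [h2]; group
        _ = e * (d * c * d⁻¹) * e⁻¹ := by rw [h3]; group
        _ = _ := by rw [hcx]
    have h4 : e * c * e⁻¹ = c := by
      have := st1 c hc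
      nth_rw 1 [← this]; group
    have h5 : e * (x * c) * e⁻¹ = c * (e * x * e⁻¹) := by
      have k2 := hA' e ced heN x hx
      calc e * (x * c) * e⁻¹ = (e * x * e⁻¹) * (e * c * e⁻¹) := by group
        _ = _ := by rw [h4, cAC _ k2 c hc]
    rw [hxc, h5] at h1
    have h6 : c₀ * x * c = (c₀ * c) * x := by rw [mul_assoc, cAC x hx c hc, ← mul_assoc]
    rw [h6] at h1
    have h7 := (nm_unique hS r1 hx (hA' e ced heN x hx) (mul_mem hc₀ hc) hc h1).1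
    rw [Subgroup.mem_bot]
    exact mul_eq_right.1 h7

section nm
variable (hS : IsRootSubgroupSet S) (hA : A ∈ S) (hB : B ∈ S) (hD : D ∈ S)
  (r1 : RootCommutatorCase S A B) (hDC : ⁅D, ⁅A, B⁆⁆ = A)
include hS hA hB hD r1 hDC

omit hA hB hD in
theorem nm_cAD (hA : A ∈ S) (hD : D ∈ S) : Cm A D := fun a ha d hd => by
  have r2 : RootCommutatorCase S D ⁅A, B⁆ := rc_of_mem hS hD r1.1 (hDC.symm ▸ hA)
  rw [← hDC] at ha; exact rc_comm_left r2 ha hd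

theorem nm_norm : ∀ x ∈ B ⊔ D, conjBy (A ⊔ ⁅A, B⁆) x = A ⊔ ⁅A, B⁆ := by
  refine norm_sup (norm_of_le fun x hx => ?_) (norm_of_le fun x hx => ?_)
  · rw [conjBy_sup, conjBy_comm_right hx]
    exact sup_le (conjBy_le_of_comm (by rw [Subgroup.commutator_comm]) hx) le_sup_right
  · rw [conjBy_sup, (nm_cAD hS r1 hDC hA hD).conj_eq hx]
    refine sup_le le_sup_left ?_
    have : conjBy ⁅A, B⁆ x ≤ ⁅A, B⁆ ⊔ A := conjBy_le_of_comm (le_of_eq hDC) hx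
    rwa [sup_comm] at this

theorem nm_NB : ⁅A ⊔ ⁅A, B⁆, B⁆ = ⁅A, B⁆ := by
  have cAC : Cm A ⁅A, B⁆ := fun a ha c hc => (rc_comm_left r1 hc ha).symm
  have cCC : Cm ⁅A, B⁆ ⁅A, B⁆ := S_comm hS r1.1
  have cCB : Cm ⁅A, B⁆ B := fun c hc b hb => rc_comm_right r1 hc hb
  apply le_antisymm
  · apply comm_sup_le
    · exact norm_sup (fun x hx => cAC.symm.conj_eq hx) (fun x hx => cCC.conj_eq hx)
    · exact le_rfl
    · rw [cm_iff.1 cCB]; exact bot_le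
  · exact Subgroup.commutator_mono le_sup_left le_rfl

theorem nm_ND : ⁅A ⊔ ⁅A, B⁆, D⁆ = A := by
  have cAC : Cm A ⁅A, B⁆ := fun a ha c hc => (rc_comm_left r1 hc ha).symm
  have cAA : Cm A A := S_comm hS hA
  apply le_antisymm
  · apply comm_sup_le
    · exact norm_sup (fun x hx => cAA.conj_eq hx) (fun x hx => cAC.conj_eq hx)
    · rw [cm_iff.1 (nm_cAD hS r1 hDC hA hD)]; exact bot_le
    · rw [Subgroup.commutator_comm, hDC]
  · nth_rw 1 [← hDC]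
    rw [Subgroup.commutator_comm]
    exact Subgroup.commutator_mono le_sup_right le_rfl

theorem nm_conjA {x : G} (hx : x ∈ B ⊔ D) : conjBy A x = ⁅A ⊔ ⁅A, B⁆, conjBy D x⁆ := by
  nth_rw 1 [← nm_ND hS hA hB hD r1 hDC]
  rw [conjBy_commutator, nm_norm hS hA hB hD r1 hDC x hx]

theorem nm_conjC {x : G} (hx : x ∈ B ⊔ D) : conjBy ⁅A, B⁆ x = ⁅A ⊔ ⁅A, B⁆, conjBy B x⁆ := by
  nth_rw 1 [← nm_NB hS hA hB hD r1 hDC]
  rw [conjBy_commutator, nm_norm hS hA hB hD r1 hDC x hx]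

theorem nm_exists : ∃ x ∈ B ⊔ D, conjBy ⁅A, B⁆ x = A := by
  obtain ⟨x, hx, hx'⟩ := ro_mem_right (nm_ro hS hA hB hD r1 hDC)
  refine ⟨x, hx, ?_⟩
  rw [nm_conjC hS hA hB hD r1 hDC hx, ← hx', nm_ND hS hA hB hD r1 hDC]

/-- the conjugates of `A` are the `[N,F]`, `F` a unipotent subgroup of `⟨B,D⟩` -/
theorem nm_mem_iff (E : Subgroup G) : (∃ x ∈ B ⊔ D, E = conjBy A x) ↔
    ∃ F ∈ unipotentSubgroups B D, E = ⁅A ⊔ ⁅A, B⁆, F⁆ := by
  have hro := nm_ro hS hA hB hD r1 hDC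
  constructor
  · rintro ⟨x, hx, rfl⟩
    exact ⟨conjBy D x, unip_conj hx (ro_right_mem hro), nm_conjA hS hA hB hD r1 hDC hx⟩
  · rintro ⟨F, ⟨x, hx, rfl⟩, rfl⟩
    obtain ⟨y, hy, hy'⟩ := nm_exists hS hA hB hD r1 hDC
    have hCy : conjBy A y⁻¹ = ⁅A, B⁆ := by rw [conjBy_eq_iff, inv_inv]; exact hy'.symm
    refine ⟨x * y⁻¹, mul_mem hx (inv_mem hy), ?_⟩
    rw [← nm_conjC hS hA hB hD r1 hDC hx, ← conjBy_conjBy, hCy]

end nm

end Cfsg.Agent.H3
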