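import Mathlib
import Cfsg.Prelude.Def_RootSubgroups
import Cfsg.Agent.H3.RootF

/-!
Abstract root subgroups: a line and a rank one partner of one of its members.
-/

set_option autoImplicit false
open Cfsg Cfsg.Agent.H28

namespace Cfsg.Agent.H3

variable {G : Type*} [Group G] {A B C D E : Subgroup G} {S : Set (Subgroup G)}

/-- in a rank one pair an element of `A` moves `B` to a rank one partner of `B`. -/
theorem ro_conj_ro (h : IsRankOnePair A B) {a : G} (ha : a ∈ A) (ha1 : a ≠ 1) :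
    IsRankOnePair B (conjBy B a) := by
  have hne : B ≠ conjBy B a := by
    intro h1
    exact ha1 (rankOne_left_normalizer h ha (mem_normalizer_iff_conjBy.2 h1.symm))
  exact (ro_pair_of_mem h (ro_right_mem h) (unip_conj (Subgroup.mem_sup_left ha) (ro_right_mem h)) hne).1

theorem lp_inf (hA : A ∈ S) (hB : B ∈ linePartners S A) {x : G} (h1 : x ∈ A) (h2 : x ∈ B) : x = 1 := by
  have h3 : x ∈ A ⊓ B := ⟨h1, h2⟩
  rw [hB.2.2.2 A (lp_left_mem hA) B (lp_right_mem hB.1.1) hB.1.2.1.symm] at h3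
  exact h3

theorem lp_exists_rc (hS : IsRootSubgroupSet S) (hA : A ∈ S) (hD : D ∈ S) (hAD : IsRankOnePair A D)
    (hB : B ∈ linePartners S A) :
    ∃ W ∈ membersIn S (A ⊔ B), RootCommutatorCase S W D ∧ ∃ b ∈ B, b ≠ 1 ∧ b ∈ A ⊔ W := by
  have hBS := hB.1.1
  rcases hS.pair B hBS D hD with h | h | h
  · exact absurd (cm_iff.2 h) (line_not_cm hS hA hD hAD hB (lp_right_mem hBS))
  · obtain ⟨d, hd, hd1⟩ := exists_ne_one_of_ne_bot (ro_ne_bot' hAD)
    obtain ⟨a, ha⟩ := brel_right hAD hd hd1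
    obtain ⟨b, hb⟩ := brel_right h hd hd1
    have hc : Cm (conjBy D a⁻¹) (conjBy D b⁻¹) := by
      rw [← ha.eq, ← hb.eq]; exact (lp_cm hB).conj _
    have hc2 : Cm D (conjBy D (a * b⁻¹)) := by
      have := hc.conj a
      rwa [conjBy_conjBy, conjBy_conjBy, mul_inv_cancel, conjBy_one] at this
    have hx1 : a * b⁻¹ ≠ 1 := by
      intro h1
      rw [mul_inv_eq_one] at h1
      exact ha.ha1 (lp_inf hA hB ha.ha (h1 ▸ hb.ha))
    have hxm : a * b⁻¹ ∈ A ⊔ B := mul_mem (Subgroup.mem_sup_left ha.ha) (inv_mem (Subgroup.mem_sup_right hb.ha))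
    obtain ⟨W, hW, hxW⟩ := hB.2.2.1 _ hxm hx1
    refine ⟨W, hW, ?_, b, hb.ha, hb.ha1, ?_⟩
    · rcases hS.pair W hW.1 D hD with h1 | h1 | h1
      · exact absurd (cm_iff.2 h1) (line_not_cm hS hA hD hAD hB hW)
      · exact absurd (cm_iff.1 hc2) (ro_not_comm (ro_conj_ro h1 hxW hx1))
      · exact h1
    · have : b = (a * b⁻¹)⁻¹ * a := by group
      rw [this]
      exact mul_mem (Subgroup.mem_sup_right (inv_mem hxW)) (Subgroup.mem_sup_left ha.ha)
  · obtain ⟨b, hb, hb1⟩ := exists_ne_one_of_ne_bot (hS.ne_bot B hBS)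
    exact ⟨B, lp_right_mem hBS, h, b, hb, hb1, Subgroup.mem_sup_right hb⟩

/-- the commutator brings us back. -/
theorem rc_back {W : Subgroup G} (hS : IsRootSubgroupSet S) (hF : ∀ A ∈ S, ∃ D ∈ S, IsRankOnePair A D)
    (hA : A ∈ S) (hW : W ∈ S) (hD : D ∈ S) (hAD : IsRankOnePair A D) (hWD : RootCommutatorCase S W D)
    (hAW : Cm A W) (hprod : ∀ a ∈ A, a ≠ 1 → ∀ w ∈ W, w ≠ 1 → a * w ∈ rootElements S) :
    RootCommutatorCase S ⁅W, D⁆ A ∧ ⁅⁅W, D⁆, A⁆ = W := by
  set M := ⁅W, D⁆ with hM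
  have hMS : M ∈ S := hWD.1
  have cMW : Cm M W := fun m hm w hw => rc_comm_left hWD hm hw
  have cMD : Cm M D := fun m hm w hw => rc_comm_right hWD hm hw
  obtain ⟨D', hD', hWD'⟩ := hF W hW
  have hWlp : W ∈ linePartners S M := line_partner hS hW hWD hD' hWD'
  have hRC : RootCommutatorCase S M A := by
    rcases hS.pair M hMS A hA with h | h | h
    · exfalso
      have cMA : Cm M A := cm_iff.2 h
      obtain ⟨a, ha, ha1⟩ := exists_ne_one_of_ne_bot (ro_ne_bot hAD)
      obtain ⟨d, hd⟩ := brel_left hAD ha ha1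
      have hnorm : ∀ w ∈ W, conjBy D w = D := by
        intro w hw
        have e1 : conjBy A (w * d⁻¹) = conjBy D (w * a⁻¹) := by
          rw [← conjBy_conjBy, ← conjBy_conjBy, hd.eq]
        have e2 : w * a⁻¹ = a⁻¹ * w := by
          have := hAW a⁻¹ (inv_mem ha) w hw
          rw [this]
        set m := w * d⁻¹ * w⁻¹ * d with hm
        have hmM : m ∈ M := by
          have := mem_comm w d⁻¹ hw (inv_mem hd.hb)
          rwa [inv_inv] at this
        have e3 : w * d⁻¹ = m * (d⁻¹ * w) := by rw [hm]; group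
        rw [e3, ← conjBy_conjBy, ← conjBy_conjBy (A := A) (g := d⁻¹), hAW.conj_eq hw, hd.eq] at e1
        rw [conjBy_conjBy] at e1
        have e4 : m * a⁻¹ = a⁻¹ * m := cMA m hmM a⁻¹ (inv_mem ha)
        rw [e4, ← conjBy_conjBy, cMD.symm.conj_eq hmM, e2, ← conjBy_conjBy] at e1
        exact (conjBy_inj e1).symm
      have hMD : M ≤ D := by
        rw [hM, Subgroup.commutator_le]
        intro w hw x hx
        have h1 : w * x * w⁻¹ ∈ D := by
          have := (conjBy_normal_iff (A := D) (g := w)).2 hx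
          rwa [hnorm w hw] at this
        exact mul_mem h1 (inv_mem hx)
      obtain ⟨m, hm, hm1⟩ := exists_ne_one_of_ne_bot (hS.ne_bot M hMS)
      have h1 := ti hS hA (rankOne_symm hAD) hMS (hMD hm) hm1 hm
      rw [h1] at hAD
      exact ro_not_comm hAD (cm_iff.1 cMA.symm)
    · exfalso
      obtain ⟨w, hw, hw1⟩ := exists_ne_one_of_ne_bot (hS.ne_bot W hW)
      obtain ⟨m, hm, hm1⟩ := exists_ne_one_of_ne_bot (hS.ne_bot M hMS)
      have hz : ∀ x ∈ M ⊔ A, w * x = x * w := by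
        apply sup_induct
        · exact fun x hx => (cMW x hx w hw).symm
        · exact fun x hx => (hAW x hx w hw).symm
        · intro x y hx hy
          rw [← mul_assoc, hx, mul_assoc, hy, mul_assoc]
      apply no_central_mul hS hMS hA h hz hw1 hm hm1
      have hne : w * m ≠ 1 := by
        intro h1
        apply hw1
        apply nm_inf hS hWD hw
        have : w = m⁻¹ := eq_inv_of_mul_eq_one_left h1
        rw [this]; exact inv_mem hm
      obtain ⟨F, hF1, hF2⟩ := hWlp.2.2.1 (w * m) (mul_mem (Subgroup.mem_sup_right hw)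
        (Subgroup.mem_sup_left hm)) hne
      exact ⟨hne, F, hF1.1, hF2⟩
    · exact h
  refine ⟨hRC, ?_⟩
  set F := ⁅M, A⁆ with hFdef
  have hFS : F ∈ S := hRC.1
  have cFM : Cm F M := fun f hf m hm => rc_comm_left hRC hf hm
  have cFA : Cm F A := fun f hf m hm => rc_comm_right hRC hf hm
  have cFW : Cm F W := by
    have h1 : Cm W M := cMW.symm
    have h2 : Cm W A := hAW.symm
    exact (h1.comm_right h2).symm
  have cFF : Cm F F := S_comm hS hFS
  obtain ⟨a, ha, ha1⟩ := exists_ne_one_of_ne_bot (ro_ne_bot hAD)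
  obtain ⟨d, hd⟩ := brel_left hAD ha ha1
  obtain ⟨m, hm, hm1⟩ := exists_ne_one_of_ne_bot (hS.ne_bot M hMS)
  -- f with a⁻¹ m a = m f
  set f := m⁻¹ * a⁻¹ * m * a with hf
  have hfF : f ∈ F := by
    have := mem_comm (A := M) (B := A) m⁻¹ a⁻¹ (inv_mem hm) (inv_mem ha)
    rwa [inv_inv, inv_inv] at this
  have hmf : a⁻¹ * m * a = m * f := by rw [hf]; group
  clear_value f
  -- w with d⁻¹ w d = w m
  obtain ⟨w', hw', hw'm⟩ := rc_surj_right hWD (inv_mem hd.hb) (inv_ne_one.2 hd.hb1) hm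
  -- w' d⁻¹ w'⁻¹ d = m
  rw [inv_inv] at hw'm
  set w := w'⁻¹ with hw
  have hwW : w ∈ W := inv_mem hw'
  have hwm : d⁻¹ * w * d = w * m := by
    rw [← hw'm, hw]; group
  clear_value w
  have hw1 : w ≠ 1 := by
    intro h1
    rw [h1, mul_one, inv_mul_cancel, one_mul] at hwm
    exact hm1 hwm.symm
  obtain ⟨z, hz⟩ : ∃ z, z = w * f⁻¹ := ⟨_, rfl⟩
  have hzA : ∀ x ∈ A, z * x = x * z := by
    intro x hx
    have h1 : f⁻¹ * x = x * f⁻¹ := cFA f⁻¹ (inv_mem hfF) x hx
    have h2 : x * w = w * x := hAW x hx w hwW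
    rw [hz, mul_assoc, h1, ← mul_assoc, ← h2, mul_assoc]
  have hzX : ∀ x ∈ conjBy A d⁻¹, z * x = x * z := by
    intro x hx
    have h1 : x * (w * m) = (w * m) * x := by
      rw [← hwm]
      have h2 : d⁻¹ * w * d ∈ conjBy W d⁻¹ := by
        have := (conjBy_normal_iff (A := W) (g := d⁻¹)).2 hwW
        rwa [inv_inv] at this
      exact (hAW.conj d⁻¹) x hx _ h2
    have h3 : x * (m * f) = (m * f) * x := by
      rw [← hmf]
      rw [hd.eq] at hx
      have h2 : a⁻¹ * m * a ∈ conjBy M a⁻¹ := by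
        have := (conjBy_normal_iff (A := M) (g := a⁻¹)).2 hm
        rwa [inv_inv] at this
      exact (cMD.symm.conj a⁻¹) x hx _ h2
    have h4 : z = (w * m) * (m * f)⁻¹ := by
      have e : m * f = f * m := (cFM f hfF m hm).symm
      rw [e, hz]; group
    have h5 : Commute x (w * m) := h1
    have h6 : Commute x (m * f) := h3
    rw [h4]
    exact ((h5.mul_right h6.inv_right).eq).symm
  have hXm : conjBy A d⁻¹ ∈ unipotentSubgroups A D :=
    unip_conj (Subgroup.mem_sup_right (inv_mem hd.hb)) mem_unip_self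
  have hXne : A ≠ conjBy A d⁻¹ := by
    intro h1
    apply hd.hb1
    have := rankOne_left_normalizer (rankOne_symm hAD) (inv_mem hd.hb) (mem_normalizer_iff_conjBy.2 h1.symm)
    exact inv_eq_one.1 this
  have hsup := (ro_pair_of_mem hAD mem_unip_self hXm hXne).2
  have hzAD : ∀ x ∈ A ⊔ D, z * x = x * z := by
    rw [← hsup]
    apply sup_induct hzA hzX
    intro x y hx hy
    rw [← mul_assoc, hx, mul_assoc, hy, mul_assoc]
  by_cases hz1 : z = 1
  · rw [hz, mul_inv_eq_one] at hz1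
    exact (ti hS hD' hWD' hFS hwW hw1 (hz1 ▸ hfF)).symm
  exfalso
  have hFlp : F ∈ linePartners S A := by
    have h1 : A ∈ linePartners S ⁅A, M⁆ := line_partner hS hA (rc_symm hRC) hD hAD
    rw [Subgroup.commutator_comm] at h1
    exact lp_symm hFS h1
  have hzf : z * f = w := by rw [hz]; group
  have hzF : ∀ x ∈ F, z * x = x * z := by
    intro x hx
    have h1 : f⁻¹ * x = x * f⁻¹ := cFF f⁻¹ (inv_mem hfF) x hx
    have h2 : x * w = w * x := cFW x hx w hwW
    rw [hz, mul_assoc, h1, ← mul_assoc, ← h2, mul_assoc]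
  have hf1 : f ≠ 1 := by
    intro h1
    rw [h1, mul_one] at hmf
    -- then a commutes with m
    obtain ⟨D₂, hD₂, hMD₂⟩ := hF M hMS
    have h2 : m * a⁻¹ = a⁻¹ * m := by
      have : a⁻¹ * m * a * a⁻¹ = m * a⁻¹ := by rw [hmf]
      rw [← this]; group
    have h3 := line_inj hS hMS hRC hD₂ hMD₂ hm hm1 (inv_mem ha) h2
    exact ha1 (inv_eq_one.1 h3)
  rcases hS.pair F hFS D hD with h | h | h
  · exact line_not_cm hS hA hD hAD hFlp (lp_right_mem hFS) (cm_iff.2 h)
  · have hz2 : ∀ x ∈ F ⊔ D, z * x = x * z := by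
      apply sup_induct hzF (fun x hx => hzAD x (Subgroup.mem_sup_right hx))
      intro x y hx hy
      rw [← mul_assoc, hx, mul_assoc, hy, mul_assoc]
    apply no_central_mul hS hFS hD h hz2 hz1 hfF hf1
    rw [hzf]
    exact rootElem_mem hW hwW hw1
  · have hne : a * f ≠ 1 := by
      intro h1
      apply ha1
      apply lp_inf hA hFlp ha
      have : a = f⁻¹ := eq_inv_of_mul_eq_one_left h1
      rw [this]; exact inv_mem hfF
    obtain ⟨A', hA', hA'm⟩ := hFlp.2.2.1 (a * f) (mul_mem (Subgroup.mem_sup_left ha)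
      (Subgroup.mem_sup_right hfF)) hne
    have hA'F : A' ≠ F := by
      rintro rfl
      apply ha1
      apply lp_inf hA hFlp ha
      have := mul_mem hA'm (inv_mem hfF)
      rwa [mul_inv_cancel_right] at this
    have hro := line_third hS hA hD hAD hFlp h hA' hA'F
    have hz2 : ∀ x ∈ A' ⊔ D, z * x = x * z := by
      apply sup_induct (fun x hx => ?_) (fun x hx => hzAD x (Subgroup.mem_sup_right hx))
      · intro x y hx hy
        rw [← mul_assoc, hx, mul_assoc, hy, mul_assoc]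
      · have h1 : x ∈ A ⊔ F := hA'.2 hx
        revert h1
        apply sup_induct (p := fun x => z * x = x * z) hzA hzF
        intro x y hx hy
        rw [← mul_assoc, hx, mul_assoc, hy, mul_assoc]
    apply no_central_mul hS hA'.1 hD hro hz2 hz1 hA'm hne
    have : z * (a * f) = a * w := by
      rw [← mul_assoc, hzA a ha, mul_assoc, hzf]
    rw [this]
    exact hprod a ha ha1 w hwW hw1

/-- the structure of a line with respect to a rank one partner of a member. -/
theorem line_full (hS : IsRootSubgroupSet S) (hF : ∀ A ∈ S, ∃ D ∈ S, IsRankOnePair A D)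
    (hA : A ∈ S) (hD : D ∈ S) (hAD : IsRankOnePair A D) (hB : B ∈ linePartners S A) :
    ∃ W ∈ linePartners S A, A ⊔ W = A ⊔ B ∧ RootCommutatorCase S W D ∧
      RootCommutatorCase S ⁅W, D⁆ A ∧ ⁅⁅W, D⁆, A⁆ = W := by
  obtain ⟨W, hW, hWD, b, hb, hb1, hbW⟩ := lp_exists_rc hS hA hD hAD hB
  have hWA : W ≠ A := by
    rintro rfl
    exact rc_not_ro hS hD hWD hAD
  have cAW : Cm A W := (lp_sup_cm hS hA hB).mono le_sup_left hW.2
  have hinf : ∀ x ∈ A, x ∈ W → x = 1 := by
    intro x h1 h2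
    have h3 : x ∈ A ⊓ W := ⟨h1, h2⟩
    rw [hB.2.2.2 A (lp_left_mem hA) W hW hWA.symm] at h3
    exact h3
  have hprod : ∀ a ∈ A, a ≠ 1 → ∀ w ∈ W, w ≠ 1 → a * w ∈ rootElements S := by
    intro a ha ha1 w hw hw1
    have hne : a * w ≠ 1 := by
      intro h1
      apply ha1
      apply hinf a ha
      have : a = w⁻¹ := eq_inv_of_mul_eq_one_left h1
      rw [this]; exact inv_mem hw
    obtain ⟨E, hE, hE'⟩ := hB.2.2.1 (a * w) (mul_mem (Subgroup.mem_sup_left ha) (hW.2 hw)) hne
    exact ⟨hne, E, hE.1, hE'⟩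
  obtain ⟨h1, h2⟩ := rc_back hS hF hA hW.1 hD hAD hWD cAW hprod
  have hlp : W ∈ linePartners S A := by
    have h3 : A ∈ linePartners S ⁅A, ⁅W, D⁆⁆ := line_partner hS hA (rc_symm h1) hD hAD
    rw [Subgroup.commutator_comm, h2] at h3
    exact lp_symm hW.1 h3
  refine ⟨W, hlp, ?_, hWD, h1, h2⟩
  apply le_antisymm
  · exact sup_le le_sup_left hW.2
  · apply sup_le le_sup_left
    obtain ⟨E, hE, hbE⟩ := hlp.2.2.1 b hbW hb1
    obtain ⟨D', hD', hBD'⟩ := hF B hB.1.1
    have := ti hS hD' hBD' hE.1 hb hb1 hbE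
    rw [this]; exact hE.2

end Cfsg.Agent.H3
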