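import Mathlib
import Cfsg.Prelude.Def_RootSubgroups
import Cfsg.Agent.H3.RootG
import Cfsg.Agent.H3.RankT

/-!
Abstract root subgroups: rank one pairs acting on natural modules are special; transitivity on lines.
-/

set_option autoImplicit false
open Cfsg Cfsg.Agent.H28

namespace Cfsg.Agent.H3

variable {G : Type*} [Group G] {A B C D E : Subgroup G} {S : Set (Subgroup G)}

theorem subgroupOf_map_eq {A K : Subgroup G} (h : A ≤ K) : (A.subgroupOf K).map K.subtype = A := by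
  rw [Subgroup.map_subgroupOf_eq_of_le h]

theorem sp_of_subgroupOf {A B : Subgroup G} (h : IsSpecialRankOnePair (A.subgroupOf (A ⊔ B)) (B.subgroupOf (A ⊔ B))) :
    IsSpecialRankOnePair A B := by
  have hro : IsRankOnePair A B := (ro_subgroupOf le_sup_left le_sup_right).1 h.1
  refine ⟨hro, fun a ha ha1 b hb hb1 hab => ?_⟩
  have haX : a ∈ A ⊔ B := Subgroup.mem_sup_left ha
  have hbX : b ∈ A ⊔ B := Subgroup.mem_sup_right hb
  have h1 := h.2 (⟨a, haX⟩ : ↥(A ⊔ B)) ha (fun h => ha1 (congrArg Subtype.val h))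
    (⟨b, hbX⟩ : ↥(A ⊔ B)) hb (fun h => hb1 (congrArg Subtype.val h)) (by
      apply Subgroup.map_injective (A ⊔ B).subtype_injective
      rw [← conjBy_map, ← conjBy_map, subgroupOf_map_eq le_sup_left, subgroupOf_map_eq le_sup_right]
      exact hab)
  exact congrArg Subtype.val h1

theorem special_of_module {A B N : Subgroup G} (h : IsRankOnePair A B) (hN : Cm N N)
    (hnorm : ∀ x ∈ A ⊔ B, conjBy N x = N)
    (hq : ∀ a ∈ A, ∀ a' ∈ A, ∀ n ∈ N, a' * (a * n * a⁻¹ * n⁻¹) = (a * n * a⁻¹ * n⁻¹) * a')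
    (hn : ∃ x ∈ A ⊔ B, ∃ y ∈ A ⊔ B, ∃ n ∈ N, y * (x * n * x⁻¹ * n⁻¹) ≠ (x * n * x⁻¹ * n⁻¹) * y) :
    IsSpecialRankOnePair A B := by
  apply sp_of_subgroupOf
  have hmem : ∀ x ∈ A ⊔ B, ∀ n ∈ N, x * n * x⁻¹ ∈ N := by
    intro x hx n hn
    have := (conjBy_normal_iff (A := N) (g := x)).2 hn
    rwa [hnorm x hx] at this
  letI : CommGroup ↥N := { (inferInstance : Group ↥N) with
    mul_comm := fun a b => Subtype.ext (hN a a.2 b b.2) }
  letI act : DistribMulAction ↥(A ⊔ B) (Additive ↥N) := {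
    smul := fun x n => Additive.ofMul ⟨(x : G) * (Additive.toMul n : ↥N) * (x : G)⁻¹,
      hmem x x.2 _ (Additive.toMul n).2⟩
    one_smul := fun n => by
      apply Additive.toMul.injective
      apply Subtype.ext
      show ((1 : ↥(A ⊔ B)) : G) * (Additive.toMul n : ↥N) * ((1 : ↥(A ⊔ B)) : G)⁻¹ = _
      simp
    mul_smul := fun x y n => by
      apply Additive.toMul.injective
      apply Subtype.ext
      show ((x * y : ↥(A ⊔ B)) : G) * (Additive.toMul n : ↥N) * ((x * y : ↥(A ⊔ B)) : G)⁻¹ =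
        (x : G) * ((y : G) * (Additive.toMul n : ↥N) * (y : G)⁻¹) * (x : G)⁻¹
      rw [Subgroup.coe_mul]; group
    smul_zero := fun x => by
      apply Additive.toMul.injective
      apply Subtype.ext
      show (x : G) * ((1 : ↥N) : G) * (x : G)⁻¹ = ((1 : ↥N) : G)
      simp
    smul_add := fun x n m => by
      apply Additive.toMul.injective
      apply Subtype.ext
      show (x : G) * (((Additive.toMul n * Additive.toMul m : ↥N)) : G) * (x : G)⁻¹ =
        ((x : G) * (Additive.toMul n : ↥N) * (x : G)⁻¹) * ((x : G) * (Additive.toMul m : ↥N) * (x : G)⁻¹)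
      rw [Subgroup.coe_mul]; group }
  have hval : ∀ (x : ↥(A ⊔ B)) (n : Additive ↥N),
      ((Additive.toMul (x • n - n) : ↥N) : G) = x * (Additive.toMul n : ↥N) * (x : G)⁻¹ * (Additive.toMul n : ↥N)⁻¹ := by
    intro x n
    show (((Additive.toMul (x • n) / Additive.toMul n : ↥N)) : G) = _
    rw [div_eq_mul_inv]; rfl
  have hval2 : ∀ (y : ↥(A ⊔ B)) (n : Additive ↥N),
      ((Additive.toMul (y • n) : ↥N) : G) = y * (Additive.toMul n : ↥N) * (y : G)⁻¹ := fun y n => rfl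
  have hfix : ∀ (y : ↥(A ⊔ B)) (n : Additive ↥N), y • n = n ↔
      (y : G) * (Additive.toMul n : ↥N) = (Additive.toMul n : ↥N) * (y : G) := by
    intro y n
    constructor
    · intro h1
      have h2 := hval2 y n
      rw [h1] at h2
      exact (mul_inv_eq_iff_eq_mul.1 h2.symm)
    · intro h1
      apply Additive.toMul.injective
      apply Subtype.ext
      rw [hval2, h1]; group
  refine quad_special (N := Additive ↥N) (sup_subgroupOf_top A B)
    ((ro_subgroupOf le_sup_left le_sup_right).2 h) ?_ ?_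
  · intro a ha a' ha' n
    rw [hfix, hval]
    exact hq a ha a' ha' _ (Additive.toMul n).2
  · obtain ⟨x, hx, y, hy, n, hnN, hne⟩ := hn
    refine ⟨⟨x, hx⟩, ⟨y, hy⟩, Additive.ofMul ⟨n, hnN⟩, ?_⟩
    rw [Ne, hfix, hval]
    exact hne

/-- the pair `A, D` acting on the natural module `W ⊔ ⁅W,D⁆` is special. -/
theorem sp_of_rc {W : Subgroup G} (hS : IsRootSubgroupSet S) (hA : A ∈ S) (hW : W ∈ S)
    (hWF : ∃ D' ∈ S, IsRankOnePair W D') (hAD : IsRankOnePair A D) (hWD : RootCommutatorCase S W D) (hMA : RootCommutatorCase S ⁅W, D⁆ A)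
    (hM : ⁅⁅W, D⁆, A⁆ = W) : IsSpecialRankOnePair A D := by
  have cAW : Cm A W := by
    intro a ha w hw
    rw [← hM] at hw
    exact (rc_comm_right hMA hw ha).symm
  have cWW : Cm W W := S_comm hS hW
  have cMM : Cm ⁅W, D⁆ ⁅W, D⁆ := S_comm hS hWD.1
  have cWM : Cm W ⁅W, D⁆ := fun w hw m hm => (rc_comm_left hWD hm hw).symm
  have cMD : Cm ⁅W, D⁆ D := fun m hm d hd => rc_comm_right hWD hm hd
  have hN : Cm (W ⊔ ⁅W, D⁆) (W ⊔ ⁅W, D⁆) := (cWW.sup_right cWM).sup_left (cWM.symm.sup_right cMM)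
  have hnA : ∀ x ∈ A, conjBy (W ⊔ ⁅W, D⁆) x = W ⊔ ⁅W, D⁆ := norm_of_le fun x hx => by
    rw [conjBy_sup, cAW.symm.conj_eq hx]
    refine sup_le le_sup_left ?_
    have h1 : ⁅A, ⁅W, D⁆⁆ ≤ W := by rw [Subgroup.commutator_comm, hM]
    have := conjBy_le_of_comm h1 hx
    rwa [sup_comm] at this
  have hnD : ∀ x ∈ D, conjBy (W ⊔ ⁅W, D⁆) x = W ⊔ ⁅W, D⁆ := norm_of_le fun x hx => by
    rw [conjBy_sup, cMD.conj_eq hx]
    refine sup_le ?_ le_sup_right
    have h1 : ⁅D, W⁆ ≤ ⁅W, D⁆ := by rw [Subgroup.commutator_comm]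
    exact conjBy_le_of_comm h1 hx
  refine special_of_module hAD hN (norm_sup hnA hnD) ?_ ?_
  · intro a ha a' ha' n hn
    -- n = w m ; [a, n] = [a, m] ∈ W
    obtain ⟨w, hw, m, hm, rfl⟩ := mem_sup_cm cWM hn
    have h1 : a * (w * m) * a⁻¹ * (w * m)⁻¹ = w * (a * m * a⁻¹ * m⁻¹) * w⁻¹ := by
      have h2 : a * w = w * a := cAW a ha w hw
      calc a * (w * m) * a⁻¹ * (w * m)⁻¹ = (a * w) * m * a⁻¹ * m⁻¹ * w⁻¹ := by group
        _ = (w * a) * m * a⁻¹ * m⁻¹ * w⁻¹ := by rw [h2]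
        _ = _ := by group
    have h3 : a * m * a⁻¹ * m⁻¹ ∈ W := by
      have := mem_comm a m ha hm
      rwa [Subgroup.commutator_comm, hM] at this
    have h4 : a * (w * m) * a⁻¹ * (w * m)⁻¹ ∈ W := by
      rw [h1]; exact mul_mem (mul_mem hw h3) (inv_mem hw)
    exact cAW a' ha' _ h4
  · obtain ⟨w₀, hw₀, hw₀1⟩ := exists_ne_one_of_ne_bot (hS.ne_bot W hW)
    obtain ⟨a, ha, ha1⟩ := exists_ne_one_of_ne_bot (ro_ne_bot hAD)
    obtain ⟨d, hd, hd1⟩ := exists_ne_one_of_ne_bot (ro_ne_bot' hAD)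
    -- choose m with [m, a] = w₀⁻¹, so [a,m] = w₀
    obtain ⟨m, hm, hmw⟩ := rc_surj_right hMA ha ha1 (c := w₀⁻¹) (by rw [hM]; exact inv_mem hw₀)
    refine ⟨a, Subgroup.mem_sup_left ha, d, Subgroup.mem_sup_right hd, m, Subgroup.mem_sup_right hm, ?_⟩
    have h1 : a * m * a⁻¹ * m⁻¹ = w₀ := by
      have := congrArg (·⁻¹) hmw
      simp only [inv_inv] at this
      rw [← this]; group
    rw [h1]
    intro h2
    obtain ⟨D', hD', hWD'⟩ := hWF
    exact hd1 (line_inj hS hW hWD hD' hWD' hw₀ hw₀1 hd h2.symm)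

theorem le_conjBy_iff {F L : Subgroup G} {g : G} : F ≤ conjBy L g ↔ conjBy F g⁻¹ ≤ L := by
  constructor
  · intro hF
    have := conjBy_mono hF g⁻¹
    rwa [conjBy_conjBy, inv_mul_cancel, conjBy_one] at this
  · intro hF
    have := conjBy_mono hF g
    rwa [conjBy_conjBy, mul_inv_cancel, conjBy_one] at this

theorem membersIn_conj (hS : IsRootSubgroupSet S) {L F : Subgroup G} {g : G} :
    conjBy F g ∈ membersIn S (conjBy L g) ↔ F ∈ membersIn S L := by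
  constructor
  · rintro ⟨h1, h2⟩
    refine ⟨?_, ?_⟩
    · have := hS.conj_mem _ h1 g⁻¹
      rwa [conjBy_conjBy, inv_mul_cancel, conjBy_one] at this
    · rw [le_conjBy_iff, conjBy_conjBy, inv_mul_cancel, conjBy_one] at h2
      exact h2
  · rintro ⟨h1, h2⟩
    exact ⟨hS.conj_mem _ h1 g, conjBy_mono h2 g⟩

theorem conjBy_inv_conj {F : Subgroup G} {g : G} : conjBy (conjBy F g⁻¹) g = F := by
  rw [conjBy_conjBy, mul_inv_cancel, conjBy_one]

theorem conjBy_conj_inv {F : Subgroup G} {g : G} : conjBy (conjBy F g) g⁻¹ = F := by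
  rw [conjBy_conjBy, inv_mul_cancel, conjBy_one]

theorem lp_conj (hS : IsRootSubgroupSet S) (h : B ∈ linePartners S A) (g : G) :
    conjBy B g ∈ linePartners S (conjBy A g) := by
  refine ⟨⟨hS.conj_mem B h.1.1 g, fun h1 => h.1.2.1 (conjBy_inj h1), ?_⟩, ?_, ?_, ?_⟩
  · exact conjBy_comm_bot.2 h.1.2.2
  · exact fun C hC => hC.2
  · intro x hx hx1
    rw [← conjBy_sup, mem_conjBy] at hx
    obtain ⟨C, hC, hC'⟩ := h.2.2.1 _ hx (by
      intro h1
      apply hx1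
      have : x = g * (g⁻¹ * x * g) * g⁻¹ := by group
      rw [this, h1]; group)
    refine ⟨conjBy C g, ?_, ?_⟩
    · rw [← conjBy_sup]; exact (membersIn_conj hS).2 hC
    · rw [mem_conjBy]; exact hC'
  · intro C hC D hD hne
    rw [← conjBy_sup] at hC hD
    have hC' : conjBy C g⁻¹ ∈ membersIn S (A ⊔ B) := by
      rw [← membersIn_conj hS (g := g), conjBy_inv_conj]; exact hC
    have hD' : conjBy D g⁻¹ ∈ membersIn S (A ⊔ B) := by
      rw [← membersIn_conj hS (g := g), conjBy_inv_conj]; exact hD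
    have h1 := h.2.2.2 _ hC' _ hD' (fun h1 => hne (conjBy_inj h1))
    rw [eq_bot_iff]
    rintro x ⟨hx1, hx2⟩
    have h2 : g⁻¹ * x * g ∈ conjBy C g⁻¹ ⊓ conjBy D g⁻¹ := by
      refine Subgroup.mem_inf.2 ⟨?_, ?_⟩
      · rw [mem_conjBy]
        have : (g⁻¹)⁻¹ * (g⁻¹ * x * g) * g⁻¹ = x := by group
        rw [this]; exact hx1
      · rw [mem_conjBy]
        have : (g⁻¹)⁻¹ * (g⁻¹ * x * g) * g⁻¹ = x := by group
        rw [this]; exact hx2
    rw [h1, Subgroup.mem_bot] at h2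
    rw [Subgroup.mem_bot]
    have : x = g * (g⁻¹ * x * g) * g⁻¹ := by group
    rw [this, h2]; group

/-- a member transitive on the line minus a point. -/
def LineTrans (S : Set (Subgroup G)) (L : Subgroup G) (W : Subgroup G) : Prop :=
  ∃ M ∈ linePartners S W, (∀ m ∈ M, conjBy L m = L) ∧ Cm M W ∧
    ∀ E ∈ membersIn S L, E ≠ W → ∀ E' ∈ membersIn S L, E' ≠ W → ∃ m ∈ M, conjBy E m = E'

theorem lineTrans_conj (hS : IsRootSubgroupSet S) {L W : Subgroup G} (h : LineTrans S L W) (g : G) :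
    LineTrans S (conjBy L g) (conjBy W g) := by
  obtain ⟨M, hM, h1, h2, h3⟩ := h
  refine ⟨conjBy M g, lp_conj hS hM g, ?_, h2.conj g, ?_⟩
  · intro m hm
    rw [mem_conjBy] at hm
    have := h1 _ hm
    have e : conjBy (conjBy L g) m = conjBy (conjBy L (g⁻¹ * m * g)) g := by
      rw [conjBy_conjBy, conjBy_conjBy]
      congr 1
      group
    rw [e, this]
  · rintro E ⟨hE, hE'⟩ hEW E' ⟨hE1, hE1'⟩ hE1W
    have key : ∀ F : Subgroup G, F ≤ conjBy L g → conjBy F g⁻¹ ≤ L := by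
      intro F hF
      have := conjBy_mono hF g⁻¹
      rwa [conjBy_conjBy, inv_mul_cancel, conjBy_one] at this
    have key2 : ∀ F : Subgroup G, F ≠ conjBy W g → conjBy F g⁻¹ ≠ W := by
      intro F hF h
      apply hF
      rw [← h, conjBy_conjBy, mul_inv_cancel, conjBy_one]
    obtain ⟨m, hm, hm'⟩ := h3 _ ⟨hS.conj_mem E hE g⁻¹, key E hE'⟩ (key2 E hEW)
      _ ⟨hS.conj_mem E' hE1 g⁻¹, key E' hE1'⟩ (key2 E' hE1W)
    refine ⟨g * m * g⁻¹, conjBy_normal_iff.2 hm, ?_⟩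
    rw [conjBy_conjBy] at hm'
    have : conjBy E (g * m * g⁻¹) = conjBy (conjBy E (m * g⁻¹)) g := by
      rw [conjBy_conjBy, mul_assoc]
    rw [this, hm', conjBy_conjBy, mul_inv_cancel, conjBy_one]

/-- transitivity of `M = ⁅W, D⁆`. -/
theorem lineTrans_of (hS : IsRootSubgroupSet S) (hF : ∀ A ∈ S, ∃ D ∈ S, IsRankOnePair A D)
    (hA : A ∈ S) (hD : D ∈ S) (hAD : IsRankOnePair A D) {W : Subgroup G} (hW : W ∈ linePartners S A)
    (hWD : RootCommutatorCase S W D) (hMA : RootCommutatorCase S ⁅W, D⁆ A) (hM : ⁅⁅W, D⁆, A⁆ = W) :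
    LineTrans S (A ⊔ W) W := by
  have hWS := hW.1.1
  have cMW : Cm ⁅W, D⁆ W := fun m hm w hw => rc_comm_left hWD hm hw
  have hnorm : ∀ m ∈ ⁅W, D⁆, conjBy (A ⊔ W) m = A ⊔ W := norm_of_le fun m hm => by
    rw [conjBy_sup, cMW.symm.conj_eq hm]
    refine sup_le ?_ le_sup_right
    exact conjBy_le_of_comm (le_of_eq hM) hm
  -- from A to any E ≠ W
  have hAE : ∀ E ∈ membersIn S (A ⊔ W), E ≠ W → ∃ m ∈ ⁅W, D⁆, conjBy A m = E := by
    intro E hE hEW
    obtain ⟨e, he, he1⟩ := exists_ne_one_of_ne_bot (hS.ne_bot E hE.1)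
    obtain ⟨a, ha, w, hw, heaw⟩ := mem_sup_cm (lp_cm hW) (hE.2 he)
    have ha1 : a ≠ 1 := by
      rintro rfl
      rw [one_mul] at heaw
      have h3 : e ∈ E ⊓ W := ⟨he, heaw ▸ hw⟩
      rw [hW.2.2.2 E hE W (lp_right_mem hWS) hEW] at h3
      exact he1 h3
    -- m with m a m⁻¹ = a w
    obtain ⟨m, hm, hmw⟩ := rc_surj_right hMA ha ha1 (c := w) (by rw [hM]; exact hw)
    refine ⟨m, hm, ?_⟩
    have h1 : m * a * m⁻¹ = e := by
      have h2 : a * w = w * a := lp_cm hW a ha w hw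
      rw [heaw, h2, ← hmw]; group
    have h2 : e ∈ conjBy A m := by rw [← h1]; exact conjBy_normal_iff.2 ha
    obtain ⟨D', hD', hED'⟩ := hF E hE.1
    exact (ti hS hD' hED' (hS.conj_mem A hA m) he he1 h2).symm
  have hMlp : ⁅W, D⁆ ∈ linePartners S W := by
    obtain ⟨D', hD', hD''⟩ := hF _ hWD.1
    have := line_partner hS hWD.1 hMA hD' hD''
    rwa [hM] at this
  refine ⟨⁅W, D⁆, hMlp, hnorm, cMW, ?_⟩
  intro E hE hEW E' hE' hEW'
  obtain ⟨m, hm, rfl⟩ := hAE E hE hEW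
  obtain ⟨m', hm', rfl⟩ := hAE E' hE' hEW'
  refine ⟨m' * m⁻¹, mul_mem hm' (inv_mem hm), ?_⟩
  rw [conjBy_conjBy, inv_mul_cancel_right]

/-- changing the base of a line. -/
theorem lp_rebase {W : Subgroup G} (hA : A ∈ S) (hW : W ∈ linePartners S A) (h : A ⊔ W = A ⊔ B) :
    A ∈ linePartners S W ∧ W ⊔ A = A ⊔ B := ⟨lp_symm hA hW, by rw [sup_comm]; exact h⟩

/-- every member of a line has a transitive member. -/
theorem lineTrans_all (hS : IsRootSubgroupSet S) (hF : ∀ A ∈ S, ∃ D ∈ S, IsRankOnePair A D)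
    (hA : A ∈ S) (hB : B ∈ linePartners S A) : ∀ W ∈ membersIn S (A ⊔ B), LineTrans S (A ⊔ B) W := by
  obtain ⟨D, hD, hAD⟩ := hF A hA
  obtain ⟨W₀, hW₀, hsup, h1, h2, h3⟩ := line_full hS hF hA hD hAD hB
  have hT0 : LineTrans S (A ⊔ B) W₀ := by
    rw [← hsup]; exact lineTrans_of hS hF hA hD hAD hW₀ h1 h2 h3
  have hW₀S := hW₀.1.1
  obtain ⟨D', hD', hWD'⟩ := hF W₀ hW₀S
  obtain ⟨W₁, hW₁, hsup1, k1, k2, k3⟩ := line_full hS hF hW₀S hD' hWD' (lp_symm hA hW₀)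
  have hsup2 : W₀ ⊔ W₁ = A ⊔ B := by rw [hsup1, sup_comm, hsup]
  have hT1 : LineTrans S (A ⊔ B) W₁ := by
    rw [← hsup2]; exact lineTrans_of hS hF hW₀S hD' hWD' hW₁ k1 k2 k3
  intro W hW
  by_cases hWW : W = W₀
  · rw [hWW]; exact hT0
  · obtain ⟨M, hM, hMn, hMc, hMt⟩ := hT0
    have hW₁m : W₁ ∈ membersIn S (A ⊔ B) := ⟨hW₁.1.1, by rw [← hsup2]; exact le_sup_right⟩
    obtain ⟨m, hm, hm'⟩ := hMt W₁ hW₁m hW₁.1.2.1 W hW hWW
    have := lineTrans_conj hS hT1 m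
    rw [hMn m hm, hm'] at this
    exact this

end Cfsg.Agent.H3
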