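import Mathlib
import Cfsg.Prelude.Def_RootSubgroups
import Cfsg.Agent.H3.RootH

/-!
Abstract root subgroups: connectedness of the line graph, generation.
-/

set_option autoImplicit false
open Cfsg Cfsg.Agent.H28

namespace Cfsg.Agent.H3

variable {G : Type*} [Group G] {A B C D E : Subgroup G} {S : Set (Subgroup G)}

theorem class_facts (hS : IsRootSubgroupClass S) (hnd : IsNondegenerateRootSet S) :
    (∀ E ∈ S, ∃ D ∈ S, IsRankOnePair E D) ∧ (∀ E ∈ S, ∃ U, U ∈ linePartners S E) := by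
  obtain ⟨hS0, hcl⟩ := hS
  obtain ⟨-, ⟨A, hA, B, hBS, hAB⟩, U₀, hU₀, V₀, hV₀, hr₀⟩ := hnd
  have hF : ∀ E ∈ S, ∃ D ∈ S, IsRankOnePair E D := by
    intro E hE
    obtain ⟨g, rfl⟩ := hcl.2 A hA E hE
    exact ⟨conjBy B g, hS0.conj_mem B hBS g, ro_conj hAB g⟩
  refine ⟨hF, ?_⟩
  intro E hE
  obtain ⟨g, hg⟩ := hcl.2 _ hr₀.1 E hE
  have hr := rc_conj hS0 hr₀ g
  have hcomm : ⁅conjBy U₀ g, conjBy V₀ g⁆ = E := by rw [← conjBy_commutator, hg]
  obtain ⟨D', hD', hUD'⟩ := hF _ (hS0.conj_mem U₀ hU₀ g)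
  have := line_partner hS0 (hS0.conj_mem U₀ hU₀ g) hr hD' hUD'
  rw [hcomm] at this
  exact ⟨_, this⟩

theorem eadj_symm (h : EAdj S S A B) : EAdj S S B A := ⟨h.2.1, h.1, lp_symm h.1 h.2.2⟩

theorem ereach_symm (h : Relation.ReflTransGen (EAdj S S) A B) :
    Relation.ReflTransGen (EAdj S S) B A := by
  induction h with
  | refl => exact Relation.ReflTransGen.refl
  | tail _ h1 ih => exact Relation.ReflTransGen.head (eadj_symm h1) ih

theorem eadj_conj (hS : IsRootSubgroupSet S) (g : G) (h : EAdj S S A B) :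
    EAdj S S (conjBy A g) (conjBy B g) :=
  ⟨hS.conj_mem A h.1 g, hS.conj_mem B h.2.1 g, lp_conj hS h.2.2 g⟩

theorem ereach_conj (hS : IsRootSubgroupSet S) (g : G) (h : Relation.ReflTransGen (EAdj S S) A B) :
    Relation.ReflTransGen (EAdj S S) (conjBy A g) (conjBy B g) := by
  induction h with
  | refl => exact Relation.ReflTransGen.refl
  | tail _ h1 ih => exact ih.tail (eadj_conj hS g h1)

theorem ereach_conj_elem (hS : IsRootSubgroupSet S) (hF : ∀ A ∈ S, ∃ D ∈ S, IsRankOnePair A D)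
    (hL : ∀ E ∈ S, ∃ U, U ∈ linePartners S E) (hA : A ∈ S) (hB : B ∈ S) {b : G} (hb : b ∈ B) :
    Relation.ReflTransGen (EAdj S S) A (conjBy A b) := by
  rcases hS.pair A hA B hB with h | h | h
  · rw [(cm_iff.2 h).conj_eq hb]
  · obtain ⟨U, hU⟩ := hL A hA
    obtain ⟨W, hW, -, h1, h2, h3⟩ := line_full hS hF hA hB h hU
    have hWS := hW.1.1
    obtain ⟨D', hD', hWD'⟩ := hF W hWS
    have hlp := line_partner hS hWS h1 hD' hWD'
    have e1 : EAdj S S A W := ⟨hA, hWS, hW⟩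
    have e2 : EAdj S S ⁅W, B⁆ W := ⟨h1.1, hWS, hlp⟩
    have e3 := eadj_conj hS b e1
    have e4 := eadj_conj hS b e2
    rw [conjBy_comm_right hb] at e4
    exact (((Relation.ReflTransGen.single e1).tail (eadj_symm e2)).tail e4).tail (eadj_symm e3)
  · obtain ⟨D', hD', hAD'⟩ := hF A hA
    have hlp := line_partner hS hA h hD' hAD'
    have e2 : EAdj S S ⁅A, B⁆ A := ⟨h.1, hA, hlp⟩
    have e4 := eadj_conj hS b e2
    rw [conjBy_comm_right hb] at e4
    exact (Relation.ReflTransGen.single (eadj_symm e2)).tail e4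

theorem ereach_all_conj (hS : IsRootSubgroupSet S) (hF : ∀ A ∈ S, ∃ D ∈ S, IsRankOnePair A D)
    (hL : ∀ E ∈ S, ∃ U, U ∈ linePartners S E)
    (g : G) : ∀ A ∈ S, Relation.ReflTransGen (EAdj S S) A (conjBy A g) := by
  let K : Subgroup G := {
    carrier := {g | ∀ A ∈ S, Relation.ReflTransGen (EAdj S S) A (conjBy A g)}
    one_mem' := fun A _ => by rw [conjBy_one]
    mul_mem' := by
      intro x y hx hy A hA
      rw [← conjBy_conjBy]
      exact (hy A hA).trans (hx _ (hS.conj_mem A hA y))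
    inv_mem' := by
      intro x hx A hA
      have := hx _ (hS.conj_mem A hA x⁻¹)
      rw [conjBy_conjBy, mul_inv_cancel, conjBy_one] at this
      exact ereach_symm this }
  have hK : K = ⊤ := by
    rw [eq_top_iff, ← hS.generates]
    refine iSup₂_le fun B hB b hb A hA => ?_
    exact ereach_conj_elem hS hF hL hA hB hb
  have : g ∈ K := hK ▸ Subgroup.mem_top g
  exact this

theorem ereach_all (hS : IsRootSubgroupClass S) (hnd : IsNondegenerateRootSet S) (hA : A ∈ S) (hB : B ∈ S) :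
    Relation.ReflTransGen (EAdj S S) A B := by
  obtain ⟨hF, hL⟩ := class_facts hS hnd
  obtain ⟨g, rfl⟩ := hS.2.2 A hA B hB
  exact ereach_all_conj hS.1 hF hL g A hA

/-- the members of a line through `A` other than `A` are line partners -/
theorem lp_of_mem (hS : IsRootSubgroupSet S) (hF : ∀ A ∈ S, ∃ D ∈ S, IsRankOnePair A D)
    (hA : A ∈ S) (hB : B ∈ linePartners S A) (hE : E ∈ membersIn S (A ⊔ B)) (hne : E ≠ A) :
    E ∈ linePartners S A ∧ A ⊔ E = A ⊔ B := by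
  obtain ⟨M, hM, hMn, hMc, hMt⟩ := lineTrans_all hS hF hA hB A (lp_left_mem hA)
  obtain ⟨m, hm, hm'⟩ := hMt B (lp_right_mem hB.1.1) hB.1.2.1 E hE hne
  have h1 := lp_conj hS hB m
  rw [hMc.symm.conj_eq hm, hm'] at h1
  refine ⟨h1, ?_⟩
  have h2 := hMn m hm
  rwa [conjBy_sup, hMc.symm.conj_eq hm, hm'] at h2

/-- transitivity of `⁅W,D⁆` on the members other than `W`. -/
theorem line_trans_M (hS : IsRootSubgroupSet S) (hF : ∀ A ∈ S, ∃ D ∈ S, IsRankOnePair A D)
    (hA : A ∈ S) {W : Subgroup G} (hW : W ∈ linePartners S A)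
    (hMA : RootCommutatorCase S ⁅W, D⁆ A) (hM : ⁅⁅W, D⁆, A⁆ = W)
    (hE : E ∈ membersIn S (A ⊔ W)) (hEW : E ≠ W) : ∃ m ∈ ⁅W, D⁆, conjBy A m = E := by
  have hWS := hW.1.1
  obtain ⟨e, he, he1⟩ := exists_ne_one_of_ne_bot (hS.ne_bot E hE.1)
  obtain ⟨a, ha, w, hw, heaw⟩ := mem_sup_cm (lp_cm hW) (hE.2 he)
  have ha1 : a ≠ 1 := by
    rintro rfl
    rw [one_mul] at heaw
    have h3 : e ∈ E ⊓ W := ⟨he, heaw ▸ hw⟩
    rw [hW.2.2.2 E hE W (lp_right_mem hWS) hEW] at h3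
    exact he1 h3
  obtain ⟨m, hm, hmw⟩ := rc_surj_right hMA ha ha1 (c := w) (by rw [hM]; exact hw)
  refine ⟨m, hm, ?_⟩
  have h1 : m * a * m⁻¹ = e := by
    have h2 : a * w = w * a := lp_cm hW a ha w hw
    rw [heaw, h2, ← hmw]; group
  have h2 : e ∈ conjBy A m := by rw [← h1]; exact conjBy_normal_iff.2 ha
  obtain ⟨D', hD', hED'⟩ := hF E hE.1
  exact (ti hS hD' hED' (hS.conj_mem A hA m) he he1 h2).symm

theorem conjBy_le_self {U : Subgroup G} (hA : A ≤ U) {u : G} (hu : u ∈ U) : conjBy A u ≤ U := by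
  rintro _ ⟨a, ha, rfl⟩
  show u * a * u⁻¹ ∈ U
  exact mul_mem (mul_mem hu (hA ha)) (inv_mem hu)

/-- `G` is generated by the line partners and a rank one partner. -/
theorem gen_top (hS : IsRootSubgroupClass S) (hnd : IsNondegenerateRootSet S)
    (hA : A ∈ S) (hB : B ∈ rankOnePartners S A) : (⨆ C ∈ linePartners S A, C) ⊔ B = ⊤ := by
  obtain ⟨hF, hL⟩ := class_facts hS hnd
  obtain ⟨hBS, hAB⟩ := hB
  have hS0 := hS.1
  set U := (⨆ C ∈ linePartners S A, C) ⊔ B with hU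
  have hLU : ∀ C ∈ linePartners S A, C ≤ U := fun C hC => by
    refine le_trans ?_ le_sup_left
    exact le_iSup₂_of_le (f := fun (C : Subgroup G) (_ : C ∈ linePartners S A) => C) C hC le_rfl
  have hBU : B ≤ U := le_sup_right
  have hAU : A ≤ U := by
    obtain ⟨W, hW⟩ := hL A hA
    obtain ⟨w, hw, hw1⟩ := exists_ne_one_of_ne_bot (hS0.ne_bot W hW.1.1)
    intro a ha
    by_cases ha1 : a = 1
    · rw [ha1]; exact one_mem _
    have hne : a * w ≠ 1 := by
      intro h1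
      apply ha1
      apply lp_inf hA hW ha
      have : a = w⁻¹ := eq_inv_of_mul_eq_one_left h1
      rw [this]; exact inv_mem hw
    obtain ⟨F, hF1, hF2⟩ := hW.2.2.1 (a * w) (mul_mem (Subgroup.mem_sup_left ha) (Subgroup.mem_sup_right hw)) hne
    have hFA : F ≠ A := by
      rintro rfl
      apply hw1
      apply lp_inf hA hW _ hw
      have := mul_mem (inv_mem ha) hF2
      rwa [inv_mul_cancel_left] at this
    have h1 := hLU F (lp_of_mem hS0 hF hA hW hF1 hFA).1 hF2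
    have h2 := hLU W hW hw
    have := mul_mem h1 (inv_mem h2)
    rwa [mul_inv_cancel_right] at this
  -- line partners are conjugate to `A` under `U`
  have hconj : ∀ W ∈ linePartners S A, ∃ u ∈ U, conjBy A u = W := by
    intro W hW
    obtain ⟨W₀, hW₀, hsup, h1, h2, h3⟩ := line_full hS0 hF hA hBS hAB hW
    have hMU : ⁅W₀, B⁆ ≤ U := by
      rw [Subgroup.commutator_le]
      intro x hx y hy
      have hx' := hLU W₀ hW₀ hx
      have hy' := hBU hy
      exact mul_mem (mul_mem (mul_mem hx' hy') (inv_mem hx')) (inv_mem hy')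
    by_cases hWW : W = W₀
    · subst hWW
      obtain ⟨M, hM, hMn, hMc, hMt⟩ := lineTrans_all hS0 hF hA hW A (lp_left_mem hA)
      obtain ⟨F, hF1, hF2, hF3⟩ := line_three hA (hS0.ne_bot A hA) (hS0.ne_bot W hW.1.1) hW
      obtain ⟨m, hm, hm'⟩ := line_trans_M hS0 hF hA hW h2 h3 hF1 hF3
      obtain ⟨m', hm₁, hm₂⟩ := hMt F hF1 hF2 W (lp_right_mem hW.1.1) hW.1.2.1
      refine ⟨m' * m, mul_mem (hLU M hM hm₁) (hMU hm), ?_⟩
      rw [← conjBy_conjBy, hm', hm₂]
    · obtain ⟨m, hm, hm'⟩ := line_trans_M hS0 hF hA hW₀ h2 h3 (E := W)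
        ⟨hW.1.1, by rw [hsup]; exact le_sup_right⟩ hWW
      exact ⟨m, hMU hm, hm'⟩
  have hall : ∀ E, Relation.ReflTransGen (EAdj S S) A E → ∃ u ∈ U, conjBy A u = E := by
    intro E hE
    induction hE with
    | refl => exact ⟨1, one_mem _, conjBy_one _⟩
    | tail _ h1 ih =>
      obtain ⟨u, hu, rfl⟩ := ih
      have h2 := lp_conj hS0 h1.2.2 u⁻¹
      rw [conjBy_conj_inv] at h2
      obtain ⟨u', hu', hu''⟩ := hconj _ h2
      refine ⟨u * u', mul_mem hu hu', ?_⟩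
      rw [← conjBy_conjBy, hu'', conjBy_inv_conj]
  rw [eq_top_iff, ← hS0.generates]
  refine iSup₂_le fun E hE => ?_
  obtain ⟨u, hu, rfl⟩ := hall E (ereach_all hS hnd hA hE)
  exact conjBy_le_self hAU hu

end Cfsg.Agent.H3
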