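import Mathlib
import Cfsg.Prelude.Def_RootSubgroups
import Cfsg.Agent.H3.RootJ

/-!
Degenerate classes of root subgroups: members with the same commuting members.
-/

set_option autoImplicit false
open Cfsg Cfsg.Agent.H28

namespace Cfsg.Agent.H3

variable {G : Type*} [Group G] {A B C D E P Q R U V : Subgroup G} {S : Set (Subgroup G)}

/-- the other members commuting with `P` -/
def Kp (S : Set (Subgroup G)) (P : Subgroup G) : Set (Subgroup G) := {F | F ∈ S ∧ F ≠ P ∧ Cm P F}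

/-- the same other commuting members -/
structure Eqv (S : Set (Subgroup G)) (P Q : Subgroup G) : Prop where
  left : P ∈ S
  right : Q ∈ S
  eq : Kp S P = Kp S Q

theorem Eqv.refl (h : P ∈ S) : Eqv S P P := ⟨h, h, rfl⟩

theorem Eqv.symm (h : Eqv S P Q) : Eqv S Q P := ⟨h.right, h.left, h.eq.symm⟩

theorem Eqv.trans (h : Eqv S P Q) (h' : Eqv S Q R) : Eqv S P R := ⟨h.left, h'.right, h.eq.trans h'.eq⟩

theorem mem_Kp_symm (hP : P ∈ S) (h : Q ∈ Kp S P) : P ∈ Kp S Q := ⟨hP, h.2.1.symm, h.2.2.symm⟩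

theorem mem_Kp_cj (hS : IsRootSubgroupSet S) {g : G} : Q ∈ Kp S (cj P g) ↔ cj Q g⁻¹ ∈ Kp S P := by
  constructor
  · rintro ⟨h1, h2, h3⟩
    refine ⟨mem_S_cj hS h1 _, ?_, ?_⟩
    · intro h4
      apply h2
      rw [← h4, cj_cj, inv_mul_cancel, cj_one]
    · have := h3.cj g⁻¹
      rwa [cj_cj, mul_inv_cancel, cj_one] at this
  · rintro ⟨h1, h2, h3⟩
    have h4 : cj (cj Q g⁻¹) g = Q := by rw [cj_cj, inv_mul_cancel, cj_one]
    refine ⟨h4 ▸ mem_S_cj hS h1 g, ?_, ?_⟩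
    · intro h5
      apply h2
      rw [h5, cj_cj, mul_inv_cancel, cj_one]
    · have := h3.cj g
      rwa [h4] at this

theorem Eqv.cj (hS : IsRootSubgroupSet S) (h : Eqv S P Q) (g : G) : Eqv S (cj P g) (cj Q g) := by
  refine ⟨mem_S_cj hS h.left g, mem_S_cj hS h.right g, ?_⟩
  ext F
  rw [mem_Kp_cj hS, mem_Kp_cj hS, h.eq]

theorem Eqv.comm (h1 : Eqv S U P) (h2 : Eqv S V Q) (hc : Cm U V) (hne : U ≠ V) :
    Cm P Q ∧ P ≠ Q := by
  have h3 : V ∈ Kp S U := ⟨h2.left, hne.symm, hc⟩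
  rw [h1.eq] at h3
  have h4 := mem_Kp_symm h1.right h3
  rw [h2.eq] at h4
  exact ⟨h4.2.2.symm, h4.2.1⟩

/-- the set-up: `C` commutes with `A`, `D` a rank one partner of `A` and `C` -/
structure BS (S : Set (Subgroup G)) (A C D : Subgroup G) : Prop where
  hS : IsRootSubgroupSet S
  hdeg : ∀ P ∈ S, ∀ Q ∈ S, Cm P Q ∨ IsRankOnePair P Q
  hA : A ∈ S
  hC : C ∈ S
  hD : D ∈ S
  hCA : C ∈ Kp S A
  hAD : IsRankOnePair A D
  hCD : IsRankOnePair C D

theorem Eqv.ro (b : BS S A C D) (h : Eqv S P Q) (hne : P ≠ Q) : IsRankOnePair P Q := by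
  rcases b.hdeg P h.left Q h.right with h1 | h1
  · exfalso
    have h2 : Q ∈ Kp S P := ⟨h.right, hne.symm, h1⟩
    rw [h.eq] at h2
    exact h2.2.1 rfl
  · exact h1

theorem BS.trip (b : BS S A C D) (h : Eqv S A P) : Trip S P C D := by
  have h1 : C ∈ Kp S P := by rw [← h.eq]; exact b.hCA
  refine ⟨b.hS, h.right, b.hC, b.hD, h1.2.1.symm, h1.2.2, ?_, b.hCD⟩
  rcases b.hdeg P h.right D b.hD with h2 | h2
  · exfalso
    by_cases h3 : D = P
    · rw [← h3] at h1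
      exact ro_not_cm b.hCD h1.2.2.symm
    · have h4 : D ∈ Kp S P := ⟨b.hD, h3, h2⟩
      rw [← h.eq] at h4
      exact ro_not_cm b.hAD h4.2.2
  · exact h2

open Classical in
/-- the element of `P` corresponding to `c ∈ C` -/
noncomputable def tau (D P : Subgroup G) (c : G) : G :=
  if h : ∃ p ∈ P, Cm (cj D p) (cj D c) then h.choose else 1

theorem tau_spec (t : Trip S P C D) {c : G} (hc : c ∈ C) :
    tau D P c ∈ P ∧ Cm (cj D (tau D P c)) (cj D c) := by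
  have h : ∃ p ∈ P, Cm (cj D p) (cj D c) := by
    obtain ⟨p, hp, h⟩ := t.symm.exists_c hc
    exact ⟨p, hp, h.symm⟩
  unfold tau
  rw [dif_pos h]
  exact h.choose_spec

theorem tau_uniq (t : Trip S P C D) {c p : G} (hc : c ∈ C) (hp : p ∈ P)
    (h : Cm (cj D p) (cj D c)) : tau D P c = p :=
  t.uniq (tau_spec t hc).1 hp hc (tau_spec t hc).2 h

theorem tau_one (t : Trip S P C D) : tau D P 1 = 1 := by
  apply tau_uniq t (one_mem _) (one_mem _)
  rw [cj_one]; exact S_cm t.hS t.hD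

theorem tau_mul (t : Trip S P C D) {c c' : G} (hc : c ∈ C) (hc' : c' ∈ C) :
    tau D P (c * c') = tau D P c * tau D P c' :=
  tau_uniq t (mul_mem hc hc') (mul_mem (tau_spec t hc).1 (tau_spec t hc').1)
    (t.mul (tau_spec t hc).1 (tau_spec t hc').1 hc hc' (tau_spec t hc).2 (tau_spec t hc').2)

theorem tau_ne (t : Trip S P C D) {c : G} (hc : c ∈ C) (hc1 : c ≠ 1) : tau D P c ≠ 1 := by
  intro h
  have h1 := (tau_spec t hc).2
  rw [h] at h1
  apply hc1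
  apply t.uniq' (one_mem _) hc (one_mem _) h1
  rw [cj_one]; exact S_cm t.hS t.hD

theorem tau_brel (t : Trip S P C D) {c d : G} (h : BRel C D c d) : BRel P D (tau D P c) d := by
  obtain ⟨p, hp⟩ := brel_right t.pd h.hb h.hb1
  have := tau_uniq t h.ha hp.ha (t.match hp h).1
  rwa [this]

theorem tau_surj (t : Trip S P C D) {p : G} (hp : p ∈ P) : ∃ c ∈ C, tau D P c = p := by
  obtain ⟨c, hc, h⟩ := t.exists_c hp
  exact ⟨c, hc, tau_uniq t hc hp h⟩

theorem eqv_tau (b : BS S A C D) (hP : Eqv S A P) (hQ : Eqv S A Q) {c : G} (hc : c ∈ C) :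
    Eqv S (cj D (tau D P c)) (cj D (tau D Q c)) := by
  by_cases hc1 : c = 1
  · rw [hc1, tau_one (b.trip hP), tau_one (b.trip hQ)]
    exact Eqv.refl (mem_S_cj b.hS b.hD _)
  · obtain ⟨d, hd⟩ := brel_left b.hCD hc hc1
    rw [← (tau_brel (b.trip hP) hd).cjeq, ← (tau_brel (b.trip hQ) hd).cjeq]
    exact (hP.symm.trans hQ).cj b.hS d

theorem eqv_cj_A (b : BS S A C D) (hP : Eqv S A P) {x : G} (hx : x ∈ A) : Eqv S A (cj P x) := by
  have := hP.cj b.hS x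
  rwa [cj_self hx] at this

theorem tau_cj (b : BS S A C D) (hP : Eqv S A P) {c x : G} (hc : c ∈ C) (hx : x ∈ A) :
    tau D (cj P x) c = x⁻¹ * tau D P c * x := by
  have hP' := eqv_cj_A b hP hx
  have t := b.trip hP
  have t' := b.trip hP'
  have tA := b.trip (Eqv.refl b.hA)
  by_cases hc1 : c = 1
  · rw [hc1, tau_one t, tau_one t']; group
  obtain ⟨d, hd⟩ := brel_left b.hCD hc hc1
  obtain ⟨m1, m2⟩ := t.match (tau_brel t hd) hd
  obtain ⟨hp, -⟩ := tau_spec t hc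
  set p := tau D P c with hpdef
  apply tau_uniq t' hc (cj_mem hp)
  obtain ⟨c', hc', hx'⟩ := tau_surj tA (inv_mem hx)
  obtain ⟨hq, -⟩ := tau_spec t hc'
  set q := tau D P c' with hqdef
  have e1 : Eqv S (cj D q) (cj D x⁻¹) := by
    have := eqv_tau b hP (Eqv.refl b.hA) hc'
    rwa [hx'] at this
  have e2 : Eqv S (cj D (p * q)) (cj D (x⁻¹ * p)) := by
    have := e1.cj b.hS p
    rw [cj_cj, cj_cj] at this
    rwa [S_comm b.hS t.hP p hp q hq]
  have e3 : Eqv S (cj D (c * q)) (cj D (x⁻¹ * c)) := by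
    have := e1.cj b.hS c
    rw [cj_cj, cj_cj] at this
    rwa [← t.comm hq hc]
  have e4 : Cm (cj D (p * q)) (cj D (c * q)) := by
    have := m1.cj q
    rwa [cj_cj, cj_cj] at this
  have e5 : cj D (p * q) ≠ cj D (c * q) := by
    rw [← cj_cj, ← cj_cj]
    exact fun h => m2 (cj_inj h)
  have e6 := (Eqv.comm e2 e3 e4 e5).1.cj x
  rw [cj_cj, cj_cj] at e6
  have e7 : x⁻¹ * c * x = c := by
    rw [mul_assoc, ← tA.comm hx hc, inv_mul_cancel_left]
  rwa [e7] at e6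

theorem eqv_tau_mul (b : BS S A C D) (hP : Eqv S A P) {c x : G} (hc : c ∈ C) (hx : x ∈ A) :
    Eqv S (cj D (x * tau D P c)) (cj D (x * tau D A c)) := by
  have t := b.trip hP
  have rA := Eqv.refl b.hA
  have tA := b.trip rA
  obtain ⟨c', hc', rfl⟩ := tau_surj tA hx
  have e1 := (eqv_tau b rA hP hc').cj b.hS (tau D P c)
  rw [cj_cj, cj_cj, ← tau_mul t hc' hc] at e1
  have e2 := eqv_tau b hP rA (mul_mem hc' hc)
  rw [tau_mul tA hc' hc] at e2
  exact e1.trans e2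

theorem eqv_D_inj (b : BS S A C D) (hP : Eqv S A P) {d d' : G} (hd : d ∈ D) (hd' : d' ∈ D)
    (h : Eqv S (cj P d) (cj P d')) : d = d' := by
  by_contra hne
  have t := b.trip hP
  have h1 : d * d'⁻¹ ≠ 1 := fun h1 => hne (mul_inv_eq_one.1 h1)
  obtain ⟨p, hp⟩ := brel_right t.pd (mul_mem hd (inv_mem hd')) h1
  have h2 := h.cj b.hS d'⁻¹
  rw [cj_cj, cj_cj, mul_inv_cancel, cj_one, hp.cjeq] at h2
  have h3 : C ∈ Kp S (cj D p) := by rw [h2.eq, ← hP.eq]; exact b.hCA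
  have h4 := h3.2.2.cj p⁻¹
  rw [cj_cj, mul_inv_cancel, cj_one, t.cm.symm.cj_eq (inv_mem hp.ha)] at h4
  exact ro_not_cm b.hCD h4.symm

/-- the subgroup generated by the class of `A` -/
def Xh (S : Set (Subgroup G)) (A : Subgroup G) : Subgroup G :=
  Subgroup.closure {x | ∃ P, Eqv S A P ∧ x ∈ P}

theorem mem_Xh (hP : Eqv S A P) {x : G} (hx : x ∈ P) : x ∈ Xh S A :=
  Subgroup.subset_closure ⟨P, hP, hx⟩

theorem Xh_norm (hS : IsRootSubgroupSet S) (hA : A ∈ S) {x : G} (hx : x ∈ Xh S A) :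
    Eqv S A (cj A x) := by
  unfold Xh at hx
  induction hx using Subgroup.closure_induction with
  | mem x hx =>
    obtain ⟨P, hP, hx⟩ := hx
    have := hP.cj hS x
    rw [cj_self hx] at this
    exact hP.trans this.symm
  | one => rw [cj_one]; exact Eqv.refl hA
  | mul x y _ _ hx hy =>
    have := hx.cj hS y
    rw [cj_cj] at this
    exact hy.trans this
  | inv x _ hx =>
    have := hx.cj hS x⁻¹
    rw [cj_cj, mul_inv_cancel, cj_one] at this
    exact this.symm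

theorem lemZ (b : BS S A C D) (h3 : ∃ d₁ ∈ D, ∃ d₂ ∈ D, d₁ ≠ 1 ∧ d₂ ≠ 1 ∧ d₁ ≠ d₂) {r : G}
    (hr : r ∈ Xh S A) (hrD : ∀ d ∈ D, r * d = d * r) (hQ : Eqv S A Q) : ∀ x ∈ Q, r * x = x * r := by
  have rA := Eqv.refl b.hA
  have tA := b.trip rA
  obtain ⟨c, hc, hc1⟩ := exists_ne_one_of_ne_bot (ro_ne_bot b.hCD)
  obtain ⟨d₀, hd₀⟩ := brel_left b.hCD hc hc1
  obtain ⟨m1, m2⟩ := tA.match (tau_brel tA hd₀) hd₀
  obtain ⟨ha, -⟩ := tau_spec tA hc
  set a := tau D A c with hadef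
  set g := a * c⁻¹ with hg
  set E := cj D g with hE
  have hED : Cm E D := by
    have h1 := m1.cj c⁻¹
    rwa [cj_cj, cj_cj, mul_inv_cancel, cj_one] at h1
  have hEne : E ≠ D := by
    intro h1
    apply m2
    have h2 := congrArg (fun X => Cfsg.Agent.H3.cj X c) h1
    simp only [hE, hg, cj_cj, inv_mul_cancel_right] at h2
    exact h2
  have hQg : cj Q g⁻¹ = cj Q a⁻¹ := by
    rw [hg, mul_inv_rev, inv_inv, ← cj_cj, (b.trip hQ).cm.cj_eq hc]
  have hQ0 : Eqv S A (cj Q a⁻¹) := eqv_cj_A b hQ (inv_mem ha)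
  have key1 : ∀ d ∈ D, d ≠ 1 → ∀ P, Eqv S A P → Cm (cj P (d * (g⁻¹ * d * g)⁻¹)) Q := by
    intro d hd hd1 P hP
    obtain ⟨a', ha'⟩ := brel_right b.hAD hd hd1
    have e1 : Eqv S (cj D a') (cj P d) := by
      rw [← ha'.cjeq]; exact hP.cj b.hS d
    have e2 : cj Q (g⁻¹ * d * g) = cj (cj (cj Q a⁻¹) d) g := by
      rw [← hQg]; simp only [cj_cj, mul_assoc]
    have hga : a' * g = g * a' := by
      have h5 : a' * a = a * a' := S_comm b.hS b.hA a' ha'.ha a ha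
      have h6 : a' * c⁻¹ = c⁻¹ * a' := tA.comm ha'.ha (inv_mem hc)
      rw [hg, ← mul_assoc, h5, mul_assoc, h6, mul_assoc]
    have e3 : Eqv S (cj E a') (cj Q (g⁻¹ * d * g)) := by
      have h5 := (hQ0.cj b.hS d).cj b.hS g
      rw [ha'.cjeq, cj_cj, hga, ← cj_cj, ← e2] at h5
      exact h5
    have e4 := (Eqv.comm e1 e3 (hED.symm.cj a') (fun h5 => hEne (cj_inj h5).symm)).1
    have e5 := e4.cj (g⁻¹ * d * g)⁻¹
    rwa [cj_cj, cj_cj, mul_inv_cancel, cj_one] at e5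
  have key2 : ∀ d ∈ D, d ≠ 1 → ∀ x ∈ cj Q (g⁻¹ * d * g), r * x = x * r := by
    intro d hd hd1 x hx
    set e := g⁻¹ * d * g with he
    have h5 : ∀ r' ∈ Xh S A, ∀ q ∈ Q, ((d * e⁻¹)⁻¹ * r' * (d * e⁻¹)) * q =
        q * ((d * e⁻¹)⁻¹ * r' * (d * e⁻¹)) := by
      intro r' hr' q hq
      unfold Xh at hr'
      induction hr' using Subgroup.closure_induction with
      | mem r' hr' =>
        obtain ⟨P, hP, hx⟩ := hr'
        exact key1 d hd hd1 P hP _ (cj_mem hx) q hq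
      | one => simp
      | mul x y _ _ hx hy =>
        have e6 : (d * e⁻¹)⁻¹ * (x * y) * (d * e⁻¹) = ((d * e⁻¹)⁻¹ * x * (d * e⁻¹)) *
            ((d * e⁻¹)⁻¹ * y * (d * e⁻¹)) := by group
        rw [e6, mul_assoc, hy, ← mul_assoc, hx, mul_assoc]
      | inv x _ hx =>
        have e6 : (d * e⁻¹)⁻¹ * x⁻¹ * (d * e⁻¹) = ((d * e⁻¹)⁻¹ * x * (d * e⁻¹))⁻¹ := by group
        rw [e6, inv_mul_eq_iff_eq_mul, ← mul_assoc, hx, mul_inv_cancel_right]
    have h6 : (d * e⁻¹)⁻¹ * r * (d * e⁻¹) = e * r * e⁻¹ := by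
      have h7 : (d * e⁻¹)⁻¹ * r * (d * e⁻¹) = e * (d⁻¹ * (r * d)) * e⁻¹ := by group
      rw [h7, hrD d hd, inv_mul_cancel_left]
    rw [mem_cj] at hx
    have h8 := h5 r hr _ hx
    rw [h6] at h8
    have h9 : r * x = e⁻¹ * (e * r * e⁻¹ * (e * x * e⁻¹)) * e := by group
    rw [h9, h8]; group
  have hQE : IsRankOnePair Q E := by
    have h5 := ro_cj (b.trip hQ0).pd g
    have h6 : cj (cj Q a⁻¹) g = Q := by
      rw [← hQg, cj_cj, inv_mul_cancel, cj_one]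
    rwa [h6] at h5
  obtain ⟨d₁, hd₁, d₂, hd₂, h11, h21, h12⟩ := h3
  intro x hx
  refine ro_gen (rankOne_symm hQE) (a := g⁻¹ * d₁ * g) (a' := g⁻¹ * d₂ * g) (cj_mem hd₁)
    (cj_mem hd₂) ?_ (key2 d₁ hd₁ h11) (key2 d₂ hd₂ h21) x (Subgroup.mem_sup_right hx)
  intro h5
  apply h12
  have : d₁ = g * (g⁻¹ * d₁ * g) * g⁻¹ := by group
  rw [this, h5]; group

end Cfsg.Agent.H3
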