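import Mathlib
import Cfsg.Prelude.Def_RootSubgroups
import Cfsg.Agent.H3.RootK
import Cfsg.Agent.H3.RootD

/-!
Degenerate classes of root subgroups: a class with two members with the same commuting members,
not commuting with each other, has members of order at most three.
-/

set_option autoImplicit false
open Cfsg Cfsg.Agent.H28

namespace Cfsg.Agent.H3

variable {G : Type*} [Group G] {A B C D E P Q R U V : Subgroup G} {S : Set (Subgroup G)}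

theorem n_spec (sp : IsSpecialRankOnePair A D) {a d : G} (h : BRel A D a d) :
    cj A (a⁻¹ * d * a⁻¹) = D ∧ cj D (a⁻¹ * d * a⁻¹) = A ∧
      (a⁻¹ * d * a⁻¹)⁻¹ * a * (a⁻¹ * d * a⁻¹) = d⁻¹ := by
  have h1 := h.inv sp
  have e1 := h1.n_conjA sp
  have e2 := h1.n_conjB sp
  have e3 := h1.n_a sp
  rw [inv_inv] at e1 e2 e3
  refine ⟨e1, e2, ?_⟩
  have e4 : (a⁻¹ * d * a⁻¹)⁻¹ * a * (a⁻¹ * d * a⁻¹) =
      ((a⁻¹ * d * a⁻¹)⁻¹ * a⁻¹ * (a⁻¹ * d * a⁻¹))⁻¹ := by group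
  rw [e4, e3]

/-- `y = a p a⁻²` -/
noncomputable def yy (D A P : Subgroup G) (c : G) : G :=
  tau D A c * tau D P c * (tau D A c)⁻¹ * (tau D A c)⁻¹

theorem yy_cj (b : BS S A C D) (hP : Eqv S A P) {c x : G} (hc : c ∈ C) (hx : x ∈ A) :
    yy D A (cj P x) c = x⁻¹ * yy D A P c * x := by
  have tA := b.trip (Eqv.refl b.hA)
  unfold yy
  rw [tau_cj b hP hc hx]
  have h1 : tau D A c * x = x * tau D A c := S_comm b.hS b.hA _ (tau_spec tA hc).1 x hx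
  set a := tau D A c
  have h2 : x⁻¹ * a = a * x⁻¹ := by
    rw [inv_mul_eq_iff_eq_mul, ← mul_assoc, ← h1, mul_inv_cancel_right]
  have h3 : a⁻¹ * x = x * a⁻¹ := by
    rw [inv_mul_eq_iff_eq_mul, ← mul_assoc, h1, mul_inv_cancel_right]
  calc a * (x⁻¹ * tau D P c * x) * a⁻¹ * a⁻¹ = (a * x⁻¹) * tau D P c * (x * a⁻¹) * a⁻¹ := by group
    _ = (x⁻¹ * a) * tau D P c * (a⁻¹ * x) * a⁻¹ := by rw [h2, h3]
    _ = x⁻¹ * (a * tau D P c * a⁻¹) * (x * a⁻¹) := by group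
    _ = x⁻¹ * (a * tau D P c * a⁻¹) * (a⁻¹ * x) := by rw [h3]
    _ = x⁻¹ * (a * tau D P c * a⁻¹ * a⁻¹) * x := by group

theorem yy_mem (b : BS S A C D) (hP : Eqv S A P) {c : G} (hc : c ∈ C) : yy D A P c ∈ Xh S A := by
  have rA := Eqv.refl b.hA
  have h1 := mem_Xh rA (tau_spec (b.trip rA) hc).1
  have h2 := mem_Xh hP (tau_spec (b.trip hP) hc).1
  exact mul_mem (mul_mem (mul_mem h1 h2) (inv_mem h1)) (inv_mem h1)

theorem yy_eqv (b : BS S A C D) (hP : Eqv S A P) {c x : G} (hc : c ∈ C) (hx : x ∈ A) :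
    Eqv S (cj D (x * yy D A P c)) (cj D x) := by
  have tA := b.trip (Eqv.refl b.hA)
  have ha := (tau_spec tA hc).1
  have h1 := (eqv_tau_mul b hP hc (mul_mem hx ha)).cj b.hS ((tau D A c)⁻¹ * (tau D A c)⁻¹)
  rw [cj_cj, cj_cj] at h1
  have e1 : x * tau D A c * tau D P c * ((tau D A c)⁻¹ * (tau D A c)⁻¹) = x * yy D A P c := by
    unfold yy; group
  have e2 : x * tau D A c * tau D A c * ((tau D A c)⁻¹ * (tau D A c)⁻¹) = x := by group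
  rwa [e1, e2] at h1

theorem n_P (b : BS S A C D) (hP : Eqv S A P) {c d : G} (h : BRel C D c d) :
    cj P ((tau D A c)⁻¹ * d * (tau D A c)⁻¹) = cj D (yy D A P c) := by
  have tA := b.trip (Eqv.refl b.hA)
  have ha := (tau_spec tA h.ha).1
  have hP' := eqv_cj_A b hP (inv_mem ha)
  have h1 := (tau_brel (b.trip hP') h).cjeq
  rw [tau_cj b hP h.ha (inv_mem ha)] at h1
  have h2 := congrArg (fun X => Cfsg.Agent.H3.cj X (tau D A c)⁻¹) h1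
  simp only [cj_cj] at h2
  rw [h2]
  unfold yy
  rw [inv_inv]

/-- elements of `X̂` acting trivially on classes centralize `D` -/
theorem wcent (b : BS S A C D) {w : G} (hw : w ∈ Xh S A) (hwD : cj D w = D)
    (h : ∀ x ∈ A, Eqv S (cj D (x * w)) (cj D x)) : ∀ d ∈ D, w * d = d * w := by
  intro d hd
  by_cases hd1 : d = 1
  · rw [hd1, mul_one, one_mul]
  obtain ⟨a, ha⟩ := brel_right b.hAD hd hd1
  have hd' : w⁻¹ * d * w ∈ D := by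
    have := cj_mem (g := w) hd
    rwa [hwD] at this
  have h1 : Eqv S (cj A (w⁻¹ * d * w)) (cj A d) := by
    have h2 := (Xh_norm b.hS b.hA hw).cj b.hS (w⁻¹ * d * w)
    have h3 : cj (cj A w) (w⁻¹ * d * w) = cj D (a * w) := by
      rw [← cj_cj D, ← ha.cjeq, cj_cj, cj_cj]
      congr 1
      group
    rw [h3] at h2
    rw [ha.cjeq]
    exact h2.trans (h a ha.ha)
  have h2 := eqv_D_inj b (Eqv.refl b.hA) hd' hd h1
  nth_rw 1 [← h2]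
  group

theorem yy_w (b : BS S A C D) (h3 : ∃ d₁ ∈ D, ∃ d₂ ∈ D, d₁ ≠ 1 ∧ d₂ ≠ 1 ∧ d₁ ≠ d₂)
    (hP : Eqv S A P) (hQ : Eqv S A Q) {c₁ c₂ : G} (h₁ : c₁ ∈ C) (h₂ : c₂ ∈ C)
    (heq : cj D (yy D A P c₁) = cj D (yy D A Q c₂)) :
    ∀ R, Eqv S A R → ∀ x ∈ R, (yy D A P c₁ * (yy D A Q c₂)⁻¹) * x =
      x * (yy D A P c₁ * (yy D A Q c₂)⁻¹) := by
  have hw := mul_mem (yy_mem b hP h₁) (inv_mem (yy_mem b hQ h₂))
  intro R hR
  apply lemZ b h3 hw _ hR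
  apply wcent b hw
  · rw [← cj_cj, heq, cj_cj, mul_inv_cancel, cj_one]
  · intro x hx
    have e1 := (yy_eqv b hP h₁ hx).cj b.hS (yy D A Q c₂)⁻¹
    have e2 := (yy_eqv b hQ h₂ hx).cj b.hS (yy D A Q c₂)⁻¹
    rw [cj_cj, mul_assoc] at e1
    rw [cj_cj, mul_inv_cancel_right] at e2
    exact e1.trans e2.symm

theorem keyN (b : BS S A C D) (hB : Eqv S A B) (hAB : A ≠ B)
    (h3 : ∃ d₁ ∈ D, ∃ d₂ ∈ D, d₁ ≠ 1 ∧ d₂ ≠ 1 ∧ d₁ ≠ d₂) {a₁ a₂ d₁ d₂ : G}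
    (h₁ : BRel A D a₁ d₁) (h₂ : BRel A D a₂ d₂) {x : G} (hx : x ∈ A) :
    (a₁⁻¹ * d₁ * a₁⁻¹)⁻¹ * x * (a₁⁻¹ * d₁ * a₁⁻¹) =
      (a₂⁻¹ * d₂ * a₂⁻¹)⁻¹ * x * (a₂⁻¹ * d₂ * a₂⁻¹) := by
  have rA := Eqv.refl b.hA
  have tA := b.trip rA
  have sp := tA.special
  obtain ⟨c₁, k₁⟩ := brel_right b.hCD h₁.hb h₁.hb1
  obtain ⟨c₂, k₂⟩ := brel_right b.hCD h₂.hb h₂.hb1
  have ea₁ : tau D A c₁ = a₁ := (tau_brel tA k₁).unique' b.hAD h₁
  have ea₂ : tau D A c₂ = a₂ := (tau_brel tA k₂).unique' b.hAD h₂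
  obtain ⟨s1, s2, -⟩ := n_spec sp h₁
  obtain ⟨s3, s4, -⟩ := n_spec sp h₂
  have hn₁ : ∀ P, Eqv S A P → cj P (a₁⁻¹ * d₁ * a₁⁻¹) = cj D (yy D A P c₁) := by
    intro P hP
    have := n_P b hP k₁
    rwa [ea₁] at this
  have hn₂ : ∀ P, Eqv S A P → cj P (a₂⁻¹ * d₂ * a₂⁻¹) = cj D (yy D A P c₂) := by
    intro P hP
    have := n_P b hP k₂
    rwa [ea₂] at this
  set n₁ := a₁⁻¹ * d₁ * a₁⁻¹ with hn₁def
  set n₂ := a₂⁻¹ * d₂ * a₂⁻¹ with hn₂def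
  set η := n₁ * n₂⁻¹ with hη
  have hAη : cj A η = A := by
    rw [hη, ← cj_cj, s1, ← s3, cj_cj, mul_inv_cancel, cj_one]
  have hAηi : cj A η⁻¹ = A := by
    nth_rw 1 [← hAη]; rw [cj_cj, mul_inv_cancel, cj_one]
  have hηP : ∀ P, Eqv S A P → Eqv S A (cj P η) := by
    intro P hP
    have := hP.cj b.hS η
    rwa [hAη] at this
  have hηP' : ∀ P, Eqv S A P → Eqv S A (cj P η⁻¹) := by
    intro P hP
    have := hP.cj b.hS η⁻¹
    rwa [hAηi] at this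
  have heq : ∀ P, Eqv S A P → cj D (yy D A P c₁) = cj D (yy D A (cj P η) c₂) := by
    intro P hP
    rw [← hn₁ P hP, ← hn₂ _ (hηP P hP), cj_cj, hη, inv_mul_cancel_right]
  have hW := fun P hP => yy_w b h3 hP (hηP P hP) k₁.ha k₂.ha (heq P hP)
  have hmain : ∀ P, Eqv S A P → cj (cj P x) η = cj (cj P η) x := by
    intro P hP
    by_contra hne
    have hPx := eqv_cj_A b hP hx
    have hQ₁ := hηP _ hPx
    have hQ₂ := eqv_cj_A b (hηP P hP) hx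
    have w1 := hW P hP
    have w2 := hW (cj P x) hPx
    have hy1 := yy_cj b hP k₁.ha hx
    have hy2 := yy_cj b (hηP P hP) k₂.ha hx
    set W := yy D A P c₁ * (yy D A (cj P η) c₂)⁻¹ with hWdef
    set W' := yy D A (cj P x) c₁ * (yy D A (cj (cj P x) η) c₂)⁻¹ with hW'def
    have e1 : yy D A P c₁ = W * yy D A (cj P η) c₂ := by rw [hWdef]; group
    have e2 : yy D A (cj P x) c₁ = W' * yy D A (cj (cj P x) η) c₂ := by rw [hW'def]; group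
    have e3 : W' * yy D A (cj (cj P x) η) c₂ = W * yy D A (cj (cj P η) x) c₂ := by
      have hWx : x⁻¹ * W = W * x⁻¹ := (w1 A rA x⁻¹ (inv_mem hx)).symm
      rw [← e2, hy1, e1, hy2]
      calc x⁻¹ * (W * yy D A (cj P η) c₂) * x = (x⁻¹ * W) * yy D A (cj P η) c₂ * x := by group
        _ = W * (x⁻¹ * yy D A (cj P η) c₂ * x) := by rw [hWx]; group
    have t1 := tau_spec (b.trip hQ₁) k₂.ha
    have t2 := tau_spec (b.trip hQ₂) k₂.ha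
    set T₁ := tau D (cj (cj P x) η) c₂ with hT₁
    set T₂ := tau D (cj (cj P η) x) c₂ with hT₂
    have e4 : W' * T₁ = W * T₂ := by
      unfold yy at e3
      rw [← hT₁, ← hT₂, ea₂] at e3
      have f1 : W' * a₂ = a₂ * W' := w2 A rA a₂ h₂.ha
      have f2 : W * a₂ = a₂ * W := w1 A rA a₂ h₂.ha
      have f3 : a₂ * (W' * T₁) * a₂⁻¹ * a₂⁻¹ = a₂ * (W * T₂) * a₂⁻¹ * a₂⁻¹ := by
        calc a₂ * (W' * T₁) * a₂⁻¹ * a₂⁻¹ = (a₂ * W') * T₁ * a₂⁻¹ * a₂⁻¹ := by group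
          _ = W' * (a₂ * T₁ * a₂⁻¹ * a₂⁻¹) := by rw [← f1]; group
          _ = W * (a₂ * T₂ * a₂⁻¹ * a₂⁻¹) := e3
          _ = (W * a₂) * T₂ * a₂⁻¹ * a₂⁻¹ := by group
          _ = a₂ * (W * T₂) * a₂⁻¹ * a₂⁻¹ := by rw [f2]; group
      exact mul_left_cancel (mul_right_cancel (mul_right_cancel f3))
    have hro := Eqv.ro b (hQ₁.symm.trans hQ₂) hne
    apply ro_comm_absurd hro t1.1 (tau_ne (b.trip hQ₁) k₂.ha k₂.ha1)
    intro q hq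
    have g1 : W * q = q * W := w1 _ hQ₂ q hq
    have g2 : W' * q = q * W' := w2 _ hQ₂ q hq
    have g3 : T₂ * q = q * T₂ := S_comm b.hS hQ₂.right T₂ t2.1 q hq
    have g4 : T₁ = W'⁻¹ * (W * T₂) := by rw [← e4]; group
    have g5 : W'⁻¹ * q = q * W'⁻¹ := by
      rw [inv_mul_eq_iff_eq_mul, ← mul_assoc, g2, mul_inv_cancel_right]
    rw [g4]
    calc W'⁻¹ * (W * T₂) * q = W'⁻¹ * (W * (T₂ * q)) := by group
      _ = W'⁻¹ * (W * q * T₂) := by rw [g3]; group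
      _ = W'⁻¹ * q * (W * T₂) := by rw [g1]; group
      _ = q * (W'⁻¹ * (W * T₂)) := by rw [g5]; group
  have h5 := hmain _ (hηP' B hB)
  have hu : η⁻¹ * x * η ∈ A := by
    have := cj_mem (g := η) hx
    rwa [hAη] at this
  have h6 : cj B (η⁻¹ * x * η) = cj B x := by
    have h7 : cj (cj (cj B η⁻¹) x) η = cj B (η⁻¹ * x * η) := by simp only [cj_cj]
    have h8 : cj (cj (cj B η⁻¹) η) x = cj B x := by
      rw [cj_cj B, inv_mul_cancel, cj_one]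
    rw [← h7, h5, h8]
  have h7 := ro_inj (Eqv.ro b hB hAB) hu hx h6
  have h8 : n₂ * n₁⁻¹ * x * n₁ * n₂⁻¹ = x := by
    nth_rw 2 [← h7]; rw [hη]; group
  have h9 : n₁⁻¹ * x * n₁ = n₂⁻¹ * (n₂ * n₁⁻¹ * x * n₁ * n₂⁻¹) * n₂ := by group
  rw [h9, h8]

theorem final_contra (sp : IsSpecialRankOnePair A D) (cA : Cm A A) (cD : Cm D D)
    (key : ∀ a₁ d₁ a₂ d₂, BRel A D a₁ d₁ → BRel A D a₂ d₂ → ∀ x ∈ A,
      (a₁⁻¹ * d₁ * a₁⁻¹)⁻¹ * x * (a₁⁻¹ * d₁ * a₁⁻¹) = (a₂⁻¹ * d₂ * a₂⁻¹)⁻¹ * x * (a₂⁻¹ * d₂ * a₂⁻¹))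
    {x y z : G} (hx : x ∈ A) (hy : y ∈ A) (hz : z ∈ A) (hx1 : x ≠ 1) (hy1 : y ≠ 1) (hz1 : z ≠ 1)
    (hxy : x ≠ y) (hxz : x ≠ z) (hyz : y ≠ z) : False := by
  have i2 : ∀ {x e a d : G}, BRel A D x e → BRel A D a d →
      (a⁻¹ * d * a⁻¹)⁻¹ * x * (a⁻¹ * d * a⁻¹) = e⁻¹ := by
    intro x e a d h1 h2
    rw [key a d x e h2 h1 x h1.ha]
    exact (n_spec sp h1).2.2
  have i3 : ∀ {x y e f g : G}, BRel A D x e → BRel A D y f → BRel A D (x * y) g →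
      g = e * f := by
    intro x y e f g h1 h2 h3
    have e1 := i2 h1 h1
    have e2 := i2 h2 h1
    have e3 := i2 h3 h1
    have e4 : g⁻¹ = e⁻¹ * f⁻¹ := by
      rw [← e1, ← e2, ← e3]; group
    have e5 : g = f * e := by
      have := congrArg (·⁻¹) e4
      simpa using this
    rw [e5]
    exact cD f h2.hb e h1.hb
  have i4 : ∀ {x e a d : G}, BRel A D x e → BRel A D a d →
      (a⁻¹ * d * a⁻¹)⁻¹ * e * (a⁻¹ * d * a⁻¹) = x⁻¹ := by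
    intro x e a d h1 h2
    have e1 := i2 h1 (h2.inv sp)
    rw [inv_inv] at e1
    have e2 : (a⁻¹ * d * a⁻¹) * x * (a⁻¹ * d * a⁻¹)⁻¹ = e⁻¹ := by
      rw [← e1]; group
    have e3 : e = ((a⁻¹ * d * a⁻¹) * x * (a⁻¹ * d * a⁻¹)⁻¹)⁻¹ := by rw [e2, inv_inv]
    nth_rw 1 [e3]
    group
  have i5 : ∀ {x e a d : G}, BRel A D x e → BRel A D a d →
      cj D (x * (a⁻¹ * d * a⁻¹)) = cj D x⁻¹ := by
    intro x e a d h1 h2
    rw [← cj_cj, ← h1.cjeq, cj_cj]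
    have e1 : e * (a⁻¹ * d * a⁻¹) = (a⁻¹ * d * a⁻¹) * ((a⁻¹ * d * a⁻¹)⁻¹ * e * (a⁻¹ * d * a⁻¹)) := by
      group
    rw [e1, ← cj_cj, (n_spec sp h2).1, i4 h1 h2]
  have i6 : ∀ {a : G}, a ∈ A → a ≠ 1 → x ≠ a → a = x * x := by
    intro a ha ha1 hxa
    obtain ⟨d, hd⟩ := brel_left sp.1 ha ha1
    obtain ⟨e, he⟩ := brel_left sp.1 hx hx1
    have hu : x * a⁻¹ ≠ 1 := fun h => hxa (mul_inv_eq_one.1 h)
    obtain ⟨f, hf⟩ := brel_left sp.1 (mul_mem hx (inv_mem ha)) hu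
    have e1 : e = f * d := i3 hf hd (by rw [inv_mul_cancel_right]; exact he)
    have e2 : cj D (x * a⁻¹ * d) = cj D x := by
      rw [← cj_cj, ← hf.cjeq, cj_cj, ← e1, he.cjeq]
    have e3 : cj D (x * a⁻¹) = cj D x⁻¹ := by
      rw [← i5 he hd]
      have : x * (a⁻¹ * d * a⁻¹) = (x * a⁻¹ * d) * a⁻¹ := by group
      rw [this, ← cj_cj D (x * a⁻¹ * d), e2, cj_cj]
    have e4 := ro_inj sp.1 (mul_mem hx (inv_mem ha)) (inv_mem hx) e3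
    have e5 : a = (x * a⁻¹)⁻¹ * x := by group
    rw [e5, e4, inv_inv]
  exact hyz ((i6 hy hy1 hxy).trans (i6 hz hz1 hxz).symm)

/-- three different nontrivial elements -/
def Thr (P : Subgroup G) : Prop :=
  ∃ x ∈ P, ∃ y ∈ P, ∃ z ∈ P, x ≠ 1 ∧ y ≠ 1 ∧ z ≠ 1 ∧ x ≠ y ∧ x ≠ z ∧ y ≠ z

theorem Thr.conj (h : Thr P) (g : G) : Thr (conjBy P g) := by
  obtain ⟨x, hx, y, hy, z, hz, h1, h2, h3, h4, h5, h6⟩ := h
  have inj : ∀ u v : G, g * u * g⁻¹ = g * v * g⁻¹ → u = v := by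
    intro u v huv
    exact mul_left_cancel (mul_right_cancel huv)
  have inj1 : ∀ u : G, g * u * g⁻¹ = 1 → u = 1 := by
    intro u hu
    apply inj; rw [hu]; group
  exact ⟨_, conjBy_normal_iff.2 hx, _, conjBy_normal_iff.2 hy, _, conjBy_normal_iff.2 hz,
    fun h => h1 (inj1 _ h), fun h => h2 (inj1 _ h), fun h => h3 (inj1 _ h),
    fun h => h4 (inj _ _ h), fun h => h5 (inj _ _ h), fun h => h6 (inj _ _ h)⟩

theorem exists_exit {α : Type*} {r : α → α → Prop} {T : Set α} {x y : α}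
    (h : Relation.ReflTransGen r x y) (hx : x ∈ T) (hy : y ∉ T) :
    ∃ u v, r u v ∧ u ∈ T ∧ v ∉ T := by
  induction h with
  | refl => exact absurd hx hy
  | @tail u v _ h2 ih =>
    by_cases hu : u ∈ T
    · exact ⟨u, v, h2, hu, hy⟩
    · exact ih hu

/-- bad pairs do not exist -/
theorem bad_absurd (hS : IsRootSubgroupClass S)
    (hdeg : ∀ P ∈ S, ∀ Q ∈ S, Cm P Q ∨ IsRankOnePair P Q) (hA : A ∈ S) (hB : B ∈ S)
    (hAB : IsRankOnePair A B) (hbad : ∀ F ∈ S, F ≠ A → Cm A F → ¬ IsRankOnePair F B)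
    (hC₀ : ∃ F ∈ S, F ≠ A ∧ Cm A F) (hT : Thr A) : False := by
  have hS0 := hS.1
  have hsub : Kp S A ⊆ Kp S B := by
    rintro F ⟨hF, hFA, hc⟩
    refine ⟨hF, ?_, ?_⟩
    · rintro rfl; exact ro_not_cm hAB hc
    · exact ((hdeg F hF B hB).resolve_right (hbad F hF hFA hc)).symm
  have hsup : Kp S B ⊆ Kp S A := by
    rintro F ⟨hF, hFB, hc⟩
    obtain ⟨x, hx, hx1, hx2⟩ := ro_two_transitive hAB (ro_right_mem hAB) mem_unip_self hAB.ne.symm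
    have h1 : conjBy F x ∈ Kp S A := by
      refine ⟨hS0.conj_mem F hF x, ?_, ?_⟩
      · intro h2
        apply hFB
        rw [← hx1] at h2
        exact conjBy_inj h2
      · have := hc.conj x
        rwa [hx1] at this
    have h2 := hsub h1
    have h3 : Cm (conjBy F x) (A ⊔ B) := h1.2.2.symm.sup_right h2.2.2.symm
    have h4 := h3.conj_eq (inv_mem hx)
    rw [conjBy_conjBy, inv_mul_cancel, conjBy_one] at h4
    rw [h4]; exact h1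
  have hBeq : Eqv S A B := ⟨hA, hB, Set.Subset.antisymm hsub hsup⟩
  obtain ⟨C₀, hC₀, hC₀A, hC₀c⟩ := hC₀
  have hF : ∀ E ∈ S, ∃ D ∈ S, IsRankOnePair E D := by
    intro E hE
    obtain ⟨g, rfl⟩ := hS.2.2 A hA E hE
    exact ⟨conjBy B g, hS0.conj_mem B hB g, ro_conj hAB g⟩
  obtain ⟨g, hg⟩ := hS.2.2 C₀ hC₀ A hA
  have hpath : Relation.ReflTransGen (FAdj S) C₀ A := by
    rw [hg]; exact reach_all_conj hS0 hF g C₀ hC₀
  obtain ⟨C, D, hCD, hCT, hDT⟩ := exists_exit (T := Kp S A) hpath ⟨hC₀, hC₀A, hC₀c⟩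
    (fun h => h.2.1 rfl)
  have hDA : D ≠ A := by
    rintro rfl
    exact ro_not_cm hCD.2.2 hCT.2.2.symm
  have hAD : IsRankOnePair A D := by
    rcases hdeg A hA D hCD.2.1 with h1 | h1
    · exact absurd ⟨hCD.2.1, hDA, h1⟩ hDT
    · exact h1
  have b : BS S A C D := ⟨hS0, hdeg, hA, hCD.1, hCD.2.1, hCT, hAD, hCD.2.2⟩
  have hTD : Thr D := by
    obtain ⟨g, rfl⟩ := hS.2.2 A hA D hCD.2.1
    exact hT.conj g
  obtain ⟨d₁, hd₁, d₂, hd₂, -, -, k1, k2, -, k3, -, -⟩ := hTD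
  obtain ⟨x, hx, y, hy, z, hz, h1, h2, h3, h4, h5, h6⟩ := hT
  exact final_contra (b.trip (Eqv.refl hA)).special (S_cm hS0 hA) (S_cm hS0 hCD.2.1)
    (fun a₁ d₁' a₂ d₂' r1 r2 x hx => keyN b hBeq hAB.ne ⟨d₁, hd₁, d₂, hd₂, k1, k2, k3⟩ r1 r2 hx)
    hx hy hz h1 h2 h3 h4 h5 h6

end Cfsg.Agent.H3
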