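import Mathlib
import Cfsg.Prelude.Def_RootSubgroups
import Cfsg.Agent.H3.RootL

/-!
Three different nontrivial elements.
-/

set_option autoImplicit false
open Cfsg Cfsg.Agent.H28

namespace Cfsg.Agent.H3

theorem thr_of_order {G : Type*} [Group G] {P : Subgroup G} {a : G} (ha : a ∈ P)
    (ho : 0 < orderOf a → 3 < orderOf a) : Thr P := by
  have key : ∀ n : ℕ, 0 < n → n ≤ 3 → a ^ n ≠ 1 := by
    intro n hn hn3 h
    have h1 := orderOf_dvd_of_pow_eq_one h
    have h2 := orderOf_pos_iff.2 (isOfFinOrder_iff_pow_eq_one.2 ⟨n, hn, h⟩)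
    have h3 := ho h2
    have h4 := Nat.le_of_dvd hn h1
    omega
  have k1 : a ≠ 1 := by simpa using key 1 (by norm_num) (by norm_num)
  have k2 := key 2 (by norm_num) (by norm_num)
  have k3 := key 3 (by norm_num) (by norm_num)
  refine ⟨a, ha, a ^ 2, pow_mem ha 2, a ^ 3, pow_mem ha 3, k1, k2, k3, ?_, ?_, ?_⟩
  · intro h
    apply k1
    rw [pow_two] at h
    exact (left_eq_mul.1 h)
  · intro h
    apply k2
    rw [pow_succ, eq_comm] at h
    exact (mul_eq_right.1 h)
  · intro h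
    apply k1
    rw [pow_succ a 2] at h
    exact (left_eq_mul.1 h)

theorem upper_mem {k : Type*} [Field k] (t : k) :
    (⟨!![1, t; 0, 1], by simp [Matrix.det_fin_two]⟩ : Matrix.SpecialLinearGroup (Fin 2) k) ∈
      upperUnipotentSL2 k := by
  apply Subgroup.subset_closure
  refine ⟨?_, ?_, ?_⟩
  · show (!![1, t; 0, 1] : Matrix (Fin 2) (Fin 2) k) 1 0 = 0
    simp
  · show (!![1, t; 0, 1] : Matrix (Fin 2) (Fin 2) k) 0 0 = 1
    simp
  · show (!![1, t; 0, 1] : Matrix (Fin 2) (Fin 2) k) 1 1 = 1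
    simp

theorem thr_of_sl2 {G : Type*} [Group G] {P : Subgroup G} (k : Type*) [Field k]
    (hcard : 3 < ENat.card k) (φ : Matrix.SpecialLinearGroup (Fin 2) k →* G)
    (hker : φ.ker ≤ Subgroup.center (Matrix.SpecialLinearGroup (Fin 2) k))
    (hP : ∀ x ∈ upperUnipotentSL2 k, φ x ∈ P) : Thr P := by
  classical
  let u : k → Matrix.SpecialLinearGroup (Fin 2) k := fun t => ⟨!![1, t; 0, 1], by
    simp [Matrix.det_fin_two]⟩
  have hmul : ∀ s t, u (s + t) = u s * u t := by
    intro s t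
    apply Subtype.ext
    show (!![1, s + t; 0, 1] : Matrix (Fin 2) (Fin 2) k) = !![1, s; 0, 1] * !![1, t; 0, 1]
    simp [Matrix.mul_fin_two, add_comm]
  have hu0 : ∀ t, φ (u t) = 1 → t = 0 := by
    intro t ht
    have h1 := hker ((MonoidHom.mem_ker).2 ht)
    rw [Subgroup.mem_center_iff] at h1
    let v : Matrix.SpecialLinearGroup (Fin 2) k := ⟨!![1, 0; 1, 1], by
      simp [Matrix.det_fin_two]⟩
    have h2 : (!![1, 0; 1, 1] : Matrix (Fin 2) (Fin 2) k) * !![1, t; 0, 1] =
        !![1, t; 0, 1] * !![1, 0; 1, 1] := congrArg Subtype.val (h1 v)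
    have h3 := congrFun (congrFun h2 0) 0
    simpa [Matrix.mul_fin_two] using h3
  have hinj : ∀ s t, φ (u s) = φ (u t) → s = t := by
    intro s t h
    have h1 : u (s - t) * u t = u s := by rw [← hmul, sub_add_cancel]
    have h2 : φ (u (s - t)) = 1 := by
      have := congrArg φ h1
      rw [map_mul, h] at this
      exact mul_eq_right.1 this
    exact sub_eq_zero.1 (hu0 _ h2)
  have h3 : 3 ≤ (({0} : Set k)ᶜ).encard := by
    have h1 := Set.encard_add_encard_compl ({0} : Set k)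
    rw [Set.encard_univ, Set.encard_singleton] at h1
    rw [← h1] at hcard
    by_contra hcon
    push Not at hcon
    have h2 : (({0} : Set k)ᶜ).encard ≤ 2 := by
      have : (3 : ℕ∞) = 2 + 1 := by norm_num
      rw [this] at hcon
      exact Order.le_of_lt_add_one hcon
    have h4 : (1 : ℕ∞) + (({0} : Set k)ᶜ).encard ≤ 1 + 2 := by gcongr
    have h5 : (1 : ℕ∞) + 2 = 3 := by norm_num
    rw [h5] at h4
    exact absurd hcard (not_lt.2 h4)
  obtain ⟨T, hT, hTc⟩ := Set.exists_subset_encard_eq h3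
  rw [Set.encard_eq_three] at hTc
  obtain ⟨x, y, z, hxy, hxz, hyz, rfl⟩ := hTc
  have hx : x ≠ 0 := hT (by simp)
  have hy : y ≠ 0 := hT (by simp)
  have hz : z ≠ 0 := hT (by simp)
  exact ⟨φ (u x), hP _ (upper_mem x), φ (u y), hP _ (upper_mem y), φ (u z), hP _ (upper_mem z),
    fun h => hx (hu0 _ h), fun h => hy (hu0 _ h), fun h => hz (hu0 _ h),
    fun h => hxy (hinj _ _ h), fun h => hxz (hinj _ _ h), fun h => hyz (hinj _ _ h)⟩

end Cfsg.Agent.H3
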