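import Mathlib
import Cfsg.Prelude.Def_RootSubgroups
import Cfsg.Agent.H3.RootL
import Cfsg.Agent.H3.RootI

/-!
Swapping two commuting members; opposite members in the commutator case.
-/

set_option autoImplicit false
open Cfsg Cfsg.Agent.H28

namespace Cfsg.Agent.H3

variable {G : Type*} [Group G] {A B C D E F M P Q R U V : Subgroup G} {S : Set (Subgroup G)}

theorem Trip.swap (t : Trip S P C D) : ∃ g : G, cj P g = C ∧ cj C g = P := by
  obtain ⟨p, hp, hp1⟩ := exists_ne_one_of_ne_bot (ro_ne_bot t.pd)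
  obtain ⟨d, hd⟩ := brel_left t.pd hp hp1
  obtain ⟨c, hc⟩ := brel_right t.cd hd.hb hd.hb1
  have i1 := (hd.inv t.special).cjeq
  have i2 := (hc.inv t.symm.special).cjeq
  refine ⟨d * p⁻¹ * c⁻¹ * d, ?_, ?_⟩
  · have h1 : cj P (d * p⁻¹ * c⁻¹ * d) = cj (cj (cj (cj P d) p⁻¹) c⁻¹) d := by simp only [cj_cj]
    rw [h1, hd.cjeq, cj_cj D, mul_inv_cancel, cj_one, ← i2, cj_cj, inv_mul_cancel, cj_one]
  · have h0 : p⁻¹ * c⁻¹ = c⁻¹ * p⁻¹ := t.cm p⁻¹ (inv_mem hp) c⁻¹ (inv_mem hc.ha)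
    have h1 : cj C (d * p⁻¹ * c⁻¹ * d) = cj (cj (cj (cj C d) c⁻¹) p⁻¹) d := by
      simp only [cj_cj]
      rw [mul_assoc d p⁻¹, h0, ← mul_assoc]
    rw [h1, hc.cjeq, cj_cj D, mul_inv_cancel, cj_one, ← i1, cj_cj, inv_mul_cancel, cj_one]

theorem cmem_iff : F ∈ centralizingMembers S A ↔ F ∈ S ∧ Cm A F := by
  constructor
  · rintro ⟨h1, h2⟩
    exact ⟨h1, fun a ha b hb => Subgroup.mem_centralizer_iff.1 (h2 hb) a ha⟩
  · rintro ⟨h1, h2⟩
    exact ⟨h1, fun b hb => Subgroup.mem_centralizer_iff.2 fun a ha => h2 a ha b hb⟩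

theorem cent_eq_of_swap (hS : IsRootSubgroupSet S) {g : G} (h1 : cj A g = C) (h2 : cj C g = A)
    (hsub : centralizingMembers S A ⊆ centralizingMembers S C) :
    centralizingMembers S A = centralizingMembers S C := by
  apply Set.Subset.antisymm hsub
  intro F hF
  rw [cmem_iff] at hF ⊢
  have h3 : cj F g ∈ centralizingMembers S A := by
    rw [cmem_iff]
    refine ⟨mem_S_cj hS hF.1 g, ?_⟩
    have := hF.2.cj g
    rwa [h2] at this
  have h4 := cmem_iff.1 (hsub h3)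
  refine ⟨hF.1, ?_⟩
  have h5 := h4.2
  rw [← h1] at h5
  exact cm_cj_iff.1 h5

theorem ro_eq_of_swap (hS : IsRootSubgroupSet S) {g : G} (h1 : cj A g = C) (h2 : cj C g = A)
    (hsub : rankOnePartners S A ⊆ rankOnePartners S C) :
    rankOnePartners S A = rankOnePartners S C := by
  apply Set.Subset.antisymm hsub
  rintro F ⟨hF, hro⟩
  have h3 : cj F g ∈ rankOnePartners S A := by
    refine ⟨mem_S_cj hS hF g, ?_⟩
    have := ro_cj hro g
    rwa [h2] at this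
  have h5 := (hsub h3).2
  rw [← h1] at h5
  exact ⟨hF, ro_cj_iff.1 h5⟩

/-- if `C, B` is in the commutator case, no rank one partner of `[C,B]` commutes with `C` -/
theorem comm_partner_not_cm (hS : IsRootSubgroupSet S) (hC : C ∈ S)
    (r : RootCommutatorCase S C B) (hD : D ∈ S) (hro : IsRankOnePair ⁅C, B⁆ D) : ¬ Cm C D := by
  intro hc
  obtain ⟨b, hb, hb1⟩ := exists_ne_one_of_ne_bot (fun h : B = ⊥ => rc_ne hS r (by
    rw [h, Subgroup.commutator_bot_right]))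
  obtain ⟨m, hm, hm1⟩ := exists_ne_one_of_ne_bot (rc_ne hS r)
  obtain ⟨c, hcC, hcm⟩ := rc_surj_right r hb hb1 hm
  -- c b c⁻¹ b⁻¹ = m
  have hc1 : c ≠ 1 := by
    rintro rfl
    apply hm1
    rw [← hcm]; group
  have hz : ∀ x ∈ ⁅C, B⁆ ⊔ D, c⁻¹ * x = x * c⁻¹ := by
    apply sup_induct
    · exact fun x hx => (rc_comm_left r hx (inv_mem hcC)).symm
    · exact fun x hx => hc c⁻¹ (inv_mem hcC) x hx
    · intro x y hx hy
      rw [← mul_assoc, hx, mul_assoc, hy, mul_assoc]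
  apply no_central_mul hS r.1 hD hro hz (inv_ne_one.2 hc1) hm hm1
  have h1 : c⁻¹ * m = b * c⁻¹ * b⁻¹ := by rw [← hcm]; group
  rw [h1]
  refine ⟨?_, conjBy C b, hS.conj_mem C hC b, conjBy_normal_iff.2 (inv_mem hcC)⟩
  intro h2
  apply hc1
  have : c⁻¹ = b⁻¹ * (b * c⁻¹ * b⁻¹) * b := by group
  rw [h2] at this
  have h3 : c⁻¹ = 1 := by rw [this]; group
  exact inv_eq_one.1 h3

/-- an opposite of `M` commuting with `A` -/
theorem opp_exists (hS : IsRootSubgroupSet S) (hF : ∀ A ∈ S, ∃ D ∈ S, IsRankOnePair A D)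
    (hA : A ∈ S) (hM : M ∈ S) (r : RootCommutatorCase S A M) :
    ∃ E ∈ S, IsRankOnePair M E ∧ Cm A E := by
  obtain ⟨D₀, hD₀, hAD₀⟩ := hF A hA
  have hlp : A ∈ linePartners S ⁅A, M⁆ := line_partner hS hA r hD₀ hAD₀
  obtain ⟨D₁, hD₁, hFD₁⟩ := hF _ r.1
  obtain ⟨W, hW, hsup, r1, r2, r3⟩ := line_full hS hF r.1 hD₁ hFD₁ hlp
  have hWle : W ≤ A ⊔ ⁅A, M⁆ := by
    rw [sup_comm A, ← hsup]; exact le_sup_right
  obtain ⟨E, hE, hEF⟩ : ∃ E ∈ S, ⁅E, ⁅A, M⁆⁆ = A := by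
    rcases line_members hS hA r hD₀ hAD₀ hW.1.1 hWle with h | ⟨m, hm, h⟩
    · exact absurd h hW.1.2.1
    · refine ⟨conjBy ⁅W, D₁⁆ m⁻¹, hS.conj_mem _ r1.1 _, ?_⟩
      have h1 : conjBy ⁅A, M⁆ m⁻¹ = ⁅A, M⁆ := conjBy_comm_right (inv_mem hm)
      nth_rw 1 [← h1]
      rw [← conjBy_commutator, r3, h, conjBy_conjBy, inv_mul_cancel, conjBy_one]
  exact ⟨E, hE, nm_ro hS hA hM hE r hEF, nm_cAD hS r hEF hA hE⟩

/-- `A, C` commuting, `B` a rank one partner of `A`, in the commutator case with `C` -/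
theorem not_rc_of_cent_le (hS : IsRootSubgroupSet S) (hF : ∀ A ∈ S, ∃ D ∈ S, IsRankOnePair A D)
    (hA : A ∈ S) (hC : C ∈ S) (hB : B ∈ S) (hAC : Cm A C)
    (hsub : centralizingMembers S A ⊆ centralizingMembers S C) (hAB : IsRankOnePair A B) :
    ¬ RootCommutatorCase S C B := by
  intro r
  rcases hS.pair _ r.1 A hA with h | h | h
  · -- `[C,B]` commutes with `A`
    have hMA : Cm ⁅C, B⁆ A := cm_iff.2 h
    have hNA : Cm (C ⊔ ⁅C, B⁆) A := Cm.sup_left hAC.symm hMA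
    have hnorm : ∀ x ∈ A ⊔ B, conjBy (C ⊔ ⁅C, B⁆) x = C ⊔ ⁅C, B⁆ := by
      refine norm_sup (fun x hx => hNA.conj_eq hx) (norm_of_le fun x hx => ?_)
      rw [conjBy_sup, conjBy_comm_right hx]
      exact sup_le (conjBy_le_of_comm (by rw [Subgroup.commutator_comm]) hx) le_sup_right
    obtain ⟨x, hx, hx'⟩ := ro_mem_right hAB
    have h1 := hNA.conj x
    rw [hnorm x hx, ← hx'] at h1
    exact rc_ne hS r (cm_iff.1 (h1.mono le_sup_left le_rfl))
  · exact comm_partner_not_cm hS hC r hA h hAC.symm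
  · obtain ⟨E, hE, h1, h2⟩ := opp_exists hS hF hA r.1 (rc_symm h)
    have h3 := cmem_iff.1 (hsub (cmem_iff.2 ⟨hE, h2⟩))
    exact comm_partner_not_cm hS hC r hE h1 h3.2

end Cfsg.Agent.H3
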