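import Cfsg.Agent.H3.TI

/-!
# A counting identity for T.I. sets (helper3)
-/

set_option autoImplicit false
set_option linter.style.haveILetI false
set_option linter.unusedSimpArgs false
set_option linter.unusedSectionVars false
set_option linter.unusedVariables false
open Cfsg
open scoped ComplexConjugate

namespace Cfsg.Agent.H3

universe u v w

theorem ti_sum {G : Type u} [Group G] [Fintype G] (H : Subgroup G) (S : Set G)
    (hTI : ∀ g : G, g ∉ H → ∀ s ∈ S, g * s * g⁻¹ ∉ S) (hinv : ∀ s ∈ S, s⁻¹ ∈ S)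
    (φ : H → ℂ) (hφS : ∀ x : H, (x : G) ∉ S → φ x = 0) (u v : G)
    (hu : orderOf u = 2) (hv : orderOf v = 2) :
    ∑ᶠ p ∈ {p : G × G | IsConj u p.1 ∧ IsConj v p.2}, indFun H φ (p.1 * p.2) =
      (H.index : ℂ) * ∑ᶠ p ∈ {p : H × H | IsConj u (p.1 : G) ∧ IsConj v (p.2 : G)},
        φ (p.1 * p.2) := by
  classical
  haveI := Fintype.ofFinite H
  have hH : (Nat.card H : ℂ) ≠ 0 := by exact_mod_cast Nat.card_pos.ne'
  rw [finsum_mem_eq_finite_toFinset_sum _ (Set.toFinite _),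
    finsum_mem_eq_finite_toFinset_sum _ (Set.toFinite _)]
  set A := (Set.toFinite {p : G × G | IsConj u p.1 ∧ IsConj v p.2}).toFinset with hA
  set B := (Set.toFinite {p : H × H | IsConj u (p.1 : G) ∧ IsConj v (p.2 : G)}).toFinset with hB
  have hmemA : ∀ p : G × G, p ∈ A ↔ IsConj u p.1 ∧ IsConj v p.2 := by
    intro p; rw [hA, Set.Finite.mem_toFinset]; rfl
  have hmemB : ∀ p : H × H, p ∈ B ↔ IsConj u (p.1 : G) ∧ IsConj v (p.2 : G) := by
    intro p; rw [hB, Set.Finite.mem_toFinset]; rfl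
  have sq : ∀ {a w : G}, orderOf w = 2 → IsConj w a → a * a = 1 := by
    intro a w hw h
    obtain ⟨c, hc⟩ := isConj_iff.mp h
    have : w * w = 1 := by rw [← pow_two, ← hw, pow_orderOf_eq_one]
    rw [← hc]
    calc c * w * c⁻¹ * (c * w * c⁻¹) = c * (w * w) * c⁻¹ := by group
      _ = 1 := by rw [this]; group
  -- the sum over `A` of the translates
  have h1 : ∀ g : G, ∑ p ∈ A, extendByZero H φ (g⁻¹ * (p.1 * p.2) * g) =
      ∑ p ∈ A, extendByZero H φ (p.1 * p.2) := by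
    intro g
    refine Finset.sum_nbij' (fun p => (g⁻¹ * p.1 * g, g⁻¹ * p.2 * g))
      (fun p => (g * p.1 * g⁻¹, g * p.2 * g⁻¹)) ?_ ?_ ?_ ?_ ?_
    · intro p hp
      rw [hmemA] at hp ⊢
      exact ⟨hp.1.trans (isConj_iff.mpr ⟨g⁻¹, by simp⟩), hp.2.trans (isConj_iff.mpr ⟨g⁻¹, by simp⟩)⟩
    · intro p hp
      rw [hmemA] at hp ⊢
      exact ⟨hp.1.trans (isConj_iff.mpr ⟨g, rfl⟩), hp.2.trans (isConj_iff.mpr ⟨g, rfl⟩)⟩
    · intro p _
      ext <;> simp [mul_assoc]
    · intro p _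
      ext <;> simp [mul_assoc]
    · intro p _
      congr 1
      simp only
      group
  have h2 : ∑ p ∈ A, indFun H φ (p.1 * p.2) =
      (H.index : ℂ) * ∑ p ∈ A, extendByZero H φ (p.1 * p.2) := by
    simp only [indFun]
    rw [← Finset.mul_sum, Finset.sum_comm, Finset.sum_congr rfl (fun g _ => h1 g),
      Finset.sum_const, Finset.card_univ, nsmul_eq_mul, ← mul_assoc]
    congr 1
    have h3 : (H.index : ℂ) * Nat.card H = Fintype.card G := by
      rw [← Nat.card_eq_fintype_card]; exact_mod_cast Subgroup.index_mul_card H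
    rw [← h3]
    field_simp
  rw [h2]
  congr 1
  -- only pairs in `H` contribute
  have key : ∀ p ∈ A, extendByZero H φ (p.1 * p.2) ≠ 0 → p.1 ∈ H ∧ p.2 ∈ H := by
    intro p hp hne
    rw [hmemA] at hp
    have hmem : p.1 * p.2 ∈ H := by
      by_contra hcon
      exact hne (extendByZero_not_mem H φ hcon)
    rw [extendByZero_mem H φ hmem] at hne
    have hS : p.1 * p.2 ∈ S := by
      by_contra hcon
      exact hne (hφS _ hcon)
    have ha : p.1 * p.1 = 1 := sq hu hp.1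
    have hb : p.2 * p.2 = 1 := sq hv hp.2
    have ha' : p.1⁻¹ = p.1 := inv_eq_of_mul_eq_one_right ha
    have hb' : p.2⁻¹ = p.2 := inv_eq_of_mul_eq_one_right hb
    have h3 : p.1 * (p.1 * p.2) * p.1⁻¹ = (p.1 * p.2)⁻¹ := by
      rw [mul_inv_rev, ha', hb', ← mul_assoc, ha, one_mul]
    have h4 : p.1 ∈ H := by
      by_contra hcon
      apply hTI p.1 hcon _ hS
      rw [h3]
      exact hinv _ hS
    exact ⟨h4, (Subgroup.mul_mem_cancel_left H h4).mp hmem⟩
  rw [← Finset.sum_filter_of_ne (p := fun p : G × G => p.1 ∈ H ∧ p.2 ∈ H) key]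
  symm
  refine Finset.sum_bij (fun (p : H × H) _ => ((p.1 : G), (p.2 : G))) ?_ ?_ ?_ ?_
  · intro p hp
    rw [Finset.mem_filter, hmemA]
    exact ⟨(hmemB p).mp hp, p.1.2, p.2.2⟩
  · intro p _ q _ h
    have h5 := Prod.mk.inj h
    exact Prod.ext (Subtype.ext h5.1) (Subtype.ext h5.2)
  · intro p hp
    rw [Finset.mem_filter, hmemA] at hp
    refine ⟨(⟨p.1, hp.2.1⟩, ⟨p.2, hp.2.2⟩), (hmemB _).mpr hp.1, rfl⟩
  · intro p _
    rw [← extendByZero_coe H φ (p.1 * p.2)]
    rfl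

end Cfsg.Agent.H3
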