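import Cfsg.Agent.H3.FeitCoh3

/-!
# Coherence for nilpotent TI subgroups (helper3)
-/

set_option autoImplicit false
set_option linter.style.haveILetI false
set_option linter.unusedSimpArgs false
set_option linter.unusedSectionVars false
set_option linter.unusedVariables false
open Cfsg
open scoped ComplexConjugate commutatorElement

namespace Cfsg.Agent.H3

universe u v w

section ti

variable {G : Type v} [Group G] [Fintype G] {L : Subgroup G} [Fintype L] {H : Subgroup G}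

theorem ti_normal (hN : Subgroup.normalizer (H : Set G) = L) : (H.subgroupOf L).Normal := by
  constructor
  intro n hn g
  have hg : (g : G) ∈ Subgroup.normalizer (H : Set G) := by rw [hN]; exact g.2
  exact (Subgroup.mem_set_normalizer_iff.1 hg n).1 hn

theorem ti_fpf (hC : ∀ k ∈ H, k ≠ 1 → Subgroup.centralizer ({k} : Set G) ≤ H) :
    ∀ x : L, x ∉ H.subgroupOf L → ∀ k ∈ H.subgroupOf L, x * k = k * x → k = 1 := by
  intro x hx k hk hxk
  by_contra hk1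
  apply hx
  exact hC k hk (fun h => hk1 (Subtype.ext h))
    (Subgroup.mem_centralizer_singleton_iff.2 (congrArg Subtype.val hxk))

theorem ti_bot (hHL : H ≤ L) (hH1 : H ≠ ⊥) : H.subgroupOf L ≠ ⊥ := by
  intro h
  apply hH1
  rw [Subgroup.subgroupOf_eq_bot] at h
  rw [eq_bot_iff]
  intro x hx
  exact (Subgroup.disjoint_def.1 h) hx (hHL hx)

theorem ti_top (hlt : H < L) : H.subgroupOf L ≠ ⊤ := by
  rw [Ne, Subgroup.subgroupOf_eq_top]
  exact not_le_of_gt hlt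

/-- the isometry for a TI Frobenius kernel -/
theorem ti_iso (hHL : H ≤ L) (hTI : IsTISubset (H : Set G))
    (hN : Subgroup.normalizer (H : Set G) = L)
    (hC : ∀ k ∈ H, k ≠ 1 → Subgroup.centralizer ({k} : Set G) ≤ H) :
    IsLinearIsometryOn (zspanOn (inducedIrrAbove (H.subgroupOf L) ⊥) ({1}ᶜ : Set L))
      (fun α : L → ℂ => indFun L α) ∧
      ∀ α ∈ zspanOn (inducedIrrAbove (H.subgroupOf L) ⊥) ({1}ᶜ : Set L), indFun L α 1 = 0 :=
  ti_isometry hHL hTI hN (ti_normal hN) (by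
    intro χ hχ
    refine ⟨irr_isChar (above_irr (ti_normal hN) (ti_fpf hC) χ hχ), fun x hx => ?_⟩
    obtain ⟨θ, hθ, -, -, rfl⟩ := hχ
    exact indFun_not_mem_normal (ti_normal hN) θ hx)

/-- the nonabelian odd case -/
theorem ti_odd (hlt : H < L) (hH1 : H ≠ ⊥) (hnil : Group.IsNilpotent H)
    (hTI : IsTISubset (H : Set G)) (hN : Subgroup.normalizer (H : Set G) = L)
    (hC : ∀ k ∈ H, k ≠ 1 → Subgroup.centralizer ({k} : Set G) ≤ H) (hodd : Odd (Nat.card H))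
    (hna : ¬ ∀ a ∈ H, ∀ b ∈ H, a * b = b * a) : Odd (Nat.card L) ∧
    ∃ τ₁, CohMap (inducedIrrAbove (H.subgroupOf L) ⊥) (fun α : L → ℂ => indFun L α) τ₁ := by
  have hcardK : Nat.card (H.subgroupOf L) = Nat.card H :=
    Nat.card_congr (Subgroup.subgroupOfEquivOfLe hlt.le).toEquiv
  have hKn := ti_normal hN
  have hfpf := ti_fpf (L := L) hC
  have h2 : ¬ 2 ∣ (H.subgroupOf L).index := by
    intro h
    apply hna
    have h1 := frob_comm_of_even hKn hfpf h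
    intro a ha b hb
    exact congrArg Subtype.val (h1 ⟨a, hlt.le ha⟩ ha ⟨b, hlt.le hb⟩ hb)
  have hoddL : Odd (Nat.card L) := by
    rw [← (H.subgroupOf L).card_mul_index, hcardK]
    exact hodd.mul (Nat.odd_iff.2 (by omega))
  exact ⟨hoddL, sibley_frob hoddL hlt.le hH1 hlt.ne hnil hKn hfpf hTI hN⟩

theorem ti_single (hHL : H ≤ L) (hN : Subgroup.normalizer (H : Set G) = L)
    (hC : ∀ k ∈ H, k ≠ 1 → Subgroup.centralizer ({k} : Set G) ≤ H) (hH1 : H ≠ ⊥)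
    (hone : ¬ ∃ χ ∈ inducedIrrAbove (H.subgroupOf L) ⊥,
      ∃ ψ ∈ inducedIrrAbove (H.subgroupOf L) ⊥, χ ≠ ψ) :
    Nat.card {χ : L → ℂ // IsIrrCharacter L χ ∧ ∃ x : L, (x : G) ∈ H ∧ χ x ≠ χ 1} = 1 ∧
      Nat.card H = (H.subgroupOf L).index + 1 ∧ ∃ q : ℕ, q.Prime ∧ IsElementaryAbelian q H := by
  have hKn := ti_normal hN
  have hfpf := ti_fpf (L := L) hC
  have hK1 := ti_bot hHL hH1
  have hcardK : Nat.card (H.subgroupOf L) = Nat.card H :=
    Nat.card_congr (Subgroup.subgroupOfEquivOfLe hHL).toEquiv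
  have hset : {χ : L → ℂ | IsIrrCharacter L χ ∧ ∃ x : L, (x : G) ∈ H ∧ χ x ≠ χ 1} =
      inducedIrrAbove (H.subgroupOf L) ⊥ := frob_set_eq hKn hfpf
  obtain ⟨h1, h2, q, hq, hqK⟩ := frob_single hKn hfpf hK1 hone
  have hset' : ∀ χ : L → ℂ, (IsIrrCharacter L χ ∧ ∃ x : L, (x : G) ∈ H ∧ χ x ≠ χ 1) ↔
    χ ∈ inducedIrrAbove (H.subgroupOf L) ⊥ := fun χ => by rw [← hset]; rfl
  refine ⟨?_, ?_, q, hq, ⟨⟨fun a b => ?_⟩⟩, ?_⟩
  · obtain ⟨χ, hχ⟩ := exists_above hKn (A := ⊥) inferInstance (bot_lt_iff_ne_bot.2 hK1)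
    rw [Nat.card_eq_one_iff_unique]
    refine ⟨⟨fun a b => Subtype.ext ?_⟩, ⟨⟨χ, (hset' χ).2 hχ⟩⟩⟩
    by_contra hne
    exact hone ⟨a, (hset' _).1 a.2, b, (hset' _).1 b.2, hne⟩
  · rw [← hcardK]; exact h1
  · have := h2 ⟨a, hHL a.2⟩ a.2 ⟨b, hHL b.2⟩ b.2
    exact Subtype.ext (congrArg (fun x : L => (x : G)) this)
  · intro a ha
    exact congrArg Subtype.val (hqK ⟨a, hHL ha⟩ ha)

theorem pgroup_exponent {p q : ℕ} (hp : p.Prime) (hq : q.Prime) (hH : IsPGroup p H) (hH1 : H ≠ ⊥)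
    (h : ∀ a ∈ H, a ^ q = 1) : q = p := by
  obtain ⟨⟨a, ha⟩, ha1⟩ := Subgroup.ne_bot_iff_exists_ne_one.1 hH1
  have h3 : a ^ q = 1 := h a ha
  obtain ⟨n, hn⟩ := hH ⟨a, ha⟩
  have h4 : a ^ p ^ n = 1 := congrArg Subtype.val hn
  by_contra hne
  apply ha1
  apply Subtype.ext
  show a = 1
  rw [← orderOf_eq_one_iff]
  exact Nat.eq_one_of_dvd_coprimes (((Nat.coprime_primes hq hp).2 hne).pow_right n)
    (orderOf_dvd_of_pow_eq_one h3) (orderOf_dvd_of_pow_eq_one h4)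

/-- S1533 -/
theorem ti_sylow_odd {p : ℕ} (hpp : p.Prime) (hp : p ≠ 2) (hPp : IsPGroup p H) (hlt : H < L)
    (hH1 : H ≠ ⊥) (hTI : IsTISubset (H : Set G)) (hN : Subgroup.normalizer (H : Set G) = L)
    (hC : ∀ k ∈ H, k ≠ 1 → Subgroup.centralizer ({k} : Set G) ≤ H) :
    (Nat.card {χ : L → ℂ // IsIrrCharacter L χ ∧ ∃ x : L, (x : G) ∈ H ∧ χ x ≠ χ 1} = 1 ∧
      IsElementaryAbelian p H ∧ Nat.card H = (H.subgroupOf L).index + 1) ∨
    IsCoherent {χ : L → ℂ | IsIrrCharacter L χ ∧ ∃ x : L, (x : G) ∈ H ∧ χ x ≠ χ 1} {1}ᶜ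
      (fun α => indFun L α) := by
  classical
  haveI : Fact p.Prime := ⟨hpp⟩
  have hHL : H ≤ L := hlt.le
  have hKn := ti_normal hN
  have hfpf := ti_fpf (L := L) hC
  have hK1 := ti_bot hHL hH1
  have hset : {χ : L → ℂ | IsIrrCharacter L χ ∧ ∃ x : L, (x : G) ∈ H ∧ χ x ≠ χ 1} =
      inducedIrrAbove (H.subgroupOf L) ⊥ := frob_set_eq hKn hfpf
  rw [hset]
  by_cases htwo : ∃ χ ∈ inducedIrrAbove (H.subgroupOf L) ⊥,
      ∃ ψ ∈ inducedIrrAbove (H.subgroupOf L) ⊥, χ ≠ ψ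
  · right
    refine ⟨zspanOn_nonzero (above_irr hKn hfpf) htwo, ?_⟩
    obtain ⟨h1, h2⟩ := ti_iso hHL hTI hN hC
    by_cases hab : ∀ a ∈ H, ∀ b ∈ H, a * b = b * a
    · obtain ⟨τ₁, h₁⟩ := feit_abelian hKn hfpf hK1 h1 h2 (fun a ha b hb =>
        Subtype.ext (hab a ha b hb))
      exact ⟨τ₁, h₁.1, h₁.2⟩
    · have hnil : Group.IsNilpotent H := hPp.isNilpotent
      have hodd : Odd (Nat.card H) := by
        obtain ⟨n, hn⟩ := IsPGroup.iff_card.1 hPp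
        rw [hn]
        exact (hpp.odd_of_ne_two hp).pow
      obtain ⟨-, τ₁, h₁⟩ := ti_odd hlt hH1 hnil hTI hN hC hodd hab
      exact ⟨τ₁, h₁.1, h₁.2⟩
  · left
    obtain ⟨h1, h2, q, hq, hqH⟩ := ti_single hHL hN hC hH1 htwo
    have hqp := pgroup_exponent hpp hq hPp hH1 hqH.2
    exact ⟨h1, hqp ▸ hqH, h2⟩

/-- S1532 -/
theorem ti_sylow_central {p : ℕ} (hpp : p.Prime) (hp : p ≠ 2) (hPp : IsPGroup p H) (hlt : H < L)
    (hab : ¬ ∀ a ∈ H, ∀ b ∈ H, a * b = b * a)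
    (hTI : IsTISubset (H : Set G)) (hN : Subgroup.normalizer (H : Set G) = L)
    (hC : ∀ k ∈ H, k ≠ 1 → Subgroup.centralizer ({k} : Set G) ≤ H) {Z : Subgroup G} (hZ1 : Z ≠ ⊥)
    (hZP : ∀ z ∈ Z, z ∈ H ∧ ∀ y ∈ H, z * y = y * z) (hZn : ∀ x ∈ L, ∀ z ∈ Z, x * z * x⁻¹ ∈ Z) :
    IsCoherent {χ : L → ℂ | IsIrrCharacter L χ ∧ ∃ z : L, (z : G) ∈ Z ∧ χ z ≠ χ 1} {1}ᶜ
      (fun α => indFun L α) := by
  classical
  haveI : Fact p.Prime := ⟨hpp⟩
  have hHL : H ≤ L := hlt.le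
  have hKn := ti_normal hN
  have hfpf := ti_fpf (L := L) hC
  have hP1 : H ≠ ⊥ := by
    intro h
    apply hZ1
    rw [eq_bot_iff, ← h]
    exact fun z hz => (hZP z hz).1
  have hK1 := ti_bot hHL hP1
  have hcardK : Nat.card (H.subgroupOf L) = Nat.card H :=
    Nat.card_congr (Subgroup.subgroupOfEquivOfLe hHL).toEquiv
  have hnil : Group.IsNilpotent H := hPp.isNilpotent
  have hodd : Odd (Nat.card H) := by
    obtain ⟨n, hn⟩ := IsPGroup.iff_card.1 hPp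
    rw [hn]
    exact (hpp.odd_of_ne_two hp).pow
  obtain ⟨hoddL, -⟩ := ti_odd hlt hP1 hnil hTI hN hC hodd hab
  set K : Subgroup L := H.subgroupOf L with hK
  have hnilK : Group.IsNilpotent K :=
    (Group.isNilpotent_congr (Subgroup.subgroupOfEquivOfLe hHL)).2 hnil
  haveI := hKn
  haveI := hnilK
  have hsolv : Group.IsSolvable K := inferInstance
  have hirr : ∀ χ ∈ inducedIrrAbove K ⊥, IsIrrCharacter L χ := above_irr hKn hfpf
  obtain ⟨R, hS⟩ := frob_system hHL hTI hN hKn hoddL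
    (exists_above hKn inferInstance (bot_lt_iff_ne_bot.2 hK1)) hirr
  have hK'K : ⁅K, K⁆ < K := by
    refine lt_of_le_of_ne (Subgroup.commutator_le_left K K) ?_
    intro h
    obtain ⟨n, hn⟩ := (Subgroup.isNilpotent_iff_lowerCentralSeries K).1 hnilK
    exact hK1 (le_bot_iff.1 (nil_step' (M := ⊥) (A := K) ⟨n, hn.le⟩ le_rfl le_rfl inferInstance hKn
      (by rw [h]; exact le_sup_left)))
  have hZ'n : (Z.subgroupOf L).Normal := ⟨fun n hn g => hZn g g.2 n hn⟩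
  have hZK : Z.subgroupOf L ≤ K := fun z hz => (hZP z hz).1
  have hZ'1 : Z.subgroupOf L ≠ ⊥ := ti_bot (fun z hz => hHL (hZP z hz).1) hZ1
  obtain ⟨τ₁, h₁⟩ := pf67 hKn hsolv hS hoddL hnilK hK'K (lt_top_iff_ne_top.2 (ti_top hlt))
    (frob_lift hKn hfpf inferInstance hK'K.le) hZ'n hZ'1 hZK (by
      intro z hz k hk
      exact Subtype.ext ((hZP z hz).2 k hk)) (fun χ hχ => hirr χ hχ.1)
  have hset : {χ : L → ℂ | IsIrrCharacter L χ ∧ ∃ z : L, (z : G) ∈ Z ∧ χ z ≠ χ 1} =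
      inducedIrrAbove K ⊥ \ inducedIrrAbove K (Z.subgroupOf L) :=
    (above_compl_eq hKn hZ'n hZK (fun χ hχ => hirr χ hχ.1)).symm
  rw [hset]
  refine ⟨?_, τ₁, h₁.1, h₁.2⟩
  obtain ⟨χ, hχ⟩ := exists_compl_above hKn hZ'n hZK hZ'1
  exact zspanOn_nonzero (fun χ hχ => hirr χ hχ.1) ⟨χ, hχ, conjFun χ, ⟨conj_above hχ.1, fun h =>
    hχ.2 (by rw [← conjFun_conjFun χ]; exact conj_above h)⟩, (hS.conj_ne χ hχ.1).symm⟩

/-- S1534 -/
theorem ti_nilpotent (hnil : Group.IsNilpotent H) (hlt : H < L)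
    (hH1 : H ≠ ⊥) (hTI : IsTISubset (H : Set G)) (hN : Subgroup.normalizer (H : Set G) = L)
    (hC : ∀ k ∈ H, k ≠ 1 → Subgroup.centralizer ({k} : Set G) ≤ H) :
    (Nat.card {χ : L → ℂ // IsIrrCharacter L χ ∧ ∃ x : L, (x : G) ∈ H ∧ χ x ≠ χ 1} = 1 ∧
      Nat.card H = (H.subgroupOf L).index + 1 ∧ ∃ p : ℕ, p.Prime ∧ IsElementaryAbelian p H) ∨
    (Nat.card H = 2 ^ (Nat.card G).factorization 2 ∧
      (⁅H, H⁆.subgroupOf H).index < 4 * (H.subgroupOf L).index ^ 2) ∨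
    IsCoherent {χ : L → ℂ | IsIrrCharacter L χ ∧ ∃ x : L, (x : G) ∈ H ∧ χ x ≠ χ 1} {1}ᶜ
      (fun α => indFun L α) := by
  classical
  have hHL : H ≤ L := hlt.le
  have hKn := ti_normal hN
  have hfpf := ti_fpf (L := L) hC
  have hK1 := ti_bot hHL hH1
  have hcardK : Nat.card (H.subgroupOf L) = Nat.card H :=
    Nat.card_congr (Subgroup.subgroupOfEquivOfLe hHL).toEquiv
  have hset : {χ : L → ℂ | IsIrrCharacter L χ ∧ ∃ x : L, (x : G) ∈ H ∧ χ x ≠ χ 1} =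
      inducedIrrAbove (H.subgroupOf L) ⊥ := frob_set_eq hKn hfpf
  rw [hset]
  by_cases htwo : ∃ χ ∈ inducedIrrAbove (H.subgroupOf L) ⊥,
      ∃ ψ ∈ inducedIrrAbove (H.subgroupOf L) ⊥, χ ≠ ψ
  swap
  · exact Or.inl (ti_single hHL hN hC hH1 htwo)
  right
  obtain ⟨h1, h2⟩ := ti_iso hHL hTI hN hC
  have hfin : (∃ τ₁, CohMap (inducedIrrAbove (H.subgroupOf L) ⊥)
      (fun α : L → ℂ => indFun L α) τ₁) →
      IsCoherent (inducedIrrAbove (H.subgroupOf L) ⊥) {1}ᶜ (fun α : L → ℂ => indFun L α) := by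
    rintro ⟨τ₁, h₁⟩
    exact ⟨zspanOn_nonzero (above_irr hKn hfpf) htwo, τ₁, h₁.1, h₁.2⟩
  by_cases hab : ∀ a ∈ H, ∀ b ∈ H, a * b = b * a
  · exact Or.inr (hfin (feit_abelian hKn hfpf hK1 h1 h2 (fun a ha b hb =>
      Subtype.ext (hab a ha b hb))))
  have hnilK : Group.IsNilpotent (H.subgroupOf L) :=
    (Group.isNilpotent_congr (Subgroup.subgroupOfEquivOfLe hHL)).2 hnil
  by_cases hnp : ∀ p m : ℕ, p.Prime → Nat.card (H.subgroupOf L) ≠ p ^ m
  · exact Or.inr (hfin (feit_mixed hKn hfpf hnilK h1 h2 hK1 hnp))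
  push Not at hnp
  obtain ⟨p, m, hp, hm⟩ := hnp
  rw [hcardK] at hm
  haveI : Fact p.Prime := ⟨hp⟩
  have hPp : IsPGroup p H := IsPGroup.of_card hm
  by_cases hp2 : p = 2
  swap
  · have hodd : Odd (Nat.card H) := by rw [hm]; exact (hp.odd_of_ne_two hp2).pow
    obtain ⟨-, h₁⟩ := ti_odd hlt hH1 hnil hTI hN hC hodd hab
    exact Or.inr (hfin h₁)
  subst hp2
  by_cases hbig : 4 * (H.subgroupOf L).index ^ 2 + 1 <
      (⁅H.subgroupOf L, H.subgroupOf L⁆ : Subgroup L).relIndex (H.subgroupOf L)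
  · exact Or.inr (hfin (feit_big hKn hfpf hnilK h1 h2 hK1 hbig))
  left
  -- the commutator index
  have hidx : (⁅H.subgroupOf L, H.subgroupOf L⁆ : Subgroup L).relIndex (H.subgroupOf L) =
      (⁅H, H⁆.subgroupOf H).index := by
    have e1 : (⁅H.subgroupOf L, H.subgroupOf L⁆ : Subgroup L).map L.subtype = ⁅H, H⁆ := by
      rw [Subgroup.map_commutator, Subgroup.subgroupOf_map_subtype, inf_eq_left.2 hHL]
    have e2 : (H.subgroupOf L).map L.subtype = H := by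
      rw [Subgroup.subgroupOf_map_subtype, inf_eq_left.2 hHL]
    have e3 := Subgroup.relIndex_map_map (H := ⁅H.subgroupOf L, H.subgroupOf L⁆)
      (K := H.subgroupOf L) L.subtype
    rw [e1, e2, Subgroup.ker_subtype, sup_bot_eq, sup_bot_eq] at e3
    exact e3.symm
  rw [hidx] at hbig
  have he2 : ¬ 2 ∣ (H.subgroupOf L).index := by
    intro h
    apply hab
    have h1 := frob_comm_of_even hKn hfpf h
    intro a ha b hb
    exact congrArg Subtype.val (h1 ⟨a, hHL ha⟩ ha ⟨b, hHL hb⟩ hb)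
  have he1 : (H.subgroupOf L).index ≠ 1 := fun h => ti_top hlt (Subgroup.index_eq_one.1 h)
  set e := (H.subgroupOf L).index with he
  obtain ⟨n, hn⟩ : ∃ n, (⁅H, H⁆.subgroupOf H).index = 2 ^ n := by
    have h5 : (⁅H, H⁆.subgroupOf H).index ∣ 2 ^ m := by
      rw [← hm]; exact Subgroup.index_dvd_card _
    obtain ⟨n, -, hn⟩ := (Nat.dvd_prime_pow Nat.prime_two).1 h5
    exact ⟨n, hn⟩
  refine ⟨?_, ?_⟩
  · -- `H` is a Sylow `2`-subgroup
    obtain ⟨Q, hQ⟩ := hPp.exists_le_sylow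
    have hQH : (Q : Subgroup G) = H := by
      refine le_antisymm ?_ hQ
      -- a nontrivial central element of `Q`
      have hQ1 : Nontrivial Q := by
        obtain ⟨⟨a, ha⟩, ha1⟩ := Subgroup.ne_bot_iff_exists_ne_one.1 hH1
        exact ⟨⟨⟨a, hQ ha⟩, 1, fun h => ha1 (Subtype.ext
          (show a = 1 from congrArg (fun x : Q => (x : G)) h))⟩⟩
      obtain ⟨⟨a, ha⟩, ha1⟩ := Subgroup.ne_bot_iff_exists_ne_one.1 hH1
      haveI := Q.isPGroup'.center_nontrivial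
      obtain ⟨⟨z, hz⟩, hz1⟩ := exists_ne (1 : Subgroup.center Q)
      have hz1' : (z : G) ≠ 1 := fun h => hz1 (Subtype.ext (Subtype.ext h))
      have hzH : (z : G) ∈ H := by
        refine hC a ha (fun h => ha1 (Subtype.ext h)) ?_
        rw [Subgroup.mem_centralizer_singleton_iff]
        have := Subgroup.mem_center_iff.1 hz ⟨a, hQ ha⟩
        exact (congrArg Subtype.val this).symm
      intro x hx
      refine hC z hzH hz1' ?_
      rw [Subgroup.mem_centralizer_singleton_iff]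
      exact congrArg Subtype.val (Subgroup.mem_center_iff.1 hz ⟨x, hx⟩)
    rw [← hQH]
    exact Q.card_eq_multiplicity
  · rw [hn] at hbig ⊢
    have he2' : e % 2 = 1 := by omega
    rcases Nat.eq_zero_or_pos n with h5 | h5
    · rw [h5, pow_zero]
      have h6 : 0 < e := by omega
      nlinarith
    · -- parity
      obtain ⟨k, hk⟩ : ∃ k, 2 ^ n = 2 * k := ⟨2 ^ (n - 1), by
        rw [← pow_succ']; congr 1; omega⟩
      have h6 : 2 ^ n ≠ 4 * e ^ 2 + 1 := by omega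
      have h7 : 2 ^ n ≠ 4 * e ^ 2 := by
        intro h7
        have h8 : e ∣ 2 ^ n := by rw [h7]; exact ⟨4 * e, by ring⟩
        obtain ⟨j, -, hj⟩ := (Nat.dvd_prime_pow Nat.prime_two).1 h8
        rcases Nat.eq_zero_or_pos j with h9 | h9
        · rw [h9, pow_zero] at hj; exact he1 hj
        · apply he2
          rw [hj]
          exact dvd_pow_self 2 (by omega)
      omega

end ti

end Cfsg.Agent.H3
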