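import Mathlib
import Cfsg.Prelude.Def_RootSubgroups
import Cfsg.Agent.H3.TvB

/-!
Transvections of `SL(V)` in characteristic 2.
-/

set_option autoImplicit false
open Cfsg Cfsg.Agent.H28 Matrix

namespace Cfsg.Agent.H3

section
variable {k : Type*} [Field k] [CharP k 2]

theorem two_zero : (2 : k) = 0 := CharTwo.two_eq_zero

/-- powers are combinations -/
theorem sl2_pow (g : Matrix (Fin 2) (Fin 2) k) {τ : k} (hg : g * g = τ • g + 1) (n : ℕ) :
    ∃ α β : k, g ^ n = α • g + β • 1 := by
  induction n with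
  | zero => exact ⟨0, 1, by simp⟩
  | succ n ih =>
    obtain ⟨α, β, h⟩ := ih
    refine ⟨α * τ + β, α, ?_⟩
    rw [pow_succ, h, add_mul, smul_mul_assoc, hg, smul_mul_assoc, one_mul, smul_add, smul_smul,
      add_smul]
    abel

theorem sl2_cayley (g : SpecialLinearGroup (Fin 2) k) :
    (g : Matrix (Fin 2) (Fin 2) k) * (g : Matrix (Fin 2) (Fin 2) k) =
      (g : Matrix (Fin 2) (Fin 2) k).trace • (g : Matrix (Fin 2) (Fin 2) k) + 1 := by
  have hdet := g.det_coe
  rw [Matrix.det_fin_two] at hdet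
  have h2 : (2 : k) = 0 := two_zero
  ext i j
  fin_cases i <;> fin_cases j <;>
    simp [Matrix.mul_apply, Fin.sum_univ_two, Matrix.trace_fin_two]
  · linear_combination (-1 : k) * hdet + ((g : Matrix (Fin 2) (Fin 2) k) 0 0 * (g : Matrix (Fin 2) (Fin 2) k) 1 1 - 1) * h2 * 0 - h2
  · ring
  · ring
  · linear_combination (-1 : k) * hdet - h2

/-- an element of `SL₂` with nonzero trace has odd order -/
theorem sl2_odd [Finite k] (g : SpecialLinearGroup (Fin 2) k)
    (hg : (g : Matrix (Fin 2) (Fin 2) k).trace ≠ 0) : Odd (orderOf g) := by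
  by_contra hodd
  rw [Nat.not_odd_iff_even] at hodd
  obtain ⟨m, hm⟩ := hodd
  have hpos : 0 < orderOf g := orderOf_pos g
  set u := g ^ m with hu
  have hu1 : u ≠ 1 := by
    intro h
    have := orderOf_dvd_of_pow_eq_one h
    have := Nat.le_of_dvd (by omega) this
    omega
  have hu2 : u * u = 1 := by
    rw [hu, ← pow_add, ← hm, pow_orderOf_eq_one]
  obtain ⟨α, β, hab⟩ := sl2_pow _ (sl2_cayley g) m
  have huc : (u : Matrix (Fin 2) (Fin 2) k) = α • (g : Matrix (Fin 2) (Fin 2) k) + β • 1 := by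
    rw [← hab, hu]; exact Matrix.SpecialLinearGroup.coe_pow g m
  have hu2' : (u : Matrix (Fin 2) (Fin 2) k) * (u : Matrix (Fin 2) (Fin 2) k) = 1 :=
    congrArg Subtype.val hu2
  have h2 : (2 : k) = 0 := two_zero
  set M := (g : Matrix (Fin 2) (Fin 2) k) with hM
  have h3 : (α ^ 2 * M.trace) • M + (α ^ 2 + β ^ 2) • (1 : Matrix (Fin 2) (Fin 2) k) = 1 := by
    have h4 : (α • M + β • (1 : Matrix (Fin 2) (Fin 2) k)) * (α • M + β • 1) =
        α ^ 2 • (M * M) + (2 * α * β) • M + β ^ 2 • (1 : Matrix (Fin 2) (Fin 2) k) := by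
      simp only [add_mul, mul_add, smul_mul_smul_comm, mul_one, one_mul]
      module
    rw [← huc, hu2', sl2_cayley g, h2, zero_mul, zero_mul, zero_smul, add_zero, smul_add, smul_smul,
      ← hM] at h4
    rw [add_smul, ← add_assoc]
    exact h4.symm
  by_cases hα : α = 0
  · rw [hα] at h3 huc
    rw [zero_smul, zero_add] at huc
    have h4 := congrFun (congrFun h3 0) 0
    simp at h4
    have h5 : β = 1 := by
      have h6 : (β - 1) ^ 2 = 0 := by
        have : (β - 1) ^ 2 = β ^ 2 - 2 * β + 1 := by ring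
        rw [this, h2]
        rcases h4 with h4 | h4 <;> subst h4 <;> linear_combination h2
      have := pow_eq_zero_iff (n := 2) (by norm_num) |>.1 h6
      exact sub_eq_zero.1 this
    apply hu1
    apply Subtype.ext
    rw [huc, h5, one_smul]; rfl
  · -- `g` scalar
    have hc : α ^ 2 * M.trace ≠ 0 := mul_ne_zero (pow_ne_zero 2 hα) hg
    have h01 := congrFun (congrFun h3 0) 0
    have h11 := congrFun (congrFun h3 1) 1
    simp at h01 h11
    apply hg
    have h5 : M 0 0 = M 1 1 := by
      have : (α ^ 2 * M.trace) * (M 0 0 - M 1 1) = 0 := by linear_combination h01 - h11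
      exact sub_eq_zero.1 ((mul_eq_zero.1 this).resolve_left hc)
    rw [Matrix.trace_fin_two, h5]
    linear_combination (M 1 1) * h2

end

end Cfsg.Agent.H3
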