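import Mathlib
import Cfsg.Prelude.Def_RootSubgroups
import Cfsg.Agent.H3.TvC

/-!
Transvections of `SL(V)` in characteristic 2: root involutions.
-/

set_option autoImplicit false
open Cfsg Cfsg.Agent.H28 Matrix

namespace Cfsg.Agent.H3

section
variable {ι : Type*} [Fintype ι] [DecidableEq ι] {k : Type*} [Field k]
  {p q r φ ψ χ : ι → k}

theorem opp_image (h1 : φ ⬝ᵥ p = 0) (h2 : ψ ⬝ᵥ q = 0) (h3 : φ ⬝ᵥ q ≠ 0) (h4 : ψ ⬝ᵥ p ≠ 0) {c d : k}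
    (hc : c ≠ 0) (hd : d ≠ 0) :
    ∃ f : SpecialLinearGroup (Fin 2) k →* SpecialLinearGroup ι k, Function.Injective f ∧
      ∃ s t : k, s ≠ 0 ∧ t ≠ 0 ∧ f (xU s) = tv h1 c ∧ f (yL t) = tv h2 d := by
  have e1 : ((φ ⬝ᵥ q)⁻¹ • φ) ⬝ᵥ p = 0 := by rw [smul_dotProduct, h1, smul_zero]
  have e2 : ((ψ ⬝ᵥ p)⁻¹ • ψ) ⬝ᵥ q = 0 := by rw [smul_dotProduct, h2, smul_zero]
  have e3 : ((φ ⬝ᵥ q)⁻¹ • φ) ⬝ᵥ q = 1 := by
    rw [smul_dotProduct, smul_eq_mul, inv_mul_cancel₀ h3]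
  have e4 : ((ψ ⬝ᵥ p)⁻¹ • ψ) ⬝ᵥ p = 1 := by
    rw [smul_dotProduct, smul_eq_mul, inv_mul_cancel₀ h4]
  have hPQ := rows_cols e1 e2 e3 e4
  refine ⟨_, embSL_inj hPQ, c * (φ ⬝ᵥ q), d * (ψ ⬝ᵥ p), mul_ne_zero hc h3, mul_ne_zero hd h4, ?_, ?_⟩
  · apply Subtype.ext
    show embM _ _ (xU (c * (φ ⬝ᵥ q)) : Matrix (Fin 2) (Fin 2) k) = 1 + c • vecMulVec p φ
    rw [emb_xU, vecMulVec_smul, smul_smul, mul_assoc, mul_inv_cancel₀ h3, mul_one]
  · apply Subtype.ext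
    show embM _ _ (yL (d * (ψ ⬝ᵥ p)) : Matrix (Fin 2) (Fin 2) k) = 1 + d • vecMulVec q ψ
    rw [emb_yL, vecMulVec_smul, smul_smul, mul_assoc, mul_inv_cancel₀ h4, mul_one]

theorem mem_root_iff {g : SpecialLinearGroup ι k} : g ∈ rootElements (Tset ι k) ↔
    ∃ (p φ : ι → k) (h : φ ⬝ᵥ p = 0) (c : k), p ≠ 0 ∧ φ ≠ 0 ∧ c ≠ 0 ∧ g = tv h c := by
  constructor
  · rintro ⟨h1, A, ⟨p, φ, hp, hφ, h, rfl⟩, hg⟩
    obtain ⟨c, rfl⟩ := (mem_Tg h).1 hg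
    refine ⟨p, φ, h, c, hp, hφ, ?_, rfl⟩
    rintro rfl
    exact h1 (tv_zero h)
  · rintro ⟨p, φ, h, c, hp, hφ, hc, rfl⟩
    refine ⟨?_, _, Tg_mem hp hφ h, (mem_Tg h).2 ⟨c, rfl⟩⟩
    intro h1
    rw [← tv_zero h] at h1
    exact hc (tv_inj h hp hφ h1)

theorem conj_of_odd {G : Type*} [Group G] {a b : G} (ha : a * a = 1) (hb : b * b = 1)
    (h : Odd (orderOf (a * b))) : ∃ g : G, b = g * a * g⁻¹ := by
  obtain ⟨m, hm⟩ := h
  have ha' : a⁻¹ = a := inv_eq_of_mul_eq_one_left ha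
  have hb' : b⁻¹ = b := inv_eq_of_mul_eq_one_left hb
  have h1 : (a * b) ^ (2 * m + 1) = 1 := by rw [← hm]; exact pow_orderOf_eq_one _
  have h2 : ∀ n : ℕ, a * ((a * b) ^ n)⁻¹ = (a * b) ^ n * a := by
    intro n
    induction n with
    | zero => simp
    | succ n ih =>
      calc a * ((a * b) ^ (n + 1))⁻¹ = a * (b⁻¹ * a⁻¹ * ((a * b) ^ n)⁻¹) := by
            rw [pow_succ, _root_.mul_inv_rev, _root_.mul_inv_rev]
        _ = (a * b) * (a * ((a * b) ^ n)⁻¹) := by rw [ha', hb']; group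
        _ = (a * b) * ((a * b) ^ n * a) := by rw [ih]
        _ = (a * b) ^ (n + 1) * a := by rw [pow_succ']; group
  refine ⟨(a * b) ^ m, ?_⟩
  rw [mul_assoc, h2, ← mul_assoc, ← pow_add]
  have h3 : (a * b) ^ (m + m) = (a * b)⁻¹ := by
    rw [eq_inv_iff_mul_eq_one, ← pow_succ, ← two_mul]; exact h1
  rw [h3, _root_.mul_inv_rev, inv_mul_cancel_right, hb']

section char2
variable [CharP k 2]

theorem tv_sq (h : φ ⬝ᵥ p = 0) (c : k) : tv h c * tv h c = 1 := by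
  rw [tv_mul, CharTwo.add_self_eq_zero, tv_zero]

theorem tv_inv' (h : φ ⬝ᵥ p = 0) (c : k) : (tv h c)⁻¹ = tv h c :=
  inv_eq_of_mul_eq_one_left (tv_sq h c)

theorem trace_xy (s t : k) : ((xU s * yL t : SpecialLinearGroup (Fin 2) k) :
    Matrix (Fin 2) (Fin 2) k).trace = s * t := by
  have h2 : (2 : k) = 0 := two_zero
  show (!![1, s; 0, 1] * !![1, 0; t, 1] : Matrix (Fin 2) (Fin 2) k).trace = s * t
  rw [Matrix.trace_fin_two]
  simp [Matrix.mul_apply, Fin.sum_univ_two]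
  linear_combination h2

theorem opp_odd [Finite k] (h1 : φ ⬝ᵥ p = 0) (h2 : ψ ⬝ᵥ q = 0) (h3 : φ ⬝ᵥ q ≠ 0) (h4 : ψ ⬝ᵥ p ≠ 0)
    {c d : k} (hc : c ≠ 0) (hd : d ≠ 0) : Odd (orderOf (tv h1 c * tv h2 d)) := by
  obtain ⟨f, hf, s, t, hs, ht, e1, e2⟩ := opp_image h1 h2 h3 h4 hc hd
  rw [← e1, ← e2, ← map_mul, orderOf_injective f hf]
  apply sl2_odd
  rw [trace_xy]
  exact mul_ne_zero hs ht

theorem half_order (h1 : φ ⬝ᵥ p = 0) (h2 : ψ ⬝ᵥ q = 0) (h3 : φ ⬝ᵥ q ≠ 0) (h4 : ψ ⬝ᵥ p = 0)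
    (hp : p ≠ 0) (hψ : ψ ≠ 0) {c d : k} (hc : c ≠ 0) (hd : d ≠ 0) :
    orderOf (tv h1 c * tv h2 d) = 4 ∧ (tv h1 c * tv h2 d) ^ 2 = tv h4 (c * d * (φ ⬝ᵥ q)) := by
  have e1 : (tv h1 c * tv h2 d) ^ 2 = tv h4 (c * d * (φ ⬝ᵥ q)) := by
    rw [← tv_comm h1 h2 h4, tv_inv', tv_inv', pow_two]
    simp only [mul_assoc]
  refine ⟨?_, e1⟩
  have e2 : tv h4 (c * d * (φ ⬝ᵥ q)) ≠ 1 := by
    intro h
    rw [← tv_zero h4] at h
    exact mul_ne_zero (mul_ne_zero hc hd) h3 (tv_inj h4 hp hψ h)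
  have := orderOf_eq_prime_pow (p := 2) (n := 1) (x := tv h1 c * tv h2 d) (by rw [pow_one, e1]; exact e2)
    (by rw [show 2 ^ (1 + 1) = 2 * 2 by norm_num, pow_mul, e1, pow_two, tv_sq])
  simpa using this

theorem root_cases [Finite k] {a b : SpecialLinearGroup ι k} (ha : a ∈ rootElements (Tset ι k))
    (hb : b ∈ rootElements (Tset ι k)) : a * b = b * a ∨
      (Odd (orderOf (a * b)) ∧ ∃ f : SpecialLinearGroup (Fin 2) k →* SpecialLinearGroup ι k,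
        Function.Injective f ∧ ∃ s t : k, s ≠ 0 ∧ t ≠ 0 ∧ f (xU s * yL t) = a * b) ∨
      (orderOf (a * b) = 4 ∧ (a * b) ^ 2 ∈ rootElements (Tset ι k)) := by
  obtain ⟨p, φ, h1, c, hp, hφ, hc, rfl⟩ := mem_root_iff.1 ha
  obtain ⟨q, ψ, h2, d, hq, hψ, hd, rfl⟩ := mem_root_iff.1 hb
  by_cases h3 : φ ⬝ᵥ q = 0
  · by_cases h4 : ψ ⬝ᵥ p = 0
    · left
      exact tg_cm h1 h2 h3 h4 _ ((mem_Tg h1).2 ⟨c, rfl⟩) _ ((mem_Tg h2).2 ⟨d, rfl⟩)
    · right; right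
      obtain ⟨e1, e2⟩ := half_order h2 h1 h4 h3 hq hφ hd hc
      have e3 : tv h1 c * tv h2 d = (tv h2 d * tv h1 c)⁻¹ := by
        rw [_root_.mul_inv_rev, tv_inv', tv_inv']
      refine ⟨by rw [e3, orderOf_inv, e1], ?_⟩
      rw [e3, inv_pow, e2, tv_inv']
      exact mem_root_iff.2 ⟨_, _, h3, _, hq, hφ, mul_ne_zero (mul_ne_zero hd hc) h4, rfl⟩
  · by_cases h4 : ψ ⬝ᵥ p = 0
    · right; right
      obtain ⟨e1, e2⟩ := half_order h1 h2 h3 h4 hp hψ hc hd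
      refine ⟨e1, ?_⟩
      rw [e2]
      exact mem_root_iff.2 ⟨_, _, h4, _, hp, hψ, mul_ne_zero (mul_ne_zero hc hd) h3, rfl⟩
    · right; left
      refine ⟨opp_odd h1 h2 h3 h4 hc hd, ?_⟩
      obtain ⟨f, hf, s, t, hs, ht, e1, e2⟩ := opp_image h1 h2 h3 h4 hc hd
      exact ⟨f, hf, s, t, hs, ht, by rw [map_mul, e1, e2]⟩

theorem root_sq {a : SpecialLinearGroup ι k} (ha : a ∈ rootElements (Tset ι k)) : a * a = 1 := by
  obtain ⟨p, φ, h1, c, hp, hφ, hc, rfl⟩ := mem_root_iff.1 ha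
  exact tv_sq h1 c

theorem root_inv_set [Finite k] [Nontrivial ι] : IsRootInvolutionSet (rootElements (Tset ι k)) where
  orderOf_eq := by
    intro d hd
    exact orderOf_eq_prime (by rw [pow_two, root_sq hd]) hd.1
  generates := by
    rw [eq_top_iff, ← Tset_generates]
    refine iSup₂_le fun A hA x hx => ?_
    by_cases hx1 : x = 1
    · rw [hx1]; exact one_mem _
    · exact Subgroup.subset_closure ⟨hx1, A, hA, hx⟩
  conj_mem := by
    rintro d ⟨hd1, A, hA, hd⟩ g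
    refine ⟨?_, conjBy A g, Tset_conj hA g, conjBy_normal_iff.2 hd⟩
    intro h
    apply hd1
    have : d = g⁻¹ * (g * d * g⁻¹) * g := by group
    rw [this, h]; group
  pair := by
    intro a ha b hb
    rcases root_cases ha hb with h | h | h
    · exact Or.inl h
    · exact Or.inr (Or.inl h.1)
    · exact Or.inr (Or.inr h)

theorem root_inv_class [Finite k] {a b : SpecialLinearGroup ι k}
    (ha : a ∈ rootElements (Tset ι k)) (hb : b ∈ rootElements (Tset ι k)) :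
    ∃ g, b = g * a * g⁻¹ := by
  have hac := root_sq ha
  have hbc := root_sq hb
  obtain ⟨p, φ, h1, c, hp, hφ, hc, rfl⟩ := mem_root_iff.1 ha
  obtain ⟨q, ψ, h2, d, hq, hψ, hd, rfl⟩ := mem_root_iff.1 hb
  obtain ⟨r, χ, h3, h4, h5, h6, h7⟩ := exists_opp hp hq hφ hψ h1 h2
  obtain ⟨g, hg⟩ := conj_of_odd hac (tv_sq h3 1) (opp_odd h1 h3 h4 h6 hc one_ne_zero)
  obtain ⟨g', hg'⟩ := conj_of_odd (tv_sq h3 1) hbc (opp_odd h3 h2 h7 h5 one_ne_zero hd)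
  refine ⟨g' * g, ?_⟩
  rw [hg', hg]; group

theorem root_three [Finite k] (hk : ∀ x : k, x = 0 ∨ x = 1) {a b : SpecialLinearGroup ι k}
    (ha : a ∈ rootElements (Tset ι k)) (hb : b ∈ rootElements (Tset ι k))
    (hodd : Odd (orderOf (a * b))) : orderOf (a * b) = 1 ∨ orderOf (a * b) = 3 := by
  rcases root_cases ha hb with h | ⟨-, f, hf, s, t, hs, ht, e⟩ | h
  · left
    have h1 : (a * b) ^ 2 = 1 := by
      rw [pow_two, mul_assoc, ← mul_assoc b, ← h, mul_assoc a b b, root_sq hb, mul_one, root_sq ha]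
    have h2 := orderOf_dvd_of_pow_eq_one h1
    rcases (Nat.dvd_prime Nat.prime_two).1 h2 with h3 | h3
    · exact h3
    · rw [h3] at hodd
      exact absurd hodd (by decide)
  · have h1 : (xU s * yL t) ^ 3 = 1 := by
      have hst : s * t = 1 := by
        rcases hk (s * t) with h2 | h2
        · exact absurd h2 (mul_ne_zero hs ht)
        · exact h2
      have h2 := sl2_cayley (xU s * yL t)
      rw [trace_xy, hst, one_smul] at h2
      apply Subtype.ext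
      have h3 : (((xU s * yL t) ^ 3 : SpecialLinearGroup (Fin 2) k) : Matrix (Fin 2) (Fin 2) k) =
          ((xU s * yL t : SpecialLinearGroup (Fin 2) k) : Matrix (Fin 2) (Fin 2) k) *
          (((xU s * yL t : SpecialLinearGroup (Fin 2) k) : Matrix (Fin 2) (Fin 2) k) *
          ((xU s * yL t : SpecialLinearGroup (Fin 2) k) : Matrix (Fin 2) (Fin 2) k)) := by
        rw [pow_succ', pow_two]; rfl
      rw [h3, h2, mul_add, h2, mul_one, add_right_comm]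
      have h4 : ((xU s * yL t : SpecialLinearGroup (Fin 2) k) : Matrix (Fin 2) (Fin 2) k) +
          ((xU s * yL t : SpecialLinearGroup (Fin 2) k) : Matrix (Fin 2) (Fin 2) k) = 0 := by
        ext i j
        rw [Matrix.add_apply, CharTwo.add_self_eq_zero]; rfl
      rw [h4, zero_add]; rfl
    have h2 : (a * b) ^ 3 = 1 := by rw [← e, ← map_pow, h1, map_one]
    have h3 := orderOf_dvd_of_pow_eq_one h2
    exact (Nat.dvd_prime Nat.prime_three).1 h3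
  · rw [h.1] at hodd
    exact absurd hodd (by decide)

end char2
end

end Cfsg.Agent.H3
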