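import Mathlib
import Cfsg.Prelude.Def_RootSubgroups
import Cfsg.Agent.H3.RootD
import Cfsg.Agent.H3.RootJ

/-!
Passing to the subgroup generated by a family.
-/

set_option autoImplicit false
open Cfsg Cfsg.Agent.H28

namespace Cfsg.Agent.H3

section
variable {G : Type*} [Group G] {A B C D K : Subgroup G} {S : Set (Subgroup G)}

theorem le_iSup_mem (hA : A ∈ S) : A ≤ (⨆ B ∈ S, B : Subgroup G) :=
  le_iSup₂_of_le (f := fun (B : Subgroup G) (_ : B ∈ S) => B) A hA le_rfl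

theorem sub_inj (hA : A ≤ K) (hB : B ≤ K) (h : A.subgroupOf K = B.subgroupOf K) : A = B := by
  rw [← subgroupOf_map_subtype_eq hA, h, subgroupOf_map_subtype_eq hB]

theorem Cm.sub (h : Cm A B) (K : Subgroup G) : Cm (A.subgroupOf K) (B.subgroupOf K) := by
  intro a ha b hb
  exact Subtype.ext (h a ha b hb)

theorem conj_sub (hA : A ≤ K) (g : K) : conjBy (A.subgroupOf K) g = (conjBy A (g : G)).subgroupOf K := by
  ext x
  rw [mem_conjBy, Subgroup.mem_subgroupOf, Subgroup.mem_subgroupOf, mem_conjBy]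
  rfl

theorem psl2_sub {k : Type*} [Field k] (hA : A ≤ K) (hB : B ≤ K) (h : IsPSL2PairOver k A B) :
    IsPSL2PairOver k (A.subgroupOf K) (B.subgroupOf K) := by
  obtain ⟨φ, h1, h2, h3, h4⟩ := h
  have hr : ∀ x, φ x ∈ K := by
    intro x
    have : φ x ∈ A ⊔ B := by rw [← h1]; exact ⟨x, rfl⟩
    exact (sup_le hA hB) this
  have hcomp : K.subtype.comp (φ.codRestrict K hr) = φ := by ext x; rfl
  refine ⟨φ.codRestrict K hr, ?_, ?_, ?_, ?_⟩
  · apply Subgroup.map_injective K.subtype_injective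
    rw [← MonoidHom.range_comp, hcomp, Subgroup.map_sup, subgroupOf_map_subtype_eq hA,
      subgroupOf_map_subtype_eq hB, h1]
  · intro x hx
    apply h2
    rw [MonoidHom.mem_ker] at hx ⊢
    exact congrArg Subtype.val hx
  · apply Subgroup.map_injective K.subtype_injective
    rw [Subgroup.map_map, hcomp, h3, subgroupOf_map_subtype_eq hA]
  · apply Subgroup.map_injective K.subtype_injective
    rw [Subgroup.map_map, hcomp, h4, subgroupOf_map_subtype_eq hB]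

theorem comm_le_of_le (hA : A ≤ K) (hB : B ≤ K) : ⁅A, B⁆ ≤ K := by
  rw [Subgroup.commutator_le]
  intro a ha b hb
  rw [commutatorElement_def]
  exact mul_mem (mul_mem (mul_mem (hA ha) (hB hb)) (inv_mem (hA ha))) (inv_mem (hB hb))

theorem commutator_sub (hA : A ≤ K) (hB : B ≤ K) :
    ⁅A.subgroupOf K, B.subgroupOf K⁆ = ⁅A, B⁆.subgroupOf K := by
  apply Subgroup.map_injective K.subtype_injective
  have hAB : ⁅A, B⁆ ≤ K := comm_le_of_le hA hB
  rw [Subgroup.map_commutator, subgroupOf_map_subtype_eq hA, subgroupOf_map_subtype_eq hB,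
    subgroupOf_map_subtype_eq hAB]

theorem rc_sub (hA : A ≤ K) (hB : B ≤ K) (h : RootCommutatorCase S A B) :
    RootCommutatorCase ((fun A : Subgroup G => A.subgroupOf K) '' S) (A.subgroupOf K) (B.subgroupOf K) := by
  have hAB : ⁅A, B⁆ ≤ K := comm_le_of_le hA hB
  refine ⟨?_, ?_, ?_, ?_⟩
  · rw [commutator_sub hA hB]; exact ⟨_, h.1, rfl⟩
  · intro c hc x hx
    rw [commutator_sub hA hB, Subgroup.mem_subgroupOf] at hc
    have hx' : (x : G) ∈ A ⊔ B := by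
      have h1 : (x : G) ∈ (A.subgroupOf K ⊔ B.subgroupOf K).map K.subtype := ⟨x, hx, rfl⟩
      rwa [Subgroup.map_sup, subgroupOf_map_subtype_eq hA, subgroupOf_map_subtype_eq hB] at h1
    exact Subtype.ext (h.2.1 c hc x hx')
  · intro a ha ha1
    have h1 := h.2.2.1 a ha (fun h => ha1 (Subtype.ext h))
    rw [commutator_sub hA hB]
    apply Subgroup.map_injective K.subtype_injective
    rw [subgroupOf_map_subtype_eq hAB, ← h1, MonoidHom.map_closure]
    congr 1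
    ext x
    constructor
    · rintro ⟨_, ⟨b, hb, rfl⟩, rfl⟩
      exact ⟨b, hb, rfl⟩
    · rintro ⟨b, hb, rfl⟩
      exact ⟨_, ⟨⟨b, hB hb⟩, hb, rfl⟩, rfl⟩
  · intro b hb hb1
    have h1 := h.2.2.2 b hb (fun h => hb1 (Subtype.ext h))
    rw [commutator_sub hA hB]
    apply Subgroup.map_injective K.subtype_injective
    rw [subgroupOf_map_subtype_eq hAB, ← h1, MonoidHom.map_closure]
    congr 1
    ext x
    constructor
    · rintro ⟨_, ⟨a, ha, rfl⟩, rfl⟩
      exact ⟨a, ha, rfl⟩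
    · rintro ⟨a, ha, rfl⟩
      exact ⟨_, ⟨⟨a, hA ha⟩, ha, rfl⟩, rfl⟩

/-- the family inside the subgroup it generates -/
theorem sub_root {k : Type*} [Field k] (hcm : ∀ A ∈ S, Cm A A) (hne : ∀ A ∈ S, A ≠ ⊥)
    (hconj : ∀ A ∈ S, ∀ g ∈ (⨆ B ∈ S, B : Subgroup G), conjBy A g ∈ S)
    (hpair : ∀ A ∈ S, ∀ B ∈ S, Cm A B ∨ (IsRankOnePair A B ∧ IsPSL2PairOver k A B) ∨
      RootCommutatorCase S A B) :
    IsKRootSubgroupSet k ((fun A : Subgroup G => A.subgroupOf (⨆ B ∈ S, B)) '' S) := by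
  set K : Subgroup G := ⨆ B ∈ S, B with hK
  have hle : ∀ A ∈ S, A ≤ K := fun A hA => le_iSup_mem hA
  have hroot : IsRootSubgroupSet ((fun A : Subgroup G => A.subgroupOf K) '' S) := by
    refine ⟨?_, ?_, ?_, ?_, ?_⟩
    · rintro _ ⟨A, hA, rfl⟩
      exact cm_self_comm ((hcm A hA).sub K)
    · rintro _ ⟨A, hA, rfl⟩ h
      apply hne A hA
      rw [← subgroupOf_map_subtype_eq (hle A hA)]
      simp only at h
      rw [h, Subgroup.map_bot]
    · apply Subgroup.map_injective K.subtype_injective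
      rw [← MonoidHom.range_eq_map, Subgroup.range_subtype]
      apply le_antisymm
      · rw [Subgroup.map_le_iff_le_comap]
        intro x _
        exact x.2
      · refine iSup₂_le fun A hA => ?_
        rw [← subgroupOf_map_subtype_eq (hle A hA)]
        apply Subgroup.map_mono
        exact le_iSup_mem (S := (fun A : Subgroup G => A.subgroupOf K) '' S) ⟨A, hA, rfl⟩
    · rintro _ ⟨A, hA, rfl⟩ g
      exact ⟨conjBy A (g : G), hconj A hA g g.2, (conj_sub (hle A hA) g).symm⟩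
    · rintro _ ⟨A, hA, rfl⟩ _ ⟨B, hB, rfl⟩
      rcases hpair A hA B hB with h | h | h
      · exact Or.inl (cm_iff.1 (h.sub K))
      · exact Or.inr (Or.inl ((ro_subgroupOf (hle A hA) (hle B hB)).2 h.1))
      · exact Or.inr (Or.inr (rc_sub (hle A hA) (hle B hB) h))
  refine ⟨hroot, ?_⟩
  rintro _ ⟨A, hA, rfl⟩ _ ⟨B, hB, rfl⟩ h
  rcases hpair A hA B hB with h1 | h1 | h1
  · exact absurd (h1.sub K) (ro_not_cm h)
  · exact psl2_sub (hle A hA) (hle B hB) h1.2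
  · exact absurd h (rc_not_ro hroot ⟨B, hB, rfl⟩ (rc_sub (hle A hA) (hle B hB) h1))

theorem sub_conn (hopp : ∀ A ∈ S, ∀ B ∈ S, Relation.ReflTransGen (FAdj S) A B) :
    IsConnectedFamily (FAdj ((fun A : Subgroup G => A.subgroupOf (⨆ B ∈ S, B)) '' S))
      ((fun A : Subgroup G => A.subgroupOf (⨆ B ∈ S, B)) '' S) := by
  rintro _ ⟨A, hA, rfl⟩ _ ⟨B, hB, rfl⟩
  have h := hopp A hA B hB
  induction h with
  | refl => exact Relation.ReflTransGen.refl
  | @tail C D _ h2 ih =>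
    exact (ih h2.1).tail ⟨⟨C, h2.1, rfl⟩, ⟨D, h2.2.1, rfl⟩,
      (ro_subgroupOf (le_iSup_mem h2.1) (le_iSup_mem h2.2.1)).2 h2.2.2⟩

theorem sub_class (hopp : ∀ A ∈ S, ∀ B ∈ S, ∃ C ∈ S, IsRankOnePair A C ∧ IsRankOnePair B C) :
    ∀ A₀ ∈ ((fun A : Subgroup G => A.subgroupOf (⨆ B ∈ S, B)) '' S),
      ∀ B₀ ∈ ((fun A : Subgroup G => A.subgroupOf (⨆ B ∈ S, B)) '' S),
      ∃ g, B₀ = conjBy A₀ g := by
  rintro _ ⟨A, hA, rfl⟩ _ ⟨B, hB, rfl⟩
  obtain ⟨C, hC, h1, h2⟩ := hopp A hA B hB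
  obtain ⟨x, hx, hx'⟩ := ro_mem_right h1
  obtain ⟨y, hy, hy'⟩ := ro_mem_right (rankOne_symm h2)
  have hxK : x ∈ (⨆ B ∈ S, B : Subgroup G) := sup_le (le_iSup_mem hA) (le_iSup_mem hC) hx
  have hyK : y ∈ (⨆ B ∈ S, B : Subgroup G) := sup_le (le_iSup_mem hC) (le_iSup_mem hB) hy
  refine ⟨⟨y * x, mul_mem hyK hxK⟩, ?_⟩
  rw [conj_sub (le_iSup_mem hA)]
  simp only
  rw [hy', hx', conjBy_conjBy]

theorem conn_of_opp (hopp : ∀ A ∈ S, ∀ B ∈ S, ∃ C ∈ S, IsRankOnePair A C ∧ IsRankOnePair B C) :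
    ∀ A ∈ S, ∀ B ∈ S, Relation.ReflTransGen (FAdj S) A B := by
  intro A hA B hB
  obtain ⟨C, hC, h1, h2⟩ := hopp A hA B hB
  exact (Relation.ReflTransGen.single ⟨hA, hC, h1⟩).tail ⟨hC, hB, rankOne_symm h2⟩

end

end Cfsg.Agent.H3
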