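import Mathlib
import Cfsg.Prelude.Def_RootSubgroups
import Cfsg.Agent.H3.TvB
import Cfsg.Agent.H3.TvE
import Cfsg.Agent.H5.UnitSimple2

/-!
Unitary transvection groups.
-/

set_option autoImplicit false
open Cfsg Cfsg.Agent.H28 Matrix Cfsg.Agent.H5 Cfsg.Agent.H5.FormData

namespace Cfsg.Agent.H3

variable {F : Type*} [Field F] {σ : F →+* F} {q n : ℕ}

/-- the form on `F^n` -/
local notation "h⟪" x ", " y "⟫" => hB (Fin _) σ x y

theorem exists_delta (hσ1 : σ ≠ RingHom.id F) (hσ2 : ∀ a, σ (σ a) = a) : ∃ δ : F, δ ≠ 0 ∧ σ δ = -δ := by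
  obtain ⟨a, ha⟩ : ∃ a, σ a ≠ a := by
    by_contra hcon
    push Not at hcon
    exact hσ1 (RingHom.ext hcon)
  exact ⟨a - σ a, sub_ne_zero.mpr (Ne.symm ha), by rw [map_sub, hσ2]; ring⟩

theorem su_cm {p r : Fin n → F} (hp : h⟪p, p⟫ = 0) (hr : h⟪r, r⟫ = 0) (hpr : h⟪p, r⟫ = 0)
    (hrp : h⟪r, p⟫ = 0) : Cm (suRoot σ q hp) (suRoot σ q hr) := by
  rintro A ⟨c, hc, hA⟩ B ⟨d, hd, hB'⟩
  apply sv_ext
  intro x
  rw [sv_mul, sv_mul, hA, hB', hA, hB', br_add, br_add, br_smul, br_smul, hpr, hrp]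
  module

theorem su_ne_bot (hσ : ∀ x, σ x = x ^ q) (hσ1 : σ ≠ RingHom.id F) (hσ2 : ∀ a, σ (σ a) = a)
    {p : Fin n → F} (hp0 : p ≠ 0) (hp : h⟪p, p⟫ = 0) : suRoot σ q hp ≠ ⊥ := by
  intro hbot
  obtain ⟨δ, hδ, hδ2⟩ := exists_delta hσ1 hσ2
  obtain ⟨A, -, hA⟩ := exists_suT (q := q) hσ hσ2 hp (c := δ) (by rw [hδ2]; ring)
  have h1 : A ∈ suRoot σ q hp := ⟨δ, by rw [hδ2]; ring, hA⟩
  rw [hbot, Subgroup.mem_bot] at h1
  apply hp0
  apply hB_nd (σ := σ)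
  intro y
  have h2 := hA y
  rw [h1, sv_one, left_eq_add, smul_eq_zero] at h2
  exact (mul_eq_zero.1 (h2.resolve_right hp0)).resolve_left hδ

theorem su_conj (hσ : ∀ x, σ x = x ^ q) (g : SU n F q) {p : Fin n → F} (hp : h⟪p, p⟫ = 0) :
    ∃ hp' : h⟪sv g p, sv g p⟫ = 0, conjBy (suRoot σ q hp) g = suRoot σ q hp' := by
  have hp' : h⟪sv g p, sv g p⟫ = 0 := by rw [sv_isom hσ, hp]
  refine ⟨hp', ?_⟩
  rw [suRoot_conj hσ g hp hp']
  rfl

/-- a common opposite -/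
theorem su_opp [Fintype F] (hσ1 : σ ≠ RingHom.id F) (hσ2 : ∀ a, σ (σ a) = a)
    {p r : Fin n → F} (hp0 : p ≠ 0) (hr0 : r ≠ 0) (hp : h⟪p, p⟫ = 0) (hr : h⟪r, r⟫ = 0) :
    ∃ s : Fin n → F, h⟪s, s⟫ = 0 ∧ h⟪p, s⟫ ≠ 0 ∧ h⟪r, s⟫ ≠ 0 := by
  have hS := hB_symm (ι := Fin n) hσ2
  obtain ⟨δ, hδ, hδ2⟩ := exists_delta hσ1 hσ2
  -- the trace trick
  have key : ∀ u v : Fin n → F, h⟪u, u⟫ = 0 → h⟪v, v⟫ = 0 → h⟪u, v⟫ ≠ 0 →
      ∃ a : F, a ≠ 0 ∧ h⟪u + a • v, u + a • v⟫ = 0 := by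
    intro u v hu hv huv
    refine ⟨δ / h⟪u, v⟫, div_ne_zero hδ huv, ?_⟩
    have h1 : σ (δ / h⟪u, v⟫) = -δ / h⟪v, u⟫ := by rw [map_div₀, hδ2, hS]
    have h2 : h⟪v, u⟫ ≠ 0 := by rw [← hS]; exact fun h => huv ((map_eq_zero σ).1 h)
    rw [bl_add, br_add, br_add, br_smul, bl_smul, bl_smul, br_smul, hu, hv, h1]
    field_simp
    ring
  by_cases hpr : h⟪p, r⟫ = 0
  · have hW := UW_top (F := F) (σ := σ) (n := n)
    obtain ⟨p', -, hp'p', hpp'⟩ := UW_partner hσ1 hσ2 hW (Submodule.mem_top (x := p)) hp0 hp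
    obtain ⟨r', -, hr'r', hrr'⟩ := UW_partner hσ1 hσ2 hW (Submodule.mem_top (x := r)) hr0 hr
    by_cases h1 : h⟪r, p'⟫ = 0
    · by_cases h2 : h⟪p, r'⟫ = 0
      · by_cases h3 : h⟪p', r'⟫ = 0
        · have h4 : h⟪r', p'⟫ = 0 := by rw [← hS, h3, map_zero]
          refine ⟨p' + r', ?_, ?_, ?_⟩
          · rw [bl_add, br_add, br_add, hp'p', h3, h4, hr'r']; ring
          · rw [br_add, hpp', h2, add_zero]; exact one_ne_zero
          · rw [br_add, hrr', h1, zero_add]; exact one_ne_zero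
        · obtain ⟨a, ha, ha'⟩ := key p' r' hp'p' hr'r' h3
          refine ⟨p' + a • r', ha', ?_, ?_⟩
          · rw [br_add, br_smul, hpp', h2, mul_zero, add_zero]; exact one_ne_zero
          · rw [br_add, br_smul, hrr', h1, zero_add, mul_one]; exact ha
      · exact ⟨r', hr'r', h2, by rw [hrr']; exact one_ne_zero⟩
    · exact ⟨p', hp'p', by rw [hpp']; exact one_ne_zero, h1⟩
  · obtain ⟨a, ha, ha'⟩ := key p r hp hr hpr
    refine ⟨p + a • r, ha', ?_, ?_⟩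
    · rw [br_add, br_smul, hp, zero_add]; exact mul_ne_zero ha hpr
    · rw [br_add, br_smul, hr, mul_zero, add_zero, ← hS]
      exact fun h => hpr ((map_eq_zero σ).1 h)

/-- the `SL₂` generated by two opposite transvection groups -/
theorem su_ro {L : Type*} [Field L] (ρ : L →+* F) (hρ : ∀ a, σ a = a ↔ ∃ t, ρ t = a)
    (hσ : ∀ x, σ x = x ^ q) (hσ1 : σ ≠ RingHom.id F) (hσ2 : ∀ a, σ (σ a) = a)
    {p r : Fin n → F} (hp : h⟪p, p⟫ = 0) (hr : h⟪r, r⟫ = 0) (hpr : h⟪p, r⟫ ≠ 0) :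
    IsRankOnePair (suRoot σ q hp) (suRoot σ q hr) ∧
      IsPSL2PairOver L (suRoot σ q hp) (suRoot σ q hr) := by
  have hS := hB_symm (ι := Fin n) hσ2
  obtain ⟨δ, hδ, hδ2⟩ := exists_delta hσ1 hσ2
  obtain ⟨β, hβ⟩ : ∃ β, β = δ⁻¹ / h⟪p, r⟫ := ⟨_, rfl⟩
  have hβ0 : β ≠ 0 := by rw [hβ]; exact div_ne_zero (inv_ne_zero hδ) hpr
  obtain ⟨s, hs⟩ : ∃ s, s = β • r := ⟨_, rfl⟩
  have hss : h⟪s, s⟫ = 0 := by rw [hs, bl_smul, br_smul, hr]; ring
  have hps : h⟪p, s⟫ = δ⁻¹ := by rw [hs, br_smul, hβ, div_mul_cancel₀ _ hpr]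
  have hsp : h⟪s, p⟫ = -δ⁻¹ := by rw [← hS, hps, map_inv₀, hδ2, inv_neg]
  have hsr : suRoot σ q hss = suRoot σ q hr := by
    subst hs
    exact suRoot_smul hσ2 hβ0 hr hss
  rw [← hsr]
  have hdot : ∀ x y : Fin n → F, (fun j => σ (x j)) ⬝ᵥ y = h⟪x, y⟫ := fun x y => rfl
  have e1 : (δ • fun j => σ (p j)) ⬝ᵥ p = 0 := by rw [smul_dotProduct, hdot, hp, smul_zero]
  have e2 : ((-δ) • fun j => σ (s j)) ⬝ᵥ s = 0 := by rw [smul_dotProduct, hdot, hss, smul_zero]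
  have e3 : (δ • fun j => σ (p j)) ⬝ᵥ s = 1 := by
    rw [smul_dotProduct, hdot, hps, smul_eq_mul, mul_inv_cancel₀ hδ]
  have e4 : ((-δ) • fun j => σ (s j)) ⬝ᵥ p = 1 := by
    rw [smul_dotProduct, hdot, hsp, smul_eq_mul, neg_mul_neg, mul_inv_cancel₀ hδ]
  have hPQ := rows_cols e1 e2 e3 e4
  set Φ : SpecialLinearGroup (Fin 2) L →* SpecialLinearGroup (Fin n) F :=
    (embSL _ _ hPQ).comp (SpecialLinearGroup.map ρ) with hΦ
  have hx : ∀ (t : L) (x : Fin n → F), (Φ (xU t) : Matrix (Fin n) (Fin n) F) *ᵥ x =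
      x + (ρ t * δ * h⟪p, x⟫) • p := by
    intro t x
    have h1 : (SpecialLinearGroup.map ρ (xU t) : SpecialLinearGroup (Fin 2) F) = xU (ρ t) := by
      ext i j; fin_cases i <;> fin_cases j <;> simp
    show embM _ _ ((SpecialLinearGroup.map ρ (xU t) : SpecialLinearGroup (Fin 2) F) :
      Matrix (Fin 2) (Fin 2) F) *ᵥ x = _
    rw [h1, emb_xU, add_mulVec, one_mulVec, smul_mulVec, vecMulVec_mulVec, smul_dotProduct, hdot]
    congr 1
    ext i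
    simp only [Pi.smul_apply, smul_eq_mul, MulOpposite.smul_eq_mul_unop, MulOpposite.unop_op]
    ring
  have hy : ∀ (t : L) (x : Fin n → F), (Φ (yL t) : Matrix (Fin n) (Fin n) F) *ᵥ x =
      x + (ρ t * (-δ) * h⟪s, x⟫) • s := by
    intro t x
    have h1 : (SpecialLinearGroup.map ρ (yL t) : SpecialLinearGroup (Fin 2) F) = yL (ρ t) := by
      ext i j; fin_cases i <;> fin_cases j <;> simp
    show embM _ _ ((SpecialLinearGroup.map ρ (yL t) : SpecialLinearGroup (Fin 2) F) :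
      Matrix (Fin 2) (Fin 2) F) *ᵥ x = _
    rw [h1, emb_yL, add_mulVec, one_mulVec, smul_mulVec, vecMulVec_mulVec, smul_dotProduct, hdot]
    congr 1
    ext i
    simp only [Pi.smul_apply, smul_eq_mul, MulOpposite.smul_eq_mul_unop, MulOpposite.unop_op]
    ring
  have hρσ : ∀ t, σ (ρ t) = ρ t := fun t => (hρ _).2 ⟨t, rfl⟩
  -- comparison with `suRoot`
  have hxA : ∀ t, ∃ A : SU n F q, A ∈ suRoot σ q hp ∧ (A : SpecialLinearGroup (Fin n) F) = Φ (xU t) := by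
    intro t
    have hc : ρ t * δ + σ (ρ t * δ) = 0 := by rw [map_mul, hρσ, hδ2]; ring
    obtain ⟨A, -, hA⟩ := exists_suT (q := q) hσ hσ2 hp hc
    refine ⟨A, ⟨_, hc, hA⟩, ?_⟩
    apply SL_ext
    apply Matrix.ext_of_mulVec_single
    intro i
    rw [hx]
    exact hA _
  have hyA : ∀ t, ∃ A : SU n F q, A ∈ suRoot σ q hss ∧ (A : SpecialLinearGroup (Fin n) F) = Φ (yL t) := by
    intro t
    have hc : ρ t * (-δ) + σ (ρ t * (-δ)) = 0 := by rw [map_mul, hρσ, map_neg, hδ2]; ring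
    obtain ⟨A, -, hA⟩ := exists_suT (q := q) hσ hσ2 hss hc
    refine ⟨A, ⟨_, hc, hA⟩, ?_⟩
    apply SL_ext
    apply Matrix.ext_of_mulVec_single
    intro i
    rw [hy]
    exact hA _
  have hmem : ∀ M, Φ M ∈ SU n F q := by
    have htop : (⊤ : Subgroup (SpecialLinearGroup (Fin 2) L)) ≤ (SU n F q).comap Φ := by
      rw [← lower_sup_upper]
      apply sup_le
      · intro M hM
        obtain ⟨t, rfl⟩ := mem_lower.1 hM
        obtain ⟨A, -, hA⟩ := hyA t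
        rw [Subgroup.mem_comap, ← hA]; exact A.2
      · intro M hM
        obtain ⟨t, rfl⟩ := mem_upper.1 hM
        obtain ⟨A, -, hA⟩ := hxA t
        rw [Subgroup.mem_comap, ← hA]; exact A.2
    exact fun M => htop (Subgroup.mem_top M)
  have hinj : Function.Injective (Φ.codRestrict (SU n F q) hmem) := by
    intro M N hMN
    have h1 : Φ M = Φ N := congrArg Subtype.val hMN
    have h2 := embSL_inj hPQ h1
    apply Subtype.ext
    ext i j
    have h3 := congrFun (congrFun (congrArg Subtype.val h2) i) j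
    exact ρ.injective h3
  apply pair_of_inj _ hinj
  · ext A
    rw [Subgroup.mem_map]
    constructor
    · rintro ⟨M, hM, rfl⟩
      obtain ⟨t, rfl⟩ := mem_upper.1 hM
      obtain ⟨A, hA, hA'⟩ := hxA t
      have : (Φ.codRestrict (SU n F q) hmem) (xU t) = A := Subtype.ext hA'.symm
      rw [this]; exact hA
    · rintro ⟨c, hc, hA⟩
      obtain ⟨t, ht⟩ : ∃ t, ρ t = c / δ := by
        rw [← hρ, map_div₀, hδ2]
        have : σ c = -c := by linear_combination hc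
        rw [this]; field_simp
      refine ⟨xU t, mem_upper.2 ⟨t, rfl⟩, ?_⟩
      apply sv_ext
      intro x
      rw [hA]
      show (Φ (xU t) : Matrix (Fin n) (Fin n) F) *ᵥ x = _
      rw [hx, ht, div_mul_cancel₀ _ hδ]
  · ext A
    rw [Subgroup.mem_map]
    constructor
    · rintro ⟨M, hM, rfl⟩
      obtain ⟨t, rfl⟩ := mem_lower.1 hM
      obtain ⟨A, hA, hA'⟩ := hyA t
      have : (Φ.codRestrict (SU n F q) hmem) (yL t) = A := Subtype.ext hA'.symm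
      rw [this]; exact hA
    · rintro ⟨c, hc, hA⟩
      obtain ⟨t, ht⟩ : ∃ t, ρ t = c / (-δ) := by
        rw [← hρ, map_div₀, map_neg, hδ2]
        have : σ c = -c := by linear_combination hc
        rw [this]; field_simp
      refine ⟨yL t, mem_lower.2 ⟨t, rfl⟩, ?_⟩
      apply sv_ext
      intro x
      rw [hA]
      show (Φ (yL t) : Matrix (Fin n) (Fin n) F) *ᵥ x = _
      rw [hy, ht, div_mul_cancel₀ _ (neg_ne_zero.2 hδ)]

end Cfsg.Agent.H3
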