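import Mathlib
import Cfsg.Prelude.Def_RootSubgroups
import Cfsg.Agent.H3.TvF

/-!
Unitary transvection groups: the fixed field and the family.
-/

set_option autoImplicit false
open Cfsg Cfsg.Agent.H28 Matrix Cfsg.Agent.H5 Cfsg.Agent.H5.FormData

namespace Cfsg.Agent.H3

variable {F : Type*} [Field F] {σ : F →+* F} {q n : ℕ}

/-- the form on `F^n` -/
local notation "h⟪" x ", " y "⟫" => hB (Fin _) σ x y

theorem card_fix [Fintype F] (hF : Fintype.card F = q ^ 2) (hσ : ∀ x, σ x = x ^ q)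
    (hσ1 : σ ≠ RingHom.id F) (hσ2 : ∀ a, σ (σ a) = a) :
    Nat.card (RingHom.eqLocusField σ (RingHom.id F)) = q := by
  classical
  have hq := q_pos hF
  obtain ⟨θ, hθ⟩ : ∃ a, σ a ≠ a := by
    by_contra hcon
    push Not at hcon
    exact hσ1 (RingHom.ext hcon)
  set K := RingHom.eqLocusField σ (RingHom.id F) with hK
  have hmem : ∀ a, a ∈ K ↔ σ a = a := fun a => Iff.rfl
  apply le_antisymm
  · have h2 : (Polynomial.X ^ q - Polynomial.X : Polynomial F) ≠ 0 :=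
      FiniteField.X_pow_card_sub_X_ne_zero F (by omega)
    have h3 := Polynomial.card_roots' (Polynomial.X ^ q - Polynomial.X : Polynomial F)
    rw [FiniteField.X_pow_card_sub_X_natDegree_eq F (by omega)] at h3
    have h4 : (Finset.univ.filter (fun a : F => a ∈ K)).val ≤
        (Polynomial.X ^ q - Polynomial.X : Polynomial F).roots := by
      rw [Multiset.le_iff_subset (Finset.nodup _)]
      intro x hx
      have hx' : x ∈ K := by simpa using hx
      rw [hmem, hσ] at hx'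
      rw [Polynomial.mem_roots h2]
      simp [hx']
    have h5 := Multiset.card_le_card h4
    have h6 : Nat.card K = (Finset.univ.filter (fun a : F => a ∈ K)).card := by
      rw [Nat.card_eq_fintype_card]
      exact Fintype.card_subtype _
    rw [h6]
    exact h5.trans h3
  · have hinj : Function.Injective (fun a : F => ((⟨a + σ a, by
        rw [hmem, map_add, hσ2, add_comm]⟩, ⟨a * θ + σ (a * θ), by
        rw [hmem, map_add, hσ2, add_comm]⟩) : K × K)) := by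
      intro a b hab
      have h1 := congrArg (fun x => (x.1 : F)) hab
      have h2 := congrArg (fun x => (x.2 : F)) hab
      simp only at h1 h2
      rw [map_mul, map_mul] at h2
      have h3 : (a - b) * (θ - σ θ) = 0 := by
        have : σ a - σ b = -(a - b) := by linear_combination h1
        linear_combination h2 - σ θ * this
      rcases mul_eq_zero.1 h3 with h4 | h4
      · exact sub_eq_zero.1 h4
      · exact absurd (sub_eq_zero.1 h4).symm hθ
    have h7 := Nat.card_le_card_of_injective _ hinj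
    rw [Nat.card_eq_fintype_card, hF, Nat.card_prod, ← pow_two] at h7
    exact (Nat.pow_le_pow_iff_left (by norm_num)).1 h7

/-- the set of unitary transvection groups -/
def Uset (σ : F →+* F) (q n : ℕ) : Set (Subgroup (SU n F q)) :=
  {A | ∃ (p : Fin n → F) (hp : hB (Fin n) σ p p = 0), p ≠ 0 ∧ A = suRoot σ q hp}

theorem suRoot_eq_closure (hσ : ∀ x, σ x = x ^ q) (hσ1 : σ ≠ RingHom.id F) (hσ2 : ∀ a, σ (σ a) = a)
    {p : Fin n → F} (hp0 : p ≠ 0) (hp : h⟪p, p⟫ = 0) :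
    Subgroup.closure {g : ↥(Cfsg.SU n F q) |
      (∀ v : Fin n → F, ∃ c : F, ((g : Matrix.SpecialLinearGroup (Fin n) F) :
        Matrix (Fin n) (Fin n) F) *ᵥ v = v + c • p) ∧
      ∀ v : Fin n → F, Cfsg.hermForm n F q v p = 0 →
        ((g : Matrix.SpecialLinearGroup (Fin n) F) : Matrix (Fin n) (Fin n) F) *ᵥ v = v} =
    suRoot σ q hp := by
  have hS := hB_symm (ι := Fin n) hσ2
  apply le_antisymm
  · rw [Subgroup.closure_le]
    rintro g ⟨h1, h2⟩
    obtain ⟨w, hw⟩ : ∃ w, h⟪p, w⟫ = 1 := by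
      by_contra hcon
      push Not at hcon
      apply hp0
      apply hB_nd (σ := σ)
      intro y
      by_contra hy
      exact hcon ((h⟪p, y⟫)⁻¹ • y) (by rw [br_smul, inv_mul_cancel₀ hy])
    obtain ⟨c, hc⟩ := h1 w
    change sv g w = w + c • p at hc
    have h2' : ∀ v, h⟪p, v⟫ = 0 → sv g v = v := by
      intro v hv
      exact h2 v (by rw [hermForm_eq hσ]; exact hv)
    have hwp : h⟪w, p⟫ = 1 := by rw [← hS, hw, map_one]
    refine ⟨c, ?_, ?_⟩
    · have h3 := sv_isom hσ g w w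
      rw [hc, bl_add, br_add, br_add, br_smul, bl_smul, bl_smul, br_smul, hp, hw, hwp] at h3
      linear_combination h3
    · intro x
      have h3 : x = h⟪p, x⟫ • w + (x - h⟪p, x⟫ • w) := by abel
      have h4 : sv g (x - h⟪p, x⟫ • w) = x - h⟪p, x⟫ • w := by
        apply h2'
        rw [br_sub, br_smul, hw]; ring
      conv_lhs => rw [h3]
      rw [sv_add, sv_smul, hc, h4]
      module
  · rintro g ⟨c, hc, hg⟩
    apply Subgroup.subset_closure
    refine ⟨fun v => ⟨c * h⟪p, v⟫, hg v⟩, fun v hv => ?_⟩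
    rw [hermForm_eq hσ] at hv
    change sv g v = v
    rw [hg, hv, mul_zero, zero_smul, add_zero]

theorem Uset_opp [Fintype F] {L : Type*} [Field L] (ρ : L →+* F) (hρ : ∀ a, σ a = a ↔ ∃ t, ρ t = a)
    (hσ : ∀ x, σ x = x ^ q) (hσ1 : σ ≠ RingHom.id F) (hσ2 : ∀ a, σ (σ a) = a) :
    ∀ A ∈ Uset σ q n, ∀ B ∈ Uset σ q n, ∃ C ∈ Uset σ q n, IsRankOnePair A C ∧ IsRankOnePair B C := by
  rintro A ⟨p, hp, hp0, rfl⟩ B ⟨r, hr, hr0, rfl⟩
  obtain ⟨s, hs, h1, h2⟩ := su_opp hσ1 hσ2 hp0 hr0 hp hr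
  refine ⟨suRoot σ q hs, ⟨s, hs, ?_, rfl⟩, (su_ro ρ hρ hσ hσ1 hσ2 hp hs h1).1,
    (su_ro ρ hρ hσ hσ1 hσ2 hr hs h2).1⟩
  rintro rfl
  exact h1 (map_zero _)

theorem Uset_pair [Fintype F] {L : Type*} [Field L] (ρ : L →+* F) (hρ : ∀ a, σ a = a ↔ ∃ t, ρ t = a)
    (hσ : ∀ x, σ x = x ^ q) (hσ1 : σ ≠ RingHom.id F) (hσ2 : ∀ a, σ (σ a) = a) :
    ∀ A ∈ Uset σ q n, ∀ B ∈ Uset σ q n, Cm A B ∨ (IsRankOnePair A B ∧ IsPSL2PairOver L A B) := by
  rintro A ⟨p, hp, hp0, rfl⟩ B ⟨r, hr, hr0, rfl⟩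
  have hS := hB_symm (ι := Fin n) hσ2
  by_cases h1 : h⟪p, r⟫ = 0
  · left
    exact su_cm hp hr h1 (by rw [← hS, h1, map_zero])
  · exact Or.inr (su_ro ρ hρ hσ hσ1 hσ2 hp hr h1)

theorem Uset_kroot [Fintype F] {L : Type*} [Field L] (ρ : L →+* F) (hρ : ∀ a, σ a = a ↔ ∃ t, ρ t = a)
    (hσ : ∀ x, σ x = x ^ q) (hσ1 : σ ≠ RingHom.id F) (hσ2 : ∀ a, σ (σ a) = a) :
    IsKRootSubgroupSet L ((fun A : Subgroup (SU n F q) => A.subgroupOf (⨆ B ∈ Uset σ q n, B)) ''
      Uset σ q n) := by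
  apply sub_root
  · rintro A ⟨p, hp, hp0, rfl⟩
    exact su_cm hp hp hp hp
  · rintro A ⟨p, hp, hp0, rfl⟩
    exact su_ne_bot hσ hσ1 hσ2 hp0 hp
  · rintro A ⟨p, hp, hp0, rfl⟩ g -
    obtain ⟨hp', h⟩ := su_conj hσ g hp
    refine ⟨_, hp', ?_, h⟩
    intro h0
    apply hp0
    rw [← sv_inv g p, h0]
    exact Matrix.mulVec_zero _
  · intro A hA B hB
    rcases Uset_pair ρ hρ hσ hσ1 hσ2 A hA B hB with h | h
    · exact Or.inl h
    · exact Or.inr (Or.inl h)

theorem Uset_deg [Fintype F] {L : Type*} [Field L] (ρ : L →+* F) (hρ : ∀ a, σ a = a ↔ ∃ t, ρ t = a)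
    (hσ : ∀ x, σ x = x ^ q) (hσ1 : σ ≠ RingHom.id F) (hσ2 : ∀ a, σ (σ a) = a) :
    IsDegenerateRootSet ((fun A : Subgroup (SU n F q) => A.subgroupOf (⨆ B ∈ Uset σ q n, B)) ''
      Uset σ q n) := by
  have hroot := (Uset_kroot (n := n) ρ hρ hσ hσ1 hσ2).1
  rintro _ ⟨A, hA, rfl⟩ _ ⟨B, hB, rfl⟩ hrc
  rcases Uset_pair ρ hρ hσ hσ1 hσ2 A hA B hB with h | h
  · exact rc_ne hroot hrc (cm_iff.1 (h.sub _))
  · exact rc_not_ro hroot ⟨B, hB, rfl⟩ hrc
      ((ro_subgroupOf (le_iSup_mem hA) (le_iSup_mem hB)).2 h.1)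

end Cfsg.Agent.H3
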