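import Mathlib
import Cfsg.Prelude.Def_RootSubgroups
import Cfsg.Agent.H3.TvA
import Cfsg.Agent.H3.TvE
import Cfsg.Agent.H5.OrthForms

/-!
Siegel transvection groups.
-/

set_option autoImplicit false
open Cfsg Cfsg.Agent.H28 Matrix Cfsg.Agent.H5

namespace Cfsg.Agent.H3

variable {F : Type*} [Field F] {V : Type*} [AddCommGroup V] [Module F V]
  {Q : QuadraticForm F V} {H : Type*} [Group H]

/-- `Q` vanishes on `⟨p, r⟩` -/
structure Sing (Q : QuadraticForm F V) (p r : V) : Prop where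
  hp : Q p = 0
  hr : Q r = 0
  hpr : pB Q p r = 0

theorem Sing.symm {p r : V} (h : Sing Q p r) : Sing Q r p := ⟨h.hr, h.hp, by rw [pB_symm, h.hpr]⟩

theorem pB_self_zero {p : V} (h : Q p = 0) : pB Q p p = 0 := by rw [pB_self, h, mul_zero]

/-- `x ↦ B(p,x) r - B(r,x) p` -/
noncomputable def NN (Q : QuadraticForm F V) (p r : V) : V →ₗ[F] V :=
  (pB Q p).smulRight r - (pB Q r).smulRight p

theorem NN_apply (p r x : V) : NN Q p r x = pB Q p x • r - pB Q r x • p := rfl

theorem NN_basis (p r : V) (a b c d : F) (x : V) :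
    NN Q (a • p + b • r) (c • p + d • r) x = (a * d - b * c) • NN Q p r x := by
  rw [NN_apply, NN_apply, pl_add, pl_add, pl_smul, pl_smul, pl_smul, pl_smul]
  module

theorem Sing.pN {p r : V} (h : Sing Q p r) (x : V) : pB Q p (NN Q p r x) = 0 := by
  rw [NN_apply, pr_sub, pr_smul, pr_smul, h.hpr, pB_self_zero h.hp]; ring

theorem Sing.rN {p r : V} (h : Sing Q p r) (x : V) : pB Q r (NN Q p r x) = 0 := by
  rw [NN_apply, pr_sub, pr_smul, pr_smul, h.symm.hpr, pB_self_zero h.hr]; ring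

theorem Sing.NN_NN {p r : V} (h : Sing Q p r) (x : V) : NN Q p r (NN Q p r x) = 0 := by
  rw [NN_apply, h.pN, h.rN, zero_smul, zero_smul, sub_zero]

theorem Sing.q_add {p r : V} (h : Sing Q p r) (a b : F) : Q (a • p + b • r) = 0 := by
  rw [H5.q_add, q_smul, q_smul, h.hp, h.hr, pl_smul, pr_smul, h.hpr]; ring

theorem Sing.q_inv {p r : V} (h : Sing Q p r) (c : F) (x : V) : Q (x + c • NN Q p r x) = Q x := by
  have h1 : Q (NN Q p r x) = 0 := by
    have : NN Q p r x = (-pB Q r x) • p + (pB Q p x) • r := by rw [NN_apply]; module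
    rw [this, h.q_add]
  have h2 : pB Q x (NN Q p r x) = 0 := by
    rw [NN_apply, pr_sub, pr_smul, pr_smul, pB_symm Q x r, pB_symm Q x p]; ring
  rw [H5.q_add, q_smul, h1, pr_smul, h2]; ring

section e
variable (e : H ≃* OG Q)

theorem act_mul (g h : H) (x : V) : (e (g * h)) x = (e g) ((e h) x) := by
  rw [map_mul]; rfl

theorem act_one (x : V) : (e 1) x = x := by rw [map_one]; rfl

theorem act_inv (g : H) (x : V) : (e g⁻¹) ((e g) x) = x := by
  rw [← act_mul, inv_mul_cancel, act_one]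

theorem act_ext {g h : H} (hgh : ∀ x, (e g) x = (e h) x) : g = h := e.injective (og_ext hgh)

theorem exists_sg [FiniteDimensional F V] (hnd : ND Q) {p r : V} (h : Sing Q p r) (c : F) :
    ∃ g : H, ∀ x, (e g) x = x + c • NN Q p r x := by
  refine ⟨e.symm (mkOG hnd (LinearMap.id + c • NN Q p r) (fun x => h.q_inv c x)), fun x => ?_⟩
  rw [MulEquiv.apply_symm_apply]; rfl

/-- the Siegel transvection group -/
def Sg (p r : V) : Subgroup H := Subgroup.closure {g | ∃ c : F, ∀ x, (e g) x = x + c • NN Q p r x}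

theorem mem_Sg {p r : V} (h : Sing Q p r) {g : H} :
    g ∈ Sg e p r ↔ ∃ c : F, ∀ x, (e g) x = x + c • NN Q p r x := by
  constructor
  · intro hg
    induction hg using Subgroup.closure_induction with
    | mem x hx => exact hx
    | one => exact ⟨0, fun x => by rw [act_one, zero_smul, add_zero]⟩
    | mul x y _ _ hx hy =>
      obtain ⟨c, hc⟩ := hx
      obtain ⟨d, hd⟩ := hy
      refine ⟨c + d, fun v => ?_⟩
      rw [act_mul, hc, hd, map_add, map_smul, h.NN_NN]
      module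
    | inv x _ hx =>
      obtain ⟨c, hc⟩ := hx
      refine ⟨-c, fun v => ?_⟩
      have h1 : (e x) (v + (-c) • NN Q p r v) = v := by
        rw [hc, map_add, map_smul, h.NN_NN]
        module
      conv_lhs => rw [← h1]
      rw [act_inv]
  · intro hg
    exact Subgroup.subset_closure hg

theorem Sg_basis {p r : V} {a b c d : F} (hdet : a * d - b * c ≠ 0) :
    Sg e (a • p + b • r) (c • p + d • r) = Sg e p r := by
  unfold Sg
  congr 1
  ext g
  constructor
  · rintro ⟨t, ht⟩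
    refine ⟨t * (a * d - b * c), fun x => ?_⟩
    rw [ht, NN_basis, smul_smul]
  · rintro ⟨t, ht⟩
    refine ⟨t * (a * d - b * c)⁻¹, fun x => ?_⟩
    rw [ht, NN_basis, smul_smul, mul_assoc, inv_mul_cancel₀ hdet, mul_one]

theorem Sg_swap {p r : V} : Sg e r p = Sg e p r := by
  have := Sg_basis e (p := p) (r := r) (a := 0) (b := 1) (c := 1) (d := 0) (by simp)
  simpa using this

theorem Sg_cm {p r p' r' : V} (h : Sing Q p r) (h' : Sing Q p' r') (h1 : pB Q p p' = 0)
    (h2 : pB Q p r' = 0) (h3 : pB Q r p' = 0) (h4 : pB Q r r' = 0) : Cm (Sg e p r) (Sg e p' r') := by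
  intro a ha b hb
  obtain ⟨c, hc⟩ := (mem_Sg e h).1 ha
  obtain ⟨d, hd⟩ := (mem_Sg e h').1 hb
  have e1 : ∀ x, NN Q p r (NN Q p' r' x) = 0 := by
    intro x
    rw [NN_apply p r, NN_apply p' r', pr_sub, pr_sub, pr_smul, pr_smul, pr_smul, pr_smul, h1, h2, h3, h4]
    module
  have e2 : ∀ x, NN Q p' r' (NN Q p r x) = 0 := by
    intro x
    rw [NN_apply p' r', NN_apply p r, pr_sub, pr_sub, pr_smul, pr_smul, pr_smul, pr_smul,
      pB_symm Q p' r, pB_symm Q p' p, pB_symm Q r' r, pB_symm Q r' p, h1, h2, h3, h4]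
    module
  apply act_ext e
  intro x
  rw [act_mul, act_mul, hc, hd, hc, hd, map_add, map_add, map_smul, map_smul, e1, e2]
  module

/-- the commutator for lines with `r' ⊥ ℓ`, `p ⊥ ℓ'` -/
theorem Sg_comm {p r p' r' : V} (h : Sing Q p r) (h' : Sing Q p' r') (h1 : pB Q p p' = 0)
    (h2 : pB Q p r' = 0) (h4 : pB Q r r' = 0) {a b k : H} {c d : F}
    (ha : ∀ x, (e a) x = x + c • NN Q p r x) (hb : ∀ x, (e b) x = x + d • NN Q p' r' x)
    (hk : ∀ x, (e k) x = x + (-(c * d * pB Q r p')) • NN Q p r' x) :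
    a * b * a⁻¹ * b⁻¹ = k := by
  have e1 : ∀ x, NN Q p r (NN Q p' r' x) = (pB Q r p' * pB Q r' x) • p := by
    intro x
    rw [NN_apply p r, NN_apply p' r', pr_sub, pr_sub, pr_smul, pr_smul, pr_smul, pr_smul, h1, h2, h4]
    module
  have e2 : ∀ x, NN Q p' r' (NN Q p r x) = (pB Q r p' * pB Q p x) • r' := by
    intro x
    rw [NN_apply p' r', NN_apply p r, pr_sub, pr_sub, pr_smul, pr_smul, pr_smul, pr_smul,
      pB_symm Q p' r, pB_symm Q p' p, pB_symm Q r' r, pB_symm Q r' p, h1, h2, h4]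
    module
  have e3 : ∀ x, NN Q p r' (NN Q p r x) = 0 := by
    intro x
    rw [NN_apply p r', h.pN, NN_apply p r, pr_sub, pr_smul, pr_smul, pB_symm Q r' r, pB_symm Q r' p, h2, h4]
    module
  have e4 : ∀ x, NN Q p r' (NN Q p' r' x) = 0 := by
    intro x
    rw [NN_apply p r', h'.rN, NN_apply p' r', pr_sub, pr_smul, pr_smul, h1, h2]
    module
  have e5 : NN Q p r' r' = 0 := by
    rw [NN_apply, h2, pB_self_zero h'.hr]; module
  have key : a * b = k * (b * a) := by
    apply act_ext e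
    intro x
    rw [act_mul, act_mul, act_mul, ha, hb, hk, hb, ha]
    simp only [map_add, map_smul, e1, e2, e3, e4, e5, smul_zero, add_zero]
    rw [NN_apply p r' x]
    module
  rw [key]; group

theorem Sg_ne_bot [FiniteDimensional F V] (hnd : ND Q) {p r : V} (h : Sing Q p r)
    (hli : ∀ a b : F, a • p + b • r = 0 → a = 0 ∧ b = 0) : Sg e p r ≠ ⊥ := by
  intro hbot
  obtain ⟨g, hg⟩ := exists_sg e hnd h 1
  have h1 : g ∈ Sg e p r := (mem_Sg e h).2 ⟨1, hg⟩
  rw [hbot, Subgroup.mem_bot] at h1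
  have h2 : ∀ x, pB Q p x = 0 := by
    intro x
    have h3 := hg x
    rw [h1, act_one, one_smul, left_eq_add, NN_apply] at h3
    exact (hli (-pB Q r x) (pB Q p x) (by rw [← h3]; module)).2
  have h3 := hnd p h2
  have := (hli 1 0 (by rw [h3]; simp)).1
  exact one_ne_zero this

theorem Sg_conj {p r : V} (h : Sing Q p r) (g : H) :
    Sing Q ((e g) p) ((e g) r) ∧ conjBy (Sg e p r) g = Sg e ((e g) p) ((e g) r) := by
  have hs : Sing Q ((e g) p) ((e g) r) := ⟨by rw [og_q, h.hp], by rw [og_q, h.hr], by rw [og_p, h.hpr]⟩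
  refine ⟨hs, ?_⟩
  have key : ∀ x : V, NN Q ((e g) p) ((e g) r) x = (e g) (NN Q p r ((e g⁻¹) x)) := by
    intro x
    have hx : x = (e g) ((e g⁻¹) x) := by
      rw [← act_mul, mul_inv_cancel, act_one]
    rw [NN_apply, NN_apply]
    conv_lhs => rw [hx]
    rw [og_p, og_p, og_sub, og_smul, og_smul]
  have key2 : ∀ (a : H) (x : V), (e (g * a * g⁻¹)) x = (e g) ((e a) ((e g⁻¹) x)) := by
    intro a x
    rw [act_mul, act_mul]
  ext y
  rw [mem_conjBy, mem_Sg e h, mem_Sg e hs]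
  constructor
  · rintro ⟨c, hc⟩
    refine ⟨c, fun x => ?_⟩
    have : y = g * (g⁻¹ * y * g) * g⁻¹ := by group
    rw [this, key2, hc, key, og_add, og_smul, ← act_mul, mul_inv_cancel, act_one]
  · rintro ⟨c, hc⟩
    refine ⟨c, fun x => ?_⟩
    rw [act_mul, act_mul, hc, key, og_add, og_smul, act_inv, act_inv]

end e

end Cfsg.Agent.H3
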