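import Mathlib
import Cfsg.Prelude.Def_RootSubgroups
import Cfsg.Agent.H3.TvH

/-!
Siegel transvection groups: the rank one case.
-/

set_option autoImplicit false
open Cfsg Cfsg.Agent.H28 Matrix Cfsg.Agent.H5

namespace Cfsg.Agent.H3

variable {F : Type*} [Field F] {V : Type*} [AddCommGroup V] [Module F V]
  {Q : QuadraticForm F V} {H : Type*} [Group H]

/-- dual bases of two singular lines -/
structure Dual (Q : QuadraticForm F V) (p r p' r' : V) : Prop where
  h : Sing Q p r
  h' : Sing Q p' r'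
  pp : pB Q p p' = 1
  pr : pB Q p r' = 0
  rp : pB Q r p' = 0
  rr : pB Q r r' = 1

/-- the action of `SL₂` -/
noncomputable def FM (Q : QuadraticForm F V) (p r p' r' : V) (M : Matrix (Fin 2) (Fin 2) F) : V →ₗ[F] V :=
  LinearMap.id + (M 0 0 - 1) • ((pB Q p').smulRight p + (pB Q r').smulRight r) + M 0 1 • NN Q p r -
    M 1 0 • NN Q p' r' + (M 1 1 - 1) • ((pB Q r).smulRight r' + (pB Q p).smulRight p')

section
variable {p r p' r' : V} {M N : Matrix (Fin 2) (Fin 2) F}

theorem FM_apply (p r p' r' : V) (M : Matrix (Fin 2) (Fin 2) F) (x : V) : FM Q p r p' r' M x =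
    x + (M 0 0 - 1) • (pB Q p' x • p + pB Q r' x • r) + M 0 1 • (pB Q p x • r - pB Q r x • p) -
    M 1 0 • (pB Q p' x • r' - pB Q r' x • p') + (M 1 1 - 1) • (pB Q r x • r' + pB Q p x • p') := rfl

theorem Dual.bp (D : Dual Q p r p' r') (x : V) :
    pB Q p (FM Q p r p' r' M x) = M 1 1 * pB Q p x + M 1 0 * pB Q r' x := by
  rw [FM_apply]
  simp only [pr_add, pr_sub, pr_smul, D.h.hpr, pB_self_zero D.h.hp, D.pp, D.pr]
  ring

theorem Dual.br (D : Dual Q p r p' r') (x : V) :
    pB Q r (FM Q p r p' r' M x) = M 1 1 * pB Q r x - M 1 0 * pB Q p' x := by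
  rw [FM_apply]
  simp only [pr_add, pr_sub, pr_smul, D.h.symm.hpr, pB_self_zero D.h.hr, D.rp, D.rr]
  ring

theorem Dual.bp' (D : Dual Q p r p' r') (x : V) :
    pB Q p' (FM Q p r p' r' M x) = M 0 0 * pB Q p' x - M 0 1 * pB Q r x := by
  rw [FM_apply]
  simp only [pr_add, pr_sub, pr_smul, D.h'.hpr, pB_self_zero D.h'.hp, pB_symm Q p' p, pB_symm Q p' r,
    D.pp, D.rp]
  ring

theorem Dual.br' (D : Dual Q p r p' r') (x : V) :
    pB Q r' (FM Q p r p' r' M x) = M 0 0 * pB Q r' x + M 0 1 * pB Q p x := by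
  rw [FM_apply]
  simp only [pr_add, pr_sub, pr_smul, D.h'.symm.hpr, pB_self_zero D.h'.hr, pB_symm Q r' p, pB_symm Q r' r,
    D.pr, D.rr]
  ring

theorem Dual.mul (D : Dual Q p r p' r') (x : V) :
    FM Q p r p' r' (M * N) x = FM Q p r p' r' M (FM Q p r p' r' N x) := by
  rw [FM_apply p r p' r' M, D.bp, D.br, D.bp', D.br', FM_apply p r p' r' N, FM_apply]
  rw [Matrix.mul_apply, Matrix.mul_apply, Matrix.mul_apply, Matrix.mul_apply]
  simp only [Fin.sum_univ_two]
  module

theorem Dual.one (x : V) : FM Q p r p' r' 1 x = x := by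
  rw [FM_apply]
  simp

theorem Dual.q_inv (D : Dual Q p r p' r') (hM : M.det = 1) (x : V) : Q (FM Q p r p' r' M x) = Q x := by
  rw [det_fin_two] at hM
  have e1 : FM Q p r p' r' M x = x + ((((M 0 0 - 1) * pB Q p' x - M 0 1 * pB Q r x) • p +
      ((M 0 0 - 1) * pB Q r' x + M 0 1 * pB Q p x) • r) +
      ((M 1 0 * pB Q r' x + (M 1 1 - 1) * pB Q p x) • p' +
      ((M 1 1 - 1) * pB Q r x - M 1 0 * pB Q p' x) • r')) := by
    rw [FM_apply]; module
  rw [e1, H5.q_add, H5.q_add, D.h.q_add, D.h'.q_add]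
  simp only [pr_add, pl_add, pr_smul, pl_smul, D.pp, D.pr, D.rp, D.rr, pB_symm Q x p, pB_symm Q x r,
    pB_symm Q x p', pB_symm Q x r']
  linear_combination (pB Q p x * pB Q p' x + pB Q r x * pB Q r' x) * hM

end

section e
variable (e : H ≃* OG Q) {p r p' r' : V}

/-- the homomorphism from `SL₂` -/
noncomputable def slHom [FiniteDimensional F V] (hnd : ND Q) (D : Dual Q p r p' r') :
    SpecialLinearGroup (Fin 2) F →* H where
  toFun M := e.symm (mkOG hnd (FM Q p r p' r' (M : Matrix (Fin 2) (Fin 2) F)) (fun x => D.q_inv M.det_coe x))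
  map_one' := by
    apply act_ext e
    intro x
    rw [MulEquiv.apply_symm_apply, mkOG_apply, act_one]
    exact Dual.one x
  map_mul' M N := by
    apply act_ext e
    intro x
    rw [act_mul, MulEquiv.apply_symm_apply, MulEquiv.apply_symm_apply, MulEquiv.apply_symm_apply,
      mkOG_apply, mkOG_apply, mkOG_apply]
    exact D.mul x

theorem slHom_act [FiniteDimensional F V] (hnd : ND Q) (D : Dual Q p r p' r')
    (M : SpecialLinearGroup (Fin 2) F) (x : V) : (e (slHom e hnd D M)) x =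
      FM Q p r p' r' (M : Matrix (Fin 2) (Fin 2) F) x := by
  show (e (e.symm _)) x = _
  rw [MulEquiv.apply_symm_apply]; rfl

theorem slHom_inj [FiniteDimensional F V] (hnd : ND Q) (D : Dual Q p r p' r') :
    Function.Injective (slHom e hnd D) := by
  intro M N hMN
  have key : ∀ x, FM Q p r p' r' (M : Matrix (Fin 2) (Fin 2) F) x =
      FM Q p r p' r' (N : Matrix (Fin 2) (Fin 2) F) x := by
    intro x
    rw [← slHom_act e hnd D, ← slHom_act e hnd D, hMN]
  have k11 := congrArg (fun v => pB Q p v) (key p')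
  have k10 := congrArg (fun v => pB Q p v) (key r)
  have k00 := congrArg (fun v => pB Q p' v) (key p)
  have k01 := congrArg (fun v => pB Q p' v) (key r')
  simp only [D.bp, D.bp', D.pp, D.pr, D.rp, D.rr, D.h.hpr, D.h'.hpr, pB_self_zero D.h.hp,
    pB_self_zero D.h'.hp, pB_self_zero D.h.hr, pB_self_zero D.h'.hr, pB_symm Q p' p, pB_symm Q p' r,
    pB_symm Q r' p, pB_symm Q r' r, pB_symm Q r' p', pB_symm Q r p, mul_one, mul_zero, add_zero,
    zero_add, sub_zero, zero_sub, neg_inj] at k11 k10 k00 k01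
  ext i j
  fin_cases i <;> fin_cases j
  · exact k00
  · exact k01
  · exact k10
  · exact k11

theorem dual_ro [FiniteDimensional F V] (hnd : ND Q) (D : Dual Q p r p' r') :
    IsRankOnePair (Sg e p r) (Sg e p' r') ∧ IsPSL2PairOver F (Sg e p r) (Sg e p' r') := by
  have hU : ∀ t x, (e (slHom e hnd D (xU t))) x = x + t • NN Q p r x := by
    intro t x
    rw [slHom_act, FM_apply, NN_apply]
    simp
  have hL : ∀ t x, (e (slHom e hnd D (yL t))) x = x + (-t) • NN Q p' r' x := by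
    intro t x
    rw [slHom_act, FM_apply, NN_apply]
    simp [sub_eq_add_neg]
    abel
  apply pair_of_inj _ (slHom_inj e hnd D)
  · ext g
    rw [Subgroup.mem_map, mem_Sg e D.h]
    constructor
    · rintro ⟨x, hx, rfl⟩
      obtain ⟨t, rfl⟩ := mem_upper.1 hx
      exact ⟨t, hU t⟩
    · rintro ⟨t, ht⟩
      refine ⟨xU t, mem_upper.2 ⟨t, rfl⟩, act_ext e fun x => ?_⟩
      rw [hU, ht]
  · ext g
    rw [Subgroup.mem_map, mem_Sg e D.h']
    constructor
    · rintro ⟨x, hx, rfl⟩
      obtain ⟨t, rfl⟩ := mem_lower.1 hx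
      exact ⟨-t, hL t⟩
    · rintro ⟨t, ht⟩
      refine ⟨yL (-t), mem_lower.2 ⟨-t, rfl⟩, act_ext e fun x => ?_⟩
      rw [hL, ht, neg_neg]

/-- the rank one case -/
theorem sg_ro [FiniteDimensional F V] (hnd : ND Q) (h : Sing Q p r) (h' : Sing Q p' r')
    (hdet : pB Q p p' * pB Q r r' - pB Q p r' * pB Q r p' ≠ 0) :
    IsRankOnePair (Sg e p r) (Sg e p' r') ∧ IsPSL2PairOver F (Sg e p r) (Sg e p' r') := by
  set a := pB Q p p' with ha
  set b := pB Q p r' with hb
  set c := pB Q r p' with hc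
  set d := pB Q r r' with hd
  set Δ := a * d - b * c with hΔ
  have D : Dual Q p r ((d / Δ) • p' + (-c / Δ) • r') ((-b / Δ) • p' + (a / Δ) • r') := by
    refine ⟨h, ⟨h'.q_add _ _, h'.q_add _ _, ?_⟩, ?_, ?_, ?_, ?_⟩
    · simp only [pl_add, pr_add, pl_smul, pr_smul, pB_self_zero h'.hp, pB_self_zero h'.hr, h'.hpr,
        h'.symm.hpr]
      ring
    · rw [pr_add, pr_smul, pr_smul, ← ha, ← hb]
      field_simp
      rw [hΔ]; ring
    · rw [pr_add, pr_smul, pr_smul, ← ha, ← hb]
      field_simp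
      ring
    · rw [pr_add, pr_smul, pr_smul, ← hc, ← hd]
      field_simp
      ring
    · rw [pr_add, pr_smul, pr_smul, ← hc, ← hd]
      field_simp
      rw [hΔ]; ring
  have h1 := dual_ro e hnd D
  rw [Sg_basis e (p := p') (r := r')] at h1
  · exact h1
  · have : d / Δ * (a / Δ) - -c / Δ * (-b / Δ) = 1 / Δ := by
      field_simp
      rw [hΔ]; ring
    rw [this]
    exact one_div_ne_zero hdet

end e

end Cfsg.Agent.H3
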