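import Mathlib
import Cfsg.Prelude.Def_RootSubgroups
import Cfsg.Agent.H3.TvI
import Cfsg.Agent.H3.TvB

/-!
Siegel transvection groups: the family.
-/

set_option autoImplicit false
open Cfsg Cfsg.Agent.H28 Matrix Cfsg.Agent.H5

namespace Cfsg.Agent.H3

variable {F : Type*} [Field F] {V : Type*} [AddCommGroup V] [Module F V]
  {Q : QuadraticForm F V} {H : Type*} [Group H]

section spaces

/-- a nondegenerate subspace of dimension at least `n` -/
structure NSp (Q : QuadraticForm F V) (W : Submodule F V) (n : ℕ) : Prop where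
  nd : ∀ x ∈ W, x ≠ 0 → ∃ y ∈ W, pB Q x y ≠ 0
  dim : n ≤ Module.finrank F W

variable {W : Submodule F V} {n : ℕ}

theorem NSp.mono {k : ℕ} (h : NSp Q W n) (hk : k ≤ n) : NSp Q W k := ⟨h.nd, hk.trans h.dim⟩

theorem finrank_two [FiniteDimensional F V] (W : Submodule F V) (f g : V →ₗ[F] F) :
    Module.finrank F W ≤ Module.finrank F ((W ⊓ LinearMap.ker f ⊓ LinearMap.ker g : Submodule F V)) + 2 := by
  have h := LinearMap.finrank_range_add_finrank_ker ((f.prod g).comp W.subtype)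
  have h1 : Module.finrank F (LinearMap.range ((f.prod g).comp W.subtype)) ≤ 2 := by
    have := Submodule.finrank_le (LinearMap.range ((f.prod g).comp W.subtype))
    rwa [Module.finrank_prod, Module.finrank_self] at this
  have h2 : Module.finrank F (LinearMap.ker ((f.prod g).comp W.subtype)) ≤
      Module.finrank F ((W ⊓ LinearMap.ker f ⊓ LinearMap.ker g : Submodule F V)) := by
    rw [← Submodule.finrank_map_subtype_eq]
    apply Submodule.finrank_mono
    rintro _ ⟨⟨x, hx⟩, hx', rfl⟩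
    have h3 : f x = 0 ∧ g x = 0 := by
      have h4 : ((f.prod g).comp W.subtype) ⟨x, hx⟩ = 0 := hx'
      exact Prod.mk.inj h4
    exact ⟨⟨hx, h3.1⟩, h3.2⟩
  omega

theorem NSp.step [FiniteDimensional F V] (h : NSp Q W (n + 2)) {s s' : V} (hs : s ∈ W) (hs' : s' ∈ W)
    (q : Q s = 0) (q' : Q s' = 0) (hss : pB Q s s' ≠ 0) :
    NSp Q (W ⊓ LinearMap.ker (pB Q s) ⊓ LinearMap.ker (pB Q s')) n := by
  refine ⟨?_, ?_⟩
  · rintro x ⟨⟨hxW, hx1⟩, hx2⟩ hx0
    have hx1' : pB Q s x = 0 := hx1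
    have hx2' : pB Q s' x = 0 := hx2
    obtain ⟨y, hyW, hy⟩ := h.nd x hxW hx0
    refine ⟨y - (pB Q s' y / pB Q s s') • s - (pB Q s y / pB Q s s') • s', ⟨⟨?_, ?_⟩, ?_⟩, ?_⟩
    · exact W.sub_mem (W.sub_mem hyW (W.smul_mem _ hs)) (W.smul_mem _ hs')
    · show pB Q s _ = 0
      rw [pr_sub, pr_sub, pr_smul, pr_smul, pB_self_zero q]
      field_simp
      ring
    · show pB Q s' _ = 0
      rw [pr_sub, pr_sub, pr_smul, pr_smul, pB_self_zero q', pB_symm Q s' s]
      field_simp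
      ring
    · rw [pr_sub, pr_sub, pr_smul, pr_smul, pB_symm Q x s, pB_symm Q x s', hx1', hx2']
      simpa using hy
  · have := finrank_two W (pB Q s) (pB Q s')
    have := h.dim
    omega

theorem NSp.exists_q (h : NSp Q W 1) : ∃ w ∈ W, Q w ≠ 0 := by
  have h1 : W ≠ ⊥ := by
    rintro rfl
    have := h.dim
    rw [finrank_bot] at this
    omega
  obtain ⟨x, hx, hx0⟩ := Submodule.exists_mem_ne_zero_of_ne_bot h1
  obtain ⟨y, hy, hxy⟩ := h.nd x hx hx0
  by_contra hcon
  push Not at hcon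
  apply hxy
  have h2 := hcon (x + y) (W.add_mem hx hy)
  rwa [H5.q_add, hcon x hx, hcon y hy, add_zero, zero_add] at h2

theorem NSp.partner (h : NSp Q W n) {a : V} (ha : a ∈ W) (ha0 : a ≠ 0) (qa : Q a = 0) :
    ∃ b ∈ W, Q b = 0 ∧ pB Q a b ≠ 0 := by
  obtain ⟨y, hy, hay⟩ := h.nd a ha ha0
  refine ⟨y - (Q y / pB Q a y) • a, W.sub_mem hy (W.smul_mem _ ha), ?_, ?_⟩
  · rw [H5.q_sub, q_smul, qa, pr_smul, pB_symm Q y a]
    field_simp
    ring
  · rw [pr_sub, pr_smul, pB_self_zero qa]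
    simpa using hay

/-- a common partner -/
theorem NSp.common [FiniteDimensional F V] (h : NSp Q W 3) {a a' : V} (ha : a ∈ W) (ha' : a' ∈ W)
    (ha0 : a ≠ 0) (ha0' : a' ≠ 0) (qa : Q a = 0) (qa' : Q a' = 0) :
    ∃ t ∈ W, Q t = 0 ∧ pB Q a t ≠ 0 ∧ pB Q a' t ≠ 0 := by
  by_cases haa : pB Q a a' = 0
  · obtain ⟨b, hb, qb, hab⟩ := h.partner ha ha0 qa
    obtain ⟨b', hb', qb', hab'⟩ := h.partner ha' ha0' qa'
    by_cases h1 : pB Q a' b = 0
    · by_cases h2 : pB Q a b' = 0
      · refine ⟨b + b' - (pB Q b b' / pB Q a b) • a, W.sub_mem (W.add_mem hb hb') (W.smul_mem _ ha), ?_, ?_, ?_⟩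
        · rw [H5.q_sub, H5.q_add, q_smul, qa, qb, qb', pr_smul, pl_add, pB_symm Q b a, pB_symm Q b' a, h2]
          field_simp
          ring
        · rw [pr_sub, pr_add, pr_smul, h2, pB_self_zero qa]
          simpa using hab
        · rw [pr_sub, pr_add, pr_smul, h1, pB_symm Q a' a, haa]
          simpa using hab'
      · exact ⟨b', hb', qb', h2, hab'⟩
    · exact ⟨b, hb, qb, hab, h1⟩
  · obtain ⟨w, ⟨⟨hw, hw1⟩, hw2⟩, qw⟩ := (NSp.step (n := 1) h ha ha' qa qa' haa).exists_q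
    have hw1' : pB Q a w = 0 := hw1
    have hw2' : pB Q a' w = 0 := hw2
    refine ⟨a + (-(Q w / pB Q a a')) • a' + w, W.add_mem (W.add_mem ha (W.smul_mem _ ha')) hw, ?_, ?_, ?_⟩
    · rw [H5.q_add, H5.q_add, q_smul, qa, qa', pr_smul, pl_add, pl_smul, hw1', hw2']
      field_simp
      ring
    · rw [pr_add, pr_add, pr_smul, pB_self_zero qa, hw1']
      field_simp
      simpa using qw
    · rw [pr_add, pr_add, pr_smul, pB_self_zero qa', hw2', pB_symm Q a' a]
      simpa using haa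

/-- linear independence -/
def LI (F : Type*) [Field F] {V : Type*} [AddCommGroup V] [Module F V] (p r : V) : Prop :=
  ∀ a b : F, a • p + b • r = 0 → a = 0 ∧ b = 0

theorem LI.left {p r : V} (h : LI F p r) : p ≠ 0 := by
  rintro rfl
  exact one_ne_zero (h 1 0 (by simp)).1

theorem LI.swap {p r : V} (h : LI F p r) : LI F r p := fun a b hab =>
  (h b a (by rw [← hab, add_comm])).symm

theorem LI.addl {p r : V} (h : LI F p r) (c : F) : LI F (p - c • r) r := by
  intro a b hab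
  have h1 := h a (b - a * c) (by rw [← hab]; module)
  refine ⟨h1.1, ?_⟩
  have h2 := h1.2
  rwa [h1.1, zero_mul, sub_zero] at h2

/-- the determinant of the pairing -/
noncomputable def PD (Q : QuadraticForm F V) (p r p' r' : V) : F := pB Q p p' * pB Q r r' - pB Q p r' * pB Q r p'

theorem PD.li {p r s t : V} (h : PD Q p r s t ≠ 0) : LI F s t := by
  intro a b hab
  have h1 : a * pB Q p s + b * pB Q p t = 0 := by
    rw [← pr_smul, ← pr_smul, ← pr_add, hab]; exact map_zero _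
  have h2 : a * pB Q r s + b * pB Q r t = 0 := by
    rw [← pr_smul, ← pr_smul, ← pr_add, hab]; exact map_zero _
  unfold PD at h
  constructor
  · have : a * (pB Q p s * pB Q r t - pB Q p t * pB Q r s) = 0 := by
      linear_combination pB Q r t * h1 - pB Q p t * h2
    exact (mul_eq_zero.1 this).resolve_right h
  · have : b * (pB Q p s * pB Q r t - pB Q p t * pB Q r s) = 0 := by
      linear_combination pB Q p s * h2 - pB Q r s * h1
    exact (mul_eq_zero.1 this).resolve_right h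

/-- common opposite lines -/
theorem NSp.opp [FiniteDimensional F V] (h : NSp Q (⊤ : Submodule F V) 5) {p r p' r' : V}
    (hS : Sing Q p r) (hL : LI F p r) (hS' : Sing Q p' r') (hL' : LI F p' r') :
    ∃ s t, Sing Q s t ∧ PD Q p r s t ≠ 0 ∧ PD Q p' r' s t ≠ 0 := by
  obtain ⟨s, -, qs, hps, hps'⟩ := (h.mono (by norm_num : 3 ≤ 5)).common (Submodule.mem_top (x := p))
    (Submodule.mem_top (x := p')) hL.left hL'.left hS.hp hS'.hp
  have hs0 : s ≠ 0 := by
    rintro rfl
    exact hps (map_zero _)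
  obtain ⟨u, -, qu, hsu⟩ := h.partner (Submodule.mem_top (x := s)) hs0 qs
  have hW := NSp.step (n := 3) h (Submodule.mem_top (x := s)) (Submodule.mem_top (x := u)) qs qu hsu
  -- the projected vectors
  have key : ∀ p r : V, Sing Q p r → LI F p r → pB Q p s ≠ 0 → ∃ w : V,
      w ∈ (⊤ ⊓ LinearMap.ker (pB Q s) ⊓ LinearMap.ker (pB Q u) : Submodule F V) ∧ w ≠ 0 ∧ Q w = 0 ∧
      ∀ t ∈ (⊤ ⊓ LinearMap.ker (pB Q s) ⊓ LinearMap.ker (pB Q u) : Submodule F V), pB Q w t ≠ 0 →
        PD Q p r s t ≠ 0 := by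
    intro p r hS hL hps
    have hL2 : LI F (r - (pB Q r s / pB Q p s) • p) p := hL.swap.addl _
    set a := r - (pB Q r s / pB Q p s) • p with ha
    have h1 : pB Q s a = 0 := by
      rw [ha, pr_sub, pr_smul, pB_symm Q s r, pB_symm Q s p]
      field_simp
      ring
    have h2 : pB Q p a = 0 := by
      rw [ha, pr_sub, pr_smul, hS.hpr, pB_self_zero hS.hp]; ring
    have h3 : Q a = 0 := by
      rw [ha, H5.q_sub, q_smul, hS.hr, hS.hp, pr_smul, hS.symm.hpr]; ring
    refine ⟨a - (pB Q u a / pB Q s u) • s, ⟨⟨Submodule.mem_top, ?_⟩, ?_⟩, ?_, ?_, ?_⟩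
    · show pB Q s _ = 0
      rw [pr_sub, pr_smul, h1, pB_self_zero qs]; ring
    · show pB Q u _ = 0
      rw [pr_sub, pr_smul, pB_symm Q u s]
      field_simp
      ring
    · intro hw
      have hw' : a = (pB Q u a / pB Q s u) • s := sub_eq_zero.1 hw
      have h4 : (pB Q u a / pB Q s u) * pB Q p s = 0 := by
        rw [← pr_smul, ← hw', h2]
      have h5 := (mul_eq_zero.1 h4).resolve_right hps
      rw [h5, zero_smul] at hw'
      exact hL2.left hw'
    · rw [H5.q_sub, q_smul, h3, qs, pr_smul, pB_symm Q a s, h1]; ring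
    · rintro t ⟨⟨-, ht1⟩, -⟩ ht
      have ht1' : pB Q s t = 0 := ht1
      rw [pl_sub, pl_smul, ht1', mul_zero, sub_zero] at ht
      have h6 : PD Q p r s t = pB Q p s * pB Q a t := by
        unfold PD
        rw [ha, pl_sub, pl_smul]
        field_simp
      rw [h6]
      exact mul_ne_zero hps ht
  obtain ⟨w, hw1, hw2, hw3, hw4⟩ := key p r hS hL hps
  obtain ⟨w', hw1', hw2', hw3', hw4'⟩ := key p' r' hS' hL' hps'
  obtain ⟨t, ht, qt, h1, h2⟩ := hW.common hw1 hw1' hw2 hw2' hw3 hw3'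
  exact ⟨s, t, ⟨qs, qt, ht.1.2⟩, hw4 t ht h1, hw4' t ht h2⟩

end spaces

end Cfsg.Agent.H3
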