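import Mathlib
import Cfsg.Prelude.Def_RootSubgroups
import Cfsg.Agent.H3.TvJ

/-!
Siegel transvection groups: pairs.
-/

set_option autoImplicit false
open Cfsg Cfsg.Agent.H28 Matrix Cfsg.Agent.H5

namespace Cfsg.Agent.H3

variable {F : Type*} [Field F] {V : Type*} [AddCommGroup V] [Module F V] [FiniteDimensional F V]
  {Q : QuadraticForm F V} {H : Type*} [Group H] (e : H ≃* OG Q) {p r p' r' : V}

/-- the family of Siegel transvection groups -/
def Lset : Set (Subgroup H) := {A | ∃ p r, Sing Q p r ∧ LI F p r ∧ A = Sg e p r}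

theorem nn_zero_of_not_li (h : ¬ LI F p r) (x : V) : NN Q p r x = 0 := by
  unfold LI at h
  push Not at h
  obtain ⟨a, b, hab, h0⟩ := h
  by_cases ha : a = 0
  · have hb := h0 ha
    rw [ha, zero_smul, zero_add, smul_eq_zero] at hab
    have hr : r = 0 := hab.resolve_left hb
    rw [hr, NN_apply, smul_zero, map_zero, LinearMap.zero_apply, zero_smul, sub_zero]
  · have hp : p = (-(b / a)) • r := by
      have h1 : a • p = (-b) • r := by
        rw [neg_smul]; exact eq_neg_of_add_eq_zero_left hab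
      rw [← inv_smul_smul₀ ha p, h1, smul_smul]
      congr 1
      field_simp
    rw [hp, NN_apply, pl_smul]
    module

theorem sg_rc (hnd : ND Q) (h : Sing Q p r) (h' : Sing Q p' r')
    (h1 : pB Q p p' = 0) (h2 : pB Q p r' = 0) (h4 : pB Q r r' = 0) (h3 : pB Q r p' ≠ 0) :
    Cm (Sg e p r) (Sg e p' r') ∨ RootCommutatorCase (Lset e) (Sg e p r) (Sg e p' r') := by
  have hS : Sing Q p r' := ⟨h.hp, h'.hr, h2⟩
  by_cases hL : LI F p r'
  · right
    have k1 : ∀ a ∈ Sg e p r, a ≠ 1 → Subgroup.closure ((fun b => a * b * a⁻¹ * b⁻¹) ''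
        (Sg e p' r' : Set H)) = Sg e p r' := by
      intro a ha ha1
      obtain ⟨c, hc⟩ := (mem_Sg e h).1 ha
      have hc0 : c ≠ 0 := by
        rintro rfl
        exact ha1 (act_ext e fun x => by rw [hc, act_one, zero_smul, add_zero])
      apply le_antisymm
      · rw [Subgroup.closure_le]
        rintro _ ⟨b, hb, rfl⟩
        obtain ⟨d, hd⟩ := (mem_Sg e h').1 hb
        obtain ⟨k, hk⟩ := exists_sg e hnd hS (-(c * d * pB Q r p'))
        simp only
        rw [Sg_comm e h h' h1 h2 h4 hc hd hk]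
        exact (mem_Sg e hS).2 ⟨_, hk⟩
      · intro x hx
        obtain ⟨t, ht⟩ := (mem_Sg e hS).1 hx
        obtain ⟨b, hb⟩ := exists_sg e hnd h' (-(t / (c * pB Q r p')))
        apply Subgroup.subset_closure
        refine ⟨b, (mem_Sg e h').2 ⟨_, hb⟩, ?_⟩
        apply Sg_comm e h h' h1 h2 h4 hc hb
        intro y
        rw [ht]
        congr 2
        field_simp
    have k2 : ∀ b ∈ Sg e p' r', b ≠ 1 → Subgroup.closure ((fun a => a * b * a⁻¹ * b⁻¹) ''
        (Sg e p r : Set H)) = Sg e p r' := by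
      intro b hb hb1
      obtain ⟨d, hd⟩ := (mem_Sg e h').1 hb
      have hd0 : d ≠ 0 := by
        rintro rfl
        exact hb1 (act_ext e fun x => by rw [hd, act_one, zero_smul, add_zero])
      apply le_antisymm
      · rw [Subgroup.closure_le]
        rintro _ ⟨a, ha, rfl⟩
        obtain ⟨c, hc⟩ := (mem_Sg e h).1 ha
        obtain ⟨k, hk⟩ := exists_sg e hnd hS (-(c * d * pB Q r p'))
        simp only
        rw [Sg_comm e h h' h1 h2 h4 hc hd hk]
        exact (mem_Sg e hS).2 ⟨_, hk⟩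
      · intro x hx
        obtain ⟨t, ht⟩ := (mem_Sg e hS).1 hx
        obtain ⟨a, ha⟩ := exists_sg e hnd h (-(t / (d * pB Q r p')))
        apply Subgroup.subset_closure
        refine ⟨a, (mem_Sg e h).2 ⟨_, ha⟩, ?_⟩
        apply Sg_comm e h h' h1 h2 h4 ha hd
        intro y
        rw [ht]
        congr 2
        field_simp
    have k3 : ⁅Sg e p r, Sg e p' r'⁆ = Sg e p r' := by
      apply le_antisymm
      · rw [Subgroup.commutator_le]
        intro a ha b hb
        obtain ⟨c, hc⟩ := (mem_Sg e h).1 ha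
        obtain ⟨d, hd⟩ := (mem_Sg e h').1 hb
        obtain ⟨k, hk⟩ := exists_sg e hnd hS (-(c * d * pB Q r p'))
        rw [commutatorElement_def, Sg_comm e h h' h1 h2 h4 hc hd hk]
        exact (mem_Sg e hS).2 ⟨_, hk⟩
      · intro x hx
        obtain ⟨t, ht⟩ := (mem_Sg e hS).1 hx
        obtain ⟨a, ha⟩ := exists_sg e hnd h 1
        obtain ⟨b, hb⟩ := exists_sg e hnd h' (-(t / pB Q r p'))
        have h5 := Subgroup.commutator_mem_commutator ((mem_Sg e h).2 ⟨1, ha⟩) ((mem_Sg e h').2 ⟨_, hb⟩)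
        rw [commutatorElement_def, Sg_comm e h h' h1 h2 h4 ha hb (k := x)] at h5
        · exact h5
        · intro y
          rw [ht]
          congr 2
          field_simp
    refine ⟨?_, ?_, ?_, ?_⟩
    · rw [k3]; exact ⟨p, r', hS, hL, rfl⟩
    · rw [k3]
      have h5 : Cm (Sg e p r') (Sg e p r ⊔ Sg e p' r') := Cm.sup_right
        (Sg_cm e hS h (pB_self_zero h.hp) h.hpr (by rw [pB_symm, h2]) (by rw [pB_symm, h4]))
        (Sg_cm e hS h' h1 h2 h'.symm.hpr (pB_self_zero h'.hr))
      exact h5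
    · rw [k3]; exact k1
    · rw [k3]; exact k2
  · left
    intro a ha b hb
    obtain ⟨c, hc⟩ := (mem_Sg e h).1 ha
    obtain ⟨d, hd⟩ := (mem_Sg e h').1 hb
    have h5 : a * b * a⁻¹ * b⁻¹ = 1 := by
      apply Sg_comm e h h' h1 h2 h4 hc hd
      intro x
      rw [act_one, nn_zero_of_not_li hL, smul_zero, add_zero]
    calc a * b = (a * b * a⁻¹ * b⁻¹) * (b * a) := by group
      _ = b * a := by rw [h5, one_mul]

theorem sg_deg (hnd : ND Q) (h : Sing Q p r) (h' : Sing Q p' r') (hΔ : PD Q p r p' r' = 0)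
    (h3 : pB Q r p' ≠ 0) :
    Cm (Sg e p r) (Sg e p' r') ∨ RootCommutatorCase (Lset e) (Sg e p r) (Sg e p' r') := by
  set κ := pB Q r p' with hκ
  set x := pB Q p p' / κ with hx
  set y := pB Q r r' / κ with hy
  have e1 : Sg e p r = Sg e (p - x • r) r := by
    have := Sg_basis e (p := p) (r := r) (a := 1) (b := -x) (c := 0) (d := 1) (by simp)
    rw [one_smul, zero_smul, zero_add, one_smul, neg_smul, ← sub_eq_add_neg] at this
    exact this.symm
  have e2 : Sg e p' r' = Sg e p' (r' - y • p') := by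
    have := Sg_basis e (p := p') (r := r') (a := 1) (b := 0) (c := -y) (d := 1) (by simp)
    rw [one_smul, zero_smul, add_zero, one_smul, neg_smul, neg_add_eq_sub] at this
    exact this.symm
  have s1 : Sing Q (p - x • r) r := by
    refine ⟨?_, h.hr, ?_⟩
    · rw [H5.q_sub, q_smul, h.hp, h.hr, pr_smul, h.hpr]; ring
    · rw [pl_sub, pl_smul, h.hpr, pB_self_zero h.hr]; ring
  have s2 : Sing Q p' (r' - y • p') := by
    refine ⟨h'.hp, ?_, ?_⟩
    · rw [H5.q_sub, q_smul, h'.hp, h'.hr, pr_smul, h'.symm.hpr]; ring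
    · rw [pr_sub, pr_smul, h'.hpr, pB_self_zero h'.hp]; ring
  rw [e1, e2]
  apply sg_rc e hnd s1 s2
  · rw [pl_sub, pl_smul, ← hκ, hx]
    field_simp
    ring
  · unfold PD at hΔ
    rw [pl_sub, pl_smul, pr_sub, pr_sub, pr_smul, pr_smul, ← hκ, hx, hy]
    rw [← hκ] at hΔ
    field_simp
    linear_combination (-1 : F) * hΔ
  · rw [pr_sub, pr_smul, ← hκ, hy]
    field_simp
    ring
  · exact h3

/-- the trichotomy -/
theorem Lset_pair (hnd : ND Q) {A B : Subgroup H} (hA : A ∈ Lset e) (hB : B ∈ Lset e) :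
    Cm A B ∨ (IsRankOnePair A B ∧ IsPSL2PairOver F A B) ∨ RootCommutatorCase (Lset e) A B := by
  obtain ⟨p, r, h, -, rfl⟩ := hA
  obtain ⟨p', r', h', -, rfl⟩ := hB
  by_cases hΔ : PD Q p r p' r' = 0
  · have fin : ∀ {X Y : Subgroup H}, Cm X Y ∨ RootCommutatorCase (Lset e) X Y →
        Cm X Y ∨ (IsRankOnePair X Y ∧ IsPSL2PairOver F X Y) ∨ RootCommutatorCase (Lset e) X Y := by
      intro X Y h
      rcases h with h | h
      · exact Or.inl h
      · exact Or.inr (Or.inr h)
    by_cases h3 : pB Q r p' = 0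
    · by_cases h4 : pB Q r r' = 0
      · by_cases h1 : pB Q p p' = 0
        · by_cases h2 : pB Q p r' = 0
          · exact Or.inl (Sg_cm e h h' h1 h2 h3 h4)
          · apply fin
            rw [← Sg_swap e (p := p), ← Sg_swap e (p := p')]
            apply sg_deg e hnd h.symm h'.symm _ h2
            unfold PD at hΔ ⊢
            linear_combination hΔ
        · apply fin
          rw [← Sg_swap e (p := p)]
          apply sg_deg e hnd h.symm h' _ h1
          unfold PD at hΔ ⊢
          linear_combination (-1 : F) * hΔ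
      · apply fin
        rw [← Sg_swap e (p := p')]
        apply sg_deg e hnd h h'.symm _ h4
        unfold PD at hΔ ⊢
        linear_combination (-1 : F) * hΔ
    · exact fin (sg_deg e hnd h h' hΔ h3)
  · exact Or.inr (Or.inl (sg_ro e hnd h h' hΔ))

theorem Lset_conj {A : Subgroup H} (hA : A ∈ Lset e) (g : H) : conjBy A g ∈ Lset e := by
  obtain ⟨p, r, h, hL, rfl⟩ := hA
  obtain ⟨h1, h2⟩ := Sg_conj e h g
  refine ⟨_, _, h1, ?_, h2⟩
  intro a b hab
  apply hL
  rw [← og_smul, ← og_smul, ← og_add] at hab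
  apply og_inj (e g)
  rw [hab, og_zero]

theorem Lset_opp (hn : NSp Q (⊤ : Submodule F V) 5) (hnd : ND Q) {A B : Subgroup H}
    (hA : A ∈ Lset e) (hB : B ∈ Lset e) : ∃ C ∈ Lset e, IsRankOnePair A C ∧ IsRankOnePair B C := by
  obtain ⟨p, r, h, hL, rfl⟩ := hA
  obtain ⟨p', r', h', hL', rfl⟩ := hB
  obtain ⟨s, t, hst, h1, h2⟩ := hn.opp h hL h' hL'
  exact ⟨Sg e s t, ⟨s, t, hst, PD.li h1, rfl⟩, (sg_ro e hnd h hst h1).1, (sg_ro e hnd h' hst h2).1⟩

/-- dual vectors -/
theorem exists_dual (hnd : ND Q) (hL : LI F p r) : ∃ v, pB Q p v = 1 ∧ pB Q r v = 0 := by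
  by_contra hcon
  push Not at hcon
  have h0 : ∀ v, pB Q r v = 0 → pB Q p v = 0 := by
    intro v hv
    by_contra hpv
    apply hcon ((pB Q p v)⁻¹ • v)
    · rw [pr_smul, inv_mul_cancel₀ hpv]
    · rw [pr_smul, hv, mul_zero]
  have h1 : ∃ w, pB Q r w ≠ 0 := by
    by_contra h
    push Not at h
    exact hL.swap.left (hnd r h)
  obtain ⟨w, hw⟩ := h1
  have h2 := hL (pB Q r w) (-pB Q p w) (hnd _ fun y => by
    have h3 := h0 (pB Q r w • y - pB Q r y • w) (by rw [pr_sub, pr_smul, pr_smul]; ring)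
    rw [pr_sub, pr_smul, pr_smul] at h3
    rw [pl_add, pl_smul, pl_smul]
    linear_combination h3)
  exact hw h2.1

theorem fix_iff (hnd : ND Q) (h : Sing Q p r) (hL : LI F p r) (g : H) :
    (∀ v, pB Q p v = 0 → pB Q r v = 0 → (e g) v = v) ↔ ∃ c : F, ∀ x, (e g) x = x + c • NN Q p r x := by
  constructor
  · intro hfix
    obtain ⟨v, hpv, hrv⟩ := exists_dual hnd hL
    obtain ⟨w, hrw, hpw⟩ := exists_dual hnd hL.swap
    set u := (e g) v - v with hu
    set z := (e g) w - w with hz
    have hdec : ∀ x, (e g) x = x + (pB Q p x • u + pB Q r x • z) := by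
      intro x
      have h1 := hfix (x - pB Q p x • v - pB Q r x • w) (by
        rw [pr_sub, pr_sub, pr_smul, pr_smul, hpv, hpw]; ring) (by
        rw [pr_sub, pr_sub, pr_smul, pr_smul, hrv, hrw]; ring)
      rw [og_sub, og_sub, og_smul, og_smul, ← sub_eq_zero] at h1
      rw [← sub_eq_zero, hu, hz, ← h1]
      module
    have hperp : ∀ y : V, (∀ x, pB Q p x = 0 → pB Q r x = 0 → pB Q y x = 0) →
        y = pB Q y v • p + pB Q y w • r := by
      intro y hy
      rw [← sub_eq_zero]
      apply hnd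
      intro x
      have h1 := hy (x - pB Q p x • v - pB Q r x • w) (by
        rw [pr_sub, pr_sub, pr_smul, pr_smul, hpv, hpw]; ring) (by
        rw [pr_sub, pr_sub, pr_smul, pr_smul, hrv, hrw]; ring)
      rw [pr_sub, pr_sub, pr_smul, pr_smul] at h1
      rw [pl_sub, pl_add, pl_smul, pl_smul]
      linear_combination h1
    have hdiff : ∀ y x : V, pB Q p x = 0 → pB Q r x = 0 → pB Q ((e g) y - y) x = 0 := by
      intro y x h1 h2
      rw [pl_sub, sub_eq_zero]
      conv_lhs => rw [← hfix x h1 h2]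
      exact og_p _ _ _
    have hu' := hperp u (fun x => hdiff v x)
    have hz' := hperp z (fun x => hdiff w x)
    set a := pB Q u v
    set b := pB Q u w
    set c := pB Q z v
    set d := pB Q z w
    have gv : (e g) v = v + (a • p + b • r) := by rw [← hu', hu]; abel
    have gw : (e g) w = w + (c • p + d • r) := by rw [← hz', hz]; abel
    have qv := og_q (e g) v
    rw [gv, H5.q_add, h.q_add, pr_add, pr_smul, pr_smul, pB_symm Q v p, pB_symm Q v r, hpv, hrv] at qv
    have ha : a = 0 := by linear_combination qv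
    have qw := og_q (e g) w
    rw [gw, H5.q_add, h.q_add, pr_add, pr_smul, pr_smul, pB_symm Q w p, pB_symm Q w r, hpw, hrw] at qw
    have hd : d = 0 := by linear_combination qw
    have hvw := og_p (e g) v w
    rw [gv, gw] at hvw
    simp only [pl_add, pr_add, pl_smul, pr_smul, h.hpr, h.symm.hpr, pB_self_zero h.hp,
      pB_self_zero h.hr, pB_symm Q v p, pB_symm Q v r, hpv, hrv, hpw, hrw] at hvw
    have hbc : c = -b := by linear_combination hvw
    refine ⟨b, fun x => ?_⟩
    rw [hdec, hu', hz', ha, hd, hbc, NN_apply]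
    module
  · rintro ⟨c, hc⟩ v h1 h2
    rw [hc, NN_apply, h1, h2]
    module

end Cfsg.Agent.H3
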