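import Mathlib
import Cfsg.Prelude.Def_RootSubgroups
import Cfsg.Agent.H3.TvK

/-!
Siegel transvection groups: assembly.
-/

set_option autoImplicit false
open Cfsg Cfsg.Agent.H28 Matrix Cfsg.Agent.H5

namespace Cfsg.Agent.H3

theorem exists_isoe (F : Type*) [Field F] (m : ℕ) :
    ∃ e : isometryGroup F (quadFormPlus m F) ≃* OG (qPlus m F), ∀ g x,
      (e g) x = ((g : Matrix.GeneralLinearGroup (Fin m ⊕ Fin m) F) : Matrix (Fin m ⊕ Fin m) (Fin m ⊕ Fin m) F) *ᵥ x := by
  rw [← qPlus_coe]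
  exact ⟨ogEquiv _, fun g x => rfl⟩

theorem siegel_set_eq {F : Type*} [Field F] {ι : Type} [Fintype ι] [DecidableEq ι] {q : (ι → F) → F}
    {Q : QuadraticForm F (ι → F)} (hq : ∀ x, q x = Q x) (hnd : ND Q) (e : isometryGroup F q ≃* OG Q)
    (he : ∀ g x, (e g) x = ((g : Matrix.GeneralLinearGroup ι F) : Matrix ι ι F) *ᵥ x) :
    {A : Subgroup ↥(isometryGroup F q) | ∃ p r : ι → F, LinearIndependent F ![p, r] ∧
          q p = 0 ∧ q r = 0 ∧ q (p + r) = 0 ∧
          A = Subgroup.closure {σ : ↥(isometryGroup F q) | ∀ v : ι → F,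
            q (v + p) - q v - q p = 0 → q (v + r) - q v - q r = 0 →
              ((σ : Matrix.GeneralLinearGroup ι F) : Matrix ι ι F) *ᵥ v = v}} = Lset e := by
  have hB : ∀ v p, q (v + p) - q v - q p = pB Q p v := by
    intro v p
    rw [hq, hq, hq, pB_symm]; rfl
  have key : ∀ p r, Sing Q p r → LI F p r → Subgroup.closure {σ : ↥(isometryGroup F q) | ∀ v : ι → F,
            q (v + p) - q v - q p = 0 → q (v + r) - q v - q r = 0 →
              ((σ : Matrix.GeneralLinearGroup ι F) : Matrix ι ι F) *ᵥ v = v} = Sg e p r := by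
    intro p r h hL
    unfold Sg
    congr 1
    ext σ
    have h1 := fix_iff e hnd h hL σ
    simp only [Set.mem_setOf_eq, hB]
    rw [← h1]
    simp only [he]
  ext A
  constructor
  · rintro ⟨p, r, hli, h1, h2, h3, rfl⟩
    have hS : Sing Q p r := by
      refine ⟨by rw [← hq, h1], by rw [← hq, h2], ?_⟩
      rw [hq] at h1 h2 h3
      rw [H5.q_add, h1, h2] at h3
      simpa using h3
    have hL : LI F p r := LinearIndependent.pair_iff.1 hli
    exact ⟨p, r, hS, hL, key p r hS hL⟩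
  · rintro ⟨p, r, hS, hL, rfl⟩
    refine ⟨p, r, LinearIndependent.pair_iff.2 hL, by rw [hq, hS.hp], by rw [hq, hS.hr], ?_,
      (key p r hS hL).symm⟩
    rw [hq, H5.q_add, hS.hp, hS.hr, hS.hpr]; simp

theorem siegel_main {F : Type*} [Field F] {ι : Type} [Fintype ι] [DecidableEq ι] {q : (ι → F) → F}
    {Q : QuadraticForm F (ι → F)} (hnd : ND Q) (hn : NSp Q (⊤ : Submodule F (ι → F)) 5)
    (e : isometryGroup F q ≃* OG Q) :
    IsKRootSubgroupSet F ((fun A : Subgroup ↥(isometryGroup F q) => A.subgroupOf (⨆ B ∈ Lset e, B)) '' Lset e) ∧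
      IsConnectedFamily (FAdj (Lset e)) (Lset e) := by
  constructor
  · apply sub_root
    · rintro _ ⟨p, r, h, -, rfl⟩
      exact Sg_cm e h h (pB_self_zero h.hp) h.hpr h.symm.hpr (pB_self_zero h.hr)
    · rintro _ ⟨p, r, h, hL, rfl⟩
      exact Sg_ne_bot e hnd h hL
    · intro A hA g _
      exact Lset_conj e hA g
    · intro A hA B hB
      exact Lset_pair e hnd hA hB
  · exact conn_of_opp (fun A hA B hB => Lset_opp e hn hnd hA hB)

theorem siegel_plus (F : Type*) [Field F] (m : ℕ) : NSp (qPlus (m + 3) F) (⊤ : Submodule F _) 5 := by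
  refine ⟨?_, ?_⟩
  · intro x _ hx
    by_contra hcon
    push Not at hcon
    exact hx (nd_plus x fun y => hcon y Submodule.mem_top)
  · rw [finrank_top, Module.finrank_fintype_fun_eq_card, Fintype.card_sum, Fintype.card_fin]
    omega

end Cfsg.Agent.H3
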